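import Cfsg.Agent.Lib.Lin.AutGr2

/-!
Reflexive bilinear forms up to similarity and their similarity groups.
-/

set_option autoImplicit false

namespace CA.AutForm

open Subgroup CA.AutCorr CA.CForm CA.CForm.Form Module CA.AutPhi CA.AutGam
  CA.AutFld CA.AutLang CA.AutOut SemidirectProduct Matrix

variable {F : Type*} [Field F] {k : Kind F} {ι κ κ' : Type} [Fintype ι] [DecidableEq ι] [Fintype κ] [DecidableEq κ]
  [Fintype κ'] [DecidableEq κ'] {B B' : Bil F ι} {B₀ : Bil F κ} {B₁ : Bil F κ'} {m : ℕ}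

local notation "sc" => GeneralLinearGroup.scalar
local notation "dt" => GeneralLinearGroup.det

/-- similar bilinear forms -/
def Eqv (B₀ : Bil F κ) (B : Bil F ι) : Prop := ∃ (e : (κ → F) ≃ₗ[F] (ι → F)) (c : Fˣ), ∀ u v, B (e u) (e v) = c * B₀ u v

omit [Fintype ι] [DecidableEq ι] in
theorem Eqv.rfl : Eqv B B := ⟨.refl _ _, 1, by simp⟩

omit [Fintype ι] [DecidableEq ι] [Fintype κ] [DecidableEq κ] in
theorem Eqv.symm : Eqv B₀ B → Eqv B B₀ := fun ⟨e, c, h⟩ => ⟨e.symm, c⁻¹, fun u v => by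
  rw [Units.eq_inv_mul_iff_mul_eq, ← h, e.apply_symm_apply, e.apply_symm_apply]⟩

omit [Fintype ι] [DecidableEq ι] [Fintype κ] [DecidableEq κ] [Fintype κ'] [DecidableEq κ'] in
theorem Eqv.trans : Eqv B₁ B₀ → Eqv B₀ B → Eqv B₁ B := fun ⟨e, c, h⟩ ⟨e', c', h'⟩ =>
  ⟨e.trans e', c' * c, fun u v => by rw [e.trans_apply, e.trans_apply, h', h, Units.val_mul, mul_assoc]⟩

theorem eqv_iff : Eqv B B' ↔ ∃ (g : GL ι F) (c : Fˣ), Sm B B' g c :=
  ⟨fun ⟨e, c, h⟩ => ⟨glEquiv.symm e, c, fun u v => by rw [glEquiv_symm_mulVec, glEquiv_symm_mulVec, h]⟩,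
    fun ⟨g, c, h⟩ => ⟨glEquiv g, c, h⟩⟩

theorem tr_zero (e : (κ → F) ≃ₗ[F] (ι → F)) :
    Tr (RingHom.id F) (ofAlt 0 fun _ => rfl) (ofAlt 0 fun _ => rfl) (trE e) e 1 := tr_of_pres ⟨fun _ _ => rfl, fun _ => rfl⟩

theorem sm_trE {e : (κ → F) ≃ₗ[F] (ι → F)} {c : Fˣ} (h : ∀ u v, B (e u) (e v) = c * B₀ u v) {g : GL κ F} {μ : F} :
    Sm B B (trE e g) μ ↔ Sm B₀ B₀ g μ :=
  ⟨fun H u v => mul_left_cancel₀ c.ne_zero (by rw [← h, ← trE_mulVec, ← trE_mulVec, H, h, mul_left_comm]), fun H u v => by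
    obtain ⟨u, rfl⟩ := e.surjective u
    obtain ⟨v, rfl⟩ := e.surjective v
    rw [trE_mulVec, trE_mulVec, h, H, h, mul_left_comm]⟩

theorem Eqv.nonempty (h : Eqv B₀ B) : Nonempty (Cfsg.projQuot (SG B) ≃* Cfsg.projQuot (SG B₀)) := by
  obtain ⟨e, c, h⟩ := h
  have : (SG B₀).map (trE e) = SG B := Subgroup.ext fun g => by
    obtain ⟨g, rfl⟩ := trE_surjective e g
    rw [mem_map_iff_mem (tr_zero e).injective, mem_SG, mem_SG]; simp only [sm_trE h]
  exact this ▸ (tr_zero e).nonempty_projQuot _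

omit [DecidableEq ι] [DecidableEq κ] in
theorem exists_eqv (h : Fintype.card κ = Fintype.card ι) (hB : Rf B₀) : ∃ B : Bil F ι, Rf B ∧ Eqv B₀ B := by
  let e : (ι → F) ≃ₗ[F] (κ → F) := LinearEquiv.ofFinrankEq _ _ (by simp [h])
  exact ⟨B₀.comp e e, ⟨fun u hu => e.map_eq_zero_iff.1 (hB.nd _ fun v => by simpa using hu (e.symm v)),
    hB.sy.imp (fun H _ _ => H _ _) fun H _ => H _⟩, e.symm, 1, by simp⟩

omit [Fintype ι] [DecidableEq ι] [Fintype κ] [DecidableEq κ] in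
theorem Eqv.alt (h : Eqv B₀ B) (H : ∀ u, B₀ u u = 0) (u : ι → F) : B u u = 0 := by
  obtain ⟨e, c, h⟩ := h
  rw [← e.apply_symm_apply u, h, H, mul_zero]

/-- the determinants of the similarities in even dimension -/
def DT (B : Bil F ι) (m : ℕ) (P : Prop) : Prop := ∀ c d : Fˣ, (∃ g, Sm B B g c ∧ dt g = d) ↔ d = c ^ m ∨ (P ∧ d = -c ^ m)

/-- the similarities are scalar multiples of isometries of determinant one -/
def DZ (B : Bil F ι) (m : ℕ) : Prop := ∀ g (c : Fˣ), Sm B B g c → ∃ a : Fˣ, c = a ^ 2 ∧ dt g = a ^ m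

theorem Eqv.dt (h : Eqv B₀ B) {P : Prop} (H : DT B₀ m P) : DT B m P := fun c d => by
  obtain ⟨e, l, h⟩ := h
  rw [← H, (trE_surjective e).exists]
  simp only [sm_trE h, show ∀ g, dt (trE e g) = dt g from fun g => Units.ext ((tr_zero e).det g)]

theorem Sm.mul {g g' : GL ι F} {c c' : F} (h : Sm B B g c) (h' : Sm B B g' c') : Sm B B (g * g') (c * c') := fun u v => by
  rw [Units.val_mul, ← mulVec_mulVec, ← mulVec_mulVec, h, h', mul_assoc]

theorem sm_sc (c : Fˣ) : Sm B B (sc ι c) (c * c) := fun u v => by simp [sc_mulVec, mul_assoc]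

theorem Sm.det_sq (hB : ∀ u, (∀ v, B u v = 0) → u = 0) {g : GL ι F} {c : Fˣ} (h : Sm B B g c) :
    dt g ^ 2 = c ^ Fintype.card ι := by
  obtain ⟨a, rfl⟩ := exists_bA hB
  have := congrArg dt ((pol_iff 1 a a g c).2 fun u v => by rw [← bA_apply, ← bA_apply, h])
  rw [map_mul, map_mul, map_mul, det_scalar, fgAct_c2, MulAut.mul_apply, map_inv, mul_right_comm, mul_left_inj,
    show fldGL 1 (invT g) = invT g from rfl, det_invT, inv_inv] at this
  rw [this, sq]

/-- the bilinear form of a symplectic or orthogonal form -/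
def tb {V : Type*} [AddCommGroup V] [Module F V] (f : Form k V) (hk : ∀ a, k.σ a = a) : LinearMap.BilinForm F V :=
  LinearMap.mk₂ F (fun u v => f.B u v) f.B_add_left (fun c u v => by rw [B_smul_left, hk]; rfl)
    (fun _ _ _ => map_add _ _ _) fun _ _ _ => map_smul _ _ _

@[simp] theorem tb_apply {V : Type*} [AddCommGroup V] [Module F V] (f : Form k V) (hk : ∀ a, k.σ a = a) (u v : V) :
    tb f hk u v = f.B u v := rfl

/-- the bilinear form of an orthogonal form -/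
abbrev tbO (f : Form (Kind.orth F) (ι → F)) : Bil F ι := tb f fun _ => rfl

variable (F m) in
/-- the standard alternating form -/
abbrev tbS : Bil F (Fin m ⊕ Fin m) := tb (sympStd F m) fun _ => rfl

omit [Fintype ι] [DecidableEq ι] in
theorem rf_tbO {f : Form (Kind.orth F) (ι → F)} (hf : f.Nondeg) : Rf (tbO f) := ⟨hf, .inl f.orth_symm⟩

theorem rf_tbS : Rf (tbS F m) := ⟨sympStd_nondeg F m, .inr (symp_B_self _)⟩

theorem SG_tbS : SG (tbS F m) = Cfsg.GSp m F :=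
  congrArg Cfsg.Geo.similarityGroup (funext₂ (sympStd_B F m))

theorem SG_tbO (h2 : (2 : F) ≠ 0) (f : Form (Kind.orth F) (ι → F)) :
    SG (tbO f) = Cfsg.Geo.quadSimilarityGroup (F := F) f.Q :=
  (Subgroup.ext fun _ => (mem_Sim_iff stdO h2 fun _ _ => rfl).symm).trans (quadSim_eq f).symm

omit [Fintype ι] [DecidableEq ι] [Fintype κ] [DecidableEq κ] in
theorem eqv_of {f : Form k (ι → F)} {f₀ : Form k (κ → F)} (h : f₀.Equivalent f) (hB : ∀ u v, f.B u v = B u v)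
    (c : Fˣ) (h0 : ∀ u v, f₀.B u v = c * B₀ u v) : Eqv B₀ B :=
  let ⟨e, he⟩ := h; ⟨e, c, fun u v => by rw [← hB, he.B_eq, h0]⟩

omit [DecidableEq ι] in
theorem eqv_tbS (h : ∀ u, (∀ v, B u v = 0) → u = 0) (ha : ∀ u, B u u = 0) (hm : Fintype.card ι = 2 * m) :
    Eqv (tbS F m) B := eqv_of ((sympStd_nondeg F m).symp_equivalent (f' := ofAlt B ha) h (by simp [hm, two_mul]))
      (fun _ _ => rfl) 1 fun _ _ => (one_mul _).symm

omit [DecidableEq ι] in
theorem Rf.sym_of_odd (h : Rf B) (hm : Fintype.card ι = 2 * m + 1) (u v : ι → F) : B v u = B u v :=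
  h.sy.resolve_right (fun ha => by
    have := Nat.even_iff.1 (Nondeg.symp_even (f := ofAlt B ha) h.nd)
    simp [hm] at this) u v

omit [DecidableEq ι] in
theorem Rf.eqv_odd [Finite F] (h2 : (2 : F) ≠ 0) (h : Rf B) (hm : Fintype.card ι = 2 * m + 1) :
    Eqv (tbO (oddForm F m)) B :=
  let ⟨c, hc, H⟩ := Nondeg.equivalent_smul_odd (f := ofSymm h2 B ⟨fun u v => h.sym_of_odd hm v u⟩) h.nd (by simpa using hm)
  eqv_of H.symm (fun _ _ => rfl) (Units.mk0 c hc) fun _ _ => rfl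

omit [DecidableEq ι] in
theorem Rf.eqv_even [Finite F] (h2 : (2 : F) ≠ 0) (h : Rf B) (hm : Fintype.card ι = 2 * (m + 1)) {a b : F}
    (hab : Aniso a b) : Eqv (tbS F (m + 1)) B ∨ Eqv (tbO (plusForm F (m + 1))) B ∨ Eqv (tbO (minusForm m a b)) B := by
  refine h.sy.symm.imp (eqv_tbS h.nd · hm) fun H => ?_
  have hf : (ofSymm h2 B ⟨fun u v => H v u⟩).Nondeg := h.nd
  have hr : finrank F (ι → F) = 2 * m + 2 := (finrank_fintype_fun_eq_card F).trans hm
  exact (hf.isIndex_even hr).imp (fun hi => eqv_of (hi.equivalent_plus hf hr).symm (fun _ _ => rfl) 1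
    fun _ _ => (one_mul _).symm) fun hi => eqv_of (hi.equivalent_minus hf hr hab).symm (fun _ _ => rfl) 1
    fun _ _ => (one_mul _).symm

omit [DecidableEq ι] [DecidableEq κ] in
theorem Eqv.isIndex (h2 : (2 : F) ≠ 0) {f : Form (Kind.orth F) (ι → F)} {f₀ : Form (Kind.orth F) (κ → F)}
    (h : Eqv (tbO f₀) (tbO f)) (hf : f.Nondeg) (hm : finrank F (ι → F) = 2 * m) (H : f₀.IsIndex m) : f.IsIndex m := by
  obtain ⟨e, c, h⟩ := h
  obtain ⟨⟨W, hW, d⟩, -⟩ := H
  refine hf.isIndex_of_two_mul (W := W.map e.toLinearMap) (orth_ts_iff.2 ?_) ((e.finrank_map_eq W).trans d) (by omega)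
  rintro _ ⟨w, hw, rfl⟩
  exact mul_left_cancel₀ h2 ((orth_B_self _ _).symm.trans ((h w w).trans (by
    rw [show tbO f₀ w w = 0 from hW.B_eq w hw w hw]; simp)))

omit [Fintype ι] in
theorem not_alt [Nonempty ι] (h2 : (2 : F) ≠ 0) (h : ∀ u, (∀ v, B u v = 0) → u = 0) (hs : ∀ u v, B v u = B u v) :
    ¬∀ u, B u u = 0 := fun H => by
  obtain ⟨u, v, e⟩ := exists_one h
  have := LinearMap.IsAlt.neg H u v
  rw [e, hs, e] at this
  exact h2 (by linear_combination -this)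

theorem dt_tbS : DT (tbS F m) m False := fun c d => by
  have h1 := ss_dg2_Sp (m := m) c 1
  have h2 : dt (dg2 m c 1) = c ^ m := Units.ext (by simpa using det_dg2 (m := m) c 1)
  simp only [false_and, or_false]
  refine ⟨?_, by rintro rfl; exact ⟨_, fun u v => (h1.B_inl u v).trans (by rw [Units.val_one, mul_one]; rfl), h2⟩⟩
  rintro ⟨g, hg, rfl⟩
  have h3 : SS (sympStd F m) (sympStd F m) (inl g) c := semiSim_symp (sactE_smul _) c.ne_zero hg
  have h4 := h3.mul h1.inv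
  rw [← map_inv, ← map_mul] at h4
  obtain ⟨a, ha⟩ := (mem_range_toGL (g := g * (dg2 m c 1)⁻¹)).2 (by simpa using h4)
  have h5 := (det_toGL a).trans ((sympStd_nondeg F m).symp_detHom a)
  rwa [ha, map_mul, map_inv, h2, mul_inv_eq_one] at h5

theorem dt_tbO [Nonempty ι] (h2 : (2 : F) ≠ 0) {f : Form (Kind.orth F) (ι → F)} (hf : f.Nondeg)
    (hm : Fintype.card ι = 2 * m) (h : ∀ μ : Fˣ, ∃ g, SS f f (inl g) μ) : DT (tbO f) m True := fun c d => by
  have key : ∀ g, Sm (tbO f) (tbO f) g c → dt g = c ^ m ∨ dt g = -c ^ m := fun g hg => by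
    have := congrArg Units.val (hg.det_sq (rf_tbO hf).nd)
    rw [hm, mul_comm, pow_mul, Units.val_pow_eq_pow_val, Units.val_pow_eq_pow_val] at this
    exact (sq_eq_sq_iff_eq_or_eq_neg.1 this).imp Units.ext Units.ext
  simp only [true_and]
  refine ⟨by rintro ⟨g, hg, rfl⟩; exact key g hg, fun H => ?_⟩
  obtain ⟨g, hg⟩ := h c
  by_cases h1 : dt g = d
  · exact ⟨g, hg.B_inl, h1⟩
  obtain ⟨v, hv⟩ := not_forall.1 (not_alt h2 (rf_tbO hf).nd f.orth_symm)
  refine ⟨toGL f (f.refl v) * g, fun u w => by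
    simpa only [one_mul] using Sm.mul (B := tbO f) (ss_toGL (f.refl v)).B_inl hg.B_inl u w, ?_⟩
  rw [map_mul, det_toGL, f.detHom_refl fun H => hv ((orth_B_self _ _).trans (by rw [H, mul_zero]))]
  rcases key g hg.B_inl with h3 | h3 <;> rcases H with rfl | rfl <;> simp_all

theorem dt_plus (h2 : (2 : F) ≠ 0) : DT (tbO (plusForm F (m + 1))) (m + 1) True :=
  dt_tbO h2 (plusForm_nondeg F _) (by simp [two_mul]) fun μ => ⟨_, by simpa using ss_dg2_plus μ 1⟩

theorem dt_minus [Finite F] (h2 : (2 : F) ≠ 0) {a b : F} (hab : Aniso a b) : DT (tbO (minusForm m a b)) (m + 1) True :=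
  dt_tbO h2 (minusForm_nondeg m hab) (by simp; omega) fun μ =>
    let ⟨d, h, _⟩ := exists_invol_minus m hab μ.ne_zero; ⟨d, h⟩

theorem dz_odd (h : ∀ u, (∀ v, B u v = 0) → u = 0) (hm : Fintype.card ι = 2 * m + 1) : DZ B (2 * m + 1) :=
  fun g c hg => by
    have h1 := hg.det_sq h
    rw [hm, pow_succ c, pow_mul'] at h1
    have h2 : c = (dt g / c ^ m) ^ 2 := by rw [div_pow, h1, mul_div_cancel_left]
    exact ⟨_, h2, by rw [pow_succ, pow_mul, ← h2, mul_div_cancel]⟩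

theorem eq_one_of_sq (h2 : (2 : F) = 0) {c : F} (h : c * c = 1) : c = 1 :=
  (mul_self_eq_one_iff.1 h).elim id fun h => by linear_combination h - h2

theorem dz_two [Finite F] (h2 : (2 : F) = 0) (h : ∀ u, (∀ v, B u v = 0) → u = 0) : DZ B (Fintype.card ι) :=
  fun g c hg => by
    obtain ⟨a, ha⟩ := isSquare_of_two_eq_zero h2 (c : F)
    have h0 : a ≠ 0 := fun H => c.ne_zero (by rw [ha, H, mul_zero])
    have h1 : c = Units.mk0 a h0 ^ 2 := Units.ext (ha.trans (sq a).symm)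
    refine ⟨_, h1, div_eq_one.1 (Units.ext (eq_one_of_sq h2 ?_))⟩
    rw [← Units.val_mul, ← sq, div_pow, hg.det_sq h, h1, ← pow_mul, ← pow_mul, mul_comm, div_self', Units.val_one]

theorem card_projQuot [Finite F] [Nonempty ι] {f : Form k (ι → F)} (hf : f.Nondeg)
    (h : ∀ μ : Fˣ, ∃ g, SS f f (inl g) μ) : Nat.card (Cfsg.projQuot (Sim f)) = Nat.card f.Isom := by
  have h1 := card_eq_of_hom (mu hf) (mu_surjective hf fun μ h0 => h (Units.mk0 μ h0))
  have h2 : (mu hf).ker = (toGL f).range.subgroupOf (Sim f) := Subgroup.ext fun g => by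
    rw [mem_subgroupOf, mem_range_toGL, MonoidHom.mem_ker]
    exact ⟨fun H => by simpa [H] using ss_mu hf g, fun H => Units.ext (mu_eq hf H)⟩
  rw [h2, Nat.card_congr (subgroupOfEquivOfLe range_toGL_le).toEquiv,
    ← Nat.card_congr (MonoidHom.ofInjective toGL_injective).toEquiv,
    card_eq_card_quotient_mul_card_subgroup ((Cfsg.Geo.scalars ι F).subgroupOf (Sim f)),
    Nat.card_congr (subgroupOfEquivOfLe (scalars_eq_center.le.trans center_le_Sim)).toEquiv, mul_comm,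
    show Nat.card (Cfsg.Geo.scalars ι F) = Nat.card Fˣ from
      (Nat.card_congr (MonoidHom.ofInjective scalar_injective).toEquiv).symm] at h1
  exact Nat.eq_of_mul_eq_mul_left Nat.card_pos h1

theorem mult_of_dt {P : Prop} (h : DT B m P) (c : Fˣ) : ∃ g, Sm B B g c := let ⟨g, H, _⟩ := (h c _).2 (.inl rfl); ⟨g, H⟩

theorem not_iso_PGSp [Finite F] (h2 : (2 : F) ≠ 0) {f : Form (Kind.orth F) (ι → F)} (hf : f.Nondeg)
    (hm : Fintype.card ι = 2 * (m + 1)) (h : DT (tbO f) (m + 1) True) :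
    ¬Nonempty (Cfsg.projQuot (SG (tbO f)) ≃* Cfsg.PGSp (m + 1) F) := fun ⟨e⟩ => by
  haveI : Nonempty ι := Fintype.card_pos_iff.1 (by omega)
  have h1 := Nat.card_congr e.toEquiv
  have hr : finrank F (ι → F) = 2 * m + 2 := (finrank_fintype_fun_eq_card F).trans hm
  rw [SG_tbO h2, quadSim_eq, Cfsg.PGSp, GSp_eq, card_projQuot hf fun μ => let ⟨g, hg⟩ := mult_of_dt h μ
    ⟨g, ss_of_B stdO h2 μ.ne_zero hg⟩, card_projQuot (sympStd_nondeg F _) fun μ => ⟨_, by simpa using ss_dg2_Sp μ 1⟩,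
    Nondeg.card_isom_symp _ (sympStd_nondeg F _) (finrank_plus _), Finset.prod_range_succ] at h1
  have hq : 3 ≤ Nat.card F := by
    haveI := Fintype.ofFinite F
    have := Finite.one_lt_card (α := F)
    obtain ⟨j, hj⟩ := two_ne_zero_iff_odd.1 h2
    rw [Nat.card_eq_fintype_card] at this ⊢; omega
  have h3 : 0 < ∏ i ∈ Finset.range m, (Nat.card F ^ (2 * (i + 1)) - 1) := Finset.prod_pos fun i _ =>
    Nat.sub_pos_of_lt (Nat.one_lt_pow (by omega) (by omega))
  have h4 : 3 ≤ Nat.card F ^ (m + 1) := hq.trans (Nat.le_self_pow (by omega) _)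
  have h5 : 0 < Nat.card F ^ ((m + 1) * m) := by positivity
  rw [show (m + 1) ^ 2 = (m + 1) * m + (m + 1) by ring, pow_add, mul_comm 2 (m + 1), pow_mul _ _ 2] at h1
  obtain ⟨x, hx⟩ : ∃ x, Nat.card F ^ (m + 1) = x + 1 := ⟨_, (Nat.sub_add_cancel (by omega)).symm⟩
  obtain ⟨x, rfl⟩ : ∃ y, x = y + 2 := ⟨x - 2, by omega⟩
  rcases hf.isIndex_even hr with hi | hi
  · rw [hi.card_isom_plus hf hr, hx, show (x + 2 + 1) ^ 2 - 1 = (x + 2) * (x + 4) from Nat.sub_eq_of_eq_add (by ring)] at h1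
    have := Nat.eq_of_mul_eq_mul_left (Nat.mul_pos h5 h3) (show _ * (2 * (x + 2)) = _ * ((x + 3) * ((x + 2) * (x + 4))) by
      simp only [Nat.add_sub_cancel] at h1; linarith)
    ring_nf at this; omega
  · rw [hi.card_isom_minus hf hr, hx, show (x + 2 + 1) ^ 2 - 1 = (x + 2) * (x + 4) from Nat.sub_eq_of_eq_add (by ring)] at h1
    have := Nat.eq_of_mul_eq_mul_left (Nat.mul_pos h5 h3) (show _ * (2 * (x + 4)) = _ * ((x + 3) * ((x + 2) * (x + 4))) by
      linarith)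
    ring_nf at this; omega

end CA.AutForm
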