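import Cfsg.Agent.Lib.Lin.AutGr4
import Cfsg.Agent.S0304

/-!
Reflexive bilinear forms in characteristic two.
-/

set_option autoImplicit false

namespace CA.AutForm

open Subgroup CA.AutCorr CA.CForm CA.CForm.Form Module CA.AutPhi CA.AutGam
  CA.AutFld CA.AutLang CA.AutOut SemidirectProduct Matrix

variable {F : Type*} [Field F] {k : Kind F} {ι κ κ' : Type} [Fintype ι] [DecidableEq ι] [Fintype κ] [DecidableEq κ]
  [Fintype κ'] [DecidableEq κ'] {B B' : Bil F ι} {B₀ : Bil F κ} {B₁ : Bil F κ'} {m : ℕ}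

local notation "sc" => GeneralLinearGroup.scalar
local notation "dt" => GeneralLinearGroup.det

/-- the isometry group -/
def IG (B : Bil F ι) : Subgroup (GL ι F) where
  carrier := {g | Sm B B g 1}
  one_mem' u v := by simp
  mul_mem' h h' := by simpa using h.mul h'
  inv_mem' {g} h u v := by
    have := h (g⁻¹.1 *ᵥ u) (g⁻¹.1 *ᵥ v)
    rw [mulVec_inv_mulVec, mulVec_inv_mulVec, one_mul] at this
    rw [this, one_mul]

theorem nonempty_projQuot_of_sq {K L : Subgroup (GL ι F)} (hKL : K ≤ L) (h1 : ∀ g ∈ L, ∃ c, sc ι c * g ∈ K)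
    (h2 : ∀ c, sc ι c ∈ K → c = 1) : Nonempty (Cfsg.projQuot L ≃* K) := by
  refine ⟨(MulEquiv.ofBijective ((QuotientGroup.mk' _).comp (inclusion hKL)) ⟨(injective_iff_map_eq_one _).2
    fun g hg => ?_, fun x => ?_⟩).symm⟩
  · obtain ⟨c, hc⟩ : g.1 ∈ Cfsg.Geo.scalars ι F := (QuotientGroup.eq_one_iff (inclusion hKL g)).1 hg
    exact Subtype.ext (by rw [← hc, h2 c (hc ▸ g.2), map_one]; rfl)
  · obtain ⟨g, rfl⟩ := QuotientGroup.mk_surjective x
    obtain ⟨c, hc⟩ := h1 g.1 g.2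
    refine ⟨⟨_, hc⟩, (QuotientGroup.eq.2 ?_).symm⟩
    exact scalars_eq_center.ge (show g.1⁻¹ * (sc ι c * g.1) ∈ center _ from inv_mul_mem_center.2 ⟨c, rfl⟩)

section two
variable (h2 : (2 : F) = 0)
include h2

theorem nonempty_IG [Finite F] [Nonempty ι] (h : ∀ u, (∀ v, B u v = 0) → u = 0) :
    Nonempty (Cfsg.projQuot (SG B) ≃* IG B) :=
  nonempty_projQuot_of_sq (fun _ hg => ⟨1, hg⟩) (fun g ⟨c, hg⟩ => by
    obtain ⟨a, rfl, -⟩ := dz_two h2 h g c hg
    exact ⟨a⁻¹, fun u v => ((sm_sc a⁻¹).mul hg u v).trans (by congr 1; simp [sq, mul_assoc])⟩) fun c hc => by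
      obtain ⟨u, v, e⟩ := exists_one h
      exact Units.ext (eq_one_of_sq h2 (by simpa [e] using (sm_sc c u v).symm.trans (hc u v)))

theorem nonempty_PGO_two [Finite F] :
    Nonempty (Cfsg.PGO F (Cfsg.quadFormOdd m F) ≃* symplecticGroup (Fin m) F) := by
  haveI := Fintype.ofFinite F
  haveI : CharP F 2 := CharTwo.of_one_ne_zero_of_two_eq_zero one_ne_zero h2
  obtain ⟨e⟩ := Cfsg.Agent.S0304.result (F := F) m
  have h1 : ∀ g, g ∈ Cfsg.isometryGroup F (oddForm F m).Q ↔ SS (oddForm F m) (oddForm F m) (inl g) 1 := fun g => by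
    rw [isometryGroup_eq, mem_range_toGL]
  obtain ⟨e'⟩ := nonempty_projQuot_of_sq (K := Cfsg.isometryGroup F (oddForm F m).Q) (L := Sim (oddForm F m))
    (fun g hg => ⟨1, (h1 g).1 hg⟩) (fun g ⟨μ, hg⟩ => by
      obtain ⟨c, a, -, rfl⟩ := exists_toGL_of_isSquare hg (isSquare_of_two_eq_zero h2 μ)
      exact ⟨c⁻¹, (h1 _).2 (by simpa [← mul_assoc, ← map_mul] using ss_toGL a)⟩) fun c hc => by
    have h3 := ((h1 _).1 hc).Q_inl (Pi.single (.inl ()) 1)
    exact Units.ext (eq_one_of_sq h2 (by simpa [sc_mulVec, oddForm_Q, Cfsg.quadFormOdd, sq] using h3))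
  exact ⟨(quadSim_eq (oddForm F m) ▸ e').trans e⟩

omit h2 in
/-- adding the square of a linear form -/
def adj (B : Bil F ι) (w : ι → F) : Bil F ι := B + LinearMap.BilinForm.linMulLin (B.flip w) (B.flip w)

omit h2 [Fintype ι] [DecidableEq ι] in
theorem adj_apply (w u v : ι → F) : adj B w u v = B u v + B u w * B v w := rfl

omit [DecidableEq ι] in
theorem exists_w [Finite F] (h : ∀ u, (∀ v, B u v = 0) → u = 0) (hs : ∀ u v, B v u = B u v) :
    ∃ w, ∀ v, B v v = B v w * B v w := by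
  haveI : CharP F 2 := CharTwo.of_one_ne_zero_of_two_eq_zero one_ne_zero h2
  let φ := frobeniusEquiv F 2
  have hφ : ∀ a, φ a = a * a := fun a => sq a
  let l : (ι → F) →ₗ[F] F :=
    { toFun v := φ.symm (B v v)
      map_add' u v := by
        rw [← map_add]; congr 1
        simp only [map_add, LinearMap.add_apply, hs u v]; linear_combination B u v * h2
      map_smul' c v := φ.injective (by
        rw [smul_eq_mul, map_mul, φ.apply_symm_apply, φ.apply_symm_apply, hφ]; simp [mul_assoc]) }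
  obtain ⟨w, hw⟩ := (LinearMap.BilinForm.toDual B ⟨h, fun u H => h u fun v => (hs _ _).trans (H v)⟩).surjective l
  exact ⟨w, fun v => by rw [← hφ, hs w, show B w v = l v from LinearMap.congr_fun hw v]; exact (φ.apply_symm_apply _).symm⟩

variable {w : ι → F}

omit [Fintype ι] [DecidableEq ι] in
theorem adj_alt (hw : ∀ v, B v v = B v w * B v w) : (adj B w).IsAlt := fun v => by
  rw [adj_apply, hw]; linear_combination B v w * B v w * h2

omit [Fintype ι] [DecidableEq ι] in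
theorem adj_adj (h0 : B w w = 0) : adj (adj B w) w = B := LinearMap.ext₂ fun u v => by
  simp only [adj_apply, h0]; linear_combination B u w * B v w * h2

omit h2 [Fintype ι] [DecidableEq ι] in
theorem adj_nd (h : ∀ u, (∀ v, B u v = 0) → u = 0) (hs : ∀ u v, B v u = B u v) (h0 : B w w = 0) (u : ι → F)
    (hu : ∀ v, adj B w u v = 0) : u = 0 := by
  have h1 : B u w = 0 := by simpa [adj_apply, h0] using hu w
  exact h u fun v => by simpa [adj_apply, h1] using hu v

omit [Fintype ι] [DecidableEq ι] in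
theorem sym_of_alt (ha : ∀ u, B u u = 0) (u v : ι → F) : B v u = B u v := by
  rw [← LinearMap.IsAlt.neg ha]; linear_combination -B u v * h2

omit [Fintype ι] [DecidableEq ι] in
theorem rf_adj (h : ∀ u, (∀ v, B u v = 0) → u = 0) (ha : ∀ u, B u u = 0) : Rf (adj B w) :=
  ⟨adj_nd h (sym_of_alt h2 ha) (ha w), .inl fun u v => by rw [adj_apply, adj_apply, sym_of_alt h2 ha, mul_comm]⟩

theorem IG.fix (h : ∀ u, (∀ v, B u v = 0) → u = 0) (hs : ∀ u v, B v u = B u v) (hw : ∀ v, B v v = B v w * B v w)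
    {g : GL ι F} (hg : g ∈ IG B) : g.1 *ᵥ w = w := sub_eq_zero.1 (h _ fun v => by
  have h1 := hg (g⁻¹.1 *ᵥ v) (g⁻¹.1 *ᵥ v)
  have h3 := hg (g⁻¹.1 *ᵥ v) w
  rw [mulVec_inv_mulVec, one_mul] at h1 h3
  rw [hw, hw, ← h3] at h1
  rw [map_sub, LinearMap.sub_apply, hs v, hs v]
  exact pow_eq_zero_iff two_ne_zero |>.1 (by linear_combination (B v w * B v w - B v w * B v (g.1 *ᵥ w)) * h2 - h1))

omit h2 in
theorem IG.adj {g : GL ι F} (hg : g ∈ IG B) (hw : g.1 *ᵥ w = w) : g ∈ IG (adj B w) := fun u v => by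
  have h1 := fun u => hg u w
  simp only [hw, one_mul] at h1
  rw [adj_apply, hg, h1, h1, one_mul, one_mul, adj_apply]

theorem mem_IG_adj (h : ∀ u, (∀ v, B u v = 0) → u = 0) (ha : ∀ u, B u u = 0) {g : GL ι F} :
    g ∈ IG (adj B w) ↔ g ∈ IG B ∧ g.1 *ᵥ w = w := by
  refine ⟨fun H => ?_, fun H => IG.adj H.1 H.2⟩
  have h1 := IG.fix h2 (rf_adj h2 h ha).nd (fun u v => by rw [adj_apply, adj_apply, sym_of_alt h2 ha, mul_comm])
    (w := w) (fun v => by simp [adj_apply, ha]) H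
  exact ⟨adj_adj h2 (ha w) ▸ IG.adj H h1, h1⟩

section odd
variable (h : ∀ u, (∀ v, B u v = 0) → u = 0) (hs : ∀ u v, B v u = B u v) (hw : ∀ v, B v v = B v w * B v w)
  (h0 : B w w ≠ 0)
include h hs hw h0

omit [Fintype ι] [DecidableEq ι] h hs h2 in
theorem ww_one : B w w = 1 := mul_left_cancel₀ h0 ((hw w).symm.trans (mul_one _).symm)

omit [Fintype ι] [DecidableEq ι] in
theorem nd_ker : ((ofAlt _ (adj_alt h2 hw)).restrict (LinearMap.ker (B w))).Nondeg := fun u hu => Subtype.ext (h _ fun v => by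
  have h1 : B u w = 0 := (hs _ _).trans u.2
  simpa [adj_apply, h1] using hu ⟨v - B w v • w, by simp [ww_one hw h0]⟩)

omit [DecidableEq ι] h hs hw h2 in
theorem finrank_ker : finrank F (LinearMap.ker (B w)) + 1 = Fintype.card ι := by
  rw [Module.Dual.finrank_ker_add_one_of_ne_zero fun H => h0 (LinearMap.congr_fun H w), finrank_fintype_fun_eq_card]

theorem nonempty_IG_odd (hm : Fintype.card ι = 2 * m + 1) : Nonempty (IG B ≃* symplecticGroup (Fin m) F) := by
  set f := ofAlt _ (adj_alt h2 hw)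
  have h1 := ww_one hw h0
  have h3 : ∀ v, v ∈ f.perp (LinearMap.ker (B w)) ↔ v = B w v • w := fun v =>
    ⟨fun H => sub_eq_zero.1 (congrArg Subtype.val (nd_ker h2 h hs hw h0 ⟨v - B w v • w, by simp [h1]⟩ fun u => by
      have h4 : B u w = 0 := (hs _ _).trans u.2
      have h5 := H u u.2
      simp only [f, ofAlt_B, adj_apply, h4, restrict_B] at h5 ⊢
      simpa [hs _ u.1, h4] using h5)), fun H u hu => by
        rw [H]; simp [f, adj_apply, show B u w = 0 from (hs _ _).trans hu]⟩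
  have h4 : w ∈ f.perp (LinearMap.ker (B w)) := (h3 w).2 (by rw [h1, one_smul])
  have hW : IsCompl (LinearMap.ker (B w)) (f.perp (LinearMap.ker (B w))) :=
    ⟨Submodule.disjoint_def.2 fun v h5 h6 => by rw [(h3 v).1 h6, show B w v = 0 from h5, zero_smul],
      codisjoint_iff.2 (eq_top_iff.2 fun v _ => Submodule.mem_sup.2 ⟨v - B w v • w, by simp [h1], _,
        Submodule.smul_mem _ (B w v) h4, sub_add_cancel _ _⟩)⟩
  have h5 : ((toGL f).comp (f.extLeft hW)).range = IG B := le_antisymm (by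
    rintro _ ⟨t, rfl⟩ u v
    have h6 : ∀ u, B ((f.extLeft hW t).1 u) w = B u w := fun u => by
      have h7 := f.extLeft_apply_left hW t ⟨u - B w u • w, by simp [h1]⟩
      rw [map_sub, map_smul, f.extLeft_apply_right hW t h4, sub_eq_iff_eq_add] at h7
      rw [h7, map_add, LinearMap.add_apply, hs w, LinearMap.mem_ker.1 (Subtype.prop _)]; simp [h1, hs w]
    have h7 := f.B_coe_map (f.extLeft hW t) u v
    simp only [f, ofAlt_B, adj_apply] at h7
    rw [h6, h6, add_left_inj] at h7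
    rw [MonoidHom.comp_apply, toGL_mulVec, toGL_mulVec, h7, one_mul]) fun g hg => by
      have h6 := IG.fix h2 h hs hw hg
      obtain ⟨a, rfl⟩ := (mem_range_toGL (f := f)).2 (semiSim_symp (sactE_smul _) one_ne_zero (IG.adj hg h6))
      rw [toGL_mulVec] at h6
      refine ⟨f.resIsom _ ⟨a, f.mem_stab_of_le fun v hv => ?_⟩, congrArg (toGL f) (f.isom_ext_of_isCompl hW
        (fun v hv => f.extLeft_apply_left hW _ ⟨v, hv⟩) fun v hv => ?_)⟩
      · have h7 := hg w v
        rw [toGL_mulVec, toGL_mulVec, h6, one_mul] at h7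
        exact h7.trans hv
      · rw [f.extLeft_apply_right hW _ hv, (h3 v).1 hv, map_smul, h6]
  obtain ⟨e⟩ := ((nd_ker h2 h hs hw h0).symp_equivalent (sympStd_nondeg F m) (by
    have := finrank_ker h0; rw [finrank_plus]; omega)).nonempty_mulEquiv
  exact ⟨(((MulEquiv.subgroupCongr h5).symm.trans (MonoidHom.ofInjective (f := (toGL f).comp (f.extLeft hW))
    (toGL_injective.comp (f.extLeft_injective hW))).symm).trans e).trans (spEquiv F m).symm⟩

omit [DecidableEq ι] in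
theorem eqv_odd_two {w' : ι → F} (h' : ∀ u, (∀ v, B' u v = 0) → u = 0) (hs' : ∀ u v, B' v u = B' u v)
    (hw' : ∀ v, B' v v = B' v w' * B' v w') (h0' : B' w' w' ≠ 0) : Eqv B B' := by
  obtain ⟨e, he⟩ := (nd_ker h2 h hs hw h0).symp_equivalent (nd_ker h2 h' hs' hw' h0') (by
    have := finrank_ker h0; have := finrank_ker h0'; omega)
  have h1 := ww_one hw h0
  let π : (ι → F) →ₗ[F] LinearMap.ker (B w) := (LinearMap.id - (B w).smulRight w).codRestrict _ fun v => by simp [h1]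
  let φ := (LinearMap.ker (B' w')).subtype ∘ₗ e.toLinearMap ∘ₗ π + (B w).smulRight w'
  have h3 : ∀ u v, B' (φ u) (φ v) = B u v := fun u v => by
    have h4 : ∀ u, B' w' (e u) = 0 := fun u => (e u).2
    have h5 : B' (e (π u)) (e (π v)) + B' (e (π u)) w' * B' (e (π v)) w' = B (u - B w u • w) (v - B w v • w) +
      B (u - B w u • w) w * B (v - B w v • w) w := he.B_eq (π u) (π v)
    rw [hs' w', h4] at h5
    show B' (e (π u) + B w u • w') (e (π v) + B w v • w') = _
    simp [h4, hs' w', ww_one hw' h0', h1, hs w] at h5 ⊢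
    rw [h5]; ring
  exact ⟨φ.linearEquivOfInjective ((injective_iff_map_eq_zero _).2 fun u hu => h u fun v => by
    rw [← h3, hu]; simp) rfl, 1, fun u v => by simpa using h3 u v⟩

end odd

omit [DecidableEq ι] in
theorem ww_ne (h : Rf B) (hm : Fintype.card ι = 2 * m + 1) (hw : ∀ v, B v v = B v w * B v w) : B w w ≠ 0 := fun h0 => by
  have := Nat.even_iff.1 (Nondeg.symp_even (f := ofAlt _ (adj_alt h2 hw)) (adj_nd h.nd (h.sym_of_odd hm) h0))
  simp [hm] at this

omit [DecidableEq ι] in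
theorem Rf.eqv_adj [Finite F] (h : Rf B) (hm : Fintype.card ι = 2 * m) {w₀ : Fin m ⊕ Fin m → F} (h0 : w₀ ≠ 0) :
    Eqv (tbS F m) B ∨ Eqv (adj (tbS F m) w₀) B := by
  refine (em _).imp (eqv_tbS h.nd · hm) fun ha => ?_
  have hs := h.sy.resolve_right ha
  obtain ⟨w, hw⟩ := exists_w h2 h.nd hs
  have h1 : B w w = 0 := by_contra fun h1 => by
    have := Nat.even_iff.1 (nd_ker h2 h.nd hs hw h1).symp_even
    have := finrank_ker h1
    omega
  have hf : (ofAlt _ (adj_alt h2 hw)).Nondeg := adj_nd h.nd hs h1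
  obtain ⟨e, he⟩ := (sympStd_nondeg F m).symp_equivalent hf (by simp [hm, two_mul])
  obtain ⟨a, ha⟩ := hf.witt_one (e.map_ne_zero_iff.2 h0) (w := w) (by rintro rfl; exact ha fun v => by simp [hw]) rfl
  have h3 : ∀ u v, adj B w (a.1 (e u)) (a.1 (e v)) = tbS F m u v := fun u v => (B_coe_map _ a _ _).trans (he.B_eq u v)
  refine ⟨e.trans a.1, 1, fun u v => ?_⟩
  rw [← LinearMap.congr_fun₂ (adj_adj h2 h1), adj_apply, adj_apply _ u, ← h3, ← h3, ← h3, ha, Units.val_one, one_mul]; rfl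

theorem exists_tv (hm : 1 ≤ m) : ∃ (w₀ : Fin m ⊕ Fin m → F) (t : symplecticGroup (Fin m) F), w₀ ≠ 0 ∧
    Cfsg.IsTransvection t.1 ∧ Nonempty (IG (adj (tbS F m) w₀) ≃* centralizer {t}) := by
  let w : Fin m ⊕ Fin m → F := Pi.single (.inl ⟨0, hm⟩) 1
  have hw : w ≠ 0 := by simp [w]
  let f := sympStd F m
  have hf : f.Nondeg := sympStd_nondeg F m
  let N := vecMulVec w (J (Fin m) F *ᵥ w)
  have hN : ∀ v, N *ᵥ v = f.B v w • w := fun v => by
    rw [vecMulVec_mulVec, sympStd_B, Cfsg.sympForm, dotProduct_comm, op_smul_eq_smul]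
  have h1 : N * N = 0 := mulVec_injective (funext fun v => by
    rw [← mulVec_mulVec, hN, hN]; simp [symp_B_self])
  let a : f.Isom := ⟨glEquiv ⟨1 + N, 1 - N, by noncomm_ring [h1], by noncomm_ring [h1]⟩, f.symp_mem_Isom.2 fun u v => by
    simp [glEquiv_apply, add_mulVec, hN, symp_B_self, f.symm w v]; ring⟩
  have ha : ∀ v, a.1 v = v + f.B v w • w := fun v => by simp [a, glEquiv_apply, add_mulVec, hN]
  have ht : ((spEquiv F m).symm a).1 - 1 = N := mulVec_injective (funext fun v => by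
    rw [sub_mulVec, one_mulVec, hN, sub_eq_iff_eq_add', ← ha]
    exact congrArg (fun x : f.Isom => x.1 v) ((spEquiv F m).apply_symm_apply a))
  obtain ⟨u, hu⟩ := hf.exists_B_ne_zero hw
  refine ⟨w, (spEquiv F m).symm a, hw, ⟨?_, by rw [ht, h1]⟩, ?_⟩
  · rw [ht]
    refine le_antisymm (rank_vecMulVec_le _ _) (Nat.pos_of_ne_zero fun H => hu (f.eq_zero_symm ?_))
    have h4 : N = 0 := mulVec_injective (funext fun v => by
      have := Submodule.finrank_eq_zero.1 H
      simpa using (this.le ⟨v, rfl⟩ : N.mulVecLin v ∈ _))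
    simpa [hw, h4] using (hN u).symm
  have h3 : ((centralizer {(spEquiv F m).symm a}).map ((toGL f).comp (spEquiv F m).toMonoidHom)) = IG (adj (tbS F m) w) := by
    have key : ∀ g : f.Isom, g * a = a * g ↔ g.1 w = w := fun g => ⟨fun H => by
      have h4 : ∀ v, f.B v w • g.1 w = f.B (g.1 v) w • w := fun v => by
        simpa [ha] using congrArg (fun x : f.Isom => x.1 v) H
      have h5 : f.B u w ≠ 0 := fun H => hu (f.eq_zero_symm H)
      obtain ⟨c, hc⟩ : ∃ c : F, g.1 w = c • w := ⟨(f.B u w)⁻¹ * f.B (g.1 u) w, by rw [mul_smul, ← h4, inv_smul_smul₀ h5]⟩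
      have h6 := h4 u
      rw [← f.B_coe_map g, hc, map_smul, smul_eq_mul, smul_smul, mul_right_comm] at h6
      rw [hc, eq_one_of_sq h2 (mul_right_cancel₀ (fun H => h5 (by
        rw [← f.B_coe_map g, hc, map_smul, H, smul_zero])) ((smul_left_injective F hw h6).trans (one_mul _).symm)), one_smul],
      fun H => f.isom_ext fun v => by
        show g.1 (a.1 v) = a.1 (g.1 v)
        rw [ha, ha, map_add, map_smul, ← f.B_coe_map g, H]⟩
    ext g
    rw [mem_IG_adj h2 rf_tbS.nd (symp_B_self f)]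
    constructor
    · rintro ⟨s, hs, rfl⟩
      refine ⟨(ss_toGL (spEquiv F m s)).B_inl, (toGL_mulVec _ _).trans ((key _).1 ?_)⟩
      simpa using congrArg (spEquiv F m) (mem_centralizer_singleton_iff.1 hs)
    · rintro ⟨h4, h5⟩
      obtain ⟨b, rfl⟩ := (mem_range_toGL (f := f)).2 (semiSim_symp (sactE_smul _) one_ne_zero h4)
      exact ⟨(spEquiv F m).symm b, mem_centralizer_singleton_iff.2 (by
        rw [← map_mul, ← map_mul, (key b).2 ((toGL_mulVec _ _).symm.trans h5)]), by simp⟩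
  exact ⟨((equivMapOfInjective _ ((toGL f).comp (spEquiv F m).toMonoidHom)
    (toGL_injective.comp (spEquiv F m).injective)).trans (MulEquiv.subgroupCongr h3)).symm⟩

omit h2 in
theorem nonempty_IG_tbS : Nonempty (IG (tbS F m) ≃* symplecticGroup (Fin m) F) :=
  ⟨((MulEquiv.subgroupCongr (show IG (tbS F m) = (toGL (sympStd F m)).range from Subgroup.ext fun _ => ⟨fun h => mem_range_toGL.2
    (semiSim_symp (sactE_smul _) one_ne_zero h), fun h => (mem_range_toGL.1 h).B_inl⟩)).trans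
      (MonoidHom.ofInjective toGL_injective).symm).trans (spEquiv F m).symm⟩

end two

theorem Rf.odd [Finite F] (h : Rf B) (h' : Rf B') (hm : Fintype.card ι = 2 * m + 1) :
    Eqv B B' ∧ Nonempty (Cfsg.projQuot (SG B) ≃* Cfsg.PGO F (Cfsg.quadFormOdd m F)) := by
  by_cases h2 : (2 : F) = 0
  · haveI : Nonempty ι := Fintype.card_pos_iff.1 (by omega)
    obtain ⟨w, hw⟩ := exists_w h2 h.nd (h.sym_of_odd hm)
    obtain ⟨w', hw'⟩ := exists_w h2 h'.nd (h'.sym_of_odd hm)
    obtain ⟨e₁⟩ := nonempty_IG h2 h.nd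
    obtain ⟨e₂⟩ := nonempty_IG_odd h2 h.nd (h.sym_of_odd hm) hw (ww_ne h2 h hm hw) hm
    obtain ⟨e₃⟩ := nonempty_PGO_two h2 (m := m)
    exact ⟨eqv_odd_two h2 h.nd (h.sym_of_odd hm) hw (ww_ne h2 h hm hw) h'.nd (h'.sym_of_odd hm) hw' (ww_ne h2 h' hm hw'),
      ⟨(e₁.trans e₂).trans e₃.symm⟩⟩
  · have := (h.eqv_odd h2 hm).nonempty
    rw [SG_tbO h2] at this
    exact ⟨(h.eqv_odd h2 hm).symm.trans (h'.eqv_odd h2 hm), this⟩

end CA.AutForm
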