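import Cfsg.Agent.Lib.Lin.AutGr5

/-!
Involutory graph automorphisms of linear and unitary groups are classified by reflexive forms.
-/

set_option autoImplicit false

namespace CA.AutForm

open Subgroup CA.AutCorr CA.CForm CA.CForm.Form Module CA.AutPhi CA.AutGam
  CA.AutFld CA.AutLang CA.AutOut CA.AutPSL SemidirectProduct Matrix

local notation "sc" => GeneralLinearGroup.scalar
local notation "dt" => GeneralLinearGroup.det
local notation "gm" => GeneralLinearGroup.map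

section cyc
variable {U : Type*} [CommGroup U] [Finite U] [IsCyclic U] {D : Subgroup U}

theorem idx_Z {n : ℕ} (h : ∀ d ∈ D, ∃ c, c ^ n = d) : Nat.gcd n D.index = Nat.gcd n (Nat.card U) := by
  have h1 := index_sup (powMonoidHom n : U →* U).range D
  rw [sup_eq_left.2 h, IsCyclic.index_powMonoidHom_range] at h1
  rw [Nat.gcd_comm n (Nat.card U), h1, Nat.gcd_comm _ n, Nat.gcd_assoc, Nat.gcd_eq_right D.index_dvd_card]

theorem idx_T {m : ℕ} {z : U} (hz : orderOf z = 2) {P : Prop} (h : ∀ d, d ∈ D ↔ ∃ c, d = c ^ m ∨ (P ∧ d = z * c ^ m)) :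
    (P → Nat.gcd (2 * m) D.index = Nat.gcd (2 * m) (Nat.card U) / 2) ∧
      (¬P → Nat.gcd (2 * m) D.index = Nat.gcd m (Nat.card U)) := by
  refine ⟨fun H => ?_, fun H => ?_⟩
  · have h1 : D = (powMonoidHom m : U →* U).range ⊔ zpowers z := le_antisymm (fun d hd => by
      obtain ⟨c, rfl | ⟨-, rfl⟩⟩ := (h d).1 hd
      exacts [mem_sup_left ⟨c, rfl⟩, mul_mem (mem_sup_right (mem_zpowers z)) (mem_sup_left ⟨c, rfl⟩)])
      (sup_le (by rintro _ ⟨c, rfl⟩; exact (h _).2 ⟨c, .inl rfl⟩) (zpowers_le.2 ((h _).2 ⟨1, .inr ⟨H, by simp⟩⟩)))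
    have h2 := (zpowers z).index_mul_card
    rw [Nat.card_zpowers, hz] at h2
    rw [h1, index_sup, IsCyclic.index_powMonoidHom_range, ← h2, mul_comm _ 2, Nat.gcd_mul_left,
      Nat.mul_div_cancel_left _ two_pos, Nat.gcd_comm _ m, Nat.gcd_assoc, Nat.gcd_mul_left_left, ← Nat.gcd_assoc,
      Nat.gcd_mul_left_left]
  · have h1 : D = (powMonoidHom m : U →* U).range := Subgroup.ext fun d => by
      simp only [h, H, false_and, or_false, eq_comm (a := d)]; rfl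
    rw [h1, IsCyclic.index_powMonoidHom_range, Nat.gcd_comm _ m, ← Nat.gcd_assoc, Nat.gcd_mul_left_left]

end cyc

variable {F₀ : Type*} [Field F₀] {n : ℕ}

/-- the involutions satisfying `G` are classified by reflexive forms -/
structure GC {X : Type*} [Group X] (D I : Subgroup X) (G : X → Prop) (R : X → Bil F₀ (Fin n) → Prop) (N : ℕ) : Prop where
  ex1 : ∀ γ, G γ → orderOf γ = 2 → ∃ B, Rf B ∧ R γ B
  ex2 : ∀ B, Rf B → ∃ γ, G γ ∧ orderOf γ = 2 ∧ R γ B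
  cent : ∀ {γ B}, Rf B → R γ B → Nonempty (↥(D ⊓ centralizer {γ}) ≃* Cfsg.projQuot (SG B))
  conj : ∀ {γ γ' B B'}, Rf B → R γ B → R γ' B' → (Cfsg.IsConjUnder D γ γ' ↔ Eqv B B')
  spZ : ∀ {γ B}, Rf B → R γ B → DZ B n → Cfsg.splitClassCount D I γ = Nat.gcd n N
  spE : ∀ {γ B m P}, Rf B → R γ B → n = 2 * m → (2 : F₀) ≠ 0 → DT B m P →
    (P → Cfsg.splitClassCount D I γ = Nat.gcd n N / 2) ∧ (¬P → Cfsg.splitClassCount D I γ = Nat.gcd m N)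

theorem orderOf_neg_one' (h2 : (2 : F₀) ≠ 0) : orderOf (-1 : F₀ˣ) = 2 :=
  orderOf_eq_prime (by simp) fun h => h2 (by have := congrArg Units.val h; simp at this; linear_combination -this)

theorem sc_mul_mem_SG {ι : Type} [Fintype ι] [DecidableEq ι] {B : Bil F₀ ι} {g : GL ι F₀} :
    (∃ c : F₀ˣ, sc ι c * g ∈ SG B) ↔ g ∈ SG B :=
  ⟨fun ⟨c, h⟩ => (mul_mem_cancel_left (mem_SG.2 ⟨c * c, sm_sc c⟩)).1 h, fun h => ⟨1, by simpa using h⟩⟩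

/-- the form of a graph automorphism of the linear group -/
def RL [Finite F₀] (γ : MulAut (ProjectiveSpecialLinearGroup (Fin n) F₀)) (B : Bil F₀ (Fin n)) : Prop :=
  ∃ a, γ = Ph (⟨a, (1, c2)⟩ : GT n F₀) ∧ B = bA a

theorem gc_PSL [Finite F₀] (hn : 3 ≤ n) : GC (Cfsg.inndiagPSL n F₀) (Cfsg.Inn _) Cfsg.IsGraphAutClassPSL RL
    (Nat.card F₀ - 1) := by
  haveI : Nonempty (Fin n) := ⟨⟨0, by omega⟩⟩
  have hn2 : 2 ≤ n := by omega
  have hC : ∀ a g : GL (Fin n) F₀, g⁻¹ * (MulAut.conj a * fgAct (Fin n) F₀ (1, c2)) g ∈ center _ ↔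
      ∃ c : F₀ˣ, sc _ c * g ∈ SG (bA a) := fun a g => by
    refine ((frame_PSL hn2 ⟨a, (1, c2)⟩).cent_iff g).symm.trans ?_
    rw [sc_mul_mem_SG, mem_centralizer_singleton_iff, mem_SG]
    refine (Commute.symm_iff.trans (Ph_comm_iff hn2 1 a g)).trans ?_
    simp only [Sm, bA_apply]
  have hS := fun a : GL (Fin n) F₀ => split_PSL hn2 (frame_PSL hn2 ⟨a, (1, c2)⟩) (hC a)
  refine ⟨?_, fun B hB => ?_, ?_, ?_, ?_, ?_⟩
  · rintro _ ⟨-, δ, γ, h1, h2, rfl⟩ ho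
    obtain ⟨a, rfl⟩ := (innerDiag_iff _).1 h1
    rw [(invTrans_iff _).1 h2, ← Ph_mk] at ho ⊢
    exact ⟨_, rf_bA.1 ((Ph_sq hn2 (one_pow 2) a).1 (orderOf_dvd_iff_pow_eq_one.1 ho.dvd)), a, rfl, rfl⟩
  · obtain ⟨a, rfl⟩ := exists_bA hB.nd
    refine ⟨_, ⟨hn, _, _, (innerDiag_iff _).2 ⟨a, rfl⟩, (invTrans_iff _).2 rfl, Ph_mk _ _⟩,
      orderOf_eq_prime ((Ph_sq hn2 (one_pow 2) a).2 (rf_bA.2 hB)) fun H => c2_ne_one ?_, a, rfl, rfl⟩
    simpa using congrArg Prod.snd (right_pow hn2 (y := ⟨a, (1, c2)⟩) (.inr hn) (m := 1) (by rw [pow_one, H]))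
  · rintro _ _ - ⟨a, rfl, rfl⟩
    rw [← range_Ph_inl]
    exact (frame_PSL hn2 ⟨a, (1, c2)⟩).nonempty_cent_equiv (fun g _ => ⟨g, rfl⟩) (hC a)
  · rintro _ _ _ _ - ⟨a, rfl, rfl⟩ ⟨a', rfl, rfl⟩
    rw [eqv_iff, ← range_Ph_inl]
    simp only [Sm, bA_apply, ← Ph_conj_iff hn2]
    exact ⟨fun ⟨_, ⟨g, rfl⟩, h⟩ => ⟨g, h⟩, fun ⟨g, h⟩ => ⟨_, ⟨g, rfl⟩, h⟩⟩
  · rintro _ _ - ⟨a, rfl, rfl⟩ h
    rw [hS, ← Nat.card_units]
    refine idx_Z ?_
    rintro _ ⟨g, ⟨c, hg⟩, rfl⟩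
    obtain ⟨d, -, hd⟩ := h g c hg
    exact ⟨d, hd.symm⟩
  · rintro _ _ m P - ⟨a, rfl, rfl⟩ rfl h2 h
    rw [hS, ← Nat.card_units]
    refine idx_T (orderOf_neg_one' h2) fun d => ?_
    simp only [neg_one_mul, ← fun c => h c d]
    exact ⟨fun ⟨g, ⟨c, hg⟩, H⟩ => ⟨c, g, hg, H⟩, fun ⟨c, g, hg, H⟩ => ⟨g, ⟨c, hg⟩, H⟩⟩

theorem comm_of_conj_eq {G : Type*} [Group G] {w g x : G} (h : g * x * g⁻¹ = w * x * w⁻¹) :
    w⁻¹ * g * x * (w⁻¹ * g)⁻¹ * x⁻¹ = 1 := by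
  rw [show w⁻¹ * g * x * (w⁻¹ * g)⁻¹ = w⁻¹ * (g * x * g⁻¹) * w by group, h]; group

section unit
variable {F : Type*} [Field F] {ι : Type} [Fintype ι] [DecidableEq ι] {i : F₀ →+* F} {x x' : GS ι F} {b b' : GL ι F}

theorem Fl.desc (h : Fl i x b) : Desc i (ofAlt 0 fun _ => rfl) x (ofAlt 0 fun _ => rfl) b :=
  ⟨h.conj, 1, one_ne_zero, rfl, fun _ _ => show (0 : F) = 1 * i 0 by simp, fun _ => by simp [symp_Q]⟩

theorem Fl.mul_gm (h : Fl i x b) (g : GL ι F₀) : Fl i x (b * gm i g) := by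
  obtain ⟨c, hc⟩ := h.conj
  refine ⟨⟨c, ?_⟩, h.fix⟩
  rw [hc, map_mul]
  conv_lhs => rw [← inr_comm_gm (fun a => (h.fix _).mp ⟨a, rfl⟩) g]
  group

theorem Fl.conj_of (h : Fl i x b) (h' : Fl i x' b') (hr : x'.right = x.right) :
    (inl (b' * b⁻¹) * x * (inl (b' * b⁻¹))⁻¹)⁻¹ * x' ∈ ZG (fldAct ι F) := by
  obtain ⟨c, hc⟩ := h.conj
  obtain ⟨c', hc'⟩ := h'.conj
  have h1 := congrArg (QuotientGroup.mk' (ZG (fldAct ι F))) hc
  have h2 := congrArg (QuotientGroup.mk' (ZG (fldAct ι F))) hc'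
  rw [map_mul, mk_inl_sc, one_mul] at h1 h2
  rw [← QuotientGroup.ker_mk' (ZG _), MonoidHom.mem_ker]
  simp only [map_mul, map_inv] at h1 h2 ⊢
  rw [h1, h2, hr]; group

end unit

section herm
variable {F : Type*} [Field F] [Fintype F] {q : ℕ} (hF : Fintype.card F = q ^ 2) (hn : 3 ≤ n) (hs : ¬(n = 3 ∧ q = 2))

theorem split_SU {K : Subgroup (GL (Fin n) F)} (x : Gam (hermStd hF n)) (hK : K ≤ Cfsg.GU n F q)
    (hC : ∀ g ∈ Cfsg.GU n F q, g⁻¹ * (x.1.left * fldGL x.1.right g * x.1.left⁻¹) ∈ center _ ↔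
      ∃ c : Fˣ, sc (Fin n) c * g ∈ K) :
    Cfsg.splitClassCount (Cfsg.inndiagPSU n F q) (Cfsg.Inn _) ((embSU hF hn hs).Ph x) =
      Nat.gcd n ((K.map dt).subgroupOf (UN F q)).index := by
  obtain ⟨χ, h3, h4, h5⟩ := exists_chi_SU hF (show 1 ≤ n by omega)
  rw [(inndiagSU hF hn hs).2, (embSU hF hn hs).split_eq (GU_le hF) x (fun g => conj_mem_GU hF x.2) hK hC
    (fun g hg => ((mem_range_jSU hF).mp hg).1) χ h3 h4]
  have hDU : K.map dt ≤ UN F q := map_det_GU hF (show 1 ≤ n by omega) ▸ map_mono hK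
  have h6 : (K.subgroupOf (Cfsg.GU n F q)).map χ = ((K.map dt).subgroupOf (UN F q)).map (QuotientGroup.mk' _) := by
    refine le_antisymm ?_ ?_
    · rintro _ ⟨a, ha, rfl⟩
      exact ⟨⟨_, hDU (mem_map_of_mem _ ha)⟩, mem_map_of_mem _ ha, (h5 a _ rfl).symm⟩
    · rintro _ ⟨c, ⟨g, hg, H⟩, rfl⟩
      exact ⟨⟨g, hK hg⟩, hg, h5 _ c H⟩
  rw [h6, index_map_mk, index_sup, IsCyclic.index_powMonoidHom_range, Nat.gcd_comm _ n,
    Nat.gcd_assoc, Nat.gcd_eq_right (index_dvd_card _)]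

/-- the form of a graph automorphism of the unitary group -/
def RU (i : F₀ →+* F) (γ : MulAut (Cfsg.PSU n F q)) (B : Bil F₀ (Fin n)) : Prop :=
  ∃ (x : Gam (hermStd hF n)) (b : GL (Fin n) F) (l : F), γ = (embSU hF hn hs).Ph x ∧ (∀ a, x.1.right a = a ^ q) ∧
    Fl i x.1 b ∧ GD (hermStd hF n) i b B l

theorem gc_PSU {i : F₀ →+* F} (hi : ∀ a, (∃ c, i c = a) ↔ a ^ q = a) :
    GC (Cfsg.inndiagPSU n F q) (Cfsg.Inn _) Cfsg.IsGraphAutClassPSU (RU hF hn hs i) (q + 1) := by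
  haveI : Nonempty (Fin n) := ⟨⟨0, by omega⟩⟩
  have E := embSU hF hn hs
  have hD : Cfsg.inndiagPSU n F q = E.im (Sim (hermStd hF n)) := (inndiagSU hF hn hs).2.trans (im_GU hF hn hs)
  have hiq : ∀ c, conj hF (i c) = i c := fun c => (hi _).1 ⟨c, rfl⟩
  let s' : RingAut F := RingEquiv.ofRingHom (conj hF) (conj hF) (RingHom.ext (conj_conj hF)) (RingHom.ext (conj_conj hF))
  have hs' : orderOf s' = 2 := orderOf_eq_prime (RingEquiv.ext (conj_conj hF)) fun H =>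
    conj_ne_id hF (RingHom.ext (RingEquiv.ext_iff.mp H))
  have h90 : ∀ c : F, c * conj hF c = 1 → ∃ l : F, l ≠ 0 ∧ c * conj hF l = l := fun c hc =>
    hilbert90 (σ := s') (by omega) (by rw [hs', ← hc]; simp [nm, Finset.prod_range_succ]; exact .inl rfl)
  have hS : ∀ {γ B}, Rf B → RU hF hn hs i γ B → ∃ D : Subgroup (UN F q),
      Cfsg.splitClassCount (Cfsg.inndiagPSU n F q) (Cfsg.Inn _) γ = Nat.gcd n D.index ∧ ∀ d, d ∈ D ↔
        ∃ (c : Fˣ) (μ : F₀ˣ) (a : GL (Fin n) F₀), Sm B B a μ ∧ c * conj hF c * i μ = 1 ∧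
          ((d : Fˣ) : F) = c ^ n * i (dt a) := by
    rintro _ B hB ⟨x, b, l, rfl, -, h1, h2⟩
    have h3 := h1.desc.cent_iff' h1.fix center_le_Sim fun a => h2.mem_Sim hB
    have h4 : ∀ {a} {μ : F₀ˣ} (c : Fˣ), Sm B B a μ → SS (hermStd hF n) (hermStd hF n) (inl (sc _ c * cjm i b a))
        (c * conj hF c * i μ) := fun c ha => by
      have := ss_scalar_mul (h2.ss h2 ha (Units.ne_zero _)) c
      rwa [mul_div_cancel_left₀ _ h2.ne] at this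
    have h5 : ∀ (c : Fˣ) a, ((dt (sc _ c * cjm i b a) : Fˣ) : F) = c ^ n * i (dt a) := fun c a => by
      rw [map_mul, det_scalar, cjm_apply, map_mul, map_mul, det_glMap, map_inv, mul_inv_cancel_comm]; simp
    refine ⟨_, split_SU hF hn hs (K := (Kd i b (SG B) ⊔ center _) ⊓ Cfsg.GU n F q) x inf_le_right fun g hg => ?_,
      fun d => ⟨?_, ?_⟩⟩
    · rw [h3.2 g (GU_le hF hg), ← mem_sup_center]
      exact ⟨fun H => ⟨1, by simpa using ⟨H, hg⟩⟩, fun ⟨c, H⟩ =>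
        (mul_mem_cancel_left (mem_sup_right (scalar_mem_center c))).1 H.1⟩
    · rintro ⟨g, ⟨h6, h7⟩, H⟩
      obtain ⟨c, hc⟩ := mem_sup_center.1 h6
      obtain ⟨a, ⟨μ, ha⟩, hc⟩ := mem_Kd.1 hc
      obtain rfl : g = sc _ c⁻¹ * cjm i b a := by rw [map_inv, eq_inv_mul_iff_mul_eq]; exact hc.symm
      exact ⟨c⁻¹, μ, a, ha, (h4 _ ha).mu_eq (hermStd_nondeg hF n) (mem_range_toGL.1 ((GU_eq hF).le h7)),
        by rw [← h5, H]; rfl⟩
    · rintro ⟨c, μ, a, ha, h6, H⟩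
      refine ⟨sc _ c * cjm i b a, ⟨mul_mem (mem_sup_right (scalar_mem_center c))
        (mem_sup_left (mem_Kd.2 ⟨a, ⟨μ, ha⟩, rfl⟩)), (GU_eq hF).ge (mem_range_toGL.2 ?_)⟩, Units.ext (by rw [h5, ← H]; rfl)⟩
      exact h6 ▸ h4 c ha
  have hU : ∀ c : Fˣ, c * conj hF c = 1 → c ∈ UN F q := fun c hc => Units.ext (by simpa [pow_succ'] using show (c : F) * c ^ q = 1 from hc)
  refine ⟨?_, fun B hB => ?_, ?_, ?_, fun hB hR h => ?_, fun {γ B m P} hB hR hm h2 h => ?_⟩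
  · rintro _ ⟨-, δ, φ, σ, h1, h2, h3, rfl⟩ ho
    obtain ⟨g, hg, rfl⟩ := (E.mem_im (GU_le hF)).1 (((inndiagSU hF hn hs).1 _).1 h2)
    rw [(E.ind_inr ⟨1, inr_mem_SU hF σ⟩ _).1 h3, ← map_mul] at ho ⊢
    set x : Gam (hermStd hF n) := ⟨inl g, GU_le hF hg⟩ * ⟨inr σ, 1, inr_mem_SU hF σ⟩
    have h4 : x.1.right ≠ 1 := fun H => by
      rw [show σ = 1 by simpa [x] using H] at h1; simp at h1
    have h5 := apply_of_orderOf_two hF (E.orderOf_right h4 ho)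
    obtain ⟨b, B, l, h6, h7, h8⟩ := exists_GD (i := i) E.nice.nondeg x.2 (fun a => by rw [hi, h5]) h5 (E.pow_mem_ZG h4 ho)
    exact ⟨B, h8, x, b, l, rfl, h5, h6, h7⟩
  · obtain ⟨ε, hε, h1⟩ := hB.exists_eps
    obtain ⟨a, rfl⟩ := exists_bA hB.nd
    obtain ⟨l, hl, h2⟩ := h90 (i ε) (by rcases hε with rfl | rfl <;> simp)
    let N : GL (Fin n) F := sc _ (Units.mk0 l hl) * gm i a⁻¹
    have h3 : ∀ j k, N.1 j k = l * i ((a⁻¹).1 j k) := fun j k => by rw [coe_scalar_mul]; rfl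
    have h4 : (N.1.map (conj hF))ᵀ = N.1 := Matrix.ext fun j k => by
      have := h1 (Pi.single j 1) (Pi.single k 1)
      rw [bA_apply, bA_apply, matB_single, matB_single] at this
      rw [transpose_apply, Matrix.map_apply, h3, h3, map_mul, hiq, this, map_mul, ← mul_assoc, mul_comm _ (i ε), h2]
    let f₁ := hermMat (conj_conj hF) (conj_ne_id hF) _ h4
    obtain ⟨b, hb⟩ := exists_ss_of_equivalent (Nondeg.herm_equivalent (f := f₁) (fun u hu => matB_nondeg _ _ hu)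
      (conj_ne_id hF) (hermStd_nondeg hF n) rfl)
    have h5 : SS f₁ f₁ (inr s') (i ε) := semiSim_herm (sactE_smul _) (by rcases hε with rfl | rfl <;> simp) fun u v => by
      rw [sactE_inr, sactE_inr]
      show matB _ _ (fun j => conj hF (u j)) (fun j => conj hF (v j)) = _ * conj hF (matB _ _ _ _)
      simp only [matB_eq_sum, map_sum, map_mul, h3, hiq, Finset.mul_sum]
      refine Finset.sum_congr rfl fun j _ => Finset.sum_congr rfl fun k _ => ?_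
      conv_lhs => rw [← h2]
      ring
    let x : Gam (hermStd hF n) := ⟨inl b * inr s' * (inl b)⁻¹, _, (hb.mul h5).mul hb.inv⟩
    have h6 : x.1.right = s' := by simp [x]
    have h7 := left_mem_Sim x ⟨1, inr_mem_SU hF _⟩
    refine ⟨E.Ph x, ⟨hn, E.Ph ⟨inl x.1.left, h7⟩, E.Ph ⟨inr s', 1, inr_mem_SU hF _⟩, s', by simp [hs'],
      ((inndiagSU hF hn hs).1 _).2 (im_GU hF hn hs ▸ (E.mem_im le_rfl).2 ⟨_, h7, rfl⟩), (E.ind_inr _ _).2 rfl, ?_⟩,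
      Nat.dvd_antisymm (orderOf_dvd_of_pow_eq_one ((E.Ph_pow_eq_one_iff x 2).2 ?_)) (hs' ▸ h6 ▸ E.orderOf_right_dvd x),
      x, b, l, rfl, fun a => by rw [h6]; rfl, ⟨⟨1, by simp [x]⟩, fun a => by rw [h6, hi]; rfl⟩, hl, fun u v => ?_⟩
    · rw [← map_mul]
      exact congrArg _ (Subtype.ext (by rw [← h6]; exact (inl_left_mul_inr_right _).symm))
    · rw [show x.1 ^ 2 = 1 by rw [conj_pow, ← map_pow, ← hs', pow_orderOf_eq_one]; simp]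
      exact one_mem _
    · refine (hb.B_inl _ _).trans ((one_mul _).trans ?_)
      show matB _ _ _ _ = _
      simp only [bA_apply, matB_eq_sum, map_sum, map_mul, h3, hiq, Finset.mul_sum]
      exact Finset.sum_congr rfl fun j _ => Finset.sum_congr rfl fun k _ => by simp; ring
  · rintro _ B hB ⟨x, b, l, rfl, -, h1, h2⟩
    have h3 := h1.desc.cent_iff' h1.fix center_le_Sim fun a => h2.mem_Sim hB
    obtain ⟨e1⟩ := E.nonempty_cent_equiv le_rfl x (fun g => conj_mem_Sim x.2) h3.1 h3.2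
    obtain ⟨e2⟩ := nonempty_projQuot_Kd (i := i) b (SG B)
    exact hD ▸ ⟨e1.trans e2⟩
  · rintro _ _ B B' hB ⟨x, b, l, rfl, hx, h1, h2⟩ ⟨x', b', l', rfl, hx', h1', h2'⟩
    have hr : x'.1.right = x.1.right := RingEquiv.ext fun a => by rw [hx, hx']
    rw [eqv_iff, hD]
    constructor
    · rintro ⟨_, hg', H⟩
      obtain ⟨g, hg, rfl⟩ := (E.mem_im le_rfl).1 hg'
      rw [← map_inv, ← map_mul, ← map_mul, eq_comm, E.Ph_eq_iff] at H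
      obtain ⟨c, a, ha⟩ := h1.descend_inl (y := (b' * b⁻¹)⁻¹ * g) (by
        have h3 := h1.conj_of h1' hr
        rw [← QuotientGroup.ker_mk' (ZG _), MonoidHom.mem_ker] at H h3 ⊢
        simp only [Subgroup.coe_mul, Subgroup.coe_inv, map_mul, map_inv, inv_mul_eq_one] at H h3 ⊢
        exact comm_of_conj_eq (H.trans h3.symm))
      obtain ⟨μ, hμ⟩ := mul_mem (center_le_Sim (scalar_mem_center c)) hg
      rw [show sc _ c * g = b' * gm i a * b⁻¹ by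
        rw [← mul_assoc, ← gl_scalar_comm, mul_assoc, inv_mul_eq_iff_eq_mul, cjm_apply] at ha
        rw [ha]; group] at hμ
      obtain ⟨c, hc, -⟩ := h2.sm h2' hB hμ
      exact ⟨a, c, hc⟩
    · rintro ⟨a, c, ha⟩
      have hg : b' * gm i a * b⁻¹ ∈ Sim (hermStd hF n) := ⟨_, h2.ss h2' ha c.ne_zero⟩
      refine ⟨_, (E.mem_im le_rfl).2 ⟨_, hg, rfl⟩, ?_⟩
      rw [← map_inv, ← map_mul, ← map_mul, eq_comm, E.Ph_eq_iff]
      exact h1.conj_of (h1'.mul_gm a) hr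
  · obtain ⟨D, h1, h2⟩ := hS hB hR
    rw [h1, ← card_UN hF]
    refine idx_Z fun d hd => ?_
    obtain ⟨c, μ, a, ha, h3, h4⟩ := (h2 d).1 hd
    obtain ⟨e, rfl, h5⟩ := h a μ ha
    refine ⟨⟨c * Units.map i.toMonoidHom e, hU _ ?_⟩, Subtype.ext (Units.ext ?_)⟩
    · rw [← h3]; simp [hiq]; ring
    · rw [h4, h5]; simp [mul_pow]
  · obtain ⟨D, h1, h3⟩ := hS hB hR
    have h2' : (2 : F) ≠ 0 := by rw [← map_ofNat i]; exact (map_ne_zero i).2 h2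
    rw [h1, ← card_UN hF, hm]
    refine idx_T (z := ⟨-1, hU _ (by simp)⟩) ((orderOf_mk _ _).trans (orderOf_neg_one' h2')) fun d => ?_
    have h4 : ∀ (c : Fˣ) (μ : F₀ˣ), c * conj hF c * i μ = 1 → (c : F) ^ n * i μ ^ m = (c / conj hF c) ^ m := fun c μ H => by
      rw [hm, pow_mul, ← mul_pow, eq_div_of_mul_eq ((map_ne_zero _).2 c.ne_zero) (show c ^ 2 * i μ * conj hF c = c by
        linear_combination c * H)]
    rw [h3]
    constructor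
    · rintro ⟨c, μ, a, ha, h5, h6⟩
      refine ⟨⟨c / Units.map (conj hF).toMonoidHom c, hU _ (by simp [conj_conj hF])⟩,
        ((h μ _).1 ⟨a, ha, rfl⟩).imp (fun H => ?_) fun H => ⟨H.1, ?_⟩⟩ <;> refine Subtype.ext (Units.ext ?_)
      · rw [h6, H]; simpa using h4 c μ h5
      · rw [h6, H.2]; simpa using h4 c μ h5
    · rintro ⟨e, he⟩
      obtain ⟨c, hc, h5⟩ := h90 e.1 (show _ * _ ^ q = _ by simpa [pow_succ'] using congrArg Units.val e.2)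
      obtain ⟨μ, hμ⟩ := (hi (c * conj hF c)⁻¹).2 (show conj hF _ = _ by rw [map_inv₀, map_mul, conj_conj, mul_comm])
      have h6 : c * conj hF c ≠ 0 := mul_ne_zero hc ((map_ne_zero _).2 hc)
      have h7 : μ ≠ 0 := fun H => inv_ne_zero h6 (by rw [← hμ, H, map_zero])
      have h8 : (Units.mk0 c hc : F) * conj hF (Units.mk0 c hc) * i (Units.mk0 μ h7) = 1 := by
        rw [Units.val_mk0, Units.val_mk0, hμ, mul_inv_cancel₀ h6]
      have h9 := h4 _ _ h8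
      rw [Units.val_mk0 hc, ← eq_div_of_mul_eq ((map_ne_zero _).2 hc) h5] at h9
      rcases he with rfl | ⟨H, rfl⟩
      · obtain ⟨a, ha, h10⟩ := (h (Units.mk0 μ h7) _).2 (.inl rfl)
        exact ⟨_, _, a, ha, h8, by rw [h10]; simpa using h9.symm⟩
      · obtain ⟨a, ha, h10⟩ := (h (Units.mk0 μ h7) _).2 (.inr ⟨H, rfl⟩)
        exact ⟨_, _, a, ha, h8, by rw [h10]; simpa using h9.symm⟩

include hF in
theorem exists_fix_hom [Fintype F₀] (h : Fintype.card F₀ = q) : ∃ i : F₀ →+* F, ∀ a, (∃ c, i c = a) ↔ a ^ q = a := by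
  obtain ⟨p, -, k, hp, hk⟩ := FiniteField.card' F₀
  haveI := Fact.mk hp
  let s' : RingAut F := RingEquiv.ofRingHom (conj hF) (conj hF) (RingHom.ext (conj_conj hF)) (RingHom.ext (conj_conj hF))
  have hs' : orderOf s' = 2 := orderOf_eq_prime (RingEquiv.ext (conj_conj hF)) fun H =>
    conj_ne_id hF (RingHom.ext (RingEquiv.ext_iff.mp H))
  exact exists_hom_fixF (p := p) (f := k * 2) (by rw [hF, ← h, hk, pow_mul]) s' F₀ (by rw [hs', hk]; simp)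

theorem ru_one {i : F₀ →+* F} (hi : ∀ a, (∃ c, i c = a) ↔ a ^ q = a) {σ : RingAut F} (hσ : ∀ a, σ a = a ^ q) :
    RU hF hn hs i ((embSU hF hn hs).Ph ⟨inr σ, 1, inr_mem_SU hF σ⟩) (bA 1) :=
  ⟨_, 1, 1, rfl, hσ, ⟨⟨1, by simp⟩, fun a => by rw [hi, ← hσ]; rfl⟩, one_ne_zero, fun u v => by
    simp [up_one, hermStd_B, Cfsg.hermForm, bA, toBilin'_apply', dotProduct, (hi _).1 ⟨_, rfl⟩, mul_comm]⟩

end herm

namespace GC
variable {X : Type*} [Group X] {D I : Subgroup X} {G : X → Prop} {R : X → Bil F₀ (Fin n) → Prop} {N : ℕ}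
  (h : GC D I G R N) {m : ℕ}
include h

theorem cent' {κ : Type} [Fintype κ] [DecidableEq κ] {B₀ : Bil F₀ κ} {γ : X} {B : Bil F₀ (Fin n)} (hB : Rf B)
    (hR : R γ B) (e : Eqv B₀ B) : Nonempty (↥(D ⊓ centralizer {γ}) ≃* Cfsg.projQuot (SG B₀)) :=
  let ⟨e₁⟩ := h.cent hB hR; let ⟨e₂⟩ := e.nonempty; ⟨e₁.trans e₂⟩

theorem ex3 {κ : Type} [Fintype κ] [DecidableEq κ] {B₀ : Bil F₀ κ} (hB : Rf B₀) (hc : Fintype.card κ = n) :
    ∃ γ B, G γ ∧ orderOf γ = 2 ∧ Rf B ∧ R γ B ∧ Eqv B₀ B :=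
  let ⟨B, h1, h2⟩ := exists_eqv (ι := Fin n) (by simpa using hc) hB
  let ⟨γ, h3, h4, h5⟩ := h.ex2 B h1
  ⟨γ, B, h3, h4, h1, h5, h2⟩

variable [Finite F₀]

theorem odd (hm : n = 2 * m + 1) {γ γ' : X} (h1 : G γ) (h2 : orderOf γ = 2) (h1' : G γ') (h2' : orderOf γ' = 2) :
    Nonempty (↥(D ⊓ centralizer {γ}) ≃* Cfsg.PGO F₀ (Cfsg.quadFormOdd m F₀)) ∧ Cfsg.IsConjUnder D γ γ' := by
  obtain ⟨B, hB, hR⟩ := h.ex1 γ h1 h2
  obtain ⟨B', hB', hR'⟩ := h.ex1 γ' h1' h2'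
  obtain ⟨h3, ⟨e⟩⟩ := hB.odd hB' (m := m) (by simpa using hm)
  obtain ⟨e'⟩ := h.cent hB hR
  exact ⟨⟨e'.trans e⟩, (h.conj hB hR hR').2 h3⟩

theorem even (h2 : (2 : F₀) ≠ 0) (hm : 2 ≤ m) (hn : n = 2 * m) : ∃ (γ₁ γ₂ γ₃ : X) (a b : F₀), Aniso a b ∧
    G γ₁ ∧ orderOf γ₁ = 2 ∧ G γ₂ ∧ orderOf γ₂ = 2 ∧ G γ₃ ∧ orderOf γ₃ = 2 ∧ ¬Cfsg.IsConjUnder D γ₁ γ₂ ∧
    ¬Cfsg.IsConjUnder D γ₁ γ₃ ∧ ¬Cfsg.IsConjUnder D γ₂ γ₃ ∧ (∀ γ, G γ → orderOf γ = 2 →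
      Cfsg.IsConjUnder D γ₁ γ ∨ Cfsg.IsConjUnder D γ₂ γ ∨ Cfsg.IsConjUnder D γ₃ γ) ∧
    Nonempty (↥(D ⊓ centralizer {γ₁}) ≃* Cfsg.PGSp m F₀) ∧
    Nonempty (↥(D ⊓ centralizer {γ₂}) ≃* Cfsg.PGO F₀ (Cfsg.quadFormPlus m F₀)) ∧
    Nonempty (↥(D ⊓ centralizer {γ₃}) ≃* Cfsg.PGO F₀ (Cfsg.quadFormMinus (m - 1) F₀ a b)) := by
  obtain ⟨m, rfl⟩ : ∃ k, m = k + 1 := ⟨m - 1, by omega⟩
  obtain ⟨a, b, hab⟩ := exists_aniso (F := F₀)
  obtain ⟨γ₁, B₁, p1, p2, p3, p4, p5⟩ := h.ex3 (rf_tbS (m := m + 1)) (by simp; omega)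
  obtain ⟨γ₂, B₂, q1, q2, q3, q4, q5⟩ := h.ex3 (rf_tbO (plusForm_nondeg F₀ (m + 1))) (by simp; omega)
  obtain ⟨γ₃, B₃, r1, r2, r3, r4, r5⟩ := h.ex3 (rf_tbO (minusForm_nondeg m hab)) (by simp; omega)
  have h1 := h.cent' p3 p4 p5
  have h3 := h.cent' q3 q4 q5
  have h4 := h.cent' r3 r4 r5
  rw [SG_tbS] at h1
  rw [SG_tbO h2] at h3 h4
  refine ⟨γ₁, γ₂, γ₃, a, b, hab, p1, p2, q1, q2, r1, r2, fun H => ?_, fun H => ?_, fun H => ?_, fun γ h5 h6 => ?_, h1, h3, h4⟩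
  · exact not_alt h2 (rf_tbO (plusForm_nondeg F₀ (m + 1))).nd (orth_symm _)
      (((p5.trans ((h.conj p3 p4 q4).1 H)).trans q5.symm).alt (symp_B_self _))
  · exact not_alt h2 (rf_tbO (minusForm_nondeg m hab)).nd (orth_symm _)
      (((p5.trans ((h.conj p3 p4 r4).1 H)).trans r5.symm).alt (symp_B_self _))
  · obtain ⟨⟨W, hW, d⟩, -⟩ := ((q5.trans ((h.conj q3 q4 r4).1 H)).trans r5.symm).isIndex h2 (minusForm_nondeg m hab)
      (finrank_minus m) (plusForm_isIndex F₀ _)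
    have := (minusForm_isIndex m hab).2 W hW
    omega
  · obtain ⟨B, hB, hR⟩ := h.ex1 γ h5 h6
    rw [h.conj p3 p4 hR, h.conj q3 q4 hR, h.conj r3 r4 hR]
    exact (hB.eqv_even h2 (by simpa using hn) hab).imp p5.symm.trans (Or.imp q5.symm.trans r5.symm.trans)

theorem two (h2 : (2 : F₀) = 0) (hm : 2 ≤ m) (hn : n = 2 * m) : ∃ (γ₁ γ₃ : X) (t : symplecticGroup (Fin m) F₀),
    Cfsg.IsTransvection t.1 ∧ G γ₁ ∧ orderOf γ₁ = 2 ∧ G γ₃ ∧ orderOf γ₃ = 2 ∧ ¬Cfsg.IsConjUnder D γ₁ γ₃ ∧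
    (∀ γ, G γ → orderOf γ = 2 → Cfsg.IsConjUnder D γ₁ γ ∨ Cfsg.IsConjUnder D γ₃ γ) ∧
    Nonempty (↥(D ⊓ centralizer {γ₁}) ≃* symplecticGroup (Fin m) F₀) ∧
    Nonempty (↥(D ⊓ centralizer {γ₃}) ≃* centralizer ({t} : Set (symplecticGroup (Fin m) F₀))) := by
  haveI : Nonempty (Fin m) := ⟨⟨0, by omega⟩⟩
  obtain ⟨w, t, hw, ht, ⟨e⟩⟩ := exists_tv h2 (m := m) (by omega)
  have hr : Rf (adj (tbS F₀ m) w) := rf_adj h2 rf_tbS.nd (symp_B_self _)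
  obtain ⟨γ₁, B₁, p1, p2, p3, p4, p5⟩ := h.ex3 (rf_tbS (m := m)) (by simp; omega)
  obtain ⟨γ₃, B₃, r1, r2, r3, r4, r5⟩ := h.ex3 hr (by simp; omega)
  obtain ⟨e₁⟩ := h.cent' p3 p4 p5
  obtain ⟨e₂⟩ := nonempty_IG h2 (rf_tbS (m := m)).nd
  obtain ⟨e₃⟩ := nonempty_IG_tbS (F := F₀) (m := m)
  obtain ⟨e₄⟩ := h.cent' r3 r4 r5
  obtain ⟨e₅⟩ := nonempty_IG h2 hr.nd
  refine ⟨γ₁, γ₃, t, ht, p1, p2, r1, r2, fun H => hw (rf_tbS.nd _ fun v => ?_), fun γ h5 h6 => ?_,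
    ⟨(e₁.trans e₂).trans e₃⟩, ⟨(e₄.trans e₅).trans e⟩⟩
  · have := ((p5.trans ((h.conj p3 p4 r4).1 H)).trans r5.symm).alt (symp_B_self _) v
    rw [adj_apply, show tbS F₀ m v v = 0 from symp_B_self _ _, zero_add, mul_self_eq_zero] at this
    exact (sym_of_alt h2 (symp_B_self _) _ _).trans this
  · obtain ⟨B, hB, hR⟩ := h.ex1 γ h5 h6
    rw [h.conj p3 p4 hR, h.conj r3 r4 hR]
    exact (hB.eqv_adj h2 (by simpa using hn) hw).imp p5.symm.trans r5.symm.trans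

theorem split (hn : 3 ≤ n) {O : Prop} (hO : O ↔ (2 : F₀) ≠ 0) {γ : X} (h1 : G γ) (h2 : orderOf γ = 2) :
    ((Even n ∧ O ∧ Nonempty (↥(D ⊓ centralizer {γ}) ≃* Cfsg.PGSp (n / 2) F₀)) →
      Cfsg.splitClassCount D I γ = Nat.gcd (n / 2) N) ∧
    ((Even n ∧ O ∧ ¬Nonempty (↥(D ⊓ centralizer {γ}) ≃* Cfsg.PGSp (n / 2) F₀)) →
      Cfsg.splitClassCount D I γ = Nat.gcd n N / 2) ∧ (¬(Even n ∧ O) → Cfsg.splitClassCount D I γ = Nat.gcd n N) := by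
  obtain ⟨B, hB, hR⟩ := h.ex1 γ h1 h2
  by_cases H : Even n ∧ O
  swap
  · refine ⟨fun H' => absurd ⟨H'.1, H'.2.1⟩ H, fun H' => absurd ⟨H'.1, H'.2.1⟩ H, fun _ => h.spZ hB hR ?_⟩
    by_cases h3 : (2 : F₀) = 0
    · simpa using dz_two h3 hB.nd
    · obtain ⟨m, hm⟩ := Nat.not_even_iff_odd.1 fun H' => H ⟨H', hO.2 h3⟩
      exact (congrArg (DZ B) hm).mpr (dz_odd hB.nd (by simpa using hm))
  have h3 := hO.1 H.2
  obtain ⟨m, hm⟩ : ∃ m, n = 2 * (m + 1) := let ⟨k, hk⟩ := H.1; ⟨k - 1, by omega⟩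
  obtain ⟨a, b, hab⟩ := exists_aniso (F := F₀)
  rw [show n / 2 = m + 1 by omega]
  have key : ∀ {κ : Type} [Fintype κ] [DecidableEq κ] {f : Form (Kind.orth F₀) (κ → F₀)}, f.Nondeg →
      Fintype.card κ = 2 * (m + 1) → DT (tbO f) (m + 1) True → Eqv (tbO f) B →
      ¬Nonempty (↥(D ⊓ centralizer {γ}) ≃* Cfsg.PGSp (m + 1) F₀) ∧ Cfsg.splitClassCount D I γ = Nat.gcd n N / 2 :=
    fun hf hc hd e => ⟨fun ⟨e₁⟩ => let ⟨e₂⟩ := h.cent' hB hR e; not_iso_PGSp h3 hf hc hd ⟨e₂.symm.trans e₁⟩,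
      (h.spE hB hR hm h3 (e.dt hd)).1 trivial⟩
  rcases hB.eqv_even h3 (by simpa using hm) hab with e | e | e
  · have h4 := h.cent' hB hR e
    rw [SG_tbS] at h4
    exact ⟨fun _ => (h.spE hB hR hm h3 (e.dt dt_tbS)).2 id, fun H' => absurd h4 H'.2.2, absurd H⟩
  · have h4 := key (plusForm_nondeg F₀ _) (by simp [two_mul]) (dt_plus h3) e
    exact ⟨fun H' => absurd H'.2.2 h4.1, fun _ => h4.2, absurd H⟩
  · have h4 := key (minusForm_nondeg m hab) (by simp; omega) (dt_minus h3 hab) e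
    exact ⟨fun H' => absurd H'.2.2 h4.1, fun _ => h4.2, absurd H⟩

theorem ident (h2 : (2 : F₀) ≠ 0) (hm : 2 ≤ m) (hn : n = 2 * m) {γ : X} (hR : R γ (bA 1)) :
    (IsSquare ((-1 : F₀) ^ m) → Nonempty (↥(D ⊓ centralizer {γ}) ≃* Cfsg.PGO F₀ (Cfsg.quadFormPlus m F₀))) ∧
    (¬IsSquare ((-1 : F₀) ^ m) → ∃ a b : F₀, Aniso a b ∧
      Nonempty (↥(D ⊓ centralizer {γ}) ≃* Cfsg.PGO F₀ (Cfsg.quadFormMinus (m - 1) F₀ a b))) := by
  obtain ⟨m, rfl⟩ : ∃ k, m = k + 1 := ⟨m - 1, by omega⟩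
  obtain ⟨a, b, hab⟩ := exists_aniso (F := F₀)
  have hs : ∀ u v : Fin n → F₀, bA 1 v u = bA 1 u v := fun u v => by simp [bA, toBilin'_apply', dotProduct_comm]
  have hB : Rf (bA (1 : GL (Fin n) F₀)) := ⟨bA_nd 1, .inl hs⟩
  let f := ofSymm h2 (bA (1 : GL (Fin n) F₀)) ⟨fun u v => hs v u⟩
  have hf : f.Nondeg := bA_nd 1
  have hr : finrank F₀ (Fin n → F₀) = 2 * m + 2 := by simp [hn, mul_add]
  have h1 : f.IsIndex (m + 1) ↔ IsSquare ((-1 : F₀) ^ (m + 1)) := by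
    rw [hf.isIndex_iff_isSquare h2 hr, ← f.isSquare_mul_det_gram_iff (Pi.basisFun _ _), show f.gram (Pi.basisFun _ _) = 1 from
      Matrix.ext fun j k => by
        show bA (1 : GL (Fin n) F₀) _ _ = _
        rw [bA_apply, Pi.basisFun_apply, Pi.basisFun_apply, matB_single]; simp, det_one, mul_one]
  refine ⟨fun H => ?_, fun H => ⟨a, b, hab, ?_⟩⟩
  · have := h.cent' hB hR (eqv_of (B₀ := tbO (plusForm F₀ (m + 1))) ((h1.2 H).equivalent_plus hf hr).symm (fun _ _ => rfl) 1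
      fun _ _ => (one_mul _).symm)
    rwa [SG_tbO h2] at this
  · have := h.cent' hB hR (eqv_of (B₀ := tbO (minusForm m a b)) ((((hf.isIndex_even hr).resolve_left
      (mt h1.1 H))).equivalent_minus hf hr hab).symm (fun _ _ => rfl) 1 fun _ _ => (one_mul _).symm)
    rwa [SG_tbO h2] at this

end GC

end CA.AutForm
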