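import Cfsg.Agent.Lib.Lin.AutGr4
import Cfsg.Agent.Lib.Lin.AutOrth4
import Cfsg.Agent.Lib.Lin.OmegaCnt
import Cfsg.Agent.Lib.Lin.SpinDet

/-!
Centralizers of semisimple elements and graph involutions in even dimensional orthogonal groups.
-/

set_option autoImplicit false

namespace CA.CForm.Form
open Polynomial Module CA.Rcf

universe u
variable {F : Type u} [Field F] [Finite F] {V : Type*} [AddCommGroup V] [Module F V]
  [FiniteDimensional F V] {V' : Type*} [AddCommGroup V'] [Module F V'] [FiniteDimensional F V']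
  {V'' : Type*} [AddCommGroup V''] [Module F V''] [FiniteDimensional F V'']
  {f : Form (Kind.orth F) V} {f' : Form (Kind.orth F) V'} {f'' : Form (Kind.orth F) V''}

variable (f) in
/-- `g` commutes with an element of determinant one and non-trivial spinor norm -/
def CS (hf : f.Nondeg) (h2 : (2 : F) ≠ 0) (g : f.Isom) : Prop :=
  ∃ c : f.Isom, c * g = g * c ∧ f.detHom c = 1 ∧ hf.spin (f.good_of_two_ne_zero h2) c = -1

theorem CS.of_isoSim {hf : f.Nondeg} {h2 : (2 : F) ≠ 0} (hf' : f'.Nondeg) (hf'' : f''.Nondeg) {u : f.Isom} {u' : f'.Isom}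
    {g : f''.Isom} (h : f.CS hf h2 u) (H : IsoSim (prodHom _ _ (u, u')) g) : f''.CS hf'' h2 g := by
  obtain ⟨c, h1, h3, h4⟩ := h
  obtain ⟨e, h5, h6⟩ := H
  obtain rfl : isomCongr e h5 (prodHom _ _ (u, u')) = g := f''.isom_ext fun v => by simp [isomCongr_apply, h6]
  refine ⟨isomCongr e h5 (prodHom _ _ (c, 1)), ?_, ?_, ?_⟩
  · rw [← map_mul, ← map_mul, ← map_mul, ← map_mul, Prod.mk_mul_mk, Prod.mk_mul_mk, h1, one_mul, mul_one]
  · rw [detHom_isomCongr, detHom_prodHom, h3, map_one, mul_one]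
  · rw [IsoSim.spin_eq (g := prodHom _ _ (c, 1)) ⟨e, h5, fun v => by simp [isomCongr_apply]⟩ (hf.prod hf')
      (good_of_two_ne_zero _ h2), hf.spin_prodHom (good_of_two_ne_zero _ h2) hf' (good_of_two_ne_zero _ h2), h4, map_one, mul_one]

theorem Nondeg.exists_spin_cyc (hf : f.Nondeg) (h2 : (2 : F) ≠ 0) {g : f.Isom} {χ : F[X]}
    (h : Sim (g.1 : End F V) (cyc χ)) (h0 : ∀ x, g.1 (g.1 x) = x → x = 0) (c : V ≃ₗ[F] V)
    (hc : ∀ v, c (g.1 v) = g.1 (c v)) (hi : Function.Injective ((c : End F V) + hf.pre.adj c : End F V)) :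
    ∃ c' : f.Isom, c' * g = g * c' ∧ f.detHom c' = 1 ∧
      hf.spin (f.good_of_two_ne_zero h2) c' = sqSign (LinearMap.det (c : End F V)) := by
  let s := hf.pre
  have h1 : ∀ v, s.adj c (g.1 v) = g.1 (s.adj c v) := fun v => hf.eq_of_B_eq fun y => by
    obtain ⟨y, rfl⟩ := g.1.surjective y
    exact (s.B_adj c _ _).trans ((congrArg _ (hc y)).trans ((B_map g.2 _ _).trans
      ((s.B_adj c _ _).symm.trans (B_map g.2 _ _).symm)))
  obtain ⟨a, ha⟩ := exists_aeval_eq_of_commute (B := c) h hc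
  obtain ⟨b, hb⟩ := exists_aeval_eq_of_commute h h1
  have h3 : s.adj c * c = c * s.adj c := by rw [hb, ha, ← map_mul, ← map_mul, mul_comm]
  let w := LinearEquiv.ofInjectiveEndo (s.adj c) ((injective_iff_map_eq_zero _).2 fun x hx =>
    hf x fun y => by
      rw [← c.apply_symm_apply y]
      exact (s.B_adj c x _).symm.trans (by rw [hx]; exact f.B_zero_left _))
  have h4 : ∀ x y, f.B (c (w.symm x)) (c (w.symm y)) = f.B x y := fun x y => by
    obtain ⟨x, rfl⟩ := w.surjective x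
    obtain ⟨y, rfl⟩ := w.surjective y
    rw [w.symm_apply_apply, w.symm_apply_apply]
    exact (s.B_adj c _ _).symm.trans ((congrArg (f.B · y) (LinearMap.congr_fun h3 x)).trans (s.B_adj' c _ _).symm)
  let c' : f.Isom := ⟨c * w⁻¹, f.orth_mem_Isom.2 fun x => mul_left_cancel₀ h2 (by
    rw [← orth_B_self, ← orth_B_self]; exact h4 x x)⟩
  have h5 : (c'.1 : End F V) * s.adj c = c := LinearMap.ext fun v => congrArg c (w.symm_apply_apply v)
  have h6 : LinearMap.det (s.adj c) = LinearMap.det (c : End F V) := s.det_adj c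
  have h7 := c.isUnit_det'.ne_zero
  let T : End F V := (g.1 : End F V) - (g⁻¹).1
  have hT : ∀ x y, f.B (T x) y = -f.B x (T y) := fun x y => by
    have k1 := f.B_coe_map g x ((g⁻¹).1 y)
    have k2 := f.B_coe_map g ((g⁻¹).1 x) y
    simp only [Subgroup.coe_inv, LinearEquiv.coe_inv, LinearEquiv.apply_symm_apply] at k1 k2
    simp [T, B_sub_left, k1, k2]
  have h8 : LinearMap.det T ≠ 0 := (LinearMap.isUnit_det _ ((LinearMap.isUnit_iff_ker_eq_bot _).2
    (LinearMap.ker_eq_bot'.2 fun x hx => h0 x (by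
      rw [show g.1 x = (g⁻¹).1 x from sub_eq_zero.1 hx]; exact g.1.apply_symm_apply x)))).ne_zero
  have h9 : Even (finrank F V) := by
    have k1 : LinearMap.det (s.adj T) = LinearMap.det T := s.det_adj T
    rw [s.adj_eq (S := (-1 : F) • T) fun x y => by
      show f.B _ _ = f.B _ _
      rw [LinearMap.smul_apply, neg_one_smul, B_neg_left, hT, neg_neg], LinearMap.det_smul,
      mul_left_eq_self₀, or_iff_left h8] at k1
    exact (neg_one_pow_eq_one_iff_even fun H => h2 (by linear_combination -H)).1 k1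
  set Z : End F V := (c : End F V) + s.adj c
  have hZ := (LinearMap.isUnit_det _ ((LinearMap.isUnit_iff_ker_eq_bot Z).2 (LinearMap.ker_eq_bot.2 hi))).ne_zero
  have k1 : ∀ x y, f.B (Z x) y = f.B x (Z y) := fun x y => by
    rw [LinearMap.add_apply, LinearMap.add_apply, B_add_left, map_add, add_comm]
    exact congrArg₂ _ (s.B_adj c _ _) (s.B_adj' c _ _).symm
  have k2 : ∀ x, Z (g.1 x) = g.1 (Z x) := fun x => by simp [Z, hc, h1]
  have k3 : ∀ x, Z (T x) = T (Z x) := fun x => by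
    have := congrArg g.1.symm (k2 (g.1.symm x))
    rw [LinearEquiv.apply_symm_apply, LinearEquiv.symm_apply_apply] at this
    simp [T, k2, this]
  have k4 := isSquare_disc_mul_det (f := f) h2 (T := T * Z) fun x y => by rw [End.mul_apply, hT, k1, k3]; rfl
  rw [map_mul, ← mul_assoc, isSquare_mul_left_iff (isSquare_disc_mul_det h2 hT) (mul_ne_zero hf.disc_ne_zero h8)] at k4
  have k5 : LinearMap.det (1 + (c'.1 : End F V)) * LinearMap.det (c : End F V) = LinearMap.det Z := by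
    rw [← h6, ← map_mul, add_mul, one_mul, h5, add_comm]
  have k6 := left_ne_zero_of_mul (k5 ▸ hZ)
  refine ⟨c', f.isom_ext fun v => ?_, Units.ext (mul_right_cancel₀ h7 ?_), ?_⟩
  · obtain ⟨v, rfl⟩ := w.surjective v
    change c (w.symm (g.1 (w v))) = g.1 (c (w.symm (w v)))
    rw [show g.1 (w v) = w (g.1 v) from (h1 v).symm, w.symm_apply_apply, w.symm_apply_apply, hc]
  · rw [coe_detHom, Units.val_one, one_mul]
    conv_lhs => rw [← h6, ← map_mul, h5]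
  · rw [hf.spin_of_det_one_add _ h2 k6, sqSign_congr (isSquare_mul_left_iff (h9.isSquare_pow _) (pow_ne_zero _ h2)),
      sqSign_eq_iff k6 h7, k5]
    exact k4

theorem Nondeg.cs_cyc (hf : f.Nondeg) (h2 : (2 : F) ≠ 0) {g : f.Isom} {χ : F[X]}
    (h : Sim (g.1 : End F V) (cyc χ)) (hs : IsSS (g.1 : End F V)) (hV : finrank F V ≠ 0) {d d' : F[X]}
    (hd : ∀ e ∈ edivs (g.1 : End F V), e = d ∨ e = d') (h8 : ∀ e ∈ edivs (g.1 : End F V), IsCoprime e (X ^ 8 - 1)) :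
    f.CS hf h2 g := by
  obtain ⟨ν, hν⟩ := exists_not_isSquare h2
  obtain ⟨c, hc, h1⟩ := hs.exists_commute_det hV (a := ν) (by rintro rfl; exact hν IsSquare.zero)
  let s := hf.pre
  have h3 : ∀ v, s.adj c (g.1 v) = g.1 (s.adj c v) := fun v => hf.eq_of_B_eq fun y => by
    obtain ⟨y, rfl⟩ := g.1.surjective y
    exact (s.B_adj c _ _).trans ((congrArg _ (hc y)).trans ((B_map g.2 _ _).trans
      ((s.B_adj c _ _).symm.trans (B_map g.2 _ _).symm)))
  obtain ⟨a, ha⟩ := exists_aeval_eq_of_commute (B := c) h hc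
  obtain ⟨b, hb⟩ := exists_aeval_eq_of_commute h h3
  have key : ∀ e ∈ edivs (g.1 : End F V), ∀ j k, k = 1 ∨ k = 2 → e ∣ a * X ^ (4 * j) + b →
      ¬e ∣ a * X ^ (4 * (j + k)) + b := fun e he j k hk h4 h5 => by
    have h6 : IsCoprime e (X ^ (4 * k) - 1) := (h8 e he).of_isCoprime_of_dvd_right (by
      rcases hk with rfl | rfl
      exacts [⟨X ^ 4 + 1, by ring⟩, dvd_rfl])
    have h7 := (((injective_aeval_iff _ a).1 (ha ▸ c.injective) e he).mul_right (((hs e he).coprime_iff_not_dvd.2 fun H =>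
      not_X_dvd_of_mem_edivs _ he ((hs e he).associated_of_dvd irreducible_X H).symm.dvd).pow_right (n := 4 * j))).mul_right h6
    exact (hs e he).not_isUnit (h7.isUnit_of_dvd (by convert dvd_sub h5 h4 using 1; ring))
  obtain ⟨j, hj⟩ : ∃ j, Function.Injective (aeval (g.1 : End F V) (a * X ^ (4 * j) + b)) := by
    by_contra! H
    simp only [injective_aeval_iff, not_forall] at H
    choose e he H using H
    have H' := fun j => not_not.1 (mt (hs _ (he j)).coprime_iff_not_dvd.2 (H j))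
    have k1 : e 0 ≠ e 1 := fun E => key _ (he 0) 0 1 (.inl rfl) (H' 0) (E ▸ H' 1)
    have k2 : e 0 ≠ e 2 := fun E => key _ (he 0) 0 2 (.inr rfl) (H' 0) (E ▸ H' 2)
    have k3 : e 1 ≠ e 2 := fun E => key _ (he 1) 1 1 (.inl rfl) (H' 1) (E ▸ H' 2)
    rcases hd _ (he 0) with h | h <;> rcases hd _ (he 1) with h' | h' <;> rcases hd _ (he 2) with h'' | h'' <;> simp_all
  obtain ⟨c', k1, k2, k3⟩ := hf.exists_spin_cyc h2 h ((tame_iff_edivs _).2 fun e he =>
    (h8 e he).of_isCoprime_of_dvd_right ⟨(X ^ 2 + 1) * (X ^ 4 + 1), by ring⟩) (c * (g ^ (2 * j)).1) (fun v => by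
      exact (congrArg c (congrArg (fun x : f.Isom => x.1 v) ((Commute.refl g).pow_left _).eq)).trans (hc _)) (by
    refine Function.Injective.of_comp (f := (g ^ (2 * j)).1) (?_ : Function.Injective
      (((g ^ (2 * j)).1 : End F V) * _ : End F V))
    convert hj using 2
    rw [LinearEquiv.coe_toLinearMap_mul, s.adj_mul, s.adj_isom (f.B_coe_map _), mul_add, ← mul_assoc _ _ (s.adj _),
      ← LinearEquiv.coe_toLinearMap_mul (e₂ := _⁻¹), mul_inv_cancel, map_add, ← hb,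
      show ((g ^ (2 * j)).1 : End F V) = aeval (g.1 : End F V) (X ^ (2 * j) : F[X]) from
        (map_pow LinearEquiv.automorphismGroup.toLinearMapMonoidHom g.1 _).trans (aeval_X_pow _).symm, ha, ← map_mul, ← map_mul]
    congr 2
    ring)
  refine ⟨c', k1, k2, k3.trans (sqSign_eq_neg_one.2 ?_)⟩
  rw [LinearEquiv.coe_toLinearMap_mul, map_mul, h1, ← coe_detHom, map_pow, Units.val_pow_eq_pow_val,
    mul_comm, isSquare_mul_left_iff (Even.isSquare_pow (even_two_mul j) _) (pow_ne_zero _ (Units.ne_zero _))]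
  exact hν

omit [Finite F] [FiniteDimensional F V] in
theorem fix_of_odd {g : f.Isom} (ho : Odd (orderOf g)) {x : V} (n : ℕ) (h : (g ^ 2 ^ n).1 x = x) : g.1 x = x := by
  obtain ⟨m, hm⟩ := exists_pow_eq_self_of_coprime (x := g) (n := 2 ^ n) ((Nat.coprime_two_left.2 ho).pow_left n)
  exact f.mem_fix_span_singleton.1 (hm ▸ pow_mem (f.mem_fix_span_singleton.2 h) m)

theorem Nondeg.cs_of_odd (hf : f.Nondeg) (h2 : (2 : F) ≠ 0) {g : f.Isom} (hs : IsSS (g.1 : End F V))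
    (ho : Odd (orderOf g)) (h1 : g ≠ 1) : f.CS hf h2 g := by
  classical
  obtain ⟨W, k1, hg, k2, k3⟩ := hf.exists_peel hs (a := 1) (by simp)
  have hp := hf.restrict_perp k1
  set u := res (f.stab_le_stab_perp W hg)
  have k4 : ∀ e ∈ edivs (u.1 : End F (f.perp W)), e ∈ edivs (g.1 : End F V) := fun e he =>
    hf.edivs_res k1 hg ▸ Multiset.mem_add.2 (.inr he)
  have k5 : ∀ e ∈ edivs (u.1 : End F (f.perp W)), IsCoprime e (X ^ 8 - 1) := (injective_aeval_iff _ _).1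
    ((injective_iff_map_eq_zero _).2 fun x hx => Subtype.ext (Submodule.disjoint_def.1 k1 _ ((k2 _).2
      ((fix_of_odd ho 3 (by
        simp only [map_sub, map_one, aeval_X_pow, LinearMap.sub_apply, sub_eq_zero] at hx
        exact congrArg Subtype.val hx)).trans (one_smul F _).symm)) x.2))
  have hV : finrank F (f.perp W) ≠ 0 := fun H => h1 (f.isom_ext fun v => by
    simpa [Submodule.finrank_eq_zero.1 H, sub_eq_zero] using (k3 _).2 ⟨v, rfl⟩)
  obtain ⟨d, hd⟩ := Multiset.exists_mem_of_ne_zero (mt (edivs_eq_zero_iff (u.1 : End F (f.perp W))).1 hV)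
  have k6 := (isPrim_of_mem_edivs hd).monic
  have k7 : dual (RingHom.id F) d ∈ edivs (u.1 : End F (f.perp W)) := hp.edivs_dual u ▸ Multiset.mem_map_of_mem _ hd
  obtain ⟨m, hm, hm0, hm1, hm2, hm3⟩ : ∃ m ≤ edivs (u.1 : End F (f.perp W)), m ≠ 0 ∧ m.map (dual (RingHom.id F)) = m ∧
      Squarefree m.prod ∧ ∀ e ∈ m, e = d ∨ e = dual (RingHom.id F) d := by
    by_cases h : dual (RingHom.id F) d = d
    · exact ⟨{d}, Multiset.singleton_le.2 hd, by simp, by simp [h], by simpa using (hs d (k4 _ hd)).squarefree, by simp⟩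
    · refine ⟨{d, dual (RingHom.id F) d}, (Multiset.le_iff_subset (by simpa using Ne.symm h)).2
        (by simp [Multiset.subset_iff, hd, k7]), by simp,
        by simpa [dual_dual (σ := RingHom.id F) (fun _ => rfl) k6] using Multiset.pair_comm (dual (RingHom.id F) d) d, ?_,
        by simp⟩
      simpa using squarefree_mul_iff.2 ⟨(isCoprime_of_ne k6 (hs d (k4 _ hd)) (dual_monic _ k6.ne_zero)
        (hs _ (k4 _ k7)) (Ne.symm h)).isRelPrime, (hs d (k4 _ hd)).squarefree, (hs _ (k4 _ k7)).squarefree⟩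
  obtain ⟨m', hm'⟩ := Multiset.le_iff_exists_add.1 hm
  obtain ⟨n, n', p, p', t, t', hq, hq', h3, -, h4⟩ := hp.split (.inr ((tame_iff_edivs _).2 fun e he =>
    (k5 e he).of_isCoprime_of_dvd_right ⟨(X ^ 2 + 1) * (X ^ 4 + 1), by ring⟩)) hm' hm1
  have h5 : IsSS (t.1 : End F (Fin n → F)) := fun d hd => hs d (k4 _ (Multiset.mem_of_le hm (h3 ▸ hd)))
  have h6 : m.prod.Monic := by rw [← h3, ← charpoly_eq_prod]; exact LinearMap.charpoly_monic _
  have := finite_adjoinRoot h6.ne_zero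
  obtain ⟨c, c1, c2, c3⟩ := (hq.cs_cyc h2 (χ := m.prod) (sim_of_charpoly_eq h5
    (fun d => irreducible_of_mem_edivs hm2 (by rw [aeval_cyc, AdjoinRoot.mk_self]; simp))
    (by rw [charpoly_cyc h6, charpoly_eq_prod, h3])) h5 (fun h => hm0 (h3 ▸ (edivs_eq_zero_iff _).2 h))
    (h3 ▸ hm3) fun e he => k5 e (Multiset.mem_of_le hm (h3 ▸ he))).of_isoSim hq' hp h4
  have k8 : Disjoint (f.perp W) (f.perp (f.perp W)) := by rw [hf.perp_perp]; exact k1.symm
  exact CS.of_isoSim (hf := hp) (hf.restrict_perp k8) hf ⟨c, c1, c2, c3⟩ (hf.isoSim_res k8 (f.stab_le_stab_perp W hg))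

theorem cs_of_sub (hf : f.Nondeg) (h2 : (2 : F) ≠ 0) {g : f.Isom} {W : Submodule F V} (hW : Disjoint W (f.perp W))
    (h : 2 ≤ finrank F W) {s : F} (hs : s ≠ 0) (hg : ∀ v ∈ W, g.1 v = s • v) : f.CS hf h2 g := by
  obtain ⟨ν, hν⟩ := exists_not_isSquare h2
  obtain ⟨v, hv, h1⟩ := f.exists_Q_eq_of_two_le hW h 1
  obtain ⟨w, hw, h3⟩ := f.exists_Q_eq_of_two_le hW h ν
  have h4 : f.Q v ≠ 0 := h1 ▸ one_ne_zero
  have h5 : f.Q w ≠ 0 := fun H => hν (by rw [← h3, H]; exact IsSquare.zero)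
  have h6 : ∀ v ∈ W, Commute (f.refl v) g := fun v hv =>
    (mul_inv_eq_iff_eq_mul.1 ((f.conj_refl g v).trans (by rw [hg v hv, refl_smul _ hs]))).symm
  refine ⟨f.refl v * f.refl w, ((h6 v hv).mul_left (h6 w hw)).eq, ?_, ?_⟩
  · rw [map_mul, f.detHom_refl h4, f.detHom_refl h5]; simp
  · rw [map_mul, hf.spin_refl _ h4, hf.spin_refl _ h5, h1, h3, sqSign_one, one_mul, sqSign_eq_neg_one.2 hν]

/-- The eigenspaces of an involution. -/
theorem Nondeg.invol (hf : f.Nondeg) (h2 : (2 : F) ≠ 0) (h3 : 3 ≤ finrank F V) {g : f.Isom} (hg : g ^ 2 = 1) :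
    f.CS hf h2 g ∧ ∀ h : V ≃ₗ[F] V, (∀ v, h (g.1 v) = -g.1 (h v)) → ∀ m, finrank F V = 2 * m →
      (f.detHom g : F) = (-1) ^ m := by
  obtain ⟨W, k1, k2, k3, k4⟩ := hf.exists_peel (isSS_of_pow_eq_one (g := g.1) (n := 2) (by simpa using h2)
    (congrArg Subtype.val hg)) (a := 1) (by simp)
  have k5 : ∀ v, g.1 (g.1 v) = v := fun v => congrArg (fun x : f.Isom => x.1 v) ((sq g).symm.trans hg)
  have k6 : ∀ v, v ∈ f.perp W ↔ g.1 v = (-1 : F) • v := fun v => (k4 v).trans ⟨by rintro ⟨y, rfl⟩; simp [k5],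
    fun H => ⟨(-2 : F)⁻¹ • v, by
      rw [map_smul, H, one_smul, smul_smul, ← sub_smul, show (-2 : F)⁻¹ * -1 - (-2 : F)⁻¹ = 1 by field_simp; ring,
        one_smul]⟩⟩
  have k7 := Submodule.finrank_add_eq_of_isCompl (hf.isCompl_perp k1)
  refine ⟨?_, fun h hh m hm => ?_⟩
  · by_cases H : 2 ≤ finrank F W
    · exact cs_of_sub hf h2 k1 H one_ne_zero fun v => (k3 v).1
    · exact cs_of_sub hf h2 (by rw [hf.perp_perp]; exact k1.symm) (by omega) (by simp) fun v => (k6 v).1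
  · have k8 : W.map h.toLinearMap = f.perp W := Submodule.ext fun v => by
      obtain ⟨v, rfl⟩ := h.surjective v
      rw [Submodule.mem_map_equiv, h.symm_apply_apply, k3, k6, ← h.injective.eq_iff, hh]
      simp [neg_eq_iff_eq_neg]
    have k9 := h.finrank_map_eq W
    obtain ⟨e, e1, e2⟩ := hf.isoSim_res k1 k2
    rw [← show isomCongr e e1 (prodHom _ _ (res k2, res (f.stab_le_stab_perp W k2))) = g from
      f.isom_ext fun v => by simp [isomCongr_apply, e2], detHom_isomCongr, detHom_prodHom, Units.val_mul,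
      detHom_of_smul _ (g := res k2) (a := 1) fun v => Subtype.ext ((k3 _).1 v.2),
      detHom_of_smul _ (g := res (f.stab_le_stab_perp W k2)) (a := -1) fun v => Subtype.ext ((k6 _).1 v.2), one_pow, one_mul]
    congr 1
    rw [k8] at k9
    omega

end CA.CForm.Form

namespace CA.AutForm

open Subgroup CA.AutCorr CA.CForm CA.CForm.Form Module CA.AutPhi CA.AutGam
  CA.AutFld CA.AutLang CA.AutOut SemidirectProduct Matrix CA.Rcf

local notation "sc" => GeneralLinearGroup.scalar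
local notation "dt" => GeneralLinearGroup.det

variable {F : Type*} [Field F] [Finite F] {ι : Type} [Fintype ι] [DecidableEq ι] {f : Form (Kind.orth F) (ι → F)} {m : ℕ}

theorem isConjUnder_of_mul {X : Type*} [Group X] {I D : Subgroup X} {x y : X}
    (h : ∀ d ∈ D, ∃ c, Commute c x ∧ d * c⁻¹ ∈ I) (H : Cfsg.IsConjUnder D x y) : Cfsg.IsConjUnder I x y := by
  obtain ⟨d, hd, rfl⟩ := H
  obtain ⟨c, hc, h1⟩ := h d hd
  exact ⟨_, h1, by rw [mul_assoc d c⁻¹, hc.inv_left.eq]; group⟩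

theorem conj_aux {G : Type*} [Group G] {d e g h h' a : G} (hd : d ∈ center G) (he : e ∈ center G) (h1 : h'⁻¹ * g = d * a)
    (h2 : h * g * h⁻¹ = e * g) (h3 : h' = 1 ∨ h' = h) : h * a * h⁻¹ = e * a := by
  rw [← inv_mul_eq_iff_eq_mul.2 h1, ← mul_assoc h, mem_center_iff.1 (inv_mem hd) h, ← mul_assoc e, ← mem_center_iff.1 he,
    mul_assoc, mul_assoc, mul_assoc d⁻¹, mul_right_inj, ← mul_assoc e, ← mem_center_iff.1 he, mul_assoc _ e, ← h2]
  rcases h3 with rfl | rfl <;> group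

namespace BigE
variable (hf : BigE f m) (h2 : (2 : F) ≠ 0)
include hf h2

theorem dk_of_skew {T : End F (ι → F)} (hT : ∀ u v, f.B (T u) v = -f.B u (T v)) (hi : ∀ v, T v = 0 → v = 0)
    {g : Sim f} (hc : ∀ v, T (g.1.1 *ᵥ v) = g.1.1 *ᵥ T v) : hf.dk g = 1 := by
  obtain ⟨μ, hg⟩ := g.2
  have := ((eqv_tbS (B := (tbO f).compRight T) (m := m) (fun u hu => hi u (hf.nd _ fun v => by
    rw [hT, neg_eq_zero]; exact hu v)) (fun u => mul_left_cancel₀ h2 (by
      have := hT u u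
      rw [f.orth_symm] at this
      show 2 * f.B u (T u) = _
      linear_combination this)) ((finrank_fintype_fun_eq_card F).symm.trans hf.rank)).dt dt_tbS (Units.mk0 μ hg.ne) _).1
      ⟨g.1, fun u v => by
        show f.B (g.1.1 *ᵥ u) (T _) = _
        rw [hc, hg.B_inl]; rfl, rfl⟩
  exact hf.dk_of_det h2 hg (by simpa using congrArg Units.val (this.resolve_right (by simp)))

theorem exists_commute_SimP {a : f.Isom} (hs : IsSS (a.1 : End F (ι → F))) (ho : Odd (orderOf a)) {μ : F} (h0 : μ ≠ 0) :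
    ∃ d ∈ hf.SimP, SS f f (inl d) μ ∧ Commute d (toGL f a) := by
  obtain ⟨g, -, hg⟩ := hf.exists_dk_eq h0 1
  obtain ⟨a', h1⟩ : ∃ a', toGL f a' = g.1 * toGL f a * g.1⁻¹ := ⟨_, toGL_conj hg a⟩
  obtain ⟨c, hc⟩ := isConj_iff.1 (hf.nd.isConj_of_ss_odd (g' := a') hs ho (isConj_iff.2 ⟨glEquiv g.1,
    LinearEquiv.ext fun v => by rw [← toGL_mulVec, h1]; simp [glEquiv_apply, toGL_mulVec, ← map_inv, ← mulVec_mulVec]⟩))
  have h3 : SS f f (inl (toGL f c⁻¹ * g.1)) μ := by simpa using (ss_toGL c⁻¹).mul hg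
  have h4 : Commute (toGL f c⁻¹ * g.1) (toGL f a) := by
    rw [commute_iff_eq, mul_assoc, mul_inv_eq_iff_eq_mul.1 h1.symm, ← hc, ← mul_assoc, ← mul_assoc, ← map_mul, ← map_mul]
    congr 2; group
  by_cases h5 : hf.dk ⟨_, μ, h3⟩ = 1
  · exact ⟨_, hf.mem_SimP.2 h5, h3, h4⟩
  obtain ⟨W, k1, -, k2, -⟩ := hf.nd.exists_peel hs (a := 1) (by simp)
  obtain ⟨v, hv, k3⟩ : ∃ v ∈ W, f.Q v ≠ 0 := by
    by_contra! H
    refine h5 (hf.dk_of_skew h2 (T := (a.1 : End F (ι → F)) - (a⁻¹).1) (fun x y => ?_) (fun x hx => ?_) fun x => ?_)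
    · have k1 := f.B_coe_map a x ((a⁻¹).1 y)
      have k2 := f.B_coe_map a ((a⁻¹).1 x) y
      simp only [Subgroup.coe_inv, LinearEquiv.coe_inv, LinearEquiv.apply_symm_apply] at k1 k2
      simp [B_sub_left, k1, k2]
    · have k4 : x ∈ W := (k2 x).2 ((fix_of_odd ho 1 (show a.1 (a.1 x) = x by
        rw [show a.1 x = (a⁻¹).1 x from sub_eq_zero.1 hx]; exact a.1.apply_symm_apply x)).trans (one_smul F _).symm)
      exact Submodule.disjoint_def.1 k1 x k4 fun w hw => (orth_ts_iff.2 H).B_eq w hw x k4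
    · simp only [LinearMap.sub_apply, LinearEquiv.coe_coe, mulVec_sub, ← toGL_mulVec, mulVec_mulVec, ← Units.val_mul]
      rw [h4.eq, map_inv (toGL f) a, h4.inv_right.eq]
  refine ⟨toGL f (f.refl v) * _, hf.mem_SimP (g := ⟨_, toGL_mem_Sim _⟩ * ⟨_, μ, h3⟩) |>.2 ?_,
    by simpa using (ss_toGL (f.refl v)).mul h3, Commute.mul_left (Commute.map ?_ _) h4⟩
  · rw [map_mul, hf.dk_toGL, hf.nd.dick_refl _ k3, Int.units_ne_iff_eq_neg.1 h5]; simp
  · exact (mul_inv_eq_iff_eq_mul.1 ((f.conj_refl a v).trans (by rw [(k2 v).1 hv, one_smul]))).symm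

theorem classes_odd {x : MulAut (Cfsg.POmega F f.Q)} (hx : x ∈ Cfsg.pgoAut F f.Q) {r : ℕ} (hr : (r : F) ≠ 0) (hro : Odd r)
    (h1 : x ≠ 1) (hxr : x ^ r = 1) :
    (∀ y, (Cfsg.IsConjUnder (Cfsg.Inn _) x y ↔ Cfsg.IsConjUnder (hf.emb.im hf.SimP) x y) ∧
      (Cfsg.IsConjUnder (Cfsg.psoAut F f.Q) x y ↔ Cfsg.IsConjUnder (hf.emb.im hf.SimP) x y)) ∧
    ∀ y, Cfsg.IsConjUnder (Cfsg.poAut F f.Q) x y ↔ Cfsg.IsConjUnder (Cfsg.pgoAut F f.Q) x y := by
  haveI := hf.nonempty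
  have E := hf.emb
  rw [(pgoAut_eq E).2] at hx ⊢
  obtain ⟨g, ⟨μ, hg⟩, rfl⟩ := (E.mem_im le_rfl).1 hx
  obtain ⟨j, hj⟩ := hro
  obtain ⟨a, ha, k0⟩ : ∃ a : f.Isom, a ^ r = 1 ∧ E.Ph ⟨inl g, μ, hg⟩ = E.Ph ⟨inl (toGL f a), toGL_mem_Sim a⟩ := by
    rw [E.Ph_pow_eq_one_iff, ← map_pow, inl_mem_ZG, mem_center_iff_scalar] at hxr
    obtain ⟨c, hc⟩ := hxr
    have k1 := hg.pow r
    rw [← map_pow, ← hc] at k1
    have k2 := hf.mu_eq k1 (ss_scalar c)
    simp only [right_inl, nm, one_pow, RingAut.one_apply, MonoidHom.coe_mk, OneHom.coe_mk, Finset.prod_const,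
      Finset.card_range, hj, pow_succ, pow_mul'] at k2
    obtain ⟨d, a, -, rfl⟩ := exists_toGL_of_isSquare hg ((isSquare_mul_left_iff (IsSquare.sq _)
      (pow_ne_zero 2 (pow_ne_zero j hg.ne))).1 ⟨c, k2⟩)
    rw [(show Commute _ _ from (gl_scalar_comm d _).symm).mul_pow, ← map_pow, ← map_pow, ← mul_one (sc ι c),
      ← map_one (toGL f)] at hc
    have k3 := E.Ph_scalar_mul d ⟨inl (toGL f a), toGL_mem_Sim a⟩
    rcases hf.eq_or_of_sc hc with ⟨-, k4⟩ | ⟨-, k4⟩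
    · exact ⟨a, k4, by rw [← k3]; exact congrArg _ (Subtype.ext (map_mul _ _ _))⟩
    · refine ⟨negI f * a, ?_, ?_⟩
      · rw [(show Commute _ _ from negI_comm a).mul_pow, k4, mul_one, ← pow_succ, hj, show 2 * j + 1 + 1 = 2 * (j + 1) by ring,
          pow_mul, show negI f ^ 2 = 1 from f.isom_ext fun v => by simp [sq, negI_apply], one_pow]
      · refine (congrArg _ (Subtype.ext ?_)).trans (E.Ph_scalar_mul (-d) ⟨inl (toGL f (negI f * a)), toGL_mem_Sim _⟩)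
        show inl _ = inl _ * inl _
        rw [← map_mul, map_mul (toGL f), toGL_negI, ← mul_assoc, ← map_mul, neg_mul_neg, mul_one]
  rw [k0] at h1 ⊢
  have hs := isSS_of_pow_eq_one (g := a.1) hr (congrArg Subtype.val ha)
  have ho : Odd (orderOf a) := Odd.of_dvd_nat ⟨j, hj⟩ (orderOf_dvd_of_pow_eq_one ha)
  have hc : ∀ {d} (hd : d ∈ Sim f), Commute d (toGL f a) →
      Commute (E.Ph ⟨inl d, hd⟩) (E.Ph ⟨inl (toGL f a), toGL_mem_Sim a⟩) := fun hd h =>
    Commute.map (Subtype.ext (h.map inl).eq) _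
  have k1 : ∀ y, Cfsg.IsConjUnder (E.im hf.SimP) (E.Ph ⟨inl (toGL f a), toGL_mem_Sim a⟩) y →
      Cfsg.IsConjUnder (Cfsg.Inn _) (E.Ph ⟨inl (toGL f a), toGL_mem_Sim a⟩) y := fun y => isConjUnder_of_mul fun δ hδ => by
    let H := ((Cfsg.Inn _ ⊔ centralizer {E.Ph ⟨inl (toGL f a), toGL_mem_Sim a⟩}).comap (E.PhL le_rfl)).map (Sim f).subtype
    have k2 : ∀ {d} (hd : d ∈ Sim f), Commute d (toGL f a) → d ∈ H := fun hd h =>
      ⟨⟨_, hd⟩, mem_sup_right (mem_centralizer_singleton_iff.2 (hc hd h)), rfl⟩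
    obtain ⟨c, c1, c2, c3⟩ := hf.nd.cs_of_odd h2 hs ho (by rintro rfl; exact h1 (E.Ph_eq_one_iff _ |>.2 (by simp [one_mem])))
    obtain ⟨ν, hν⟩ := exists_not_isSquare h2
    obtain ⟨d, d1, d2, d3⟩ := hf.exists_commute_SimP h2 hs ho (μ := ν) (by rintro rfl; exact hν IsSquare.zero)
    obtain ⟨g, hg, rfl⟩ := (E.mem_im hf.SimP_le).1 hδ
    obtain ⟨g', k3, rfl⟩ := hf.SimP_le_of (H := H) (hf.SOZ_le_of (fun g hg => ⟨⟨g, hf.SimP_le (hf.N_le hg)⟩,
      mem_sup_left ((E.Ph_mem_inn _).2 ⟨rfl, hg⟩), rfl⟩) (.inr (.inr ⟨1, c, (hf.nd.dick_eq_one_iff_det _ h2 c).2 c2, c3,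
        by simpa using k2 (toGL_mem_Sim c) (Commute.map c1 _)⟩))) (.inr ⟨d, k2 ⟨_, d2⟩ d3, d1, ν, d2, hν⟩) hg
    obtain ⟨i, hi, c, hc, k4⟩ := mem_sup_of_normal_left.1 k3
    exact ⟨c, mem_centralizer_singleton_iff.1 hc, mul_inv_eq_iff_eq_mul.2 k4.symm ▸ hi⟩
  have mono : ∀ {I D : Subgroup (MulAut (Cfsg.POmega F f.Q))} {x y}, I ≤ D → Cfsg.IsConjUnder I x y →
    Cfsg.IsConjUnder D x y := fun h ⟨d, hd, H⟩ => ⟨d, h hd, H⟩
  have k2 : f.SIsom.map (toGL f) ≤ hf.SimP := le_sup_left.trans ((hf.SOZ_eq h2).ge.trans hf.SOZ_le)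
  rw [psoAut_eq E, poAut_eq E]
  refine ⟨fun y => ⟨⟨mono (hf.inn_eq.le.trans (E.im_mono hf.range_le)), k1 y⟩, mono (E.im_mono k2), fun H =>
    mono (hf.inn_eq.le.trans (E.im_mono (hf.range_jO.le.trans (map_mono ?_)))) (k1 y H)⟩,
    fun y => ⟨mono (E.im_mono range_toGL_le), isConjUnder_of_mul fun δ hδ => ?_⟩⟩
  · rw [SIsom]; exact Abelianization.commutator_subset_ker _
  · obtain ⟨g, ⟨ν, hg⟩, rfl⟩ := (E.mem_im le_rfl).1 hδ
    obtain ⟨d, -, d2, d3⟩ := hf.exists_commute_SimP h2 hs ho hg.ne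
    refine ⟨_, hc ⟨_, d2⟩ d3, ?_⟩
    rw [← map_inv, ← map_mul]
    exact (E.Ph_mem_im range_toGL_le _).2 ⟨by simp, mem_sup_left (mem_range_toGL.2 (by
      simpa [hg.ne] using hg.mul d2.inv))⟩

theorem graph_key {a : f.Isom} (ha : hf.dick a = -1) {h : GL ι F} {ν : F} (hh : SS f f (inl h) ν) {c : Fˣ}
    (hc : h * toGL f a * h⁻¹ = sc ι c * toGL f a) (H : hf.spin (negI f) = 1 ∨ (Even m ∧ a ^ 2 = 1)) : IsSquare ν := by
  obtain ⟨a', h1⟩ : ∃ a', toGL f a' = h * toGL f a * h⁻¹ := ⟨_, toGL_conj hh a⟩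
  have h3 := (hh.dick_spin hf.toBig hf.toBig (a := a) (a' := a') h1).2.2 ha
  rw [← sqSign_eq_one]
  rcases hf.eq_or_of_sc (c' := 1) (a' := a') (hc.symm.trans (by rw [← h1, map_one, one_mul])) with ⟨-, rfl⟩ | ⟨-, rfl⟩
  · exact (right_eq_mul.1 h3)
  rcases H with H | ⟨⟨k, hk⟩, H⟩
  · rwa [map_mul, H, eq_comm, mul_left_inj] at h3
  have h4 := (hf.nd.invol h2 (by have := hf.five; omega) H).2 (glEquiv h) (fun v => by
    have := congrArg (fun g : GL ι F => g.1 *ᵥ (h.1 *ᵥ v)) h1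
    rw [toGL_mulVec, mulVec_mulVec, ← Units.val_mul, inv_mul_cancel_right] at this
    rw [Units.val_mul h, ← mulVec_mulVec, toGL_mulVec] at this
    exact this.symm) m hf.rank
  rw [← hf.coe_dick, ha, hk, ← two_mul, pow_mul] at h4
  exact absurd (by simpa using h4) fun H : (-1 : F) = 1 => h2 (by linear_combination -H)

theorem exists_perp {g : GL ι F} {μ : F} (hg : SS f f (inl g) μ) (hμ : ¬IsSquare μ) (h1 : ∀ v, g.1 *ᵥ g.1 *ᵥ v = μ • v) :
    ∃ v, f.B v (g.1 *ᵥ v) = 0 ∧ f.Q v ≠ 0 := by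
  have hs : ∀ u v, f.B (g.1 *ᵥ u) v = f.B u (g.1 *ᵥ v) := fun u v => mul_left_cancel₀ hg.ne (by
    rw [← hg.B_inl u, h1, map_smul, smul_eq_mul])
  by_contra! H
  obtain ⟨w, h0, hw⟩ := (ofSymm h2 ((tbO f).compRight (toLin' g.1)) ⟨fun u v => (f.orth_symm _ _).trans (hs _ _)⟩).exists_singular'
    (by have := hf.five; omega)
  have h3 : f.B w (g.1 *ᵥ w) = 0 := by
    have := (orth_B_self _ w).trans (by rw [hw, mul_zero])
    exact this
  have h4 := H w h3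
  have h5 : ∀ x, f.B w x = 0 → f.B (g.1 *ᵥ w) x ≠ 0 → f.Q x = 0 := fun x k1 k2 => by
    have := H (x + (-f.B x (g.1 *ᵥ x) / (2 * f.B (g.1 *ᵥ w) x)) • w) (by
      simp only [mulVec_add, mulVec_smul, B_add_left, map_add, orth_B_smul_left, map_smul, smul_eq_mul, h3, ← hs w x,
        f.orth_symm (g.1 *ᵥ w) x]
      field_simp; ring)
    rwa [orth_Q_add, map_smul, f.orth_symm w x, k1, orth_Q_smul, h4, smul_zero, mul_zero, add_zero, add_zero] at this
  obtain ⟨y, hy⟩ : ∃ y, f.B w y = 1 := let ⟨y, hy⟩ := hf.nd.exists_B_ne_zero h0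
    ⟨(f.B w y)⁻¹ • y, by rw [map_smul, smul_eq_mul, inv_mul_cancel₀ hy]⟩
  obtain ⟨x, k1, k2⟩ : ∃ x, f.B w x = 0 ∧ f.B (g.1 *ᵥ w) x ≠ 0 := by
    by_contra! k1
    have k2 : g.1 *ᵥ w = f.B (g.1 *ᵥ w) y • w := hf.nd.eq_of_B_eq fun x => by
      have := k1 (x - f.B w x • y) (by simp [hy])
      rw [map_sub, map_smul, smul_eq_mul, sub_eq_zero] at this
      rw [this, orth_B_smul_left, mul_comm]
    have k3 := h1 w
    generalize f.B (g.1 *ᵥ w) y = t at k2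
    rw [k2, mulVec_smul, k2, smul_smul] at k3
    exact hμ ⟨_, (smul_left_injective F h0 k3).symm⟩
  have k3 : f.Q (g.1 *ᵥ w) = 0 := by rw [hg.Q_inl, h4, mul_zero]
  have k4 := h5 (x + g.1 *ᵥ w) (by rw [map_add, k1, h3, add_zero]) (by rwa [map_add, orth_B_self, k3, mul_zero, add_zero])
  rw [orth_Q_add, h5 x k1 k2, k3, f.orth_symm] at k4
  exact k2 (by simpa using k4)

theorem graph_sq {g : Sim f} (hg : hf.dk g = -1) (h1 : g.1 ^ 2 ∈ center (GL ι F)) {μ : F} (hμ : SS f f (inl g.1) μ)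
    (v : ι → F) : g.1.1 *ᵥ g.1.1 *ᵥ v = μ • v := by
  haveI := hf.nonempty
  obtain ⟨c, hc⟩ := mem_center_iff_scalar.1 h1
  have k2 : ∀ v, g.1.1 *ᵥ g.1.1 *ᵥ v = (c : F) • v := fun v => by rw [mulVec_mulVec, ← Units.val_mul, ← sq, ← hc, sc_mulVec]
  have k3 := hμ.mul hμ
  rw [← map_mul, ← sq, ← hc] at k3
  rcases mul_self_eq_mul_self_iff.1 (hf.mu_eq (ss_scalar c) k3) with k4 | k4
  · rw [k2, k4]
  · refine absurd (hf.dk_of_skew h2 (T := toLin' g.1.1) (fun u v => mul_left_cancel₀ hμ.ne ?_) (fun v hv => ?_)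
      fun v => rfl) (by rw [hg]; decide)
    · rw [mul_neg, toLin'_apply, toLin'_apply, ← hμ.B_inl u, k2, k4, map_smul]; simp
    · have := k2 v
      rw [show g.1.1 *ᵥ v = 0 from hv, mulVec_zero] at this
      exact (smul_eq_zero.1 this.symm).resolve_left c.ne_zero

theorem graph_cases {g : Sim f} (hg : hf.dk g = -1) (h1 : g.1 ^ 2 ∈ center (GL ι F)) :
    (∃ c : f.Isom, hf.dick c = 1 ∧ hf.spin c = -1 ∧ Commute (toGL f c) g.1) ∧ (hf.spin (negI f) = 1 ∨ Even m →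
      ∀ h ∈ hf.SimP, ∀ e, h * g.1 * h⁻¹ = sc ι e * g.1 → h ∈ hf.SOZ) := by
  obtain ⟨μ, hμ⟩ := g.2
  have k1 := hf.graph_sq h2 hg h1 hμ
  by_cases hsq : IsSquare μ
  · obtain ⟨d, a, k3, k4⟩ := exists_toGL_of_isSquare hμ hsq
    have k5 : a ^ 2 = 1 := f.isom_ext fun v => by
      have := k1 v
      rw [k4, Units.val_mul, ← mulVec_mulVec, ← mulVec_mulVec, sc_mulVec, sc_mulVec, mulVec_smul, toGL_mulVec, toGL_mulVec,
        smul_smul, k3] at this
      exact (congrArg (fun x : f.Isom => x.1 v) (sq a)).trans (smul_right_injective _ (k3 ▸ hμ.ne) this)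
    obtain ⟨b, b1, b2, b3⟩ := (hf.nd.invol h2 (by have := hf.five; omega) k5).1
    refine ⟨⟨b, (hf.nd.dick_eq_one_iff_det _ h2 b).2 b2, b3, ?_⟩, fun H h hh e he => ?_⟩
    · rw [k4]; exact Commute.mul_right (gl_scalar_comm d _) (Commute.map b1 _)
    obtain ⟨ν, hν⟩ := hf.SimP_le hh
    exact hf.mem_SOZ_of hh hν (hf.graph_key h2 ((hf.dk_eq k4).symm.trans hg) hν (c := e)
      (conj_aux (h' := 1) (scalar_mem_center d) (scalar_mem_center e) (by rw [← k4, inv_one, one_mul]) he (.inl rfl))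
      (H.imp_right (⟨·, k5⟩)))
  obtain ⟨v, k3, k4⟩ := hf.exists_perp h2 hμ hsq k1
  have k5 : f.Q (g.1.1 *ᵥ v) ≠ 0 := by rw [hμ.Q_inl]; exact mul_ne_zero hμ.ne k4
  have k6 : ∀ w, g.1 * toGL f (f.refl w) = toGL f (f.refl (g.1.1 *ᵥ w)) * g.1 := fun w =>
    mul_inv_eq_iff_eq_mul.1 ((toGL_conj hμ (f.refl w)).symm.trans (congrArg (toGL f) (SemiSim.conj_refl hμ w)))
  refine ⟨⟨f.refl v * f.refl (g.1.1 *ᵥ v), ?_, ?_, ?_⟩, fun H h hh e he => ?_⟩
  · rw [map_mul, hf.nd.dick_refl _ k4, hf.nd.dick_refl _ k5]; simp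
  · rw [map_mul, hf.nd.spin_refl _ k4, hf.nd.spin_refl _ k5, hμ.Q_inl, sqSign_mul hμ.ne k4, mul_left_comm,
      Int.units_mul_self, mul_one, sqSign_eq_neg_one.2 hsq]
  · rw [commute_iff_eq, map_mul, ← mul_assoc, k6, mul_assoc _ g.1, k6, k1, refl_smul _ hμ.ne, ← mul_assoc, ← map_mul,
      ← map_mul, mul_inv_eq_iff_eq_mul.1 (f.conj_refl (f.refl v) _), refl_apply_of_B _ k3]
  obtain ⟨ν, hν⟩ := hf.SimP_le hh
  by_contra k7
  have k8 : ¬IsSquare ν := mt (hf.mem_SOZ_of hh hν) k7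
  have k11 := hν.inv.mul hμ
  rw [← map_inv, ← map_mul] at k11
  obtain ⟨d, a, -, k9⟩ := exists_toGL_of_isSquare k11 (by
    simpa [show (RingEquiv.symm 1 : RingAut F) ν = ν from rfl] using (sqSign_eq_iff (inv_ne_zero hν.ne) hμ.ne).1 (by
      rw [sqSign_eq_neg_one.2 hsq, sqSign_eq_neg_one.2 (mt isSquare_inv.1 k8)]))
  have k10 : hf.dick a = -1 := by
    rw [← hf.dk_eq (g := (⟨h, ν, hν⟩ : Sim f)⁻¹ * g) k9, map_mul, map_inv, (hf.mem_SimP (g := ⟨h, ν, hν⟩)).1 hh, hg]; simp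
  refine k8 (hf.graph_key h2 k10 hν (c := e) (conj_aux (scalar_mem_center d) (scalar_mem_center e) k9 he (.inr rfl))
    (.inl (H.resolve_right fun hm => ?_)))
  obtain ⟨b, b1, -, b2⟩ := hf.sq_eq h2 hμ
  have b3 : b = 1 := f.isom_ext fun v => smul_right_injective _ hμ.ne (by
    have := k1 v
    rwa [mulVec_mulVec, ← Units.val_mul, b1, Units.val_mul, ← mulVec_mulVec, sc_mulVec, toGL_mulVec] at this)
  rw [b3, map_one, hg, hm.neg_one_pow, if_neg (by decide), sqSign_eq_neg_one.2 hsq] at b2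
  exact absurd b2 (by decide)

theorem split_graph {x : Gam f} (hx : x.1.right = 1) (h1 : hf.emb.Ph x ∉ hf.emb.im hf.SimP) (ho : orderOf (hf.emb.Ph x) = 2) :
    (Cfsg.splitClassCount (hf.emb.im hf.SimP) (Cfsg.Inn _) (hf.emb.Ph x) = 1 ∨
      Cfsg.splitClassCount (hf.emb.im hf.SimP) (Cfsg.Inn _) (hf.emb.Ph x) = 2) ∧ (hf.spin (negI f) = 1 ∨ Even m →
      Cfsg.splitClassCount (hf.emb.im hf.SimP) (Cfsg.Inn _) (hf.emb.Ph x) = 2) := by
  have E := hf.emb
  obtain ⟨g, rfl, -⟩ := exists_inlG hx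
  obtain ⟨⟨c, c1, c2, c3⟩, h3⟩ := hf.graph_cases h2 (g := g) (Int.units_ne_iff_eq_neg.1 fun H => h1
    ((E.Ph_mem_im hf.SimP_le (inlG f g)).2 ⟨rfl, mem_sup_left (hf.mem_SimP.2 H)⟩)) (by
      rw [← inl_mem_ZG (act := fldAct ι F), map_pow]
      exact (E.Ph_pow_eq_one_iff (inlG f g) 2).1 (orderOf_dvd_iff_pow_eq_one.1 ho.dvd))
  let K := ((centralizer {E.Ph (inlG f g)}).comap (E.PhL hf.SimP_le)).map hf.SimP.subtype
  have hK : ∀ h ∈ hf.SimP, h ∈ K ↔ h⁻¹ * (g.1 * h * g.1⁻¹) ∈ center (GL ι F) := fun h hh =>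
    (mem_map_iff_mem (x := (⟨h, hh⟩ : hf.SimP)) Subtype.val_injective).trans
      ((E.frame hf.SimP_le _ (hf.conj_mem (inlG f g).2)).cent_iff ⟨h, hh⟩)
  rw [E.split_eq' (K := K) hf.SimP_le _ (hf.conj_mem (inlG f g).2) (map_subtype_le _) (fun h hh => (hK h hh).symm.trans
    ⟨fun H => ⟨1, by simpa using H⟩, fun ⟨d, H⟩ => (mul_mem_cancel_left ((hK _ (hf.center_le (scalar_mem_center d))).2 (by
      rw [gl_scalar_comm, mul_inv_cancel_right, inv_mul_cancel]; exact one_mem _))).1 H⟩) hf.N_le]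
  have h4 : hf.SOZ ≤ (jO f.Q).range ⊔ center (GL ι F) ⊔ K := hf.SOZ_le_of le_sup_left (.inr (.inr ⟨1, c, c1, c2,
    mem_sup_right ((hK _ (hf.sc_mul_mem_SimP.2 c1)).2 (by
      rw [map_one, one_mul, ← c3.eq, mul_inv_cancel_right, inv_mul_cancel]; exact one_mem _))⟩))
  refine ⟨(Nat.dvd_prime Nat.prime_two).1 (hf.relIndex_SOZ h2 ▸ relIndex_dvd_of_le_left _ h4), fun H => ?_⟩
  rw [← hf.relIndex_SOZ h2, le_antisymm (sup_le hf.N_le_SOZ fun h hh => ?_) h4]
  obtain ⟨e, he⟩ := inv_mul_mem_center.1 ((hK h (map_subtype_le _ hh)).1 hh)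
  exact h3 H h (map_subtype_le _ hh) e⁻¹ (by rw [map_inv, eq_inv_mul_iff_mul_eq, ← mul_assoc, ← mul_assoc, he]; group)

omit h2 in
theorem isIndex_of_even {x : Gam f} (h2 : (2 : F) ≠ 0) (he : Even (orderOf x.1.right))
    (h1 : hf.emb.Ph x ^ orderOf x.1.right = 1) : f.IsIndex m := by
  obtain ⟨f₀, b, -, l, hl⟩ := hf.exists_desc hf.emb (fixF_range x.1.right) h1
  rw [hf.nd.isIndex_iff_isSquare h2 hf.rank, ← f.isSquare_mul_det_gram_iff ((Pi.basisFun F ι).map (glEquiv b)),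
    show f.gram ((Pi.basisFun F ι).map (glEquiv b)) = l • (fixF x.1.right).subtype.mapMatrix (f₀.gram (Pi.basisFun _ ι)) from
      Matrix.ext fun j k => by
        have := hl.B (Pi.single j 1) (Pi.single k 1)
        rw [up_single, up_single] at this
        simpa [Form.gram_apply, glEquiv_apply] using this, det_smul, ← RingHom.map_det, mul_left_comm,
    ← finrank_fintype_fun_eq_card F, hf.rank]
  exact (Even.isSquare_pow (even_two_mul m) _).mul (isSquare_of_fix he (by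
    rw [map_mul, map_pow, map_neg, map_one]; exact congrArg _ ((fixF_range _ _).1 ⟨_, rfl⟩)))

end BigE

end CA.AutForm
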