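import Cfsg.Agent.Lib.Lin.MaxBase
import Cfsg.Agent.Lib.Lin.AutForm1

/-! Counting tools for the minimal degrees of the classical groups. -/

set_option autoImplicit false
set_option linter.unusedSectionVars false

namespace CA.Coop

open MulAction Module CA.CForm CA.CForm.Form Set

theorem dc {α β : Type*} [Finite α] [Finite β] (A : Set α) (B : Set β) (r : α → β → Prop) {m n : ℕ}
    (hm : ∀ a ∈ A, m ≤ {b ∈ B | r a b}.ncard) (hn : ∀ b ∈ B, {a ∈ A | r a b}.ncard ≤ n) :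
    A.ncard * m ≤ B.ncard * n := by
  classical
  have := Fintype.ofFinite α
  have := Fintype.ofFinite β
  rw [ncard_eq_toFinset_card' A, ncard_eq_toFinset_card' B]
  refine Finset.card_mul_le_card_mul r (fun a ha => (hm a (mem_toFinset.1 ha)).trans_eq ?_)
    fun b hb => le_of_eq_of_le ?_ (hn b (mem_toFinset.1 hb))
  · rw [ncard_eq_toFinset_card']; congr 1; ext; simp
  · rw [ncard_eq_toFinset_card']; congr 1; ext; simp

section orb
variable {G Y Ω : Type*} [Group G] [MulAction G Y] [MulAction G Ω]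

/-- The orbit of `y` under the subgroup `Γ`. -/
def O (Γ : Subgroup G) (y : Y) : Set Y := {y' | ∃ g ∈ Γ, g • y = y'}

theorem mem_O {Γ : Subgroup G} {g : G} (hg : g ∈ Γ) (y : Y) : g • y ∈ O Γ y := ⟨g, hg, rfl⟩
theorem self_mem_O (Γ : Subgroup G) (y : Y) : y ∈ O Γ y := ⟨1, Γ.one_mem, one_smul _ _⟩
theorem smul_mem_O {Γ : Subgroup G} {g : G} (hg : g ∈ Γ) {y y' : Y} (h : y' ∈ O Γ y) : g • y' ∈ O Γ y := by
  obtain ⟨a, ha, rfl⟩ := h
  exact ⟨g * a, Γ.mul_mem hg ha, mul_smul _ _ _⟩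
theorem O_mono {Γ Γ' : Subgroup G} (h : Γ ≤ Γ') {y y' : Y} (h' : y' ∈ O Γ' y) : O Γ y' ⊆ O Γ' y := by
  rintro _ ⟨a, ha, rfl⟩
  exact smul_mem_O (h ha) h'
theorem O_eq {Γ : Subgroup G} {y y' : Y} (h : y' ∈ O Γ y) : O Γ y' = O Γ y := by
  refine (O_mono le_rfl h).antisymm (O_mono le_rfl ?_)
  obtain ⟨a, ha, rfl⟩ := h
  exact ⟨a⁻¹, Γ.inv_mem ha, inv_smul_smul _ _⟩

theorem ncard_O (Γ : Subgroup G) (y : Y) : (O Γ y).ncard = (stabilizer G y).relIndex Γ := by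
  rw [Subgroup.relIndex, show (stabilizer G y).subgroupOf Γ = stabilizer Γ y from rfl, index_stabilizer]
  congr 1
  ext y'
  exact ⟨fun ⟨g, hg, e⟩ => ⟨⟨g, hg⟩, e⟩, fun ⟨g, e⟩ => ⟨g, g.2, e⟩⟩

theorem orb_mul (Γ : Subgroup G) (y : Y) (ω : Ω) :
    (O Γ y).ncard * (O (stabilizer G y ⊓ Γ) ω).ncard = (O Γ ω).ncard * (O (stabilizer G ω ⊓ Γ) y).ncard := by
  simp only [ncard_O]
  rw [mul_comm, Subgroup.relIndex_inf_mul_relIndex, mul_comm, Subgroup.relIndex_inf_mul_relIndex, inf_comm]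

theorem ncard_O_mul (Γ : Subgroup G) (y : Y) :
    (O Γ y).ncard * Nat.card (stabilizer G y ⊓ Γ : Subgroup G) = Nat.card Γ := by
  rw [ncard_O, mul_comm, ← Subgroup.inf_relIndex_right, Subgroup.relIndex,
    ← Nat.card_congr (Subgroup.subgroupOfEquivOfLe (inf_le_right : stabilizer G y ⊓ Γ ≤ Γ)).toEquiv,
    Subgroup.card_mul_index]

theorem ncard_O_pos [Finite Y] (Γ : Subgroup G) (y : Y) : 0 < (O Γ y).ncard :=
  (ncard_pos (toFinite _)).2 ⟨y, self_mem_O Γ y⟩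

theorem ncard_le_of_smul [Finite Y] {A B : Set Y} (g : G) (h : ∀ y ∈ A, g • y ∈ B) : A.ncard ≤ B.ncard :=
  ncard_le_ncard_of_injOn (g • ·) h (MulAction.injective g).injOn

theorem cover {α : Type*} [Finite Y] [Finite α] (A : Set α) (Y₀ Y' : Set Y) (I : α → Y → Prop) {n : ℕ}
    (h : ∀ a ∈ A, ∃ g : G, ∀ y ∈ Y₀, g • y ∈ Y' ∧ I a (g • y)) (hn : ∀ y ∈ Y', {a ∈ A | I a y}.ncard ≤ n) :
    A.ncard * Y₀.ncard ≤ Y'.ncard * n :=
  dc A Y' I (fun a ha => (h a ha).elim fun g hg => ncard_le_of_smul g hg) hn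

theorem exists_fixed [Finite Y] {r i : ℕ} (hr : r.Prime) {g : G} (hg : g ^ r ^ i = 1) {B : Set Y}
    (hB : ∀ y ∈ B, g • y ∈ B) (h : ¬ r ∣ B.ncard) : ∃ y ∈ B, g • y = y := by
  classical
  have := Fact.mk hr
  have := Fintype.ofFinite B
  let σ : Equiv.Perm B := Equiv.ofBijective (fun y => ⟨g • y.1, hB _ y.2⟩) (Finite.injective_iff_bijective.1
    fun a b e => Subtype.ext (MulAction.injective g (congrArg Subtype.val e)))
  have e : ∀ n (y : B), ((σ ^ n) y).1 = g ^ n • y.1 := fun n => by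
    induction n with
    | zero => simp
    | succ n ih => intro y; rw [pow_succ, pow_succ, Equiv.Perm.mul_apply, ih, mul_smul]; rfl
  obtain ⟨y, hy⟩ := Equiv.Perm.exists_fixed_point_of_prime (p := r) (n := i) (σ := σ)
    (by rwa [← Nat.card_eq_fintype_card, Nat.card_coe_set_eq]) (Equiv.ext fun y => Subtype.ext (by rw [e, hg, one_smul]; rfl))
  exact ⟨y, y.2, congrArg Subtype.val hy⟩

end orb

variable {F : Type*} [Field F] {k : Kind F} {V : Type*} [AddCommGroup V] [Module F V] {f : Form k V}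
  {Y : Type*} [MulAction f.Isom Y]

local notation:75 g:76 " ⊳ " v:75 => (g : V ≃ₗ[F] V) v

/-- The level of the stabiliser of `y` at `x`. -/
def W {x : V} (hx : f.Q x = 0) (y : Y) : AddSubgroup V where
  carrier := {w | f.Lev (stabilizer f.Isom y) x w}
  zero_mem' := lev_zero hx
  add_mem' := Lev.add
  neg_mem' := Lev.neg

/-- The transvections with centre `x` fixing `y`. -/
def R {x : V} (hx : f.Q x = 0) (y : Y) : AddSubgroup F where
  carrier := {c | ∃ h, f.eichler x 0 c h • y = y}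
  zero_mem' := ⟨f.eichlerCond_zero hx (map_zero _), by rw [eichler_zero, one_smul]⟩
  add_mem' := fun ⟨h, e⟩ ⟨h', e'⟩ => ⟨f.eichlerCond_zero hx (by rw [map_add, h.π_eq_zero, h'.π_eq_zero, add_zero]), by
    rw [← f.eichler_congr (h.add h') _ rfl (add_zero _) (by simp), ← f.eichler_mul h h', mul_smul, e', e]⟩
  neg_mem' := fun {c} ⟨h, e⟩ => ⟨f.eichlerCond_zero hx (by rw [map_neg, h.π_eq_zero, neg_zero]), by
    rw [← f.eichler_congr h.neg _ rfl neg_zero (by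
      have := h.B_ww; rw [map_zero] at this; linear_combination -this), ← f.eichler_inv h, inv_smul_eq_iff, e]⟩

variable {x : V} {hx : f.Q x = 0} {y : Y}

theorem mem_W {w : V} : w ∈ W hx y ↔ ∃ c h, f.eichler x w c h • y = y := Iff.rfl
theorem mem_R {c : F} : c ∈ R hx y ↔ ∃ h, f.eichler x 0 c h • y = y := Iff.rfl
theorem W_perp {w : V} (h : w ∈ W hx y) : f.B x w = 0 := Lev.B_eq h
theorem smul_mem_W (a : F) : a • x ∈ W hx y := lev_smul_self hx a
theorem R_le : R hx y ≤ k.π.ker := fun _ ⟨h, _⟩ => h.π_eq_zero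

theorem fix_mov {w : V} {c : F} {h : f.EichlerCond x w c} (e : f.eichler x w c h • y = y) (g : f.Isom) :
    ∃ h', f.eichler (g ⊳ x) (g ⊳ w) c h' • g • y = g • y :=
  ⟨_, by rw [← f.conj_eichler g x w c h, mul_smul, inv_smul_smul, mul_smul, e]⟩

theorem fix_map {w : V} {c : F} {h : f.EichlerCond x w c} (e : f.eichler x w c h • y = y) {g : f.Isom} {x' : V} {a : F}
    (ha : a ≠ 0) (hg : g ⊳ x = a • x') : ∃ h', f.eichler x' (k.σ a • g ⊳ w) (a * k.σ a * c) h' • g • y = g • y := by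
  obtain ⟨h', e'⟩ := fix_mov e g
  have h1 := h'.B_pw
  have h2 := h'.Q_p
  rw [hg, B_smul_left, mul_eq_zero, k.σ_eq_zero] at h1
  rw [hg, f.Q_smul, mul_eq_zero, mul_eq_zero, k.σ_eq_zero, or_self] at h2
  have h3 : f.EichlerCond x' (k.σ a • g ⊳ w) (a * k.σ a * c) :=
    ⟨h2.resolve_left ha, by rw [map_smul, h1.resolve_left ha, smul_zero], by rw [k.π_norm, h'.π_c, f.Q_smul, k.σσ]; ring⟩
  exact ⟨h3, by rw [← f.eichler_smul x' _ a c (hg ▸ h') h3, ← f.eichler_congr h' _ hg rfl rfl, e']⟩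

theorem W_map {w : V} (h : w ∈ W hx y) {g : f.Isom} {x' : V} (hx' : f.Q x' = 0) {a : F} (ha : a ≠ 0)
    (hg : g ⊳ x = a • x') : k.σ a • g ⊳ w ∈ W hx' (g • y) :=
  let ⟨_, _, e⟩ := h; ⟨_, fix_map e ha hg⟩

theorem W_mov {w : V} (h : w ∈ W hx y) {g : f.Isom} {x' : V} (hx' : f.Q x' = 0) (hg : g ⊳ x = x') :
    g ⊳ w ∈ W hx' (g • y) := by
  simpa using W_map h hx' one_ne_zero (g := g) (by rw [hg, one_smul])

theorem R_map {c : F} (h : c ∈ R hx y) {g : f.Isom} {x' : V} (hx' : f.Q x' = 0) {a : F} (ha : a ≠ 0)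
    (hg : g ⊳ x = a • x') : a * k.σ a * c ∈ R hx' (g • y) := by
  obtain ⟨_, e⟩ := h
  obtain ⟨h', e'⟩ := fix_map e ha hg
  exact ⟨by simpa using h', by rw [← f.eichler_congr h' _ rfl (by simp) rfl, e']⟩

theorem inv_apply {g : f.Isom} {x' : V} {a : F} (ha : a ≠ 0) (hg : g ⊳ x = a • x') : (g⁻¹ : f.Isom) ⊳ x' = a⁻¹ • x := by
  rw [← isom_inv_apply_apply f g x, hg, map_smul, smul_smul, inv_mul_cancel₀ ha, one_smul]

theorem R_map_iff {c : F} {g : f.Isom} {x' : V} (hx' : f.Q x' = 0) {a : F} (ha : a ≠ 0)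
    (hg : g ⊳ x = a • x') : a * k.σ a * c ∈ R hx' (g • y) ↔ c ∈ R hx y := by
  refine ⟨fun h => ?_, fun h => R_map h hx' ha hg⟩
  have := R_map h hx (inv_ne_zero ha) (inv_apply ha hg)
  have h2 := k.σ_eq_zero.not.2 ha
  rwa [inv_smul_smul, map_inv₀, show a⁻¹ * (k.σ a)⁻¹ * (a * k.σ a * c) = c by field_simp] at this

theorem W_map_iff {w : V} {g : f.Isom} {x' : V} (hx' : f.Q x' = 0) {a : F} (ha : a ≠ 0)
    (hg : g ⊳ x = a • x') : k.σ a • g ⊳ w ∈ W hx' (g • y) ↔ w ∈ W hx y := by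
  refine ⟨fun h => ?_, fun h => W_map h hx' ha hg⟩
  have := W_map h hx (inv_ne_zero ha) (inv_apply ha hg)
  rwa [inv_smul_smul, map_smul, isom_inv_apply_apply, smul_smul, ← map_mul, inv_mul_cancel₀ ha, map_one, one_smul] at this

theorem R_mov {g : f.Isom} {x' : V} (hx' : f.Q x' = 0) (hg : g ⊳ x = x') : R hx' (g • y) = R hx y := by
  ext c
  simpa using R_map_iff (hx := hx) (c := c) (y := y) hx' one_ne_zero (g := g) (by rw [hg, one_smul])

theorem W_mov_iff {w : V} {g : f.Isom} {x' : V} (hx' : f.Q x' = 0) (hg : g ⊳ x = x') :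
    g ⊳ w ∈ W hx' (g • y) ↔ w ∈ W hx y := by
  simpa using W_map_iff (hx := hx) (w := w) (y := y) hx' one_ne_zero (g := g) (by rw [hg, one_smul])

theorem card_W_map {g : f.Isom} {x' : V} (hx' : f.Q x' = 0) {a : F} (ha : a ≠ 0) (hg : g ⊳ x = a • x') :
    Nat.card (W hx' (g • y)) = Nat.card (W hx y) :=
  (Nat.card_congr ((((g : V ≃ₗ[F] V).trans (LinearEquiv.smulOfNeZero F V _ (k.σ_eq_zero.not.2 ha))).toEquiv).subtypeEquiv
    fun _ => (W_map_iff hx' ha hg).symm)).symm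

theorem card_R_map {g : f.Isom} {x' : V} (hx' : f.Q x' = 0) {a : F} (ha : a ≠ 0) (hg : g ⊳ x = a • x') :
    Nat.card (R hx' (g • y)) = Nat.card (R hx y) :=
  (Nat.card_congr ((Equiv.mulLeft₀ _ (mul_ne_zero ha (k.σ_eq_zero.not.2 ha))).subtypeEquiv
    fun _ => (R_map_iff hx' ha hg).symm)).symm

theorem W_Q {g : f.Isom} (hg : g ∈ f.Qgrp x) : W hx (g • y) = W hx y := by
  have : ∀ {g : f.Isom} {y : Y}, g ∈ f.Qgrp x → W hx y ≤ W hx (g • y) := fun {g y} hg w hw => by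
    have := W_mov hw hx (f.apply_of_mem_Qgrp hg)
    obtain ⟨u, c, h, rfl⟩ := (mem_Qgrp hx).1 hg
    rw [eichler_apply_of_B _ _ _ _ _ (W_perp hw)] at this
    simpa using add_mem this (smul_mem_W (k.ε * f.B u w))
  exact (le_of_le_of_eq (this (inv_mem hg)) (by rw [inv_smul_smul])).antisymm (this hg)

theorem sub_mem_R {w : V} {c c' : F} {h : f.EichlerCond x w c} {h' : f.EichlerCond x w c'} (e : f.eichler x w c h • y = y)
    (e' : f.eichler x w c' h' • y = y) : c - c' ∈ R hx y :=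
  ⟨f.eichlerCond_zero hx (by rw [map_sub, h.π_c, h'.π_c, sub_self]), by
    rw [← f.eichler_congr (h.add h'.neg) _ rfl (add_neg_cancel _) (by
      rw [map_neg, h'.B_ww]; ring), ← f.eichler_mul h h'.neg, ← f.eichler_inv h', mul_smul, inv_smul_eq_iff.2 e'.symm, e]⟩

theorem fix_add_R {w : V} {c d : F} {h : f.EichlerCond x w c} (e : f.eichler x w c h • y = y) (hd : d ∈ R hx y) :
    ∃ h', f.eichler x w (c + d) h' • y = y := by
  obtain ⟨h', e'⟩ := hd
  exact ⟨by simpa using h.add h', by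
    rw [← f.eichler_congr (h.add h') _ rfl (add_zero _) (by simp), ← f.eichler_mul h h', mul_smul, e', e]⟩

theorem comm_mem_R {w w' : V} (h : w ∈ W hx y) (h' : w' ∈ W hx y) : f.B w w' - f.B w' w ∈ R hx y := by
  obtain ⟨c, h, e⟩ := h
  obtain ⟨c', h', e'⟩ := h'
  refine ⟨f.eichlerCond_zero hx (by rw [map_sub, f.π_B_symm, sub_self]), ?_⟩
  rw [← f.commutator_eichler h h']
  have a : _ ∈ stabilizer f.Isom y := e
  have b : _ ∈ stabilizer f.Isom y := e'
  exact mul_mem (mul_mem (mul_mem a b) (inv_mem a)) (inv_mem b)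

theorem Q_le_of (h1 : ∀ w, f.B x w = 0 → w ∈ W hx y) (h2 : k.π.ker ≤ R hx y) : f.Qgrp x ≤ stabilizer f.Isom y :=
  Qgrp_le_of_lev (f.Tgrp_le fun _ h => (h2 h.π_eq_zero).2) h1

variable [Finite F] [FiniteDimensional F V] (hf : f.Nondeg) (h0 : x ≠ 0)

include hf h0

theorem card_perp : Nat.card (f.perp (F ∙ x)) = Nat.card F ^ (finrank F V - 1) := by
  have := hf.finrank_perp (F ∙ x)
  rw [finrank_span_singleton h0] at this
  rw [Module.natCard_eq_pow_finrank (K := F), ← this, Nat.add_sub_cancel_left]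

theorem orbQ [Finite Y] (hx : f.Q x = 0) (y : Y) : Nat.card F ^ (finrank F V - 1) * Nat.card k.π.ker ≤
    (O (f.Qgrp x) y).ncard * (Nat.card (W hx y) * Nat.card (R hx y)) := by
  have : Finite V := Module.finite_of_finite F
  let T : Set (V × F) := {p | ∃ h, f.eichler x p.1 p.2 h • y = y}
  have h1 : T.ncard * 1 ≤ (W hx y : Set V).ncard * Nat.card (R hx y) :=
    dc T _ (fun p w => p.1 = w) (fun p hp => (ncard_pos (toFinite _)).2 ⟨p.1, ⟨_, hp⟩, rfl⟩) fun w ⟨c, h, e⟩ =>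
      ncard_le_ncard_of_injOn (t := (R hx y : Set F)) (fun p => p.2 - c)
        (by rintro ⟨_, c'⟩ ⟨⟨h', e'⟩, rfl⟩; exact sub_mem_R e' e)
        (fun p hp p' hp' e => Prod.ext (hp.2.trans hp'.2.symm) (sub_left_injective e))
  have h2 : ((stabilizer f.Isom y ⊓ f.Qgrp x : Subgroup _) : Set f.Isom).ncard * Nat.card F ≤ T.ncard * 1 := by
    refine dc _ T (fun g p => ∃ h, g = f.eichler x p.1 p.2 h) (fun g hg => ?_) fun p _ =>
      (ncard_le_one (toFinite _)).2 fun a ⟨_, _, e⟩ b ⟨_, _, e'⟩ => e.trans e'.symm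
    obtain ⟨w, c, h, rfl⟩ := (mem_Qgrp hx).1 hg.2
    rw [← ncard_univ]
    refine ncard_le_ncard_of_injOn (fun a => (w + a • x, c + k.ε * a - k.σ a)) (fun a _ => ?_) fun a _ b _ e =>
      smul_left_injective F h0 (add_left_cancel (congrArg Prod.fst e))
    have h' : f.EichlerCond x (w + a • x) (c + k.ε * a - k.σ a) := by
      refine ⟨hx, by simp [h.B_pw, f.B_self_of_Q hx], ?_⟩
      have := k.π_conj (k.ε * a)
      rw [map_mul k.σ, k.σε, ← mul_assoc, k.εε, one_mul] at this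
      rw [map_sub, map_add, this, add_sub_cancel_right, f.Q_add_smul_of_Q hx, f.eq_zero_symm h.B_pw, h.π_c]
      simp
    exact ⟨⟨h', by rw [f.eichler_add_smul h a h']; exact hg.1⟩, h', (f.eichler_add_smul h a h').symm⟩
  obtain ⟨z, hz⟩ := hf.exists_isHyp hx h0
  have := hz.finrank_perp
  rw [show finrank F V - 1 = finrank F V - 2 + 1 by omega, pow_succ, mul_right_comm, ← CA.AutForm.card_Qgrp hf hx h0,
    ← ncard_O_mul _ y, mul_assoc]
  exact Nat.mul_le_mul_left _ (h2.trans h1)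

theorem not_dvd_orbQ [Finite Y] (hx : f.Q x = 0) (y : Y) {r : ℕ} (hr : r.Prime) (h : (r : F) ≠ 0) :
    ¬ r ∣ (O (f.Qgrp x) y).ncard := fun hd => by
  have := Fact.mk (CharP.char_is_prime F (ringChar F))
  obtain ⟨j, hj⟩ := (CA.AutForm.Qgrp_isPGroup (p := ringChar F) hf hx h0).exists_card_eq
  rw [← ncard_O_mul _ y] at hj
  have := (Nat.prime_dvd_prime_iff_eq hr this.out).1 (hr.dvd_of_dvd_pow (hj ▸ hd.mul_right _))
  exact h (this ▸ ringChar.Nat.cast_ringChar)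

omit hf h0 in
variable (f) in
/-- The annihilator of `A` in `x^⊥` with respect to `ψ ∘ B`. -/
def U (ψ : AddChar F ℂ) (x : V) (A : AddSubgroup V) : AddSubgroup V where
  carrier := {u | f.B x u = 0 ∧ ∀ w ∈ A, ψ (f.B u w) = 1}
  zero_mem' := by simp
  add_mem' := fun h h' => ⟨by simp [h.1, h'.1], fun w hw => by simp [AddChar.map_add_eq_mul, h.2 w hw, h'.2 w hw]⟩
  neg_mem' := fun h => ⟨by simp [h.1], fun w hw => by simp [AddChar.map_neg_eq_inv, h.2 w hw]⟩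

theorem card_U {ψ : AddChar F ℂ} (hψ : ψ ≠ 0) {A : AddSubgroup V} (h2 : ∀ a : F, a • x ∈ A) :
    Nat.card (U f ψ x A) * Nat.card A = Nat.card F * Nat.card F ^ (finrank F V - 1) := by
  classical
  have : Finite V := Module.finite_of_finite F
  have := Fintype.ofFinite A
  have := Fintype.ofFinite (f.perp (F ∙ x))
  have e1 : ∀ u : f.perp (F ∙ x), ∑ w : A, ψ (f.B u w) = if u.1 ∈ U f ψ x A then (Fintype.card A : ℂ) else 0 := fun u => by
    refine (AddChar.sum_eq_ite (ψ.compAddMonoidHom ((f.B u).toAddMonoidHom.comp A.subtype))).trans (if_congr ?_ rfl rfl)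
    exact ⟨fun h => ⟨f.mem_perp_span_singleton.1 u.2, fun w hw => DFunLike.congr_fun h ⟨w, hw⟩⟩,
      fun h => DFunLike.ext _ _ fun w : A => h.2 w w.2⟩
  have e2 : ∀ w : A, ∑ u : f.perp (F ∙ x), ψ (f.B u w) =
      if w.1 ∈ F ∙ x then (Fintype.card (f.perp (F ∙ x)) : ℂ) else 0 := fun w => by
    refine (AddChar.sum_eq_ite (ψ.compAddMonoidHom ((AddMonoidHom.mk' (fun u => f.B u w) fun a b => by simp).comp
      (f.perp (F ∙ x)).subtype.toAddMonoidHom))).trans (if_congr ⟨fun h => ?_, fun h => DFunLike.ext _ _ fun u => ?_⟩ rfl rfl)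
    · by_contra hw
      obtain ⟨c, hc⟩ := DFunLike.ne_iff.1 hψ
      obtain ⟨u, hu, e⟩ := hf.exists_perp_B_eq hw c
      exact hc (e ▸ DFunLike.congr_fun h ⟨u, hu⟩)
    · exact (congrArg ψ (f.mem_perp'.1 u.2 _ h)).trans ψ.map_zero_eq_one
  have := Finset.sum_comm (s := Finset.univ) (t := Finset.univ) (f := fun (u : f.perp (F ∙ x)) (w : A) => ψ (f.B u w))
  simp only [e1, e2, ← Finset.sum_filter, Finset.sum_const, nsmul_eq_mul, ← Fintype.card_subtype,
    ← Nat.card_eq_fintype_card] at this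
  rw [← card_perp hf h0, ← Nat.card_congr (Equiv.subtypeSubtypeEquivSubtype (p := (· ∈ f.perp (F ∙ x)))
    (q := (· ∈ U f ψ x A)) fun h => f.mem_perp_span_singleton.2 h.1),
    Nat.card_congr (LinearEquiv.toSpanNonzeroSingleton F V x h0).toEquiv,
    ← Nat.card_congr (Equiv.subtypeSubtypeEquivSubtype (p := (· ∈ A)) (q := (· ∈ F ∙ x)) fun h => by
      obtain ⟨a, rfl⟩ := Submodule.mem_span_singleton.1 h; exact h2 a)]
  exact_mod_cast this

omit hf h0 in
theorem U_map {ψ : AddChar F ℂ} {u : V} (h : u ∈ U f ψ x (W hx y)) {g : f.Isom} {a : F} (ha : a ≠ 0) (hg : g ⊳ x = a • x) :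
    a⁻¹ • g ⊳ u ∈ U f ψ x (W hx (g • y)) := by
  have h2 := k.σ_eq_zero.not.2 ha
  refine ⟨?_, fun w hw => ?_⟩
  · have := h.1
    rw [← B_coe_map f g, hg, B_smul_left, mul_eq_zero] at this
    rw [map_smul, this.resolve_left h2, smul_zero]
  · have := h.2 _ ((W_map_iff hx ha hg).1 (show k.σ a • g ⊳ ((k.σ a)⁻¹ • (g⁻¹ : f.Isom) ⊳ w) ∈ _ by
      rwa [map_smul, smul_inv_smul₀ h2, isom_apply_inv_apply]))
    rwa [map_smul, ← B_coe_map f g, isom_apply_inv_apply, smul_eq_mul, ← map_inv₀, ← B_smul_left] at this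

theorem isotropy (hτ : ∀ c, k.π c = 0 → ∃ b, b - k.ε * k.σ b = c) {v : F} (hv : k.π v = 0) (hR : v ∉ R hx y) :
    ∃ ψ : AddChar F ℂ, ψ ≠ 0 ∧ W hx y ≤ U f ψ x (W hx y) := by
  obtain ⟨χ, hχ⟩ := (AddChar.exists_apply_ne_zero (a := (v : F ⧸ R hx y))).2 fun e => hR ((QuotientAddGroup.eq_zero_iff _).1 e)
  obtain ⟨b, rfl⟩ := hτ v hv
  refine ⟨χ.compAddMonoidHom ((QuotientAddGroup.mk' _).comp (AddMonoidHom.mk' (fun b => b - k.ε * k.σ b) fun a b => by
    rw [map_add]; ring)), fun e => hχ (DFunLike.congr_fun e b), fun w hw => ⟨W_perp hw, fun w' hw' => ?_⟩⟩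
  have := comm_mem_R hw hw'
  rw [f.symm w w', ← QuotientAddGroup.eq_zero_iff] at this
  exact (congrArg χ this).trans χ.map_zero_eq_one

theorem card_W_sq (hτ : ∀ c, k.π c = 0 → ∃ b, b - k.ε * k.σ b = c) {v : F} (hv : k.π v = 0) (hR : v ∉ R hx y) :
    Nat.card (W hx y) * Nat.card (W hx y) ≤ Nat.card F * Nat.card F ^ (finrank F V - 1) := by
  have : Finite V := Module.finite_of_finite F
  obtain ⟨ψ, h1, h2⟩ := isotropy hf h0 hτ hv hR
  rw [← card_U hf h0 h1 (smul_mem_W (hx := hx) (y := y))]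
  exact Nat.mul_le_mul_right _ (AddSubgroup.card_le_of_le h2)

omit hf h0

theorem torus_cover [Finite Y] (A : Set F) (Y₀ Y' : Set Y) {R₀ : AddSubgroup F} (hR : ∀ y ∈ Y₀, R hx y = R₀)
    (h0 : R₀ ≤ k.π.ker) (hA : ∀ a ∈ A, a ≠ 0 ∧ ∃ g : f.Isom, g ⊳ x = a • x ∧ ∀ y ∈ Y₀, g • y ∈ Y')
    (hi : InjOn (fun a => a * k.σ a) A) {v : F} (hv : k.π v = 0) (hv' : v ∉ R₀) :
    ∃ n, (n + 1) * Nat.card R₀ ≤ Nat.card k.π.ker ∧ A.ncard * Y₀.ncard ≤ Y'.ncard * n := by
  let S : Set F := {b | (∀ c ∈ R₀, b * c ∈ R₀) ∧ k.π (b * v) = 0}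
  refine ⟨(S \ {0}).ncard, ?_, cover (G := f.Isom) A Y₀ Y' (fun a y => ∀ c, a * k.σ a * c ∈ R hx y ↔ c ∈ R₀)
    (fun a ha => ?_) fun y _ => ?_⟩
  · rw [ncard_sdiff_singleton_add_one (by simp [S]), ← Nat.card_coe_set_eq, ← Nat.card_prod]
    refine Nat.card_le_card_of_injective (fun p : S × R₀ => (⟨p.1.1 * v + p.2, add_mem p.1.2.2 (h0 p.2.2)⟩ : k.π.ker))
      fun p p' e => ?_
    have e : p.1.1 * v + p.2 = p'.1.1 * v + p'.2 := congrArg Subtype.val e
    have : p.1.1 = p'.1.1 := by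
      by_contra hne
      obtain ⟨c, hc⟩ := (Finite.injective_iff_surjective (f := fun c : R₀ => (⟨(p.1.1 - p'.1.1) * c, by
        rw [sub_mul]; exact sub_mem (p.1.2.1 _ c.2) (p'.1.2.1 _ c.2)⟩ : R₀))).1
        (fun a b e => Subtype.ext (mul_left_cancel₀ (sub_ne_zero.2 hne) (congrArg Subtype.val e))) (p'.2 - p.2)
      have hc : (p.1.1 - p'.1.1) * c = p'.2 - p.2 := congrArg Subtype.val hc
      exact hv' (mul_left_cancel₀ (sub_ne_zero.2 hne) (show _ * (c : F) = _ * v by linear_combination hc - e) ▸ c.2)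
    exact Prod.ext (Subtype.ext this) (Subtype.ext (by rw [this] at e; exact add_left_cancel e))
  · obtain ⟨h1, g, h2, h3⟩ := hA a ha
    exact ⟨g, fun y hy => ⟨h3 y hy, fun c => by rw [R_map_iff (hx := hx) hx h1 h2, hR y hy]⟩⟩
  · rcases {a ∈ A | ∀ c, a * k.σ a * c ∈ R hx y ↔ c ∈ R₀}.eq_empty_or_nonempty with e | ⟨b, hb, hb'⟩
    · rw [e, ncard_empty]; exact Nat.zero_le _
    have n : ∀ a ∈ A, a * k.σ a ≠ 0 := fun a ha => mul_ne_zero (hA a ha).1 (k.σ_eq_zero.not.2 (hA a ha).1)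
    refine ncard_le_ncard_of_injOn (fun a => a * k.σ a / (b * k.σ b)) (fun a ha => ⟨⟨fun c hc => (hb' _).1 ?_, ?_⟩,
      div_ne_zero (n a ha.1) (n b hb)⟩) fun a ha a' ha' e => hi ha.1 ha'.1 ((div_left_inj' (n b hb)).1 e)
    · rw [← mul_assoc, mul_div_cancel₀ _ (n b hb)]; exact (ha.2 c).2 hc
    · rw [mul_div_mul_comm, ← map_div₀, k.π_norm, hv, mul_zero]

theorem W_of_fix {g : f.Isom} {a : F} (ha : a ≠ 0) (hg : g ⊳ x = a • x) (e : g • y = y) {w : V} {c : F}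
    {h : f.EichlerCond x w c} (e' : g • f.eichler x w c h • y = f.eichler x w c h • y) : k.σ a • g ⊳ w - w ∈ W hx y := by
  have h1 := f.conj_eichler g x w c h
  obtain ⟨h', -⟩ := fix_map (Y := Unit) (y := ()) (h := h) rfl ha hg
  rw [f.eichler_congr _ (hg ▸ ⟨by rw [Q_coe_map, h.1], by rw [B_coe_map, h.2], by rw [Q_coe_map, h.3]⟩) hg rfl rfl,
    f.eichler_smul x _ a c _ h'] at h1
  rw [sub_eq_neg_add]
  exact ⟨_, h.neg.add h', by
    rw [mem_stabilizer_iff, ← f.eichler_mul h.neg h', ← f.eichler_inv h, ← h1, mul_smul, mul_smul, mul_smul,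
      inv_smul_eq_iff.2 e.symm, e', inv_smul_smul]⟩

theorem R_of_fix {g : f.Isom} {a : F} (hg : g ⊳ x = a • x) (e : g • y = y) {c : F}
    {h : f.EichlerCond x 0 c} (e' : g • f.eichler x 0 c h • y = f.eichler x 0 c h • y) : (a * k.σ a - 1) * c ∈ R hx y := by
  have h1 := f.conj_eichler g x 0 c h
  have h' := f.eichlerCond_zero hx (c := a * k.σ a * c) (by rw [k.π_norm, h.π_eq_zero, mul_zero])
  rw [f.eichler_congr _ (p' := a • x) (f.eichlerCond_zero (f.Q_smul_of_Q hx a) h.π_eq_zero) hg (map_zero _) rfl,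
    f.eichler_smul x _ a c _ (by simpa using h'), f.eichler_congr _ h' rfl (smul_zero _) rfl] at h1
  exact ⟨f.eichlerCond_zero hx (by rw [sub_mul, map_sub, one_mul, h'.π_eq_zero, h.π_eq_zero, sub_zero]), by
    rw [← f.eichler_congr (h.neg.add h') _ rfl (by simp) (by
      have := h.B_ww; rw [map_zero] at this; rw [map_zero]; linear_combination -this), ← f.eichler_mul h.neg h',
      ← f.eichler_inv h, ← h1, mul_smul, mul_smul, mul_smul, inv_smul_eq_iff.2 e.symm, e', inv_smul_smul]⟩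

theorem exists_T {w : V} {c : F} (h : f.EichlerCond x w c) (hw : w ∈ W hx y) :
    ∃ d h', f.eichler x w c h • y = f.eichler x 0 d h' • y := by
  obtain ⟨c', h', e⟩ := hw
  have h2 := f.eichlerCond_zero hx (c := c - c') (by rw [map_sub, h.π_c, h'.π_c, sub_self])
  exact ⟨c - c', h2, by
    rw [← f.eichler_congr (h2.add h') h rfl (zero_add _) (by simp), ← f.eichler_mul h2 h', mul_smul, e]⟩

theorem σ_ker {c : F} (h : k.π c = 0) : k.σ c = -(k.ε * c) := by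
  have := k.δπ c
  rw [h, mul_zero] at this
  linear_combination -k.ε * this - k.σ c * k.εε

theorem T_add {z : V} (hx : f.Q x = 0) (hz : f.Q z = 0) (e : f.B x z = 0) (a : F) {d : F} (hd : k.π d = 0) :
    ∃ h h', f.eichler (z + a • x) 0 d h = f.eichler x (-(k.ε * d * k.σ a) • z) (a * k.σ a * d) h' *
      f.eichler z 0 d (f.eichlerCond_zero hz hd) := by
  refine ⟨f.eichlerCond_zero (by rw [f.Q_add_smul_of_Q hx, f.eq_zero_symm e, hz]; simp) hd,
    ⟨hx, by simp [e], by rw [k.π_norm, hd, f.Q_smul_of_Q hz, mul_zero]⟩, f.isom_ext fun v => ?_⟩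
  simp only [isom_mul_apply, eichler_apply, map_zero, map_add, map_sub, map_smul, B_add_left, B_smul_left, e,
    f.B_self_of_Q hz, map_neg, map_mul, k.σε, k.σσ, σ_ker hd, B_zero_left]
  match_scalars
  · ring
  · ring
  · linear_combination (k.ε * a * d * f.B z v) * k.εε

theorem W_of_T {z : V} (hz : f.Q z = 0) (e : f.B x z = 0) {a a' d : F} {h h'} (h1 : f.eichler (z + a • x) 0 d h • y = y)
    (h2 : f.eichler (z + a' • x) 0 d h' • y = y) : (k.ε * d * k.σ (a' - a)) • z ∈ W hx y := by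
  obtain ⟨_, c, e1⟩ := T_add hx hz e a h.π_eq_zero
  obtain ⟨_, c', e2⟩ := T_add hx hz e a' h.π_eq_zero
  have : _ ∈ stabilizer f.Isom y := mul_mem (show _ ∈ stabilizer f.Isom y from h1) (inv_mem (show _ ∈ stabilizer f.Isom y from h2))
  rw [e1, e2, mul_inv_rev, mul_assoc, mul_inv_cancel_left, eichler_inv, eichler_mul] at this
  rw [show (k.ε * d * k.σ (a' - a)) • z = -(k.ε * d * k.σ a) • z + -(-(k.ε * d * k.σ a') • z) by rw [map_sub]; module]
  exact ⟨_, _, this⟩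

theorem T_le_of_ne {S : Subgroup f.Isom} {z : V} (hx : f.Q x = 0) (h1 : f.Tgrp x ≤ S) (e : f.B x z ≠ 0) {c : F} {h}
    (hc : c ≠ 0) (h2 : f.eichler z 0 c h ∈ S) : f.Tgrp z ≤ S := by
  have h3 := σ_ker h.π_eq_zero
  have h4 := f.eichlerCond_zero hx (c := (f.B x z * c)⁻¹ * k.σ (f.B x z * c)⁻¹ * c) (by rw [k.π_norm, h.π_eq_zero, mul_zero])
  have h5 := k.σ_eq_zero.not.2 e
  have := Tgrp_map (Tgrp_map h1 h2) (h1 (f.eichler_mem_Tgrp x _ h4))
  rwa [show f.eichler x 0 _ h4 ⊳ f.eichler z 0 c h ⊳ x = -(c * k.σ (f.B x z)) • z by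
    simp only [eichler_zero_apply, map_sub, map_smul, f.B_self_of_Q hx, f.symm x z, map_inv₀, map_mul, h3]
    match_scalars
    · rcases k.ε_eq with h | h <;> rw [h] <;> field_simp <;> ring
    · linear_combination (-(c * k.σ (f.B x z))) * k.εε, f.Tgrp_smul (neg_ne_zero.2 (mul_ne_zero hc h5))] at this

theorem T_all (hf : f.Nondeg) (hr : f.Rich) {S : Subgroup f.Isom} (hx : f.Q x = 0) (h0 : x ≠ 0) (h1 : f.Tgrp x ≤ S)
    (h : ∀ z, f.Q z = 0 → z ≠ 0 → ∃ c h, c ≠ 0 ∧ f.eichler z 0 c h ∈ S) (z : V) (c : F) (hc : f.EichlerCond z 0 c) :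
    f.eichler z 0 c hc ∈ S := by
  by_cases hz : z = 0
  · subst hz; rw [eichler_zero_left]; exact S.one_mem
  obtain ⟨u, hu, e1, e2⟩ := hf.exists_singular_B_ne_zero hr hx h0 hc.Q_p hz
  obtain ⟨_, _, a1, a2⟩ := h u hu (by rintro rfl; simp at e1)
  obtain ⟨_, _, b1, b2⟩ := h z hc.Q_p hz
  exact T_le_of_ne hu (T_le_of_ne hx h1 e1 a1 a2) (f.eq_zero_comm.not.1 e2) b1 b2 (f.eichler_mem_Tgrp z c hc)

variable (f x) in
/-- The span of the orbit of `x` under the stabiliser of `y`. -/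
def Sp (y : Y) : Submodule F V := Submodule.span F (O (stabilizer f.Isom y) x)

theorem Sp_map {u : V} (h : u ∈ Sp f x y) {g : f.Isom} {a : F} (ha : a ≠ 0) (hg : g ⊳ x = a • x) : g ⊳ u ∈ Sp f x (g • y) := by
  induction h using Submodule.span_induction with
  | mem _ h =>
    obtain ⟨b, hb, rfl⟩ := h
    have := (Sp f x (g • y)).smul_mem a (Submodule.subset_span (mem_O (g := g * b * g⁻¹) (by
      rw [mem_stabilizer_iff, mul_smul, inv_smul_smul, mul_smul, hb]) x))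
    rwa [isom_smul_def, isom_mul_apply, isom_mul_apply, inv_apply ha hg, map_smul, map_smul, smul_inv_smul₀ ha] at this
  | zero => simp
  | add _ _ _ _ h h' => rw [map_add]; exact add_mem h h'
  | smul c _ _ h => rw [map_smul]; exact Submodule.smul_mem _ _ h

theorem Sp_ts (hf : f.Nondeg) (hr : f.Rich) (hx : f.Q x = 0) (h1 : f.Qgrp x ≤ stabilizer f.Isom y)
    (h2 : ¬ f.Eich ≤ stabilizer f.Isom y) : f.TS (Sp f x y) := by
  refine f.ts_span ?_ ?_
  · rintro _ ⟨a, -, rfl⟩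
    exact (Q_coe_map f a x).trans hx
  · rintro _ ⟨a, ha, rfl⟩ _ ⟨b, hb, rfl⟩
    by_contra hne
    exact h2 (hf.Eich_le_of_Qgrp hr ((Q_coe_map f a x).trans hx) ((Q_coe_map f b x).trans hx) hne (Qgrp_map h1 ha)
      (Qgrp_map h1 hb))

end CA.Coop
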