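import Cfsg.Agent.Lib.Lin.CoopSp4

/-! Transfer of minimal degree statements to central quotients. -/

set_option autoImplicit false
set_option linter.unusedSectionVars false

namespace CA.Coop

open MulAction Module CA.CForm CA.CForm.Form Set Submodule

theorem transfer {G G' : Type*} [Group G] [Group G'] (e : G ≃* G') {d : ℕ} (h1 : ∀ K : Subgroup G', K ≠ ⊤ → d ≤ K.index)
    (h2 : ∃ K : Subgroup G', Subgroup.center G' ≤ K ∧ K.index = d) :
    (∀ H : Subgroup (G ⧸ Subgroup.center G), H ≠ ⊤ → d ≤ H.index) ∧ ∃ H : Subgroup (G ⧸ Subgroup.center G), H.index = d := by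
  let φ : G' →* G ⧸ Subgroup.center G := (quotCenterCongr e).symm.toMonoidHom.comp (QuotientGroup.mk' _)
  have s : Function.Surjective φ := (quotCenterCongr e).symm.surjective.comp (QuotientGroup.mk'_surjective _)
  refine ⟨fun H hH => ?_, h2.elim fun K hK => ⟨K.map φ, hK.2 ▸ Subgroup.index_map_eq _ s (le_of_eq_of_le ?_ hK.1)⟩⟩
  · rw [← H.index_comap_of_surjective s]
    refine h1 _ fun e => hH ?_
    rw [← Subgroup.map_comap_eq_self_of_surjective s H, e]
    exact Subgroup.map_top_of_surjective _ s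
  · exact (MonoidHom.ker_comp_of_injective _ _ (quotCenterCongr e).symm.injective).trans (QuotientGroup.ker_mk' _)

theorem stab_quot_ne {G : Type*} [Group G] {K : Subgroup G} (h : K ≠ ⊤) (y : G ⧸ K) : stabilizer G y ≠ ⊤ := fun e => by
  have := index_stabilizer_of_transitive G y
  rw [e, Subgroup.index_top] at this
  exact h (Subgroup.index_eq_one.1 this.symm)

theorem idx_pt {F : Type*} [Field F] {k : Kind F} {V : Type*} [AddCommGroup V] [Module F V] {f : Form k V}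
    {x : V} (h0 : x ≠ 0) (hx : f.Q x = 0) {Γ : Subgroup f.Isom}
    (h : ∀ v, v ≠ 0 → f.Q v = 0 → ∃ g ∈ Γ, (g : V ≃ₗ[F] V) x = v) :
    (stabilizer f.Isom (f.pt x h0 hx)).relIndex Γ * (Nat.card F - 1) = {v | v ≠ 0 ∧ f.Q v = 0}.ncard := by
  have := orb_mul Γ (f.pt x h0 hx) x
  rwa [ncard_O, show O (stabilizer f.Isom x ⊓ Γ) (f.pt x h0 hx) = {f.pt x h0 hx} from
    eq_singleton_iff_unique_mem.2 ⟨self_mem_O _ _, by
      rintro _ ⟨g, hg, rfl⟩; exact (f.smul_pt_eq_iff g).2 ⟨1, hg.1.trans (one_smul _ _).symm⟩⟩, ncard_singleton, mul_one,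
    show O Γ x = {v | v ≠ 0 ∧ f.Q v = 0} from Set.ext fun v => ⟨by
      rintro ⟨g, -, rfl⟩
      exact ⟨(map_ne_zero_iff _ (g : V ≃ₗ[F] V).injective).2 h0, (Q_coe_map f g x).trans hx⟩, fun hv => h v hv.1 hv.2⟩,
    show O (stabilizer f.Isom (f.pt x h0 hx) ⊓ Γ) x = (· • x) '' ({0}ᶜ : Set F) from Set.ext fun v => ⟨by
      rintro ⟨g, hg, rfl⟩
      obtain ⟨a, ha⟩ := (f.smul_pt_eq_iff g).1 hg.1
      exact ⟨a, fun e => h0 ((map_eq_zero_iff _ (g : V ≃ₗ[F] V).injective).1 (by rw [ha, e, zero_smul])), ha.symm⟩, by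
      rintro ⟨a, ha, rfl⟩
      obtain ⟨g, hg, e⟩ := h _ (smul_ne_zero ha h0) (f.Q_smul_of_Q hx a)
      exact ⟨g, ⟨(f.smul_pt_eq_iff g).2 ⟨a, e⟩, hg⟩, e⟩⟩, ncard_image_of_injective _ (smul_left_injective F h0),
    compl_eq_univ_sdiff, ncard_sdiff_singleton_of_mem (mem_univ (0 : F)), ncard_univ] at this

end CA.Coop
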