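import Cfsg.Agent.Lib.Lin.Coop1

/-! Minimal degree of the symplectic groups: covering bounds. -/

set_option autoImplicit false
set_option linter.unusedSectionVars false

namespace CA.Coop

open MulAction Module CA.CForm CA.CForm.Form Set Submodule

theorem ar_small {q N s o y : ℕ} (hN : q + 1 ≤ N) (h1 : 2 * s ≤ q) (h2 : 2 ≤ s) (h : (q - 1) * N * o ≤ y * (s - 1)) :
    (q * N + 2) * o ≤ y * s := by
  obtain ⟨s, rfl⟩ : ∃ t, s = t + 1 := ⟨s - 1, by omega⟩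
  obtain ⟨q, rfl⟩ : ∃ t, q = t + 1 := ⟨q - 1, by omega⟩
  simp only [Nat.add_sub_cancel] at h
  refine Nat.le_of_mul_le_mul_right (c := s) ?_ (by omega)
  have : ((q + 1) * N + 2) * s ≤ q * N * (s + 1) := by nlinarith [Nat.mul_le_mul_left N h1]
  nlinarith [Nat.mul_le_mul_right o this, Nat.mul_le_mul_right (s + 1) h]

theorem ar_two {q N s t o y : ℕ} (hq : 3 ≤ q) (hN : q + 1 ≤ N) (h1 : 2 * s ≤ t) (h : (q - 1) * N * o ≤ y * (s - 1)) :
    (q * N + 2) * o ≤ y * t := by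
  obtain ⟨q, rfl⟩ : ∃ t, q = t + 1 := ⟨q - 1, by omega⟩
  simp only [Nat.add_sub_cancel] at h
  have : (q + 1) * N + 2 ≤ 2 * (q * N) := by nlinarith
  nlinarith [Nat.mul_le_mul_right o this, Nat.mul_le_mul_left y (show 2 * (s - 1) ≤ t by omega)]

theorem ar_pair {q a c s o y : ℕ} (hq : 3 ≤ q) (ha : q ^ 2 ≤ a) (h1 : s ≤ a) (h2 : 3 ≤ s)
    (h : c * (a ^ 2 - q ^ 2) * o ≤ y * (q * (s - 1) * (s - 2))) : 2 * (c * o) ≤ y * (s - 1) := by
  obtain ⟨s, rfl⟩ : ∃ t, s = t + 2 := ⟨s - 2, by omega⟩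
  rw [Nat.add_sub_cancel] at h
  refine Nat.le_of_mul_le_mul_right (c := q * s) ?_ (Nat.mul_pos (by omega) (by omega))
  have h3 : 3 * q ≤ a := by nlinarith
  have : 2 * (q * s) ≤ a ^ 2 - q ^ 2 := Nat.le_sub_of_add_le (by nlinarith [Nat.mul_le_mul_left a h3, Nat.mul_le_mul_left q h1])
  nlinarith [Nat.mul_le_mul_left (c * o) this]

theorem ar_pair1 {q s o y : ℕ} (h1 : s ≤ q) (h2 : 3 ≤ s)
    (h : (q - 1) * (q + 1) * q ^ 2 * o ≤ y * (q * (s - 1) * (s - 2))) : (q * (q + 1) + 2) * o ≤ y * s := by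
  obtain ⟨s, rfl⟩ : ∃ t, s = t + 2 := ⟨s - 2, by omega⟩
  obtain ⟨q, rfl⟩ : ∃ t, q = t + 2 := ⟨q - 2, by omega⟩
  simp only [Nat.add_sub_cancel, show ∀ t, t + 2 - 1 = t + 1 from fun _ => rfl] at h
  refine Nat.le_of_mul_le_mul_right (c := (q + 2) * s) ?_ (Nat.mul_pos (by omega) (by omega))
  have : ((q + 2) * (q + 3) + 2) * s ≤ (q + 1) * (q + 3) * (q + 2) :=
    (Nat.mul_le_mul_left _ (show s ≤ q by omega)).trans (by nlinarith)
  nlinarith [Nat.mul_le_mul_right (o * (q + 2)) this, Nat.zero_le (y * ((q + 2) * s))]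

theorem two_mul_le_of_lt {F : Type*} [Field F] [Finite F] {s t m : ℕ} (h : s * t = Nat.card F ^ m) (h' : s < t) : 2 * s ≤ t := by
  have := Fintype.ofFinite F
  obtain ⟨e, hp, he⟩ := FiniteField.card F (ringChar F)
  rw [Nat.card_eq_fintype_card, he, ← pow_mul] at h
  obtain ⟨i, -, rfl⟩ := (Nat.dvd_prime_pow hp).1 (h ▸ Dvd.intro _ rfl : s ∣ _)
  obtain ⟨j, -, rfl⟩ := (Nat.dvd_prime_pow hp).1 (h ▸ Dvd.intro_left _ rfl : t ∣ _)
  have := Nat.pow_le_pow_right hp.pos (show i + 1 ≤ j from (Nat.pow_lt_pow_iff_right hp.one_lt).1 h')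
  nlinarith [hp.two_le, pow_succ (ringChar F) i]

section gen
variable {F : Type*} [Field F] [Finite F] {V : Type*} [AddCommGroup V] [Module F V] {x u : V}

theorem ncard_line (h0 : x ≠ 0) : ((F ∙ x : Submodule F V) : Set V).ncard = Nat.card F :=
  (Nat.card_congr (LinearEquiv.toSpanNonzeroSingleton F V x h0).toEquiv).symm

theorem li_pair (h0 : x ≠ 0) (h : u ∉ F ∙ x) : LinearIndependent F ![x, u] :=
  (LinearIndependent.pair_iff' h0).2 fun a e => h (mem_span_singleton.2 ⟨a, e⟩)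

theorem finrank_pair (h0 : x ≠ 0) (h : u ∉ F ∙ x) : finrank F (span F {x, u}) = 2 := by
  have := finrank_span_eq_card (li_pair h0 h)
  rwa [Matrix.range_cons_cons_empty, Fintype.card_fin] at this

theorem ncard_pair (h0 : x ≠ 0) (h : u ∉ F ∙ x) : ((span F {x, u} : Submodule F V) : Set V).ncard = Nat.card F ^ 2 := by
  have : FiniteDimensional F (span F {x, u}) := FiniteDimensional.span_of_finite F (toFinite _)
  rw [← finrank_pair h0 h]
  exact Module.natCard_eq_pow_finrank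

theorem exists_card_eq [Finite V] (h0 : x ≠ 0) {A : AddSubgroup V} (h : ∀ a : F, a • x ∈ A) :
    ∃ s, 1 ≤ s ∧ Nat.card A = Nat.card F * s := by
  obtain ⟨s, hs⟩ := AddSubgroup.card_dvd_of_le (H := (F ∙ x).toAddSubgroup) (K := A) fun v hv => by
    obtain ⟨a, rfl⟩ := mem_span_singleton.1 hv; exact h a
  rw [show Nat.card (F ∙ x).toAddSubgroup = _ from ncard_line h0] at hs
  exact ⟨s, Nat.pos_of_ne_zero (by rintro rfl; exact Nat.card_pos.ne' hs), hs⟩

theorem ncard_sub_line [Finite V] (h0 : x ≠ 0) {A : AddSubgroup V} (h : ∀ a : F, a • x ∈ A) {B : Set V}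
    (hB : ∀ v ∈ B, v ∈ A ∧ v ∉ F ∙ x) : B.ncard ≤ Nat.card A - Nat.card F := by
  rw [← ncard_line (F := F) h0, show Nat.card A = (A : Set V).ncard from rfl, ← ncard_sdiff fun v hv => by
    obtain ⟨a, rfl⟩ := mem_span_singleton.1 hv; exact h a]
  exact ncard_le_ncard hB

theorem ncard_sub_two [Finite V] (h0 : x ≠ 0) {A : AddSubgroup V} (h : ∀ a : F, a • x ∈ A) (hu : u ∈ A) (hu' : u ∉ F ∙ x)
    {B : Set V} (hB : ∀ v ∈ B, v ∈ A ∧ v ∉ span F {x, u}) : B.ncard + 2 * Nat.card F ≤ Nat.card A := by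
  have h1 : ((F ∙ x : Submodule F V) : Set V) ∪ (u + ·) '' (F ∙ x : Submodule F V) ⊆ (span F {x, u} : Submodule F V) ∩ A := by
    rintro _ (hv | ⟨v, hv, rfl⟩) <;> obtain ⟨a, rfl⟩ := mem_span_singleton.1 hv
    · exact ⟨smul_mem _ _ (subset_span (by simp)), h a⟩
    · exact ⟨add_mem (subset_span (by simp)) (smul_mem _ _ (subset_span (by simp))), add_mem hu (h a)⟩
  have h2 := ncard_union_eq (s := ((F ∙ x : Submodule F V) : Set V)) (t := (u + ·) '' (F ∙ x : Submodule F V))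
    (disjoint_left.2 (by rintro _ h ⟨v, hv, rfl⟩; exact hu' (by simpa using sub_mem h hv)))
  rw [ncard_image_of_injective _ (add_right_injective u), ncard_line h0] at h2
  rw [two_mul, ← h2, ← ncard_union_eq (disjoint_left.2 fun v hv h => (hB v hv).2 (h1 h).1)]
  exact ncard_le_ncard (union_subset (fun v hv => (hB v hv).1) fun v hv => (h1 hv).2)

end gen

variable {F : Type*} [Field F] [Finite F] {V : Type*} [AddCommGroup V] [Module F V] [FiniteDimensional F V]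
  {f : Form (Kind.symp F) V} {Y : Type*} [Finite Y] [MulAction f.Isom Y] (hf : f.Nondeg) {n : ℕ}
  (hn : finrank F V = 2 * n + 2) {x : V} (h0 : x ≠ 0)

local notation:75 g:76 " ⊳ " v:75 => (g : V ≃ₗ[F] V) v
local notation "q" => Nat.card F

/-- number of points of a `2 n`-space -/
def NN (a n : ℕ) : ℕ := ∑ i ∈ Finset.range (2 * n), a ^ i

theorem NN_mul {a : ℕ} (ha : 1 ≤ a) (n : ℕ) : (a - 1) * NN a n + 1 = a ^ (2 * n) := by
  obtain ⟨a, rfl⟩ : ∃ t, a = t + 1 := ⟨a - 1, by omega⟩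
  rw [Nat.add_sub_cancel, mul_comm]; exact geom_sum_mul_add a _

theorem NN_succ (a n : ℕ) : NN a (n + 1) = a * (a * NN a n) + a + 1 := by
  simp only [NN, mul_add, mul_one, Finset.sum_range_succ', Finset.mul_sum, pow_succ]
  simp [mul_comm]

theorem le_NN (a : ℕ) {n : ℕ} (h : 1 ≤ n) : a + 1 ≤ NN a n := by
  obtain ⟨n, rfl⟩ : ∃ t, n = t + 1 := ⟨n - 1, by omega⟩
  rw [NN_succ]; omega

theorem two_le_q : 2 ≤ q := Finite.one_lt_card

include hf hn h0

theorem ncard_Om : {u | f.B x u = 0 ∧ u ∉ F ∙ x}.ncard = q * ((q - 1) * NN q n) := by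
  have : Finite V := Module.finite_of_finite F
  have h1 := card_perp hf h0
  have h2 := ncard_sdiff (s := ((F ∙ x : Submodule F V) : Set V)) (t := f.perp (F ∙ x)) (f.ts_span_singleton (f.symp_Q x)).le_perp
  rw [ncard_line h0, ← Nat.card_coe_set_eq (f.perp (F ∙ x) : Set V), SetLike.coe_sort_coe, h1, hn,
    show 2 * n + 2 - 1 = 2 * n + 1 from rfl, pow_succ', ← NN_mul (two_le_q.trans' (by omega)), mul_add, mul_one,
    Nat.add_sub_cancel] at h2
  rw [← h2]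
  congr 1
  ext u
  exact and_congr_left' f.mem_perp_span_singleton.symm

theorem ncard_aff {u : V} (hu : u ∉ F ∙ x) (β : F) : {v | f.B x v = 0 ∧ f.B u v = β}.ncard = q ^ (2 * n) := by
  obtain ⟨v, hv, e⟩ := hf.exists_perp_B_eq' hu β
  have := hf.finrank_perp (span F {x, u})
  rw [finrank_pair h0 hu] at this
  rw [show 2 * n = finrank F (f.perp (span F {x, u})) by omega, ← Module.natCard_eq_pow_finrank,
    show Nat.card (f.perp (span F {x, u})) = (f.perp (span F {x, u}) : Set V).ncard from rfl,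
    ← ncard_image_of_injective (f.perp (span F {x, u}) : Set V) (add_right_injective v)]
  rw [f.mem_perp_span_singleton] at hv
  congr 1
  ext w
  exact ⟨fun h => ⟨w - v, f.mem_perp_span_pair.2 ⟨by simp [h.1, hv], by simp [h.2, e]⟩, by simp⟩, by
    rintro ⟨w, hw, rfl⟩
    have := f.mem_perp_span_pair.1 hw
    simp [this.1, this.2, hv, e]⟩

section fam
variable (A : Y → AddSubgroup V) (h1 : ∀ (g : f.Isom) y u, (g : V ≃ₗ[F] V) x = x → u ∈ A y → (g : V ≃ₗ[F] V) u ∈ A (g • y))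
  (h2 : ∀ y (a : F), a • x ∈ A y) {y : Y} {Y₀ : Set Y} (hY : ∀ y' ∈ Y₀, y' ∈ O (stabilizer f.Isom x) y ∧ A y ≤ A y')
include h1 h2

omit hf hn h0 h2 in
theorem card_fam {y y' : Y} (h : y' ∈ O (stabilizer f.Isom x) y) : Nat.card (A y') ≤ Nat.card (A y) := by
  have : Finite V := Module.finite_of_finite F
  obtain ⟨g, hg, rfl⟩ := h
  exact ncard_le_of_smul (A := (A (g • y) : Set V)) (B := A y) g⁻¹ fun u hu => by
    have := h1 g⁻¹ _ u (inv_mem hg) hu
    rwa [inv_smul_smul] at this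

include hY

theorem cover1 {s : ℕ} (hs : Nat.card (A y) = q * s) {u : V} (hu : u ∈ A y) (e : f.B x u = 0) (hu' : u ∉ F ∙ x) :
    (q - 1) * NN q n * Y₀.ncard ≤ (O (stabilizer f.Isom x) y).ncard * (s - 1) := by
  have : Finite V := Module.finite_of_finite F
  have := cover (G := f.Isom) {u | f.B x u = 0 ∧ u ∉ F ∙ x} Y₀ (O (stabilizer f.Isom x) y) (fun u y => u ∈ A y)
    (n := q * (s - 1)) (fun v hv => by
      obtain ⟨g, g1, g2⟩ := hf.witt_pair (li_pair h0 hu') (li_pair h0 hv.2) rfl (by simp only [symp_Q]) (hv.1.trans e.symm)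
      exact ⟨g, fun y' hy => ⟨smul_mem_O g1 (hY _ hy).1, g2 ▸ h1 g _ _ g1 ((hY _ hy).2 hu)⟩⟩) fun y' hy =>
    (ncard_sub_line h0 (h2 y') fun v hv => ⟨hv.2, hv.1.2⟩).trans (by
      rw [Nat.mul_sub_one, ← hs]; exact Nat.sub_le_sub_right (card_fam A h1 hy) _)
  rw [ncard_Om hf hn h0, mul_assoc, mul_left_comm _ q] at this
  exact Nat.le_of_mul_le_mul_left this Nat.card_pos

theorem cover2 {s : ℕ} (hs : Nat.card (A y) = q * s) {u v : V} (hu : u ∈ A y) (e : f.B x u = 0) (hu' : u ∉ F ∙ x)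
    (hv : v ∈ A y) (e' : f.B x v = 0) (hv' : v ∉ span F {x, u}) {b : ℕ}
    (hb : b ≤ q ^ (2 * n) - q ^ 2 ∨ (f.B u v ≠ 0 ∧ b ≤ q ^ (2 * n))) : 3 ≤ s ∧
    (q - 1) * NN q n * b * Y₀.ncard ≤ (O (stabilizer f.Isom x) y).ncard * (q * (s - 1) * (s - 2)) := by
  have : Finite V := Module.finite_of_finite F
  have li : ∀ {u v : V}, u ∉ F ∙ x → v ∉ span F {x, u} → LinearIndependent F ![v, x, u] := fun h h' =>
    linearIndependent_finCons.2 ⟨li_pair h0 h, by rwa [Matrix.range_cons_cons_empty]⟩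
  let P : Set (V × V) := {p | (f.B x p.1 = 0 ∧ p.1 ∉ F ∙ x) ∧ f.B x p.2 = 0 ∧ f.B p.1 p.2 = f.B u v ∧ p.2 ∉ span F {x, p.1}}
  have c1 : {u | f.B x u = 0 ∧ u ∉ F ∙ x}.ncard * b ≤ P.ncard * 1 := by
    refine dc _ P (fun u p => p.1 = u) (fun w hw => ?_) fun p _ =>
      (ncard_le_one (toFinite _)).2 fun a h b h' => h.2.symm.trans h'.2
    refine le_trans ?_ (ncard_le_ncard_of_injOn (s := {v' | f.B x v' = 0 ∧ f.B w v' = f.B u v} \ span F {x, w})
      (fun v' => (w, v')) (fun v' h => ⟨⟨hw, h.1.1, h.1.2, h.2⟩, rfl⟩) fun _ _ _ _ e => congrArg Prod.snd e)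
    rcases hb with hb | ⟨hb, hb'⟩
    · rw [← ncard_aff hf hn h0 hw.2 (f.B u v), ← ncard_pair h0 hw.2] at hb
      exact hb.trans (le_ncard_sdiff _ _)
    · rw [← ncard_aff hf hn h0 hw.2 (f.B u v)] at hb'
      refine hb'.trans (ncard_le_ncard fun z hz => ⟨hz, fun h => hb ?_⟩)
      obtain ⟨a, c, rfl⟩ := mem_span_pair.1 h
      rw [← hz.2]; simp [f.symp_B_self, f.eq_zero_symm hw.1]
  have c2 := cover (G := f.Isom) P Y₀ (O (stabilizer f.Isom x) y) (fun p y => p.1 ∈ A y ∧ p.2 ∈ A y)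
    (n := q * (s - 1) * (q * (s - 2))) (fun p hp => by
      obtain ⟨g, hg⟩ := hf.witt_family (li hu' hv') (li hp.1.2 hp.2.2.2) (fun i j => by
        fin_cases i <;> fin_cases j <;> simp [f.symp_B_self, e, e', hp.1.1, hp.2.1, hp.2.2.1, f.symp_symm x,
          f.symp_symm u v, f.symp_symm p.1 p.2]) fun i => by simp only [symp_Q]
      have g1 : g ⊳ x = x := hg 1
      exact ⟨g, fun y' hy => ⟨smul_mem_O g1 (hY _ hy).1, (show g ⊳ u = p.1 from hg 2) ▸ h1 g _ _ g1 ((hY _ hy).2 hu),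
        (show g ⊳ v = p.2 from hg 0) ▸ h1 g _ _ g1 ((hY _ hy).2 hv)⟩⟩) fun y' hy => by
    have c := card_fam A h1 hy
    have := dc {p ∈ P | p.1 ∈ A y' ∧ p.2 ∈ A y'} {w | w ∈ A y' ∧ w ∉ F ∙ x} (fun p w => p.1 = w) (m := 1) (n := q * (s - 2))
      (fun p hp => (ncard_pos (toFinite _)).2 ⟨p.1, ⟨hp.2.1, hp.1.1.2⟩, rfl⟩) fun w hw => by
        have := ncard_sub_two h0 (h2 y') hw.1 hw.2 (B := {z | z ∈ A y' ∧ z ∉ span F {x, w}}) fun _ h => h
        refine (ncard_le_ncard_of_injOn (t := {z | z ∈ A y' ∧ z ∉ span F {x, w}}) Prod.snd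
          (fun p hp => ⟨hp.1.2.2, hp.2 ▸ hp.1.1.2.2.2⟩) fun p h p' h' e => Prod.ext (h.2.trans h'.2.symm) e).trans ?_
        rw [Nat.mul_sub]; omega
    rw [mul_one] at this
    refine this.trans (Nat.mul_le_mul_right _ ((ncard_sub_line h0 (h2 y') fun _ h => h).trans ?_))
    rw [Nat.mul_sub_one]; omega
  have c3 := ncard_sub_two h0 (h2 y) hu hu' (B := {v}) (by simpa using ⟨hv, hv'⟩)
  rw [ncard_singleton, hs] at c3
  refine ⟨by by_contra! h; nlinarith, Nat.le_of_mul_le_mul_left ?_ (Nat.card_pos (α := F))⟩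
  rw [ncard_Om hf hn h0, mul_one] at c1
  nlinarith [Nat.mul_le_mul_right Y₀.ncard c1]

end fam

end CA.Coop
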