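import Cfsg.Agent.Lib.Lin.CoopSp1

/-! Minimal degree of the symplectic groups: orbits of the point stabiliser. -/

set_option autoImplicit false
set_option linter.unusedSectionVars false

namespace CA.Coop

open MulAction Module CA.CForm CA.CForm.Form Set Submodule

theorem exists_not_line {F : Type*} [Field F] [Finite F] {V : Type*} [AddCommGroup V] [Module F V] [Finite V] {x : V}
    (h0 : x ≠ 0) {A : AddSubgroup V} {s : ℕ} (hs : Nat.card A = Nat.card F * s) (h : 2 ≤ s) : ∃ u ∈ A, u ∉ F ∙ x := by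
  by_contra! e
  have := ncard_le_ncard (s := (A : Set V)) (t := (F ∙ x : Submodule F V)) e
  rw [ncard_line h0, show (A : Set V).ncard = _ from hs] at this
  nlinarith [Nat.card_pos (α := F)]

/-- The level is all of `x^⊥`. -/
def Full {F : Type*} [Field F] {k : Kind F} {V : Type*} [AddCommGroup V] [Module F V] {f : Form k V}
  {Y : Type*} [MulAction f.Isom Y] {x : V} (hx : f.Q x = 0) (y : Y) : Prop := ∀ w, f.B x w = 0 → w ∈ W hx y

variable {F : Type*} [Field F] [Finite F] {V : Type*} [AddCommGroup V] [Module F V] [FiniteDimensional F V]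
  {f : Form (Kind.symp F) V} {Y : Type*} [Finite Y] [MulAction f.Isom Y] (hf : f.Nondeg) {n : ℕ}
  (hn : finrank F V = 2 * n + 2) {x : V} (h0 : x ≠ 0) (hx : f.Q x = 0)

local notation:75 g:76 " ⊳ " v:75 => (g : V ≃ₗ[F] V) v
local notation "q" => Nat.card F

theorem sc {x w : V} (h : f.B x w = 0) (c : F) : f.EichlerCond x w c := ⟨f.symp_Q _, h, (f.symp_Q _).symm⟩

theorem card_ker_symp : Nat.card (Kind.symp F).π.ker = q := by
  rw [show (Kind.symp F).π.ker = ⊤ from eq_top_iff.2 fun _ _ => rfl, AddSubgroup.card_top]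

theorem Q_le_stab : f.Qgrp x ≤ stabilizer f.Isom x := fun _ => f.apply_of_mem_Qgrp

include hf hn h0

theorem orbQ_sp (y : Y) {s : ℕ} (hs : Nat.card (W hx y) = q * s) :
    q * q ^ (2 * n) ≤ (O (f.Qgrp x) y).ncard * (s * Nat.card (R hx y)) := by
  have := orbQ hf h0 hx y
  rw [card_ker_symp, hs, hn, show 2 * n + 2 - 1 = 2 * n + 1 from rfl, pow_succ'] at this
  refine Nat.le_of_mul_le_mul_right (c := q) ?_ Nat.card_pos
  linarith

theorem dual (y : Y) : ∃ ψ : AddChar F ℂ, ψ ≠ 0 ∧ ∃ s t, Nat.card (W hx y) = q * s ∧ Nat.card (U f ψ x (W hx y)) = q * t ∧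
    s * t = q ^ (2 * n) ∧ q * t ≤ (O (f.Qgrp x) y).ncard * Nat.card (R hx y) ∧ (¬ Full hx y → 2 ≤ t) ∧ 1 ≤ s ∧
    (∀ (g : f.Isom) (y : Y) u, g ⊳ x = x → u ∈ U f ψ x (W hx y) → g ⊳ u ∈ U f ψ x (W hx (g • y))) ∧
    (∀ (y : Y) (a : F), a • x ∈ U f ψ x (W hx y)) ∧ ∀ y' ∈ O (f.Qgrp x) y, y' ∈ O (stabilizer f.Isom x) y ∧
      U f ψ x (W hx y) ≤ U f ψ x (W hx y') := by
  have : Finite V := Module.finite_of_finite F
  obtain ⟨ψ, hψ⟩ := (AddChar.exists_apply_ne_zero (a := (1 : F))).2 one_ne_zero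
  have hψ : ψ ≠ 0 := by rintro rfl; exact hψ rfl
  have h2 : ∀ (y : Y) (a : F), a • x ∈ U f ψ x (W hx y) := fun y a =>
    ⟨by simp [f.symp_B_self], fun w hw => by simp [W_perp hw]⟩
  obtain ⟨s, s1, hs⟩ := exists_card_eq h0 (smul_mem_W (hx := hx) (y := y))
  obtain ⟨t, t1, ht⟩ := exists_card_eq h0 (h2 y)
  have e := card_U hf h0 hψ (smul_mem_W (hx := hx) (y := y))
  rw [hs, ht, hn, show 2 * n + 2 - 1 = 2 * n + 1 from rfl, pow_succ'] at e
  have e : s * t = q ^ (2 * n) := Nat.eq_of_mul_eq_mul_left (Nat.mul_pos Nat.card_pos Nat.card_pos : 0 < q * q) (by linarith)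
  have o := orbQ_sp hf hn h0 hx y hs
  refine ⟨ψ, hψ, s, t, hs, ht, e, Nat.le_of_mul_le_mul_left (c := s) (by rw [← e] at o; linarith) s1, fun h => ?_, s1,
    fun g y u hg hu => by simpa using U_map hu one_ne_zero (g := g) (by rw [hg, one_smul]), h2, ?_⟩
  · by_contra! h'
    obtain rfl : t = 1 := by omega
    have := AddSubgroup.eq_of_le_of_card_ge (H := W hx y) (K := (f.perp (F ∙ x)).toAddSubgroup)
      (fun w hw => f.mem_perp_span_singleton.2 (W_perp hw)) (by
        rw [hs, ← mul_one s, e, ← pow_succ']; exact (card_perp hf h0).trans_le (by rw [hn]; rfl))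
    exact h fun w hw => this ▸ f.mem_perp_span_singleton.2 hw
  · rintro _ ⟨g, hg, rfl⟩
    exact ⟨mem_O (Q_le_stab hg) _, by rw [W_Q hg]⟩

theorem kap0 {y : Y} (h : ¬ Full hx y) : q * q ^ (2 * n) ≤ (O (stabilizer f.Isom x) y).ncard * Nat.card (R hx y) := by
  have : Finite V := Module.finite_of_finite F
  obtain ⟨ψ, -, s, t, -, ht, e, o, t2, s1, h1, h2, h3⟩ := dual hf hn h0 hx y
  obtain ⟨u, hu, hu'⟩ := exists_not_line h0 ht (t2 h)
  have c := cover1 hf hn h0 (fun y => U f ψ x (W hx y)) h1 h2 h3 ht hu hu.1 hu'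
  have e' := NN_mul (a := q) Nat.card_pos n
  obtain ⟨t, rfl⟩ : ∃ t', t = t' + 1 := ⟨t - 1, by have := t2 h; omega⟩
  rw [Nat.add_sub_cancel] at c
  rw [← e'] at e ⊢
  generalize (q - 1) * NN q n = a at *
  have : t ≤ a := by nlinarith
  refine Nat.le_of_mul_le_mul_right (c := t) ?_ (by have := t2 h; omega)
  nlinarith [Nat.mul_le_mul_left a o, Nat.mul_le_mul_right (Nat.card (R hx y)) c, Nat.mul_le_mul_left q this]

theorem kap (hq : 3 ≤ q) (n1 : 1 ≤ n) {y : Y} (h : ¬ Full hx y) {w : V} (hw : w ∈ W hx y) (hw' : w ∉ F ∙ x) :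
    q * (q * NN q n + 2) ≤ (O (stabilizer f.Isom x) y).ncard * Nat.card (R hx y) ∨
      ∃ u, f.B x u = 0 ∧ u ∉ F ∙ x ∧ ∀ w, w ∈ W hx y ↔ f.B x w = 0 ∧ f.B u w = 0 := by
  have : Finite V := Module.finite_of_finite F
  obtain ⟨ψ, hψ, s, t, hs, ht, e, o, t2, s1, h1, h2, h3⟩ := dual hf hn h0 hx y
  obtain ⟨u, hu, hu'⟩ := exists_not_line h0 ht (t2 h)
  have hN := le_NN q n1
  suffices (q * NN q n + 2) * (O (f.Qgrp x) y).ncard ≤ (O (stabilizer f.Isom x) y).ncard * t ∨ _ from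
    this.imp_left fun c => Nat.le_of_mul_le_mul_right (c := t) (by
      nlinarith [Nat.mul_le_mul_left (q * NN q n + 2) o, Nat.mul_le_mul_right (Nat.card (R hx y)) c]) (by have := t2 h; omega)
  by_cases hv : ∀ v ∈ U f ψ x (W hx y), v ∈ span F {x, u}
  · have d := AddSubgroup.card_dvd_of_le (K := (span F {x, u}).toAddSubgroup) hv
    rw [ht, show Nat.card (span F {x, u}).toAddSubgroup = _ from ncard_pair h0 hu', sq] at d
    obtain ⟨j, hj⟩ := Nat.dvd_of_mul_dvd_mul_left Nat.card_pos d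
    by_cases j1 : j = 1
    · subst j1
      have e1 := AddSubgroup.eq_of_le_of_card_ge (K := (span F {x, u}).toAddSubgroup) hv (by
        rw [ht, show Nat.card (span F {x, u}).toAddSubgroup = _ from ncard_pair h0 hu', sq, hj, mul_one])
      have e2 : (W hx y : Set V) ⊆ {w | f.B x w = 0 ∧ f.B u w = 0} := fun w hw => ⟨W_perp hw, by
        by_contra hne
        obtain ⟨c, hc⟩ := DFunLike.ne_iff.1 hψ
        have : (c / f.B u w) • u ∈ U f ψ x (W hx y) := e1 ▸ smul_mem _ _ (subset_span (by simp))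
        exact hc (by simpa [hne] using this.2 w hw)⟩
      exact Or.inr ⟨u, hu.1, hu', Set.ext_iff.1 (eq_of_subset_of_ncard_le e2 ((ncard_aff hf hn h0 hu' 0).trans_le (by
        rw [← e, show (W hx y : Set V).ncard = _ from hs, hj, mul_one, mul_comm])))⟩
    · have : 2 ≤ j := by rcases j with _ | _ | j <;> simp_all
      exact Or.inl (ar_small hN (by nlinarith) (t2 h) (cover1 hf hn h0 (fun y => U f ψ x (W hx y)) h1 h2 h3 ht hu hu.1 hu'))
  push Not at hv
  obtain ⟨v, hv, hv'⟩ := hv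
  left
  rcases lt_or_ge s t with st | st
  · exact ar_two hq hN (two_mul_le_of_lt e st) (cover1 hf hn h0 (fun y => W hx y) (fun g y u hg hu => W_mov hu hx hg)
      (fun _ => smul_mem_W) (by rintro _ ⟨g, hg, rfl⟩; exact ⟨mem_O (Q_le_stab hg) _, by rw [W_Q hg]⟩) hs hw (W_perp hw) hw')
  have tn : t ≤ q ^ n := by
    rw [mul_comm 2, pow_mul] at e
    exact (Nat.pow_le_pow_iff_left two_ne_zero).1 (by nlinarith)
  rcases n1.eq_or_lt with rfl | n2
  · have hb : f.B u v ≠ 0 := fun hb => hv' (by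
      have := eq_of_subset_of_ncard_le (s := (span F {x, u} : Submodule F V)) (t := {v | f.B x v = 0 ∧ f.B u v = 0})
        (fun z hz => by
          obtain ⟨a, b, rfl⟩ := mem_span_pair.1 hz
          simp [f.symp_B_self, hu.1, f.eq_zero_symm hu.1]) (by rw [ncard_aff hf hn h0 hu', ncard_pair h0 hu'])
      exact (Set.ext_iff.1 this v).2 ⟨hv.1, hb⟩)
    obtain ⟨t3, c⟩ := cover2 hf hn h0 (fun y => U f ψ x (W hx y)) h1 h2 h3 ht hu hu.1 hu' hv hv.1 hv' (Or.inr ⟨hb, le_rfl⟩)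
    have : NN q 1 = q + 1 := by simp [NN, Finset.sum_range_succ, add_comm]
    rw [this] at c ⊢
    exact ar_pair1 (by simpa using tn) t3 c
  · obtain ⟨t3, c⟩ := cover2 hf hn h0 (fun y => U f ψ x (W hx y)) h1 h2 h3 ht hu hu.1 hu' hv hv.1 hv' (Or.inl le_rfl)
    rw [mul_comm 2, pow_mul] at c
    have c := ar_pair hq (Nat.pow_le_pow_right Nat.card_pos n2) tn t3 c
    obtain ⟨p, hp⟩ : ∃ p, q = p + 1 := ⟨q - 1, by omega⟩
    rw [hp] at c hN hq ⊢
    rw [Nat.add_sub_cancel] at c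
    have : (p + 1) * NN (p + 1) n + 2 ≤ 2 * (p * NN (p + 1) n) := by nlinarith
    nlinarith [Nat.mul_le_mul_right (O (f.Qgrp x) y).ncard this,
      Nat.mul_le_mul_left (O (stabilizer f.Isom x) y).ncard (Nat.sub_le t 1)]

variable [IsPretransitive f.Isom Y]

theorem orb_eq (y : Y) : Nat.card Y * (O (stabilizer f.Isom y) x).ncard =
    (q - 1) * NN q (n + 1) * (O (stabilizer f.Isom x) y).ncard := by
  have : Finite V := Module.finite_of_finite F
  have := orb_mul (⊤ : Subgroup f.Isom) y x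
  rw [inf_top_eq, inf_top_eq, show O ⊤ y = univ from eq_univ_of_forall fun y' =>
    (exists_smul_eq f.Isom y y').imp fun _ h => ⟨trivial, h⟩, ncard_univ, show O (⊤ : Subgroup f.Isom) x = {0}ᶜ from
      Set.ext fun v => ⟨by rintro ⟨g, -, rfl⟩; exact (map_ne_zero_iff _ (g : V ≃ₗ[F] V).injective).2 h0, fun h =>
        (hf.witt_one h0 h (by simp only [symp_Q])).imp fun _ h => ⟨trivial, h⟩⟩, ncard_compl, ncard_singleton,
    Module.natCard_eq_pow_finrank (K := F) (V := V), hn, ← mul_add_one, ← NN_mul Nat.card_pos, Nat.add_sub_cancel] at this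
  exact this

theorem fin1 {y : Y} (h : (O (stabilizer f.Isom y) x).ncard ≤ (q - 1) * (O (stabilizer f.Isom x) y).ncard) :
    NN q (n + 1) ≤ Nat.card Y := by
  have := orb_eq hf hn h0 y
  have := two_le_q (F := F)
  refine Nat.le_of_mul_le_mul_right (c := (q - 1) * (O (stabilizer f.Isom x) y).ncard) ?_
    (Nat.mul_pos (by omega) (ncard_O_pos _ _))
  nlinarith [Nat.mul_le_mul_left (Nat.card Y) h]

theorem fin2 {y : Y} (h : (O (stabilizer f.Isom x) y).ncard ≤ q * NN q n) : Nat.card Y + 1 ≠ NN q (n + 1) := fun e => by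
  have h1 := orb_eq hf hn h0 y
  have h2 := two_le_q (F := F)
  rw [← e, mul_right_comm] at h1
  have := Nat.le_of_dvd (Nat.mul_pos (by omega) (ncard_O_pos _ _))
    ((Nat.coprime_self_add_right.2 (Nat.coprime_one_right _)).dvd_of_dvd_mul_right (h1 ▸ Dvd.intro _ rfl))
  rw [NN_succ] at e
  nlinarith [Nat.mul_le_mul (Nat.sub_le q 1) h]

theorem T0 (hq : 3 ≤ q) {y : Y} (h : f.Qgrp x ≤ stabilizer f.Isom y) (h' : stabilizer f.Isom y ≠ ⊤) :
    NN q (n + 1) ≤ Nat.card Y := by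
  have : Finite V := Module.finite_of_finite F
  have ts := Sp_ts hf f.symp_prim.rich (f.symp_Q x) h (by rw [hf.symp_Eich_eq_top, top_le_iff]; exact h')
  have h2 : ∀ (y : Y) (a : F), a • x ∈ (Sp f x y).toAddSubgroup := fun y a => smul_mem _ _ (subset_span (self_mem_O _ _))
  have h1 : ∀ (g : f.Isom) (y : Y) u, g ⊳ x = x → u ∈ (Sp f x y).toAddSubgroup → g ⊳ u ∈ (Sp f x (g • y)).toAddSubgroup :=
    fun g y u hg hu => Sp_map hu one_ne_zero (by rw [hg, one_smul])
  have h3 : ∀ y' ∈ ({y} : Set Y), y' ∈ O (stabilizer f.Isom x) y ∧ (Sp f x y).toAddSubgroup ≤ (Sp f x y').toAddSubgroup := by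
    rintro _ rfl; exact ⟨self_mem_O _ _, le_rfl⟩
  have px : ∀ u ∈ Sp f x y, f.B x u = 0 := fun u hu => ts.le_perp hu x (by simpa using h2 y 1)
  obtain ⟨s, s1, hs⟩ := exists_card_eq h0 (h2 y)
  have c0 : (O (stabilizer f.Isom y) x).ncard + 1 ≤ q * s := by
    rw [← hs, ← ncard_insert_of_notMem (a := 0) (by rintro ⟨g, -, e⟩; exact h0 ((map_eq_zero_iff _ (g : V ≃ₗ[F] V).injective).1 e))]
    exact ncard_le_ncard (t := (Sp f x y : Set V)) (insert_subset (zero_mem _) subset_span)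
  have o := ncard_O_pos (stabilizer f.Isom x) y
  have hd := hf.two_mul_finrank_le ts
  refine fin1 hf hn h0 (y := y) ?_
  obtain ⟨p, hp⟩ : ∃ p, q = p + 1 := ⟨q - 1, by omega⟩
  have hp' : q - 1 = p := by omega
  rcases s1.eq_or_lt with rfl | s2
  · rw [hp']; nlinarith
  obtain ⟨u, hu, hu'⟩ := exists_not_line h0 hs s2
  have sn : s ≤ q ^ n := Nat.le_of_mul_le_mul_left (c := q) (by
    rw [← hs, ← pow_succ', show Nat.card (Sp f x y).toAddSubgroup = _ from Module.natCard_eq_pow_finrank (K := F) (V := Sp f x y)]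
    exact Nat.pow_le_pow_right Nat.card_pos (by omega)) Nat.card_pos
  have n1 : 1 ≤ n := Nat.pos_of_ne_zero (by rintro rfl; rw [pow_zero] at sn; omega)
  by_cases hv : ∀ v ∈ Sp f x y, v ∈ span F {x, u}
  · have d := ncard_le_ncard (s := (Sp f x y : Set V)) (t := (span F {x, u} : Submodule F V)) hv
    rw [ncard_pair h0 hu', show (Sp f x y : Set V).ncard = _ from hs, sq] at d
    have d := Nat.le_of_mul_le_mul_left d Nat.card_pos
    have c := cover1 hf hn h0 _ h1 h2 h3 hs hu (px u hu) hu'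
    have := le_NN q n1
    rw [ncard_singleton, hp'] at c
    have : NN q n ≤ (O (stabilizer f.Isom x) y).ncard := Nat.le_of_mul_le_mul_left (c := p)
      (by nlinarith [Nat.mul_le_mul_left (O (stabilizer f.Isom x) y).ncard (show s - 1 ≤ p by omega)]) (by omega)
    rw [hp']; nlinarith
  push Not at hv
  obtain ⟨v, hv, hv'⟩ := hv
  obtain ⟨s3, c⟩ := cover2 hf hn h0 _ h1 h2 h3 hs hu (px u hu) hu' hv (px v hv) hv' (Or.inl le_rfl)
  have n2 : 2 ≤ n := by
    have := Submodule.finrank_lt_finrank_of_lt (s := span F {x, u}) (t := Sp f x y) (lt_of_le_of_ne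
      (span_le.2 (insert_subset (by simpa using h2 y 1) (singleton_subset_iff.2 hu))) fun e => hv' (e ▸ hv))
    rw [finrank_pair h0 hu'] at this
    omega
  rw [mul_comm 2, pow_mul] at c
  have c := ar_pair hq (Nat.pow_le_pow_right Nat.card_pos n2) sn s3 c
  have e := NN_mul (a := q) Nat.card_pos n
  rw [mul_comm 2, pow_mul] at e
  obtain ⟨a, ha⟩ : ∃ a, q ^ n = a + 1 := ⟨q ^ n - 1, by omega⟩
  rw [ncard_singleton, mul_one, show (q - 1) * NN q n = a * (a + 2) by nlinarith] at c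
  have : 2 * (a + 2) ≤ (O (stabilizer f.Isom x) y).ncard := Nat.le_of_mul_le_mul_left (c := a)
    (by nlinarith [Nat.mul_le_mul_left (O (stabilizer f.Isom x) y).ncard (show s - 1 ≤ a by omega)]) (by omega)
  rw [hp']; nlinarith

theorem T3 (hq : 3 ≤ q) (n1 : 1 ≤ n) {y : Y} (hR : R hx y = ⊤) (hW : ∀ w ∈ W hx y, w ∈ F ∙ x) :
    NN q (n + 1) ≤ Nat.card Y := by
  have : Finite V := Module.finite_of_finite F
  let D : Set V := {v | v ≠ 0 ∧ f.Tgrp v ≤ stabilizer f.Isom y}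
  have hD : ∀ {v} (g : f.Isom), g ∈ stabilizer f.Isom y → v ∈ D → g ⊳ v ∈ D := fun g hg h =>
    ⟨(map_ne_zero_iff _ (g : V ≃ₗ[F] V).injective).2 h.1, Tgrp_map h.2 hg⟩
  have hxD : x ∈ D := ⟨h0, f.Tgrp_le fun c _ => (show c ∈ R hx y by simp [hR]).2⟩
  have K : ∀ {v a a'}, f.B x v = 0 → v ∉ F ∙ x → v + a • x ∈ D → v + a' • x ∈ D → a' = a := fun {v a a'} e hv h h' => by
    have := hW _ (W_of_T (f.symp_Q v) e (d := 1) (h.2 (f.eichler_mem_Tgrp _ _ (sc (map_zero _) _)))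
      (h'.2 (f.eichler_mem_Tgrp _ _ (sc (map_zero _) _))))
    by_contra hne
    exact hv ((smul_mem_iff _ (by simpa [sub_eq_zero] using Ne.symm hne)).1 this)
  obtain ⟨z, hz, hz'⟩ : ∃ z, f.IsHyp x z ∧ ∀ v ∈ D, f.B x v ≠ 0 → z ∈ D := by
    by_cases h : ∃ v ∈ D, f.B x v ≠ 0
    · obtain ⟨v, hv, e⟩ := h
      exact ⟨(f.B x v)⁻¹ • v, ⟨hx, f.symp_Q _, by simp [e]⟩, fun _ _ _ => ⟨smul_ne_zero (inv_ne_zero e) hv.1,
        (f.Tgrp_smul_le _ _).trans hv.2⟩⟩
    · exact (hf.exists_isHyp hx h0).imp fun z hz => ⟨hz, fun v hv e => (h ⟨v, hv, e⟩).elim⟩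
  have zx : z ∉ F ∙ x := fun h => by
    obtain ⟨a, rfl⟩ := mem_span_singleton.1 h
    simpa [f.symp_B_self] using hz.B_xy
  have Bzx : f.B z x = -1 := hz.B_yx
  have h1 : D ⊆ (span F {x, z} : Set V) \ {0} ∪ {v ∈ D | f.B x v = 0 ∧ v ∉ F ∙ x} := fun v hv => by
    by_contra hne
    simp only [mem_union, not_or, mem_sdiff, mem_ofPred_eq, not_and, not_not] at hne
    have hv' : v ∉ span F {x, z} := fun h => hv.1 (hne.1 h)
    have e : f.B x v ≠ 0 := fun e => hv' (span_mono (by simp) (hne.2 hv e))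
    obtain ⟨w, hw, e'⟩ := hz.exists_decomp v
    rw [f.mem_perp_span_pair] at hw
    have : ∀ a : F, a ≠ 0 → w + a • x ∈ D := fun a ha => by
      convert hD _ ((hz' v hv e).2 (f.eichler_mem_Tgrp _ (f.B x v / a) (sc (map_zero _) _)))
        (hD _ (hxD.2 (f.eichler_mem_Tgrp _ ((a + f.B z v) / f.B x v) (sc (map_zero _) _))) hv) using 1
      simp only [eichler_zero_apply, map_sub, map_smul, Bzx, Kind.symp_ε] at e' ⊢
      rw [eq_sub_of_add_eq' e'.symm]
      match_scalars <;> field_simp <;> ring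
    have _ := Fintype.ofFinite F
    obtain ⟨a, a0, a1⟩ := exists_ne_zero_ne_one (F := F) (by rw [← Nat.card_eq_fintype_card]; omega)
    refine a1 (K hw.1 (fun h => hv' ?_) (this 1 one_ne_zero) (this a a0))
    rw [e']
    exact add_mem (add_mem (smul_mem _ _ (subset_span (by simp))) (smul_mem _ _ (subset_span (by simp))))
      (span_mono (by simp) h)
  have h2 : {v ∈ D | f.B x v = 0 ∧ v ∉ F ∙ x}.ncard ≤ {v | f.B x v = 0 ∧ f.B z v = 0}.ncard :=
    ncard_le_ncard_of_injOn (fun v => v + f.B z v • x) (fun v hv => by simp [hv.2.1, f.symp_B_self, Bzx])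
      fun v hv v' hv' e => by
        have := K (a := 0) (a' := f.B z v - f.B z v') hv.2.1 hv.2.2 (by simpa using hv.1) (by
          rw [sub_smul, ← add_sub_assoc, show v + _ = _ from e, add_sub_cancel_right]; exact hv'.1)
        simpa [sub_eq_zero.1 this] using e
  rw [ncard_aff hf hn h0 zx] at h2
  have h3 := (ncard_le_ncard h1).trans (ncard_union_le _ _)
  have h4 := (ncard_le_ncard (sdiff_subset (s := (span F {x, z} : Set V)) (t := {0}))).trans_eq (ncard_pair h0 zx)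
  have h5 := ncard_le_ncard (s := O (stabilizer f.Isom y) x) (t := D) (by rintro _ ⟨g, hg, rfl⟩; exact hD g hg hxD)
  have h6 := orbQ_sp hf hn h0 hx y (s := 1) (by
    rw [mul_one, ← ncard_line (F := F) h0]
    exact congrArg ncard (Set.ext fun w => ⟨hW w, fun h => by obtain ⟨a, rfl⟩ := mem_span_singleton.1 h; exact smul_mem_W a⟩))
  rw [hR, AddSubgroup.card_top, one_mul, mul_comm] at h6
  have h6 := (Nat.le_of_mul_le_mul_right h6 Nat.card_pos).trans
    (ncard_le_ncard (O_mono Q_le_stab (self_mem_O (stabilizer f.Isom x) y)))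
  have h7 := Nat.pow_le_pow_right (Nat.card_pos (α := F)) (show 2 ≤ 2 * n by omega)
  refine fin1 hf hn h0 (y := y) ?_
  nlinarith [Nat.mul_le_mul_right (O (stabilizer f.Isom x) y).ncard (show 2 ≤ q - 1 by omega)]

end CA.Coop
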