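import Cfsg.Agent.Lib.Lin.CoopSp2

/-! Minimal degree of the symplectic groups: characteristic two. -/

set_option autoImplicit false
set_option linter.unusedSectionVars false

namespace CA.Coop

open MulAction Module CA.CForm CA.CForm.Form Set Submodule

section
variable {F : Type*} [Field F] {k : Kind F} {V : Type*} [AddCommGroup V] [Module F V] {f : Form k V}
  {Y : Type*} [MulAction f.Isom Y] {x : V} {hx : f.Q x = 0} {y : Y}

theorem Full.map (h : Full hx y) {g : f.Isom} {x' : V} (hx' : f.Q x' = 0) {a : F} (ha : a ≠ 0)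
    (hg : (g : V ≃ₗ[F] V) x = a • x') : Full hx' (g • y) := fun w hw => by
  have := W_map (h ((k.σ a)⁻¹ • ((g⁻¹ : f.Isom) : V ≃ₗ[F] V) w) (by
    rw [map_smul, ← B_isom_left, hg, B_smul_left, hw, mul_zero, smul_zero])) hx' ha hg
  rwa [map_smul, isom_apply_inv_apply, smul_inv_smul₀ (k.σ_eq_zero.not.2 ha)] at this

theorem Full_mov {g : f.Isom} {x' : V} (hx' : f.Q x' = 0) (hg : (g : V ≃ₗ[F] V) x = x') : Full hx' (g • y) ↔ Full hx y :=
  ⟨fun h => by simpa using h.map hx one_ne_zero (g := g⁻¹) (by rw [← hg, one_smul, isom_inv_apply_apply]),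
    fun h => h.map hx' one_ne_zero (by rw [hg, one_smul])⟩

theorem fix_of {g : f.Isom} {w : V} {c : F} {h : f.EichlerCond x w c} (e : f.eichler x w c h • y = y)
    (h1 : (g : V ≃ₗ[F] V) x = x) (h2 : (g : V ≃ₗ[F] V) w = w) : f.eichler x w c h • g • y = g • y :=
  (fix_mov e g).elim fun h' e' => by rwa [f.eichler_congr h' h h1 h2 rfl] at e'

theorem fix_congr {w w' : V} {c c' : F} {h : f.EichlerCond x w c} (e : f.eichler x w c h • y = y) (h1 : w = w')
    (h2 : c = c') {h' : f.EichlerCond x w' c'} : f.eichler x w' c' h' • y = y := by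
  subst h1 h2; exact e

theorem ex_perp [FiniteDimensional F V] (hf : f.Nondeg) {m : ℕ} (v : Fin m → V) (T : Submodule F V)
    (h : m + finrank F T < finrank F V) : ∃ u, (∀ i, f.B (v i) u = 0) ∧ u ∉ T := by
  by_contra! e
  have h1 := Submodule.finrank_mono (s := f.perp (span F (range v))) (t := T) fun u hu =>
    e u fun i => f.mem_perp_span.1 hu _ ⟨i, rfl⟩
  have h2 := hf.finrank_perp (span F (range v))
  have h3 : finrank F (span F (range v)) ≤ _ := finrank_range_le_card v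
  rw [Fintype.card_fin] at h3
  omega

theorem pigeon {F : Type*} [Finite F] [Zero F] (d : F → F) (h : ∀ a, d a ≠ 0) : ∃ a b, a ≠ b ∧ d a = d b := by
  by_contra! e
  obtain ⟨a, ha⟩ := Finite.surjective_of_injective (f := d) (fun a b => not_imp_not.1 (e a b)) 0
  exact h a ha

end

variable {F : Type*} [Field F] [Finite F] {V : Type*} [AddCommGroup V] [Module F V] [FiniteDimensional F V]
  {f : Form (Kind.symp F) V} {Y : Type*} [Finite Y] [MulAction f.Isom Y] (hf : f.Nondeg) {n : ℕ}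
  (hn : finrank F V = 2 * n + 2) {x : V} (h0 : x ≠ 0) (hx : f.Q x = 0) (h2 : (2 : F) = 0)

local notation:75 g:76 " ⊳ " v:75 => (g : V ≃ₗ[F] V) v
local notation "q" => Nat.card F

theorem ex_R {y : Y} (h : R hx y ≠ ⊤) : ∃ v, v ∉ R hx y := by
  by_contra! e; exact h (eq_top_iff.2 fun v _ => e v)

theorem two_card_R {y : Y} (h : R hx y ≠ ⊤) : 2 * Nat.card (R hx y) ≤ q := by
  have := (R hx y).index_mul_card
  have h1 : (R hx y).index ≠ 1 := AddSubgroup.index_eq_one.not.2 h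
  have h2 := (R hx y).index_ne_zero_of_finite
  nlinarith [show 2 ≤ (R hx y).index by omega]

include h2

theorem sq_inj : Function.Injective fun a : F => a * a := fun a b e => by
  have : (a - b) ^ 2 = 0 := by linear_combination e + (b * b - a * b) * h2
  exact sub_eq_zero.1 (pow_eq_zero_iff two_ne_zero |>.1 this)

theorem fix_Q {y : Y} {g : f.Isom} (hg : g ∈ f.Qgrp x) {w : V} {c : F} {h : f.EichlerCond x w c} :
    f.eichler x w c h • g • y = g • y ↔ f.eichler x w c h • y = y := by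
  obtain ⟨u, d, h', rfl⟩ := (mem_Qgrp h.Q_p).1 hg
  rw [smul_smul, eichler_mul, f.eichler_congr _ (h'.add h) rfl (add_comm _ _) (by
    rw [f.symp_symm u w]; linear_combination -f.B u w * h2), ← f.eichler_mul h' h, mul_smul, smul_left_cancel_iff]

include hf h0

theorem tor (y : Y) (Y' : Set Y) (h : R hx y ≠ ⊤)
    (hY : ∀ (g : f.Isom) (a : F), a ≠ 0 → g ⊳ x = a • x → ∀ y' ∈ O (stabilizer f.Isom x) y, g • y' ∈ Y') :
    ∃ m, 0 < m ∧ (m + 1) * Nat.card (R hx y) ≤ q ∧ (q - 1) * (O (stabilizer f.Isom x) y).ncard ≤ Y'.ncard * m := by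
  obtain ⟨v, hv⟩ := ex_R hx h
  obtain ⟨m, e1, e2⟩ := torus_cover (hx := hx) {0}ᶜ (O (stabilizer f.Isom x) y) Y' (R₀ := R hx y)
    (by rintro _ ⟨g, hg, rfl⟩; exact R_mov hx hg) R_le (fun a ha => ⟨ha, (hf.witt_one h0 (smul_ne_zero ha h0)
      (by simp only [symp_Q])).imp fun g hg => ⟨hg, hY g a ha hg⟩⟩) (sq_inj h2).injOn rfl hv
  rw [ncard_compl, ncard_singleton] at e2
  have := two_le_q (F := F)
  refine ⟨m, Nat.pos_of_ne_zero ?_, card_ker_symp (F := F) ▸ e1, e2⟩
  rintro rfl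
  exact (Nat.mul_pos (by omega) (ncard_O_pos _ _)).not_ge e2

include hn

theorem L3 {y : Y} (h : ¬ Full hx y) (hR : R hx y ≠ ⊤) (hR' : R hx y ≠ ⊥) : NN q (n + 1) ≤ Nat.card Y := by
  obtain ⟨m, m0, e1, e2⟩ := tor hf h0 hx h2 y univ hR fun _ _ _ _ _ _ => trivial
  have k := kap0 hf hn h0 hx h
  have r2 : 2 ≤ Nat.card (R hx y) := (AddSubgroup.one_lt_card_iff_ne_bot _).2 hR'
  have e := NN_mul (a := q) Nat.card_pos (n + 1)
  rw [ncard_univ] at e2
  rw [mul_add_one, pow_add] at e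
  generalize q ^ (2 * n) = a at *
  generalize (O (stabilizer f.Isom x) y).ncard = o at *
  have o1 : (m + 1) * a ≤ o := Nat.le_of_mul_le_mul_right (c := Nat.card (R hx y))
    (by nlinarith [Nat.mul_le_mul_right a e1]) (by omega)
  obtain ⟨p, hp⟩ : ∃ p, q = p + 1 := ⟨q - 1, by have := two_le_q (F := F); omega⟩
  rw [hp] at e e1 e2 ⊢
  rw [Nat.add_sub_cancel] at e e2
  have p1 : 2 * m + 1 ≤ p := by nlinarith
  have : (p + 1) ^ 2 * m ≤ p * p * (m + 1) := by nlinarith [Nat.mul_le_mul_left p p1]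
  refine Nat.le_of_mul_le_mul_left (c := p * m) ?_ (Nat.mul_pos (by omega) m0)
  nlinarith [Nat.mul_le_mul_left a this, Nat.mul_le_mul_left p e2, Nat.mul_le_mul_left (p * p) o1]

theorem T5 (hq : 3 ≤ q) {y : Y} (h : Full hx y) (hR : R hx y ≠ ⊤) : q * NN q n ≤ {y : Y | Full hx y}.ncard := by
  have : Finite V := Module.finite_of_finite F
  have _ := Fintype.ofFinite F
  obtain ⟨a, a0, a1⟩ := exists_ne_zero_ne_one (F := F) (by rw [← Nat.card_eq_fintype_card]; omega)
  have c := cover (G := f.Isom) {u | f.B x u = 0 ∧ u ∉ F ∙ x} (O (f.Qgrp x) y) (O (stabilizer f.Isom x) y)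
    (fun u y' => (∀ w, f.B x w = 0 → f.B u w = 0 → w ∈ W hx (y, y')) ∧ ¬ Full hx (y, y')) (n := q * (q - 1))
    (fun u hu => ?_) fun y' _ => ?_
  · rw [ncard_Om hf hn h0] at c
    obtain ⟨m, m0, e1, e2⟩ := tor hf h0 hx h2 y {y : Y | Full hx y} hR (by
      rintro g a ha hg _ ⟨g', hg', rfl⟩
      exact ((Full_mov hx hg').2 h).map hx ha hg)
    obtain ⟨-, -, s, t, -, -, e, o, -⟩ := dual hf hn h0 hx y
    have t1 : 1 ≤ t := Nat.pos_of_ne_zero (by rintro rfl; exact (pow_pos Nat.card_pos _).ne e)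
    have r0 : 0 < Nat.card (R hx y) := Nat.card_pos
    have o1 : m + 1 ≤ (O (f.Qgrp x) y).ncard := Nat.le_of_mul_le_mul_right (c := Nat.card (R hx y)) (by nlinarith) r0
    have o2 : NN q n * (O (f.Qgrp x) y).ncard ≤ (O (stabilizer f.Isom x) y).ncard :=
      Nat.le_of_mul_le_mul_left (c := q * (q - 1)) (by linarith) (Nat.mul_pos (by omega) (by omega))
    obtain ⟨p, hp⟩ : ∃ p, q = p + 1 := ⟨q - 1, by omega⟩
    rw [hp] at e1 e2 o2 ⊢
    rw [Nat.add_sub_cancel] at e2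
    have : m ≤ p := by nlinarith
    refine Nat.le_of_mul_le_mul_right (c := m) ?_ m0
    nlinarith [Nat.mul_le_mul_left (p * NN (p + 1) n) o1, Nat.mul_le_mul_left p o2, Nat.mul_le_mul_left (NN (p + 1) n) this]
  · have ux := f.eq_zero_symm hu.1
    have tx : ∀ γ, f.eichler u 0 γ (sc (map_zero _) _) ⊳ x = x := fun γ => by simp [eichler_zero_apply, ux]
    obtain ⟨γ, hγ⟩ : ∃ γ, ¬ Full hx (y, (f.eichler u 0 γ (sc (map_zero _) _))⁻¹ • y) := by
      by_contra! e
      have : ∀ δ β : F, β ≠ 0 → f.eichler x (δ • u) (δ * β) (sc (by simp [hu.1]) _) • y = y := fun δ β hβ => by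
        obtain ⟨w, hw, rfl⟩ := hf.exists_perp_B_eq' hu.2 β
        obtain ⟨c, hc, e'⟩ := e (δ / f.B u w) w (f.mem_perp_span_singleton.1 hw)
        obtain ⟨h', e2⟩ := fix_mov (congrArg Prod.snd e') (f.eichler u 0 (δ / f.B u w) (sc (map_zero _) _))
        rw [smul_inv_smul, f.eichler_congr h' (tx _ ▸ h') (tx _) rfl rfl] at e2
        have e3 := (inv_smul_eq_iff.2 (congrArg Prod.fst e').symm : _ • y = y)
        rw [← e2, smul_smul, e2, eichler_inv, eichler_mul] at e3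
        exact fix_congr e3 (by simp [eichler_zero_apply, hβ]) (by
          simp [eichler_zero_apply, hβ, f.symp_B_self, f.symp_symm u w])
      refine hR (eq_top_iff.2 fun c _ => ?_)
      have := sub_mem_R (hx := hx) (this (c / (a - 1)) a a0) (this (c / (a - 1)) 1 one_ne_zero)
      rwa [← mul_sub, div_mul_cancel₀ _ (sub_ne_zero.2 a1)] at this
    have gx := inv_apply one_ne_zero ((tx γ).trans (one_smul _ _).symm)
    rw [inv_one, one_smul] at gx
    refine ⟨(f.eichler u 0 γ (sc (map_zero _) _))⁻¹, ?_⟩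
    rintro _ ⟨g, hg, rfl⟩
    refine ⟨smul_mem_O gx (mem_O (Q_le_stab hg) _), fun w h1 h3 => ?_, fun e => hγ fun w hw => ?_⟩
    · obtain ⟨c, hc, e⟩ := h w h1
      exact ⟨c, hc, Prod.ext e (fix_of ((fix_Q h2 hg).2 e) gx (by
        simp [eichler_inv, eichler_apply, h3]))⟩
    · obtain ⟨c, hc, e⟩ := e w hw
      have := f.conj_mem_Qgrp (f.eichler u 0 γ (sc (map_zero _) _))⁻¹ hg
      rw [gx] at this
      have e : _ • _ = _ := e
      exact ⟨c, hc, Prod.ext (Prod.ext_iff.1 e).1 ((fix_Q h2 this).1 (by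
        simpa [mul_smul] using (Prod.ext_iff.1 e).2))⟩
  · rcases eq_empty_or_nonempty {u ∈ {u | f.B x u = 0 ∧ u ∉ F ∙ x} | (∀ w, f.B x w = 0 → f.B u w = 0 → w ∈ W hx (y, y')) ∧
      ¬ Full hx (y, y')} with e | ⟨u, hu, hu'⟩
    · rw [e, ncard_empty]; exact Nat.zero_le _
    refine (ncard_sub_line h0 (A := (span F {x, u}).toAddSubgroup) (fun a => smul_mem _ _ (subset_span (by simp)))
      fun v hv => ⟨?_, hv.1.2⟩).trans_eq (by
        rw [show Nat.card (span F {x, u}).toAddSubgroup = _ from ncard_pair h0 hu.2, sq, Nat.mul_sub_one])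
    by_contra hne
    refine hu'.2 fun w hw => ?_
    obtain ⟨z, hz, e⟩ := hf.exists_perp_B_eq' hne (f.B v w)
    rw [f.mem_perp_span_pair] at hz
    simpa using add_mem (hu'.1 z hz.1 hz.2) (hv.2.1 (w - z) (by simp [hw, hz.1]) (by simp [e]))

omit hn h0

theorem LB {y : Y} (h : Full hx y) {z : V} (e : f.B x z = 0) (hz : z ∉ F ∙ x) {α β δ : F} {h1 h3}
    (L : f.eichler x (β • z) α h1 • f.eichler z 0 δ h3 • y = y) (a : F) :
    f.eichler x ((a * δ) • z) (a * a * δ) (sc (by simp [e]) _) • y = y := by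
  obtain ⟨w, hw, e1⟩ := hf.exists_perp_B_eq hz a
  obtain ⟨c, hc, e2⟩ := h w (f.mem_perp_span_singleton.1 hw)
  have e2 : _ • y = y := e2
  have e3 := (fix_Q h2 (y := f.eichler z 0 δ h3 • y) (f.eichler_mem_Qgrp x _ α h1) (h := hc)).1 (by rw [L, e2])
  obtain ⟨h4, h5, e4⟩ := T_add hx h3.Q_p e a h3.π_eq_zero
  have e5 := f.conj_eichler (f.eichler x w c hc) z 0 δ h3
  rw [f.eichler_congr _ h4 (by simp [eichler_apply_of_B _ _ _ _ _ e, e1]) (map_zero _) rfl, e4,
    mul_inv_eq_iff_eq_mul] at e5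
  rw [← mul_smul, e5, mul_smul, mul_smul, e2] at e3
  have zx := f.eq_zero_symm e
  have := fix_of e3 (g := (f.eichler z 0 δ h3)⁻¹) (by simp [eichler_inv, eichler_apply, zx])
    (by simp [eichler_inv, eichler_apply, f.symp_B_self])
  rw [inv_smul_smul] at this
  exact fix_congr this (by simp [mul_comm]) rfl

theorem LA {y : Y} (h : Full hx y) (hR : R hx y ≠ ⊤) {z : V} (e : f.B x z = 0) (hz : z ∉ F ∙ x) {α β δ α' β' δ' : F}
    {h1 h3 h1' h3'} (L : f.eichler x (β • z) α h1 • f.eichler z 0 δ h3 • y = y)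
    (L' : f.eichler x (β' • z) α' h1' • f.eichler z 0 δ' h3' • y = y) (d : δ ≠ 0) (d' : δ' ≠ 0) : δ = δ' := by
  by_contra hne
  refine hR (eq_top_iff.2 fun c _ => ?_)
  have hd : δ⁻¹ - δ'⁻¹ ≠ 0 := sub_ne_zero.2 (inv_injective.ne hne)
  obtain ⟨b, hb⟩ := Finite.surjective_of_injective (sq_inj h2) (c / (δ⁻¹ - δ'⁻¹))
  have e1 := LB hf hx h2 h e hz L (b / δ)
  have e2 := LB hf hx h2 h e hz L' (b / δ')
  rw [f.eichler_congr _ (sc (by simp [e]) _) rfl (show _ = b • z by rw [div_mul_cancel₀ _ d]) rfl] at e1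
  rw [f.eichler_congr _ (sc (by simp [e]) _) rfl (show _ = b • z by rw [div_mul_cancel₀ _ d']) rfl] at e2
  convert sub_mem_R (hx := hx) e1 e2 using 1
  rw [← div_mul_cancel₀ c hd, ← hb]; field_simp

omit h2 hf in
theorem Esym {z : V} (e : f.B x z = 0) (β δ : F) (h) : f.eichler z (β • x) δ h =
    f.eichler x (β • z) 0 (sc (by simp [e]) _) * f.eichler z 0 δ (sc (map_zero _) _) := f.isom_ext fun v => by
  simp only [isom_mul_apply, eichler_apply, map_zero, map_add, map_sub, map_smul, B_smul_left, e,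
    f.symp_B_self, B_zero_left, Kind.symp_σ, Kind.symp_ε]
  match_scalars <;> ring

include hn h0 in
theorem L4 (hq : 3 ≤ q) (n1 : 1 ≤ n) {y : Y} (h : Full hx y) (hR : R hx y ≠ ⊤)
    (H : ∀ z, z ≠ 0 → R (f.symp_Q z) y = ⊤ ∨ Full (f.symp_Q z) y) : False := by
  have _ := Fintype.ofFinite F
  obtain ⟨a, a0, a1⟩ := exists_ne_zero_ne_one (F := F) (by rw [← Nat.card_eq_fintype_card]; omega)
  have C : ∀ z c h', z ∉ F ∙ x → f.eichler x z c h' • y = y → c = 0 := fun z c h' hz e => by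
    have e0 := h'.B_pw
    have xz : x ∉ F ∙ z := fun h => by
      obtain ⟨b, rfl⟩ := mem_span_singleton.1 h
      exact hz (mem_span_singleton.2 ⟨b⁻¹, inv_smul_smul₀ (left_ne_zero_of_smul h0) _⟩)
    rcases H z (by rintro rfl; simp at hz) with r | r
    · have : ∀ δ, f.eichler x ((0 : F) • z) 0 (sc (by simp) _) • f.eichler z 0 δ (sc (map_zero _) _) • y = y := fun δ => by
        rw [(show δ ∈ R (f.symp_Q z) y by simp [r]).2, f.eichler_congr _ (sc (map_zero _) _) rfl (zero_smul _ _) rfl,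
          eichler_zero, one_smul]
      exact (a1 (LA hf hx h2 h hR e0 hz (this a) (this 1) a0 one_ne_zero)).elim
    by_contra c0
    rw [f.eichler_congr _ (sc (by simp [e0]) _) rfl (one_smul F z).symm rfl, Esym (f.eq_zero_symm e0), mul_smul] at e
    have e1 := fun b => (mul_smul _ _ _).symm.trans (Esym e0 _ _ _ ▸ LB hf _ h2 r (f.eq_zero_symm e0) xz e b)
    have := LA hf hx h2 h hR e0 hz (e1 a) (e1 1) (by simp [a0, c0]) (by simp [c0])
    exact a1 (sq_inj h2 (mul_right_cancel₀ c0 this))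
  obtain ⟨u, hu, hu'⟩ := ex_perp hf ![x] (F ∙ x) (by rw [finrank_span_singleton h0]; omega)
  obtain ⟨v, hv, e⟩ := hf.exists_perp_B_eq' hu' 1
  have hu : f.B x u = 0 := hu 0
  rw [f.mem_perp_span_singleton] at hv
  obtain ⟨c, hc, e1⟩ := h u hu
  obtain ⟨d, hd, e2⟩ := h v hv
  have nx : ∀ w, f.B u w ≠ 0 → w ∉ F ∙ x := fun w hw h => by
    obtain ⟨b, rfl⟩ := mem_span_singleton.1 h
    simp [f.eq_zero_symm hu] at hw
  have := C _ _ (hc.add hd) (nx _ (by simp [e, f.symp_B_self])) (by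
    rw [← f.eichler_mul hc hd]; exact mul_mem e1 e2)
  rw [C _ _ _ hu' e1, C _ _ _ (nx _ (by simp [e])) e2, e] at this
  simp at this

end CA.Coop
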