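import Cfsg.Agent.Lib.Lin.CoopSp3

/-! Minimal degree of the symplectic groups over fields with at least three elements. -/

set_option autoImplicit false
set_option linter.unusedSectionVars false

namespace CA.Coop

open MulAction Module CA.CForm CA.CForm.Form Set Submodule

theorem two_orb {G Y : Type*} [Group G] [MulAction G Y] [Finite Y] {Γ : Subgroup G} {B : Set Y} {y y' : Y}
    (h : O Γ y ⊆ B) (h' : O Γ y' ⊆ B) (hn : y' ∉ O Γ y) : (O Γ y).ncard + (O Γ y').ncard ≤ B.ncard := by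
  rw [← ncard_union_eq (disjoint_left.2 fun z h1 h2 => hn (by rw [← O_eq h1, O_eq h2]; exact self_mem_O _ _))]
  exact ncard_le_ncard (union_subset h h')

theorem ex_pp {F : Type*} [Field F] [Finite F] (hq : 3 ≤ Nat.card F) : ∃ (a : Fˣ) (r i : ℕ), r.Prime ∧ (r : F) ≠ 0 ∧
    a ^ r ^ i = 1 ∧ (a : F) ≠ 1 ∧ (Nat.card F = 3 ∨ (a : F) * a ≠ 1) := by
  classical
  have := Fintype.ofFinite F
  obtain ⟨g, hg⟩ := IsCyclic.exists_ofOrder_eq_natCard (α := Fˣ)
  rw [Nat.card_units] at hg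
  have c : ∀ r : ℕ, r ∣ Nat.card F - 1 → (r : F) ≠ 0 := by
    rintro r ⟨s, hs⟩ h
    have : ((Nat.card F - 1 : ℕ) : F) = 0 := by rw [hs, Nat.cast_mul, h, zero_mul]
    rw [Nat.cast_sub (by omega), Nat.card_eq_fintype_card, FiniteField.cast_card_eq_zero] at this
    simp at this
  have o : ∀ a : Fˣ, (a : F) * a = 1 → orderOf a ≤ 2 := fun a h =>
    orderOf_le_of_pow_eq_one two_pos (Units.ext (by simpa [sq] using h))
  by_cases h : ∀ {r : ℕ}, r.Prime → r ∣ Nat.card F - 1 → r = 2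
  · have e := Nat.eq_prime_pow_of_unique_prime_dvd (by omega) h
    refine ⟨g, 2, _, Nat.prime_two, c 2 ?_, by rw [← e, ← hg, pow_orderOf_eq_one], fun e => ?_,
      or_iff_not_imp_right.2 fun e => by have := o g (not_not.1 e); omega⟩
    · obtain ⟨r, hr, hr'⟩ := Nat.exists_prime_and_dvd (n := Nat.card F - 1) (by omega)
      exact h hr hr' ▸ hr'
    · rw [Units.val_eq_one.1 e, orderOf_one] at hg; omega
  · push Not at h
    obtain ⟨r, hr, hr', r2⟩ := h
    have := Fact.mk hr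
    obtain ⟨a, ha⟩ := exists_prime_orderOf_dvd_card' (G := Fˣ) r (by rwa [Nat.card_units])
    have := hr.two_le
    refine ⟨a, r, 1, hr, c r hr', by rw [pow_one, ← ha, pow_orderOf_eq_one], fun e => ?_, Or.inr fun e => ?_⟩
    · rw [Units.val_eq_one.1 e, orderOf_one] at ha; omega
    · have := o a e; omega

section
variable {F : Type*} [Field F] [Finite F] {k : Kind F} {V : Type*} [AddCommGroup V] [Module F V] [FiniteDimensional F V]
  {f : Form k V} {Y : Type*} [MulAction f.Isom Y] {x : V} {hx : f.Q x = 0} {y : Y}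

theorem W_eq_of {g : f.Isom} {a : F} (ha : a ≠ 0) (hg : (g : V ≃ₗ[F] V) x = a • x)
    (h : ∀ w ∈ W hx y, k.σ a • (g : V ≃ₗ[F] V) w ∈ W hx y) : W hx (g • y) = W hx y := by
  have : Finite V := Module.finite_of_finite F
  refine AddSubgroup.eq_of_le_of_card_ge (fun w hw => ?_) (card_W_map hx ha hg).ge
  have e : w = k.σ a • (g : V ≃ₗ[F] V) ((k.σ a)⁻¹ • ((g⁻¹ : f.Isom) : V ≃ₗ[F] V) w) := by
    rw [map_smul, isom_apply_inv_apply, smul_inv_smul₀ (k.σ_eq_zero.not.2 ha)]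
  rw [e] at hw ⊢
  exact h _ ((W_map_iff hx ha hg).1 hw)

theorem reg_fix [Finite Y] (hf : f.Nondeg) (h0 : x ≠ 0) (hx : f.Q x = 0) {g : f.Isom} {r i : ℕ} (hr : r.Prime)
    (hr' : (r : F) ≠ 0) (hh : g ^ r ^ i = 1) {a : F} (ha : a ≠ 0) (hg : (g : V ≃ₗ[F] V) x = a • x)
    (hB : g • y ∈ O (f.Qgrp x) y) : ∃ y' ∈ O (f.Qgrp x) y, g • y' = y' := by
  refine exists_fixed hr hh ?_ (not_dvd_orbQ hf h0 hx y hr hr')
  rintro _ ⟨e, he, rfl⟩
  have := f.conj_mem_Qgrp g he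
  rw [hg, f.Qgrp_smul ha] at this
  simpa [mul_smul] using smul_mem_O this hB

end

variable {F : Type*} [Field F] [Finite F] {V : Type*} [AddCommGroup V] [Module F V] [FiniteDimensional F V]
  {f : Form (Kind.symp F) V} {Y : Type*} [Finite Y] [MulAction f.Isom Y] (hf : f.Nondeg) {n : ℕ}
  (hn : finrank F V = 2 * n + 2) {x : V} (h0 : x ≠ 0) (hx : f.Q x = 0)

local notation:75 g:76 " ⊳ " v:75 => (g : V ≃ₗ[F] V) v
local notation "q" => Nat.card F

theorem hτ_odd (h2 : (2 : F) ≠ 0) (c : F) (_ : (Kind.symp F).π c = 0) :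
    ∃ b, b - (Kind.symp F).ε * (Kind.symp F).σ b = c := ⟨c / 2, by simp; field_simp; ring⟩

include hf h0

theorem reg {x' : V} (hz : f.IsHyp x x') {a : Fˣ} {r i : ℕ} (hr : r.Prime) (hr' : (r : F) ≠ 0) (ha : a ^ r ^ i = 1)
    (a1 : (a : F) ≠ 1) {y : Y} (hs : ∀ w ∈ W hx y, ∀ c : F, c • w ∈ W hx y) (hB : ∀ y', W hx y' = W hx y → y' ∈ O (f.Qgrp x) y) :
    ∃ y' : Y, ∀ z, f.B x z = 0 → f.B x' z = 0 → (∀ w ∈ W hx y, f.B z w = 0) → ∃ d h,
      f.eichler z 0 1 (sc (map_zero _) _) • y' = f.eichler x 0 d h • y' ∧ (a * a - 1) * d ∈ R hx y' := by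
  have ap : ∀ w, f.B x w = 0 → ∃ c : F, hz.torus a ⊳ w = w + c • x := fun w hw => ⟨_, by
    rw [hz.torus_apply, hw, mul_zero, zero_smul, add_zero]⟩
  obtain ⟨y', hy, e⟩ := reg_fix (y := y) hf h0 hx hr hr' (g := hz.torus a) (by
    rw [← hz.torusHom_apply, ← map_pow, ha, map_one]) a.ne_zero (hz.torus_apply_x a) (hB _ (W_eq_of a.ne_zero
      (hz.torus_apply_x a) fun w hw => by
        obtain ⟨c, hc⟩ := ap w (W_perp hw)
        exact hs _ (hc ▸ add_mem hw (smul_mem_W c)) _))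
  have e1 : W hx y' = W hx y := by obtain ⟨g, hg, rfl⟩ := hy; exact W_Q hg
  refine ⟨y', fun z h1 h2 h3 => ?_⟩
  obtain ⟨g, hg, e2⟩ : f.eichler z 0 1 (sc (map_zero _) _) • y' ∈ O (f.Qgrp x) y' := by
    rw [O_eq hy]
    refine hB _ (Eq.trans (W_eq_of one_ne_zero (by simp [eichler_zero_apply, f.eq_zero_symm h1]) fun w hw => ?_) e1)
    simpa [eichler_zero_apply, h3 w (e1 ▸ hw)] using hw
  obtain ⟨w, c, h, rfl⟩ := (mem_Qgrp hx).1 hg
  have e3 : hz.torus a • f.eichler x w c h • y' = f.eichler x w c h • y' := by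
    have := f.conj_eichler (hz.torus a) z 0 1 (sc (map_zero _) _)
    rw [f.eichler_congr _ (sc (map_zero _) _) (hz.torus_apply_of_B a h1 h2) (map_zero _) rfl, mul_inv_eq_iff_eq_mul] at this
    rw [e2, ← mul_smul, this, mul_smul, e]
  have e4 := W_of_fix (hx := hx) a.ne_zero (hz.torus_apply_x a) e e3
  obtain ⟨c', hc⟩ := ap w h.B_pw
  have := hs _ (e1 ▸ sub_mem e4 (smul_mem_W (a * c'))) (a - 1)⁻¹
  rw [hc, show _ - _ = ((a : F) - 1) • w by simp only [Kind.symp_σ]; module, inv_smul_smul₀ (sub_ne_zero.2 a1)] at this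
  obtain ⟨d, h', e5⟩ := exists_T (y := y') h (e1 ▸ this)
  exact ⟨d, h', e2 ▸ e5, R_of_fix (hz.torus_apply_x a) e (e5 ▸ e3)⟩

include hn

theorem pt {y : Y} {u : V} (hu' : u ∉ F ∙ x) (h : ∀ w, w ∈ W hx y ↔ f.B x w = 0 ∧ f.B u w = 0) :
    q * q ≤ (O (f.Qgrp x) y).ncard * Nat.card (R hx y) ∧ Nat.card (W hx y) = q ^ (2 * n) ∧
      NN q n * {y' ∈ O (stabilizer f.Isom x) y | W hx y' = W hx y}.ncard ≤ (O (stabilizer f.Isom x) y).ncard := by
  have : Finite V := Module.finite_of_finite F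
  obtain ⟨ψ, -, s, t, hs, ht, e, o, -, s1, h1, h2, -⟩ := dual hf hn h0 hx y
  have c : Nat.card (W hx y) = q ^ (2 * n) := (congrArg ncard (Set.ext h)).trans (ncard_aff hf hn h0 hu' 0)
  obtain rfl : t = q := Nat.eq_of_mul_eq_mul_left s1 (by rw [e, ← c, hs, mul_comm])
  obtain ⟨v, hv, hv'⟩ := exists_not_line h0 ht two_le_q
  have := cover1 hf hn h0 (fun y => U f ψ x (W hx y)) h1 h2 (Y₀ := {y' ∈ O (stabilizer f.Isom x) y | W hx y' = W hx y})
    (fun y' hy => ⟨hy.1, by rw [hy.2]⟩) ht hv hv.1 hv'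
  exact ⟨o, c, Nat.le_of_mul_le_mul_left (c := q - 1) (by linarith) (by have := two_le_q (F := F); omega)⟩

variable [IsPretransitive f.Isom Y]

theorem allA (hq : 3 ≤ q) (n1 : 1 ≤ n) (hex : ¬ (n = 1 ∧ q = 3)) [Nonempty Y] (H : ∀ y : Y, R hx y = ⊥ ∧ ¬ Full hx y) :
    NN q (n + 1) ≤ Nat.card Y := by
  have : Finite V := Module.finite_of_finite F
  by_contra! lt
  have mv : ∀ z, z ≠ 0 → ∃ g : f.Isom, g ⊳ x = z := fun z hz => hf.witt_one h0 hz (by simp only [symp_Q])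
  have HR : ∀ z (y : Y) h, z ≠ 0 → f.eichler z 0 1 h • y ≠ y := fun z y h hz e => by
    obtain ⟨g, rfl⟩ := mv z hz
    have : (1 : F) ∈ R h.Q_p (g • g⁻¹ • y) := ⟨h, by rwa [smul_inv_smul]⟩
    rw [R_mov (hx := hx) _ rfl, (H _).1] at this
    simp at this
  obtain ⟨a, r, i, hr, hr', ha, a1, a2⟩ := ex_pp hq
  have key : ∀ {x' z y' d h}, f.IsHyp x x' → z ≠ 0 → (a : F) * a ≠ 1 → f.eichler z 0 1 (sc (map_zero _) _) • y' =
      f.eichler x 0 d h • (y' : Y) → (a * a - 1) * d ∉ R hx y' := fun _ hz a2 e h => by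
    rw [(H _).1, AddSubgroup.mem_bot, mul_eq_zero, sub_eq_zero, or_iff_right a2] at h
    subst h
    exact HR _ _ _ hz (by rw [e, eichler_zero, one_smul])
  have hN := le_NN q n1
  have e := NN_mul (a := q) Nat.card_pos n
  have cu : ∀ s : Set Y, s.ncard ≤ Nat.card Y := fun s => ncard_le_card s
  rw [NN_succ] at lt
  obtain ⟨p, hp⟩ : ∃ p, q = p + 1 := ⟨q - 1, by omega⟩
  have hp' : q - 1 = p := by omega
  rw [hp'] at e
  have hM : q * (q * NN q n) + q + 1 ≤ 2 * (q * q ^ (2 * n)) := by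
    nlinarith [Nat.mul_le_mul_left (q * NN q n) (show q ≤ 2 * p by omega)]
  obtain ⟨x', hz⟩ := hf.exists_isHyp hx h0
  by_cases hW : ∀ y : Y, ∀ w ∈ W hx y, w ∈ F ∙ x
  · have eW : ∀ y : Y, W hx y = (F ∙ x).toAddSubgroup := fun y => le_antisymm (hW y) fun w h => by
      obtain ⟨a, rfl⟩ := mem_span_singleton.1 h; exact smul_mem_W a
    have o : ∀ y : Y, q * q ^ (2 * n) ≤ (O (f.Qgrp x) y).ncard := fun y => by
      simpa [(H y).1] using orbQ_sp hf hn h0 hx y (s := 1) (by rw [eW, mul_one]; exact ncard_line h0)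
    obtain ⟨y⟩ := ‹Nonempty Y›
    obtain ⟨y', hy⟩ := reg hf h0 hx hz hr hr' ha a1 (y := y) (fun w hw c => by rw [eW] at hw ⊢; exact smul_mem _ _ hw)
      fun y' _ => by
        by_contra hne
        have := two_orb (subset_univ _) (subset_univ _) hne
        have := o y
        have := o y'
        rw [ncard_univ] at *
        omega
    have pz : ∀ z, f.B x z = 0 → ∀ w ∈ W hx y, f.B z w = 0 := fun z hz w hw => by
      obtain ⟨a, rfl⟩ := mem_span_singleton.1 (hW _ _ hw)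
      simp [f.eq_zero_symm hz]
    obtain ⟨z, z1, z0⟩ := ex_perp hf ![x, x'] ⊥ (by simp; omega)
    rcases a2 with a2 | a2
    · obtain ⟨v, v1, v0⟩ := ex_perp hf ![x, x', z] (F ∙ z) (by rw [finrank_span_singleton z0]; omega)
      have b1 : ∀ b : F, f.B x (v + b • z) = 0 := fun b => by simp [show f.B x v = 0 from v1 0, show f.B x z = 0 from z1 0]
      choose d h e1 e2 using fun b : F => hy (v + b • z) (b1 b)
        (by simp [show f.B x' v = 0 from v1 1, show f.B x' z = 0 from z1 1]) (pz _ (b1 b))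
      obtain ⟨b, b', hb, e3⟩ := pigeon d fun b e => HR (v + b • z) y' _
        (fun e => v0 (mem_span_singleton.2 ⟨-b, by rw [neg_smul, neg_eq_of_add_eq_zero_left e]⟩))
        (by rw [e1, f.eichler_congr _ (sc (map_zero _) _) rfl rfl e, eichler_zero, one_smul])
      obtain ⟨_, c, e4⟩ := T_add (f.symp_Q z) (f.symp_Q v) (v1 2) b (d := 1) rfl
      obtain ⟨_, c', e5⟩ := T_add (f.symp_Q z) (f.symp_Q v) (v1 2) b' (d := 1) rfl
      have := (e1 b).trans ((congrArg (· • y') (f.eichler_congr _ _ rfl rfl e3)).trans (e1 b').symm)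
      rw [e4, e5, mul_smul, mul_smul, ← inv_smul_eq_iff, smul_smul, eichler_inv, eichler_mul] at this
      obtain ⟨g, rfl⟩ := mv z z0
      have e6 : _ ∈ W (f.symp_Q _) (g • g⁻¹ • _) := ⟨_, _, (smul_inv_smul g (f.eichler v 0 1 _ • y')).symm ▸ this⟩
      rw [← isom_apply_inv_apply f g (_ + _), W_mov_iff (hx := hx) _ rfl] at e6
      obtain ⟨t, ht⟩ := mem_span_singleton.1 (hW _ _ e6)
      have := congrArg (g ⊳ ·) ht
      simp only [isom_apply_inv_apply, map_smul, Kind.symp_σ, Kind.symp_ε] at this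
      exact v0 ((smul_mem_iff _ (sub_ne_zero.2 hb)).1 (mem_span_singleton.2 ⟨t, this.trans (by module)⟩))
    · obtain ⟨d, h, e1, e2⟩ := hy z (z1 0) (z1 1) (pz _ (z1 0))
      exact key hz z0 a2 e1 e2
  push Not at hW
  obtain ⟨y, w, hw, hw'⟩ := hW
  have cR : ∀ y : Y, Nat.card (R hx y) = 1 := fun y => by simp [(H y).1]
  rcases kap hf hn h0 hx hq n1 (H y).2 hw hw' with c | ⟨u, hu, hu', h⟩
  · have := cu (O (stabilizer f.Isom x) y)
    rw [cR] at c
    nlinarith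
  obtain ⟨-, c1, c2⟩ := pt hf hn h0 hx hu' h
  have all : ∀ y' : Y, y' ∈ O (stabilizer f.Isom x) y := fun y' => by
    by_contra hne
    have := two_orb (subset_univ _) (subset_univ _) hne
    have := kap0 hf hn h0 hx (H y).2
    have := kap0 hf hn h0 hx (H y').2
    rw [ncard_univ, cR] at *
    omega
  obtain ⟨y', hy⟩ := reg hf h0 hx hz hr hr' ha a1 (y := y) (fun w hw c => by rw [h] at hw ⊢; simp [hw.1, hw.2])
    fun y' e' => by
      by_contra hne
      have := two_orb (B := {y' ∈ O (stabilizer f.Isom x) y | W hx y' = W hx y})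
        (by rintro _ ⟨g, hg, rfl⟩; exact ⟨all _, W_Q hg⟩) (by rintro _ ⟨g, hg, rfl⟩; exact ⟨all _, (W_Q hg).trans e'⟩) hne
      have o1 := (pt hf hn h0 hx hu' h).1
      have o2 := (pt hf hn h0 hx hu' (e' ▸ h)).1
      have := cu (O (stabilizer f.Isom x) y)
      rw [cR] at o1 o2
      nlinarith [Nat.mul_le_mul_left (NN q n) (show 2 * (q * q) ≤ {y' ∈ O (stabilizer f.Isom x) y | W hx y' = W hx y}.ncard by
        linarith)]
  rcases a2 with a2 | a2
  · have := card_W_sq hf h0 (hx := hx) (y := y) (hτ_odd (by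
      intro h
      have _ := Fintype.ofFinite F
      have := (FiniteField.even_card_iff_char_two (F := F)).1 ((ringChar.spec F 2).1 h |> fun h =>
        ((Nat.dvd_prime Nat.prime_two).1 h).resolve_left CharP.ringChar_ne_one)
      rw [← Nat.card_eq_fintype_card] at this; omega)) (v := 1) rfl (by simp [(H y).1])
    rw [c1, hn, ← pow_add, ← pow_succ', Nat.pow_le_pow_iff_right (by omega)] at this
    omega
  · obtain ⟨d, h, e1, e2⟩ := hy (u + f.B x' u • x) (by simp [hu, f.symp_B_self]) (by simp [hz.B_yx]) fun w hw => by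
      simp [((h w).1 hw).1, ((h w).1 hw).2]
    exact key hz (fun e => hu' (mem_span_singleton.2 ⟨-_, by rw [neg_smul, neg_eq_of_add_eq_zero_left e]⟩)) a2 e1 e2

theorem noneA (hq : 3 ≤ q) (n1 : 1 ≤ n) [Nonempty Y] (hS : ∀ y : Y, stabilizer f.Isom y ≠ ⊤)
    (H : ∀ y : Y, R hx y ≠ ⊥ ∨ Full hx y) : NN q (n + 1) ≤ Nat.card Y := by
  have : Finite V := Module.finite_of_finite F
  have mv : ∀ z, z ≠ 0 → ∀ y : Y, ∃ y' : Y, R (f.symp_Q z) y = R hx y' ∧ (Full (f.symp_Q z) y ↔ Full hx y') := fun z hz y => by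
    obtain ⟨g, hg⟩ := hf.witt_one h0 hz (by simp only [symp_Q])
    exact ⟨g⁻¹ • y, by rw [← R_mov _ hg, smul_inv_smul], by rw [← Full_mov _ hg, smul_inv_smul]⟩
  have top : ∀ y : Y, R hx y = ⊤ → ∃ z, z ≠ 0 ∧ R (f.symp_Q z) y = ⊥ := fun y h => by
    by_contra! e
    refine hS y (hf.symp_eq_top_of_Tgrp (T_all hf f.symp_prim.rich hx h0
      (f.Tgrp_le fun c _ => (show c ∈ R hx y by simp [h]).2) fun z _ hz => ?_))
    obtain ⟨⟨c, h, e⟩, c0⟩ := AddSubgroup.ne_bot_iff_exists_ne_zero.1 (e z hz)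
    exact ⟨c, h, fun e => c0 (Subtype.ext e), e⟩
  obtain ⟨y⟩ := ‹Nonempty Y›
  by_cases h2 : (2 : F) = 0
  · by_contra lt
    have H' : ∀ y : Y, R hx y = ⊤ ∨ Full hx y := fun y => by
      by_contra! e
      exact lt (L3 hf hn h0 hx h2 e.2 e.1 ((H y).resolve_right e.2))
    obtain ⟨y, hy⟩ : ∃ y : Y, R hx y ≠ ⊤ := by
      by_contra! e
      obtain ⟨z, hz, e1⟩ := top y (e y)
      obtain ⟨y', e2, -⟩ := mv z hz y
      exact bot_ne_top (e1.symm.trans (e2.trans (e y')))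
    exact L4 hf hn h0 hx h2 hq n1 ((H' y).resolve_left hy) hy fun z hz => by
      obtain ⟨y', e1, e2⟩ := mv z hz y
      rw [e1, e2]; exact H' y'
  have H' : ∀ z, z ≠ 0 → ∀ y : Y, R (f.symp_Q z) y ≠ ⊥ := fun z hz y e => by
    obtain ⟨y', e1, -⟩ := mv z hz y
    have := hf.Tgrp_le_of_lev (by omega) (hτ_odd h2) ((H y').resolve_left (not_not.2 (e1 ▸ e)))
      (f.eichler_mem_Tgrp x 1 (sc (map_zero _) _))
    simpa [← e1, e] using show (1 : F) ∈ R hx y' from ⟨_, this⟩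
  obtain ⟨v, hv⟩ := ex_R hx (y := y) fun e => (top y e).elim fun z hz => H' z hz.1 y hz.2
  have c := card_W_sq hf h0 (hτ_odd h2) rfl hv
  obtain ⟨s, s1, hs⟩ := exists_card_eq h0 (smul_mem_W (hx := hx) (y := y))
  have d := dc {u | f.B x u = 0 ∧ u ∉ F ∙ x} {w | w ∈ W hx y ∧ w ∉ F ∙ x} (fun u w => ∃ c : F, c ≠ 0 ∧ u = c • w)
    (m := 1) (n := q - 1) (fun u hu => (ncard_pos (toFinite _)).2 ?_) fun w hw => ?_
  · have e := NN_mul (a := q) Nat.card_pos n
    have := ncard_sub_line h0 (smul_mem_W (hx := hx) (y := y)) (B := {w | w ∈ W hx y ∧ w ∉ F ∙ x}) fun _ h => h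
    rw [ncard_Om hf hn h0] at d
    rw [hs, ← Nat.mul_sub_one] at this
    have d : NN q n ≤ s - 1 := Nat.le_of_mul_le_mul_left (c := q * (q - 1))
      (by nlinarith [Nat.mul_le_mul_right (q - 1) this]) (Nat.mul_pos (by omega) (by omega))
    rw [hs, hn, show 2 * n + 2 - 1 = 2 * n + 1 from rfl, pow_succ', ← e] at c
    have c : s * s ≤ (q - 1) * NN q n + 1 := Nat.le_of_mul_le_mul_left (c := q * q) (by linarith) (by positivity)
    have := le_NN q n1
    nlinarith [Nat.mul_le_mul (show NN q n + 1 ≤ s by omega) (show NN q n + 1 ≤ s by omega),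
      Nat.mul_le_mul_right (NN q n) (show q - 1 ≤ NN q n by omega)]
  · have : ∀ a : F, ∃ c, c ≠ 0 ∧ c ∈ R (f.symp_Q (u + a • x)) y := fun a => by
      obtain ⟨⟨c, h⟩, c0⟩ := AddSubgroup.ne_bot_iff_exists_ne_zero.1 (H' (u + a • x)
        (fun e => hu.2 (mem_span_singleton.2 ⟨-a, by rw [neg_smul, neg_eq_of_add_eq_zero_left e]⟩)) y)
      exact ⟨c, fun e => c0 (Subtype.ext e), h⟩
    choose d d0 hd using this
    obtain ⟨a, b, ab, e⟩ := pigeon d d0
    have := W_of_T (hx := hx) (f.symp_Q u) hu.1 (hd a).2 (e ▸ hd b).2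
    have t : (Kind.symp F).ε * d a * (Kind.symp F).σ (b - a) ≠ 0 := by simp [d0, sub_eq_zero, ab.symm]
    exact ⟨_, ⟨this, fun h => hu.2 ((smul_mem_iff _ t).1 h)⟩, _, inv_ne_zero t, (inv_smul_smul₀ t u).symm⟩
  · rw [← ncard_singleton (0 : F), ← ncard_compl]
    exact (ncard_le_ncard (t := (· • w) '' {0}ᶜ) fun u hu => hu.2.imp fun c h => ⟨h.1, h.2.symm⟩).trans (ncard_image_le)

omit h0 in
theorem sp_min (hq : 3 ≤ q) (n1 : 1 ≤ n) (hex : ¬ (n = 1 ∧ q = 3)) [Nonempty Y] (hS : ∀ y : Y, stabilizer f.Isom y ≠ ⊤) :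
    NN q (n + 1) ≤ Nat.card Y := by
  have : Nontrivial V := Module.nontrivial_of_finrank_pos (R := F) (by omega)
  obtain ⟨x, h0⟩ := exists_ne (0 : V)
  have hx := f.symp_Q x
  by_contra! lt
  let A : Set Y := {y | R hx y = ⊥ ∧ ¬ Full hx y}
  obtain ⟨y, hy⟩ : ∃ y, y ∈ A := by
    by_contra! e
    exact lt.not_ge (noneA hf hn h0 hx hq n1 hS fun y => by simpa [A, imp_iff_not_or] using e y)
  obtain ⟨z, hz⟩ : ∃ y, y ∉ A := by
    by_contra! e
    exact lt.not_ge (allA hf hn h0 hx hq n1 hex e)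
  have inv : ∀ y, ∀ y' ∈ O (stabilizer f.Isom x) y, y' ∈ A ↔ y ∈ A := by
    rintro y _ ⟨g, hg, rfl⟩
    exact and_congr (by rw [R_mov hx hg]) (Full_mov hx hg).not
  have c1 := kap0 hf hn h0 hx hy.2
  rw [hy.1, AddSubgroup.card_bot, mul_one] at c1
  have c2 := ncard_le_ncard (s := O (stabilizer f.Isom x) y) (t := A) fun y' h => (inv _ _ h).2 hy
  have c3 := ncard_le_ncard (s := O (stabilizer f.Isom x) z) (t := Aᶜ) fun y' h => (inv _ _ h).not.2 hz
  have c4 := ncard_add_ncard_compl A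
  have e := NN_mul (a := q) Nat.card_pos n
  have c5 : q * NN q n ≤ Aᶜ.ncard := by
    by_cases hF : Full hx z
    · have hR : R hx z ≠ ⊤ := fun e => lt.not_ge (T0 hf hn h0 hq (Q_le_of hF (e ▸ le_top)) (hS z))
      refine (T5 hf hn h0 hx (by_contra fun h2 => hR (eq_top_iff.2 fun c _ => ⟨_, hf.Tgrp_le_of_lev (by omega) (hτ_odd h2) hF
        (f.eichler_mem_Tgrp x c (sc (map_zero _) _))⟩)) hq hF hR).trans (ncard_le_ncard fun y h h' => h'.2 h)
    refine le_trans ?_ c3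
    by_cases hR : R hx z = ⊤
    · obtain ⟨w, hw, hw'⟩ : ∃ w ∈ W hx z, w ∉ F ∙ x := by
        by_contra! e; exact lt.not_ge (T3 hf hn h0 hx hq n1 hR e)
      have cR : Nat.card (R hx z) = q := by rw [hR, AddSubgroup.card_top]
      rcases kap hf hn h0 hx hq n1 hF hw hw' with c | ⟨u, -, hu', h⟩
      · rw [cR, mul_comm] at c
        exact (Nat.le_add_right _ _).trans (Nat.le_of_mul_le_mul_right c Nat.card_pos)
      obtain ⟨o, -, c⟩ := pt hf hn h0 hx hu' h
      rw [cR] at o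
      have := (Nat.le_of_mul_le_mul_right o Nat.card_pos).trans (ncard_le_ncard
        (t := {y' ∈ O (stabilizer f.Isom x) z | W hx y' = W hx z}) (by
          rintro _ ⟨g, hg, rfl⟩; exact ⟨mem_O (Q_le_stab hg) _, W_Q hg⟩))
      nlinarith [Nat.mul_le_mul_left (NN q n) this]
    · have c := kap0 hf hn h0 hx hF
      have := two_card_R hx hR
      have : 2 * q ^ (2 * n) ≤ (O (stabilizer f.Isom x) z).ncard := Nat.le_of_mul_le_mul_left (c := q)
        (by nlinarith [Nat.mul_le_mul_left (O (stabilizer f.Isom x) z).ncard this]) Nat.card_pos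
      nlinarith [Nat.mul_le_mul_right (NN q n) (show q ≤ 2 * (q - 1) by omega)]
  have e2 := NN_succ q n
  obtain ⟨p, hp⟩ : ∃ p, q = p + 1 := ⟨q - 1, by omega⟩
  have hp' : q - 1 = p := by omega
  rw [hp'] at e
  exact fin2 hf hn h0 (y := z) (by nlinarith) (by nlinarith)

end CA.Coop
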