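import Cfsg.Agent.Lib.Lin.Coop2

/-! Minimal degree of the symplectic groups over the field with two elements. -/

set_option autoImplicit false
set_option linter.unusedSectionVars false

namespace CA.Coop

open MulAction Module CA.CForm CA.CForm.Form Set Submodule

variable {F : Type*} [Field F] [Finite F] {V : Type*} [AddCommGroup V] [Module F V] [FiniteDimensional F V]
  {f : Form (Kind.symp F) V} {Y : Type*} [Finite Y] [MulAction f.Isom Y] (hf : f.Nondeg) {n : ℕ}
  (hn : finrank F V = 2 * n + 2) {x : V} (h0 : x ≠ 0) (hx : f.Q x = 0) (hq : Nat.card F = 2)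

local notation:75 g:76 " ⊳ " v:75 => (g : V ≃ₗ[F] V) v

theorem c_uniq {y : Y} (hR : R hx y = ⊥) {w : V} {c c' : F} {h h'} (e : f.eichler x w c h • y = y)
    (e' : f.eichler x w c' h' • y = y) : c = c' := by
  simpa [hR, sub_eq_zero] using sub_mem_R (hx := hx) e e'

include hq

theorem eq01 (a : F) : a = 0 ∨ a = 1 := by
  by_contra! h
  have := ncard_le_card ({a, 0, 1} : Set F)
  rw [ncard_insert_of_notMem (by simp [h]), Set.ncard_pair zero_ne_one] at this
  omega

theorem two_eq : (2 : F) = 0 := by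
  rcases eq01 hq 2 with h | h
  · exact h
  · exact absurd (by linear_combination h) (one_ne_zero (α := F))

theorem R01 (y : Y) : R hx y = ⊥ ∨ R hx y = ⊤ := by
  refine or_iff_not_imp_left.2 fun h => eq_top_iff.2 fun c _ => ?_
  obtain ⟨⟨d, hd⟩, d0⟩ := AddSubgroup.ne_bot_iff_exists_ne_zero.1 h
  rcases eq01 hq c with rfl | rfl
  · exact zero_mem _
  · exact ((eq01 hq d).resolve_left fun e => d0 (Subtype.ext e)) ▸ hd

include hf hn h0

theorem gauss (c : V → F) (h1 : ∀ a : F, c (a • x) = 0)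
    (h2 : ∀ w v, f.B x w = 0 → f.B x v = 0 → c (w + v) = c w + c v + f.B w v) :
    2 ^ (2 * n) ≤ {w | f.B x w = 0 ∧ c w = 0}.ncard + 2 ^ n := by
  classical
  have : Finite V := Module.finite_of_finite F
  have t := two_eq hq
  have t' : (1 : F) + 1 = 0 := by linear_combination t
  let ψ : AddChar F ℤ := ⟨fun a => if a = 0 then 1 else -1, by simp, fun a b => by
    rcases eq01 hq a with rfl | rfl <;> rcases eq01 hq b with rfl | rfl <;> simp [t']⟩
  have := Fintype.ofFinite (f.perp (F ∙ x))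
  have px : ∀ w : f.perp (F ∙ x), f.B x w = 0 := fun w => f.mem_perp_span_singleton.1 w.2
  have cP : Fintype.card (f.perp (F ∙ x)) = 2 * 2 ^ (2 * n) := by
    rw [← Nat.card_eq_fintype_card, card_perp hf h0, hn, hq, ← pow_succ']; rfl
  have e2 : ∀ v : f.perp (F ∙ x), ψ (c v) * ∑ w : f.perp (F ∙ x), ψ (f.B w v) =
      if v.1 ∈ F ∙ x then (Fintype.card (f.perp (F ∙ x)) : ℤ) else 0 := fun v => by
    split_ifs with h
    · obtain ⟨a, ha⟩ := mem_span_singleton.1 h
      simp [← ha, h1, fun w => f.eq_zero_symm (px w)]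
    · obtain ⟨u, hu, e⟩ := hf.exists_perp_B_eq h 1
      refine mul_eq_zero_of_right _ (AddChar.sum_eq_zero_iff_ne_zero (ψ := ψ.compAddMonoidHom ((AddMonoidHom.mk'
        (fun u => f.B u v) fun a b => by simp).comp (f.perp (F ∙ x)).subtype.toAddMonoidHom)) |>.2 fun h => ?_)
      simpa [ψ, e] using DFunLike.congr_fun h ⟨u, hu⟩
  have e1 : (∑ w : f.perp (F ∙ x), ψ (c w)) ^ 2 = 2 * (2 * 2 ^ (2 * n)) := by
    rw [sq, Finset.sum_mul_sum, Finset.sum_congr rfl fun w _ => (Equiv.sum_comp (Equiv.addLeft w) _).symm, Finset.sum_comm,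
      Finset.sum_congr rfl fun (v : f.perp (F ∙ x)) _ => Eq.trans (b := ψ (c v) * ∑ w : f.perp (F ∙ x), ψ (f.B w v)) (by
        rw [Finset.mul_sum]
        exact Finset.sum_congr rfl fun w _ => by
          rw [Equiv.coe_addLeft, Submodule.coe_add, h2 _ _ (px w) (px v), ← ψ.map_add_eq_mul, ← ψ.map_add_eq_mul]
          congr 1; linear_combination c w * t) (e2 v), ← Finset.sum_filter, Finset.sum_const, nsmul_eq_mul,
      ← Fintype.card_subtype, ← Nat.card_eq_fintype_card, Nat.card_congr (Equiv.subtypeSubtypeEquivSubtype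
        (p := (· ∈ f.perp (F ∙ x))) (q := (· ∈ F ∙ x)) fun h => (f.ts_span_singleton (f.symp_Q x)).le_perp h),
      show Nat.card {v // v ∈ F ∙ x} = _ from ncard_line h0, hq, cP]
    simp
  have e3 := Finset.card_filter_add_card_filter_not (s := Finset.univ) fun w : f.perp (F ∙ x) => c w = 0
  rw [show ∑ w : f.perp (F ∙ x), ψ (c w) = ∑ w : f.perp (F ∙ x), if c w = 0 then 1 else -1 from rfl, Finset.sum_ite] at e1
  simp only [Finset.sum_const, nsmul_eq_mul] at e1
  rw [Finset.card_univ, cP, ← Fintype.card_subtype, ← Nat.card_eq_fintype_card] at e3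
  rw [← Fintype.card_subtype, ← Nat.card_eq_fintype_card] at e1
  rw [show {w | f.B x w = 0 ∧ c w = 0}.ncard = Nat.card {w : f.perp (F ∙ x) // c w = 0} from
    (Nat.card_congr ((Equiv.subtypeSubtypeEquivSubtypeInter (· ∈ f.perp (F ∙ x)) (c · = 0)).trans
      (Equiv.subtypeEquivRight fun _ => and_congr_left' f.mem_perp_span_singleton))).symm]
  rw [mul_comm 2 n, pow_mul] at *
  zify at *
  nlinarith [pow_pos (two_pos (α := ℤ)) n]

theorem T5b {y : Y} (h : Full hx y) (hR : R hx y = ⊥) : 2 ^ (2 * n) ≤ {y : Y | Full hx y ∧ R hx y = ⊥}.ncard + 2 ^ n := by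
  have : Finite V := Module.finite_of_finite F
  have t := two_eq hq
  choose! c hc using fun w hw => (mem_W.1 (h w hw)).imp fun c h => show f.eichler x w c (sc hw c) • y = y from h.2
  have ca : ∀ w v, f.B x w = 0 → f.B x v = 0 → c (w + v) = c w + c v + f.B w v := fun w v hw hv =>
    c_uniq hx hR (hc _ (by simp [hw, hv])) (h' := (sc hw _).add (sc hv _)) (by
      rw [← f.eichler_mul (sc hw _) (sc hv _), mul_smul, hc v hv, hc w hw])
  have g := gauss hf hn h0 hq c (fun a => c_uniq hx hR (hc _ (by simp [f.symp_B_self])) (h' := sc (by simp [f.symp_B_self]) _) (by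
    have := f.eichler_add_smul (sc (map_zero _) 0) a (x := x) (sc (by simp [f.symp_B_self]) _)
    rw [eichler_zero] at this
    exact fix_congr ((congrArg (· • y) this).trans (one_smul _ _)) (zero_add _) (by simp; linear_combination -a * t))) ca
  have cv := cover (G := f.Isom) {w | f.B x w = 0 ∧ c w = 0} (O (f.Qgrp x) y) {y : Y | Full hx y ∧ R hx y = ⊥}
    (fun u y' => ∀ w, w ∈ W hx (y, y') ↔ f.B x w = 0 ∧ f.B u w = 0) (n := 2) (fun u hu => ?_) fun y' _ => ?_
  · obtain ⟨-, -, s, r, -, -, e, o, -⟩ := dual hf hn h0 hx y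
    have t1 : 1 ≤ r := Nat.pos_of_ne_zero (by rintro rfl; exact (pow_pos Nat.card_pos _).ne e)
    rw [hR, AddSubgroup.card_bot, hq] at o
    nlinarith
  · have tx : f.eichler u 0 1 (sc (map_zero _) _) ⊳ x = x := by simp [eichler_zero_apply, f.eq_zero_symm hu.1]
    refine ⟨(f.eichler u 0 1 (sc (map_zero _) _))⁻¹, ?_⟩
    have gx := inv_apply one_ne_zero (tx.trans (one_smul _ _).symm)
    rw [inv_one, one_smul] at gx
    rintro _ ⟨g, hg, rfl⟩
    refine ⟨⟨(Full_mov hx gx).2 ((Full_mov hx (f.apply_of_mem_Qgrp hg)).2 h), 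
      (R_mov hx gx).trans ((R_mov hx (f.apply_of_mem_Qgrp hg)).trans hR)⟩, fun w => ⟨fun ⟨d, hd, e⟩ => ⟨hd.B_pw, ?_⟩, fun hw =>
      ⟨_, sc hw.1 _, Prod.ext (hc w hw.1) (fix_of ((fix_Q t hg).2 (hc w hw.1)) gx (by
        simp [eichler_inv, eichler_apply, hw.2]))⟩⟩⟩
    have e : _ • _ = _ := e
    obtain ⟨h', e2⟩ := fix_mov (Prod.ext_iff.1 e).2 (f.eichler u 0 1 (sc (map_zero _) _))
    rw [smul_inv_smul, f.eichler_congr h' (tx ▸ h') tx rfl rfl, fix_Q t hg] at e2
    refine (eq01 hq _).resolve_right fun b => ?_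
    have e3 := c_uniq hx hR (fix_congr e2 (w' := w + u) (by simp [eichler_zero_apply, b]) rfl
      (h' := sc (by simp [hd.B_pw, hu.1]) _)) (hc _ (by simp [hd.B_pw, hu.1]))
    rw [ca _ _ hd.B_pw hu.1, c_uniq hx hR (Prod.ext_iff.1 e).1 (hc _ hd.B_pw), hu.2, f.symp_symm, b] at e3
    simp at e3
  · rcases eq_empty_or_nonempty {u ∈ {w | f.B x w = 0 ∧ c w = 0} | ∀ w, w ∈ W hx (y, y') ↔ f.B x w = 0 ∧ f.B u w = 0}
      with e | ⟨u, hu, hu'⟩
    · rw [e, ncard_empty]; exact Nat.zero_le _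
    rw [← hq, ← ncard_line (F := F) h0, ← ncard_image_of_injective ((F ∙ x : Submodule F V) : Set V) (add_right_injective u)]
    refine ncard_le_ncard fun v hv => ⟨v - u, by_contra fun hne => ?_, by simp⟩
    obtain ⟨w, hw, e⟩ := hf.exists_perp_B_eq' hne 1
    rw [f.mem_perp_span_singleton] at hw
    have := (hv.2 w).symm.trans (hu' w)
    rw [B_sub_left] at e
    rcases eq01 hq (f.B v w) with a | a <;> rcases eq01 hq (f.B u w) with b | b <;> simp [a, b, hw] at e this

theorem T0b {y : Y} [IsPretransitive f.Isom Y] (h : f.Qgrp x ≤ stabilizer f.Isom y) (h' : stabilizer f.Isom y ≠ ⊤) :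
    2 * 2 ^ (2 * n) ≤ Nat.card Y + 2 ^ n := by
  have : Finite V := Module.finite_of_finite F
  have ts := Sp_ts hf f.symp_prim.rich (f.symp_Q x) h (by rw [hf.symp_Eich_eq_top, top_le_iff]; exact h')
  have h2 : ∀ (y : Y) (a : F), a • x ∈ (Sp f x y).toAddSubgroup := fun y a => smul_mem _ _ (subset_span (self_mem_O _ _))
  obtain ⟨s, s1, hs⟩ := exists_card_eq h0 (h2 y)
  have c0 : (O (stabilizer f.Isom y) x).ncard + 1 ≤ Nat.card F * s := by
    rw [← hs, ← ncard_insert_of_notMem (a := 0) (by rintro ⟨g, -, e⟩; exact h0 ((map_eq_zero_iff _ (g : V ≃ₗ[F] V).injective).1 e))]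
    exact ncard_le_ncard (t := (Sp f x y : Set V)) (insert_subset (zero_mem _) subset_span)
  have o := ncard_O_pos (stabilizer f.Isom x) y
  have hd := hf.two_mul_finrank_le ts
  have sn : s ≤ Nat.card F ^ n := Nat.le_of_mul_le_mul_left (c := Nat.card F) (by
    rw [← hs, ← pow_succ', show Nat.card (Sp f x y).toAddSubgroup = _ from Module.natCard_eq_pow_finrank (K := F) (V := Sp f x y)]
    exact Nat.pow_le_pow_right Nat.card_pos (by omega)) Nat.card_pos
  have e := orb_eq hf hn h0 y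
  have e1 := NN_mul (a := Nat.card F) Nat.card_pos n
  have e2 := NN_mul (a := Nat.card F) Nat.card_pos (n + 1)
  rw [mul_add_one, pow_add] at e2
  rcases s1.eq_or_lt with rfl | s2
  · rw [hq] at *
    nlinarith [Nat.mul_le_mul_left (Nat.card Y) (show (O (stabilizer f.Isom y) x).ncard ≤ 1 by omega)]
  obtain ⟨u, hu, hu'⟩ := exists_not_line h0 hs s2
  have c := cover1 hf hn h0 (fun y => (Sp f x y).toAddSubgroup) (fun g y u hg hu => Sp_map hu one_ne_zero (by rw [hg, one_smul]))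
    h2 (Y₀ := {y}) (by rintro _ rfl; exact ⟨self_mem_O _ _, le_rfl⟩) hs hu (ts.le_perp hu x (by simpa using h2 y 1)) hu'
  rw [hq] at e e1 e2 c c0 sn
  rw [mul_comm 2 n, pow_mul] at e1 e2 ⊢
  obtain ⟨a, ha⟩ : ∃ a, 2 ^ n = a + 1 := ⟨2 ^ n - 1, by omega⟩
  rw [ha] at e1 e2 sn ⊢
  rw [ncard_singleton, show (2 - 1) * NN 2 n = a * (a + 2) by nlinarith] at c
  rw [show (2 - 1) * NN 2 (n + 1) = (2 * a + 1) * (2 * a + 3) by nlinarith] at e
  have c1 : a + 2 ≤ (O (stabilizer f.Isom x) y).ncard := Nat.le_of_mul_le_mul_left (c := a)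
    (by nlinarith [Nat.mul_le_mul_left (O (stabilizer f.Isom x) y).ncard (show s - 1 ≤ a by omega)]) (by omega)
  have c2 : (2 * a + 3) * (a + 2) ≤ Nat.card Y := Nat.le_of_mul_le_mul_left (c := 2 * a + 1) (by
    nlinarith [Nat.mul_le_mul_left (Nat.card Y) (show (O (stabilizer f.Isom y) x).ncard ≤ 2 * a + 1 by omega),
      Nat.mul_le_mul_left ((2 * a + 1) * (2 * a + 3)) c1]) (by omega)
  nlinarith

omit h0 in
theorem sp2_min (n2 : 2 ≤ n) [IsPretransitive f.Isom Y] [Nonempty Y] (hS : ∀ y : Y, stabilizer f.Isom y ≠ ⊤) :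
    2 * 2 ^ (2 * n) ≤ Nat.card Y + 2 ^ n := by
  have : Nontrivial V := Module.nontrivial_of_finrank_pos (R := F) (by omega)
  obtain ⟨x, h0⟩ := exists_ne (0 : V)
  have hx := f.symp_Q x
  by_contra! lt
  have := Nat.two_pow_pos n
  have H : ∀ y : Y, R hx y = ⊥ ↔ Full hx y := fun y => ⟨fun h => by_contra fun h' => by
      have := kap0 hf hn h0 hx h'
      have := ncard_le_card (O (stabilizer f.Isom x) y)
      rw [h, AddSubgroup.card_bot, hq] at *
      omega, fun h => (R01 hx hq y).resolve_right fun h' => lt.not_ge (T0b hf hn h0 hq (Q_le_of h (h' ▸ le_top)) (hS y))⟩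
  have mv : ∀ z, z ≠ 0 → ∀ y : Y, ∃ y' : Y, R (f.symp_Q z) y = R hx y' ∧ (Full (f.symp_Q z) y ↔ Full hx y') := fun z hz y => by
    obtain ⟨g, hg⟩ := hf.witt_one h0 hz (by simp only [symp_Q])
    exact ⟨g⁻¹ • y, by rw [← R_mov _ hg, smul_inv_smul], by rw [← Full_mov _ hg, smul_inv_smul]⟩
  obtain ⟨y, hy⟩ : ∃ y : Y, R hx y = ⊥ := by
    by_contra! e
    obtain ⟨y⟩ := ‹Nonempty Y›
    refine hS y (hf.symp_eq_top_of_Tgrp fun z c h => ?_)
    by_cases hz : z = 0
    · subst hz; rw [eichler_zero_left]; exact one_mem _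
    obtain ⟨y', e1, -⟩ := mv z hz y
    exact (show c ∈ R (f.symp_Q z) y by simp [e1, (R01 hx hq y').resolve_left (e y')]).2
  obtain ⟨y', hy'⟩ : ∃ y : Y, ¬ Full hx y := by
    by_contra! e
    have HF : ∀ z, z ≠ 0 → R (f.symp_Q z) y = ⊥ ∧ Full (f.symp_Q z) y := fun z hz => by
      obtain ⟨y', e1, e2⟩ := mv z hz y
      exact ⟨e1 ▸ (H _).2 (e _), e2.2 (e _)⟩
    choose! c hc using fun z w hz hw => (mem_W.1 ((HF z hz).2 w hw)).imp fun c h =>
      show f.eichler z w c (sc hw c) • y = y from h.2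
    have ca : ∀ z w v, z ≠ 0 → f.B z w = 0 → f.B z v = 0 → c z (w + v) = c z w + c z v + f.B w v := fun z w v hz hw hv =>
      c_uniq _ (HF z hz).1 (hc _ _ hz (by simp [hw, hv])) (h' := (sc hw _).add (sc hv _)) (by
        rw [← f.eichler_mul (sc hw _) (sc hv _), mul_smul, hc z v hz hv, hc z w hz hw])
    have c1 : ∀ z w, z ≠ 0 → w ≠ 0 → f.B z w = 0 → c z w = 0 → c w z = 0 := fun z w hz hw e e' => by
      have := fix_congr (hc w z hw (f.eq_zero_symm e)) (one_smul F z).symm rfl (h' := sc (by simp [f.eq_zero_symm e]) _)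
      have e1 := fix_congr (hc z w hz e) (one_smul F w).symm e' (h' := sc (by simp [e]) _)
      rw [Esym e, mul_smul, ← e1, smul_left_cancel_iff, e1] at this
      simpa [(HF w hw).1] using show c w z ∈ R (f.symp_Q w) y from ⟨_, this⟩
    have cs : ∀ z w, z ≠ 0 → w ≠ 0 → f.B z w = 0 → c z w = c w z := fun z w hz hw e => by
      have a := c1 z w hz hw e
      have b := c1 w z hw hz (f.eq_zero_symm e)
      rcases eq01 hq (c z w) with h | h <;> rcases eq01 hq (c w z) with h' | h' <;> simp_all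
    obtain ⟨w, hw⟩ := hf.exists_isHyp hx h0
    obtain ⟨z, z1, z0⟩ := ex_perp hf ![x, w] ⊥ (by simp; omega)
    obtain ⟨v, v1, v0⟩ := ex_perp hf ![x, w, z] (F ∙ z) (by rw [finrank_span_singleton z0]; omega)
    have z0 : z ≠ 0 := z0
    have zx := f.eq_zero_symm (show f.B x z = 0 from z1 0)
    have zw := f.eq_zero_symm (show f.B w z = 0 from z1 1)
    have vx := f.eq_zero_symm (show f.B x v = 0 from v1 0)
    have vw := f.eq_zero_symm (show f.B w v = 0 from v1 1)
    have zv : f.B z v = 0 := v1 2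
    have v0' : v ≠ 0 := by rintro rfl; simp at v0
    have n1 : z + v ≠ 0 := fun e => v0 (eq_neg_of_add_eq_zero_right e ▸ neg_mem (mem_span_singleton_self z))
    have n2 : x + w ≠ 0 := fun e => by simpa [f.symp_B_self, hw.B_xy] using congrArg (f.B x) e
    have ad : ∀ u, u ≠ 0 → f.B z u = 0 → f.B v u = 0 → c (z + v) u = c z u + c v u := fun u hu a b => by
      rw [cs _ _ n1 hu (by simp [a, b]), ca _ _ _ hu (f.eq_zero_symm a) (f.eq_zero_symm b), zv, add_zero,
        cs _ _ z0 hu a, cs _ _ v0' hu b]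
    have := ad (x + w) n2 (by simp [zx, zw]) (by simp [vx, vw])
    rw [ca _ _ _ n1 (by simp [zx, vx]) (by simp [zw, vw]), ca _ _ _ z0 zx zw, ca _ _ _ v0' vx vw, ad x h0 zx vx,
      ad w hw.y_ne_zero zw vw, hw.B_xy] at this
    exact one_ne_zero (α := F) (by linear_combination -this)
  have c1 := T5b hf hn h0 hx hq ((H y).1 hy) hy
  have c2 := kap0 hf hn h0 hx hy'
  rw [(R01 hx hq y').resolve_left fun h => hy' ((H _).1 h), AddSubgroup.card_top, hq] at c2
  have c3 := ncard_le_ncard (s := O (stabilizer f.Isom x) y') (t := {y : Y | Full hx y ∧ R hx y = ⊥}ᶜ) (by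
    rintro _ ⟨g, hg, rfl⟩ h; exact hy' ((Full_mov hx hg).1 h.1))
  have := ncard_add_ncard_compl {y : Y | Full hx y ∧ R hx y = ⊥}
  omega

end CA.Coop
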