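import Cfsg.Agent.Lib.Lin.Coop2
import Cfsg.Agent.Lib.Lin.CFormMisc

/-! Minimal degree of the unitary groups: counting and Witt's lemma in the special group. -/

set_option autoImplicit false
set_option linter.unusedSectionVars false

namespace CA.Coop

open MulAction Module CA.CForm CA.CForm.Form Set Submodule

/-- number of isotropic points -/
def NI (q : ℕ) : ℕ → ℕ
  | 0 => 0
  | 1 => 0
  | k + 2 => q ^ 2 * NI q k + q ^ (2 * k + 1) + 1

/-- number of non-isotropic points -/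
def NA (q : ℕ) : ℕ → ℕ
  | 0 => 0
  | 1 => 1
  | k + 2 => q ^ 2 * NA q k + (q - 1) * q ^ (2 * k + 1)

theorem NI_NA {q : ℕ} (hq : 1 ≤ q) : ∀ k, (q ^ 2 - 1) * (NI q k + NA q k) + 1 = q ^ (2 * k)
  | 0 => by simp [NI, NA]
  | 1 => by have := Nat.one_le_pow 2 q hq; simp [NI, NA]; omega
  | k + 2 => by
    have := NI_NA hq k
    have := Nat.one_le_pow 2 q hq
    simp only [NI, NA]
    zify [*] at *
    linear_combination (q : ℤ) ^ 2 * ‹((q : ℤ) ^ 2 - 1) * _ + 1 = _›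

theorem NI_int (q : ℕ) : ∀ n, (q : ℤ) * ((q ^ 2 - 1) * NI q n + 1) = q ^ (2 * n) + (-1) ^ n * (q ^ (n + 1) - q ^ n)
  | 0 => by simp [NI]
  | 1 => by simp [NI]
  | k + 2 => by
    simp only [NI]
    push_cast
    linear_combination (q : ℤ) ^ 2 * NI_int q k

theorem NI_le {q : ℕ} (hq : 2 ≤ q) : ∀ k, NI q (k + 1) ≤ 2 * NA q (k + 1)
  | 0 => by simp [NI]
  | 1 => by
    obtain ⟨p, rfl⟩ : ∃ p, q = p + 2 := ⟨q - 2, by omega⟩
    simp [NI, NA]; nlinarith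
  | k + 2 => by
    have := NI_le hq k
    have := Nat.one_le_pow (2 * (k + 1) + 1) q (by omega)
    simp only [NI, NA]
    nlinarith [Nat.mul_le_mul_left (q ^ 2) ‹NI q _ ≤ _›, Nat.mul_le_mul_right (q ^ (2 * (k + 1) + 1)) (show 1 ≤ q - 1 by omega)]

theorem NI_le_pow {q : ℕ} (hq : 2 ≤ q) (k : ℕ) : NI q (k + 3) ≤ q ^ (2 * (k + 1) + 1) + q ^ (2 * (k + 1)) := by
  have h := NI_NA (q := q) (by omega) (k + 1)
  have := NI_le hq k
  obtain ⟨p, hp⟩ : ∃ p, q ^ 2 = p + 1 + 2 := ⟨q ^ 2 - 3, by have := Nat.pow_le_pow_left hq 2; omega⟩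
  rw [NI, hp]
  rw [hp, show p + 1 + 2 - 1 = p + 2 from rfl] at h
  nlinarith

theorem NI_le_NA {q : ℕ} (hq : 3 ≤ q) : ∀ k, NI q (k + 1) ≤ NA q (k + 1)
  | 0 => by simp [NI]
  | 1 => by
    obtain ⟨p, rfl⟩ : ∃ p, q = p + 3 := ⟨q - 3, by omega⟩
    simp [NI, NA]; nlinarith
  | k + 2 => by
    have := NI_le_NA hq k
    have := Nat.one_le_pow (2 * (k + 1) + 1) q (by omega)
    simp only [NI, NA]
    nlinarith [Nat.mul_le_mul_left (q ^ 2) ‹NI q _ ≤ _›, Nat.mul_le_mul_right (q ^ (2 * (k + 1) + 1)) (show 2 ≤ q - 1 by omega)]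

theorem NI_lt {q : ℕ} (hq : 2 ≤ q) : ∀ k, (q ^ 2 - 2) * NI q (k + 3) < q ^ (2 * k + 5)
  | 0 => by
    have := Nat.pow_le_pow_left hq 2
    have := Nat.pow_le_pow_right (show 0 < q by omega) (show 2 ≤ 3 by omega)
    norm_num [NI]; zify [show 2 ≤ q ^ 2 by omega] at *; nlinarith
  | 1 => by
    have := Nat.pow_le_pow_left hq 2
    have := Nat.pow_le_pow_right (show 0 < q by omega) (show 4 ≤ 5 by omega)
    norm_num [NI]; zify [show 2 ≤ q ^ 2 by omega] at *; nlinarith [pow_nonneg (Nat.cast_nonneg (α := ℤ) q) 3]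
  | k + 2 => by
    have h := NI_lt hq k
    have := Nat.pow_le_pow_left hq 2
    rw [NI, show q ^ (2 * (k + 3) + 1) = q ^ 2 * q ^ (2 * k + 5) by ring,
      show q ^ (2 * (k + 2) + 5) = q ^ 2 * q ^ 2 * q ^ (2 * k + 5) by ring]
    zify [show 2 ≤ q ^ 2 by omega] at *
    nlinarith [mul_le_mul_of_nonneg_left (Int.add_one_le_of_lt h) (sq_nonneg (q : ℤ)),
      mul_nonneg (sq_nonneg (q : ℤ)) (pow_nonneg (Nat.cast_nonneg (α := ℤ) q) (2 * k + 5))]

section gen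
variable {F : Type*} [Field F] {k : Kind F} {V : Type*} [AddCommGroup V] [Module F V] {f : Form k V}

variable (f) in
/-- the stabiliser of the point `F x` in the group generated by Eichler transformations -/
def PE (x : V) : Subgroup f.Isom where
  carrier := {g | g ∈ f.Eich ∧ ∃ a : F, a ≠ 0 ∧ (g : V ≃ₗ[F] V) x = a • x}
  one_mem' := ⟨one_mem _, 1, one_ne_zero, (one_smul _ _).symm⟩
  mul_mem' := fun ⟨h, a, ha, e⟩ ⟨h', b, hb, e'⟩ => ⟨mul_mem h h', b * a, mul_ne_zero hb ha, by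
    rw [isom_mul_apply, e', map_smul, e, smul_smul]⟩
  inv_mem' := fun ⟨h, _, ha, e⟩ => ⟨inv_mem h, _, inv_ne_zero ha, inv_apply ha e⟩

theorem PE_le (x : V) : PE f x ≤ f.Eich := fun _ h => h.1
theorem mem_PE {x : V} {g : f.Isom} (h : g ∈ f.Eich) (e : (g : V ≃ₗ[F] V) x = x) : g ∈ PE f x :=
  ⟨h, 1, one_ne_zero, e.trans (one_smul _ _).symm⟩
theorem Q_le_PE (x : V) : f.Qgrp x ≤ PE f x := fun _ h => mem_PE (f.Qgrp_le_Eich x h) (f.apply_of_mem_Qgrp h)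

theorem ncard_perp_Q {x z : V} (hz : f.IsHyp x z) (P : F → Prop) : {u | f.B x u = 0 ∧ P (f.Q u)}.ncard =
    Nat.card F * Nat.card {w : f.perp (span F {x, z}) // P ((f.restrict _).Q w)} := by
  rw [← Nat.card_prod]
  have e : ∀ (a : F) (w : f.perp (span F {x, z})), f.Q (w + a • x) = f.Q w := fun a w => by
    rw [f.Q_add_smul_of_Q hz.Q_x, f.eq_zero_symm (f.mem_perp_span_pair.1 w.2).1]; simp
  refine (Nat.card_congr (Equiv.ofBijective (fun p => (⟨p.2.1 + p.1 • x, by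
    simp [(f.mem_perp_span_pair.1 p.2.1.2).1, hz.B_xx], (e _ _).symm ▸ p.2.2⟩ : {u | f.B x u = 0 ∧ P (f.Q u)}))
      ⟨fun p p' h => ?_, fun u => ?_⟩)).symm
  · have h : (p.2.1 : V) + p.1 • x = p'.2.1 + p'.1 • x := congrArg Subtype.val h
    have := congrArg (f.B z) h
    simp only [map_add, map_smul, (f.mem_perp_span_pair.1 (Subtype.prop _)).2, zero_add, hz.B_yx, smul_eq_mul] at this
    have := mul_right_cancel₀ k.ε_ne_zero this
    exact Prod.ext this (Subtype.ext (Subtype.ext (add_right_cancel (this ▸ h))))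
  · obtain ⟨w, hw, h⟩ := hz.exists_decomp u.1
    rw [u.2.1, zero_smul, add_zero, add_comm] at h
    exact ⟨⟨_, ⟨w, hw⟩, by have := u.2.2; rwa [h, e _ ⟨w, hw⟩] at this⟩, Subtype.ext h.symm⟩

theorem covA {Y : Type*} [Finite F] [Finite V] [Finite Y] [MulAction f.Isom Y] {x : V} (h0 : x ≠ 0) {Γ : Subgroup f.Isom}
    (A : Y → AddSubgroup V) (h2 : ∀ y (a : F), a • x ∈ A y) {y : Y} {s : ℕ} (hc : ∀ y' ∈ O Γ y, Nat.card (A y') ≤ Nat.card F * s)
    {Y₀ : Set Y} (hY : Y₀ ⊆ O Γ y) (Ω : Set V) (hΩ : ∀ u ∈ Ω, u ∉ F ∙ x ∧ ∃ g ∈ Γ, ∀ y' ∈ Y₀, u ∈ A (g • y')) :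
    Ω.ncard * Y₀.ncard ≤ (O Γ y).ncard * (Nat.card F * (s - 1)) :=
  cover (G := f.Isom) Ω Y₀ (O Γ y) (fun u y => u ∈ A y) (fun u hu => (hΩ u hu).2.imp fun _ hg y' hy =>
    ⟨smul_mem_O hg.1 (hY hy), hg.2 y' hy⟩) fun y' hy => (ncard_sub_line h0 (h2 y') fun v hv => ⟨hv.2, (hΩ v hv.1).1⟩).trans (by
      rw [Nat.mul_sub_one]; exact Nat.sub_le_sub_right (hc y' hy) _)

theorem orb_blk {G Y : Type*} [Group G] [MulAction G Y] [Finite Y] {Γ Q : Subgroup G} (h : Q ≤ Γ)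
    (hn : ∀ g ∈ Γ, ∀ e ∈ Q, g * e * g⁻¹ ∈ Q) (y : Y) {d : ℕ}
    (hd : open Pointwise in d ≤ (O Γ (O Q y)).ncard) : d * (O Q y).ncard ≤ (O Γ y).ncard := by
  open Pointwise in
  have e : ∀ g ∈ Γ, g • O Q y = O Q (g • y) := fun g hg => Set.ext fun z => ⟨by
    rintro ⟨_, ⟨e, he, rfl⟩, rfl⟩; exact ⟨_, hn g hg e he, by simp [mul_smul]⟩, by
    rintro ⟨e, he, rfl⟩; exact ⟨_, mem_O (hn _ (inv_mem hg) e he) _, by simp [mul_smul]⟩⟩
  open Pointwise in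
  have := orb_mul Γ y (O Q y)
  open Pointwise in
  rw [show O (stabilizer G y ⊓ Γ) (O Q y) = {O Q y} from eq_singleton_iff_unique_mem.2 ⟨self_mem_O _ _, by
    rintro _ ⟨g, hg, rfl⟩; rw [e g hg.2, hg.1]⟩, ncard_singleton, mul_one] at this
  rw [this]
  exact Nat.mul_le_mul hd (ncard_le_ncard (O_mono (fun g hg => Subgroup.mem_inf.2
    ⟨(e g (h hg)).trans (O_eq (mem_O hg y)), h hg⟩) (self_mem_O _ _)))

end gen

variable {F : Type*} [Field F] [Fintype F] {q : ℕ} {hF : Fintype.card F = q ^ 2} {V : Type*} [AddCommGroup V] [Module F V]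
  [FiniteDimensional F V] {f : Form (hermKind hF) V} (hf : f.Nondeg) {k : ℕ} (hn : finrank F V = k + 2) {x : V}
  (h0 : x ≠ 0) (hx : f.Q x = 0)

local notation:75 g:76 " ⊳ " v:75 => (g : V ≃ₗ[F] V) v

variable (hF) in
include hF in
theorem cF : Nat.card F = q ^ 2 := Nat.card_eq_fintype_card.trans hF

theorem hτ_herm (c : F) (h : (hermKind hF).π c = 0) : ∃ b, b - (hermKind hF).ε * (hermKind hF).σ b = c := by
  obtain ⟨a, ha⟩ := Kind.exists_trace_eq (conj hF) (conj_conj hF) (conj_ne_id hF) 1 (map_one _)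
  have h : conj hF c = -c := eq_neg_of_add_eq_zero_right h
  exact ⟨a * c, by simp only [Kind.herm_ε, Kind.herm_σ, map_mul, h]; linear_combination c * ha⟩

include hf

theorem card_sing {n : ℕ} (hn : finrank F V = n) : Nat.card {v // f.Q v = 0} = (q ^ 2 - 1) * NI q n + 1 := by
  have h := herm_card_Q_eq_aux hF (c := 0) (zero_pow (by have := two_le_of_card_sq hF; omega)) n hf hn
  have := two_le_of_card_sq hF
  rw [if_pos rfl, ← NI_int] at h
  have h := mul_left_cancel₀ (Nat.cast_ne_zero.2 (by omega)) h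
  zify [Nat.one_le_pow 2 q (by omega)]
  exact h

theorem ex_noniso (T : Submodule F V) (h : finrank F V < 2 * finrank F T) : ∃ v ∈ T, f.Q v ≠ 0 := by
  by_contra! e
  exact (hf.two_mul_finrank_le ((f.herm_ts_iff_Q (conj_ne_id hF)).2 e)).not_gt h

theorem fixdet (h2 : 2 ≤ finrank F V) (g : f.Isom) {v : V} (hv : f.Q v ≠ 0) :
    ∃ g' ∈ f.Eich, ∀ u, f.B v (g ⊳ u) = 0 → g' ⊳ u = g ⊳ u := by
  obtain ⟨h, e⟩ := herm_exists_det_eq hF hv ((herm_mem_range_detHom hF hf (by omega) (f.detHom g)⁻¹).1 ⟨g⁻¹, map_inv _ _⟩)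
  exact ⟨f.qrefl v _ h * g, by
    rw [herm_Eich_eq hF hf h2, mem_SIsom, map_mul, Units.ext e, inv_mul_cancel], fun u hu => by
    rw [isom_mul_apply, f.qrefl_apply_of_B _ _ _ hu]⟩

theorem witt1 (h3 : 3 ≤ finrank F V) {u v : V} (hu : u ≠ 0) (hv : v ≠ 0) (e : f.Q u = f.Q v) : ∃ g ∈ f.Eich, g ⊳ u = v := by
  obtain ⟨g, hg⟩ := hf.witt_one hu hv e
  have := hf.finrank_perp (F ∙ v)
  rw [finrank_span_singleton hv] at this
  obtain ⟨w, hw, hw'⟩ := ex_noniso hf (f.perp (F ∙ v)) (by omega)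
  obtain ⟨g', h1, h2⟩ := fixdet hf (by omega) g hw'
  exact ⟨g', h1, by rw [h2 u (hg ▸ f.eq_zero_symm (f.mem_perp_span_singleton.1 hw)), hg]⟩

include hn h0 hx

theorem witt2 {u v : V} (hu : f.B x u = 0) (hu' : u ∉ F ∙ x) (hv : f.B x v = 0) (hv' : v ∉ F ∙ x) (e : f.Q u = f.Q v)
    (hk : 3 ≤ k ∨ (2 ≤ k ∧ f.Q v ≠ 0)) {a : F} (ha : a ≠ 0) : ∃ g ∈ f.Eich, g ⊳ x = a • x ∧ g ⊳ u = v := by
  obtain ⟨g, g1, g2⟩ := hf.witt_pair (li_pair h0 hu') (li_pair (smul_ne_zero ha h0) (u := v)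
    (by rwa [span_singleton_smul_eq (IsUnit.mk0 a ha)])) (by rw [f.Q_smul_of_Q hx, hx]) e.symm (by simp [hu, hv])
  have := hf.finrank_perp (span F {x, v})
  rw [finrank_pair h0 hv'] at this
  obtain ⟨w, hw, hw'⟩ : ∃ w ∈ f.perp (span F {x, v}), f.Q w ≠ 0 := by
    by_contra! h
    have ts := (f.herm_ts_iff_Q (conj_ne_id hF)).2 h
    have := hf.two_mul_finrank_le ts
    refine (hk.resolve_left (by omega)).2 (h v ?_)
    rw [← hf.perp_eq_of_two_mul ts (by omega), hf.perp_perp]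
    exact subset_span (by simp)
  rw [f.mem_perp_span_pair] at hw
  obtain ⟨g', h1, h2⟩ := fixdet hf (by omega) g hw'
  exact ⟨g', h1, by rw [h2 x (by simp [g1, f.eq_zero_symm hw.1]), g1], by rw [h2 u (g2 ▸ f.eq_zero_symm hw.2), g2]⟩

theorem witt2' {u v : V} (hu : f.B x u = 0) (hu' : u ∉ F ∙ x) (hv : f.B x v = 0) (hv' : v ∉ F ∙ x) (e : f.Q u = 0)
    (e' : f.Q v = 0) : ∃ δ : Fˣ, (δ : F) ^ (q + 1) = 1 ∧
      ∀ a : Fˣ, (a : F) * ((a : F) ^ q)⁻¹ = δ → ∃ g ∈ f.Eich, g ⊳ x = x ∧ g ⊳ u = (a : F) • v := by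
  obtain ⟨g, g1, g2⟩ := hf.witt_pair (li_pair h0 hu') (li_pair h0 hv') rfl (e'.trans e.symm) (by simp [hu, hv])
  obtain ⟨z, hz, z1, z2⟩ := hf.exists_partner_perp e' hv' (f.mem_perp_span_singleton.2 hv)
  have hz' : f.IsHyp v z := ⟨e', z1, z2⟩
  refine ⟨(f.detHom g)⁻¹, (herm_mem_range_detHom hF hf (by omega) _).1 ⟨g⁻¹, map_inv _ _⟩,
    fun a ha => ⟨hz'.torus a * g, ?_, ?_, by rw [isom_mul_apply, g2, hz'.torus_apply_x]⟩⟩
  · rw [herm_Eich_eq hF hf (by omega), mem_SIsom, map_mul, Units.ext ((hz'.detHom_torus a).trans ha), inv_mul_cancel]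
  · rw [isom_mul_apply, g1, hz'.torus_apply_of_B _ (f.eq_zero_symm hv) (f.eq_zero_symm (f.mem_perp_span_singleton.1 hz))]

theorem ncard_Oi : {u | f.B x u = 0 ∧ f.Q u = 0 ∧ u ∉ F ∙ x}.ncard = q ^ 2 * ((q ^ 2 - 1) * NI q k) := by
  have : Finite V := Module.finite_of_finite F
  obtain ⟨z, hz⟩ := hf.exists_isHyp hx h0
  have h1 := ncard_perp_Q hz (· = 0)
  have h2 := ncard_sdiff (s := ((F ∙ x : Submodule F V) : Set V)) (t := {u | f.B x u = 0 ∧ f.Q u = 0}) fun v hv => by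
    obtain ⟨a, rfl⟩ := mem_span_singleton.1 hv
    exact ⟨by simp [hz.B_xx], f.Q_smul_of_Q hx a⟩
  rw [ncard_line h0, h1, card_sing (hz.nondeg_perp hf) (n := k) (by have := hz.finrank_perp; omega), cF hF, mul_add_one,
    Nat.add_sub_cancel] at h2
  rw [← h2]
  exact congrArg ncard (Set.ext fun u => and_assoc.symm)

theorem ncard_On : {u | f.B x u = 0 ∧ f.Q u ≠ 0}.ncard = q ^ 2 * ((q ^ 2 - 1) * NA q k) := by
  have : Finite V := Module.finite_of_finite F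
  obtain ⟨z, hz⟩ := hf.exists_isHyp hx h0
  have h1 : finrank F (f.perp (span F {x, z})) = k := by have := hz.finrank_perp; omega
  classical
  have := Nat.card_congr (Equiv.sumCompl fun w : f.perp (span F {x, z}) => (f.restrict _).Q w = 0)
  rw [Nat.card_sum, card_sing (hz.nondeg_perp hf) h1, Module.natCard_eq_pow_finrank (K := F) (V := f.perp (span F {x, z})), h1, cF hF, ← pow_mul,
    ← NI_NA (q := q) (by have := two_le_of_card_sq hF; omega), mul_add] at this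
  rw [ncard_perp_Q hz (· ≠ 0), cF hF]
  congr 1
  exact Nat.add_left_cancel (this.trans (add_right_comm _ _ _))

end CA.Coop
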