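import Cfsg.Agent.Lib.Lin.CoopU1

/-! Minimal degree of the unitary groups: covers, duality, induction. -/

set_option autoImplicit false
set_option linter.unusedSectionVars false

namespace CA.Coop

open MulAction Module CA.CForm CA.CForm.Form Set Submodule

section gen
variable {F : Type*} [Field F] {k : Kind F} {V : Type*} [AddCommGroup V] [Module F V] {f : Form k V}
  {Y : Type*} [MulAction f.Isom Y] {x : V}

variable (f) in
/-- An equivariant family of additive subgroups. -/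
structure Fam (x : V) (A : Y → AddSubgroup V) (τ : F → F) : Prop where
  map : ∀ (g : f.Isom) (a : F) y u, a ≠ 0 → (g : V ≃ₗ[F] V) x = a • x → u ∈ A y → τ a • (g : V ≃ₗ[F] V) u ∈ A (g • y)
  ne : ∀ a, a ≠ 0 → τ a ≠ 0
  surj : ∀ b, b ≠ 0 → ∃ a, a ≠ 0 ∧ τ a = b
  mem : ∀ y (a : F), a • x ∈ A y

theorem W_fam (hx : f.Q x = 0) : Fam f x (fun y : Y => W hx y) k.σ :=
  ⟨fun _ _ _ _ ha hg h => W_map h hx ha hg, fun _ => k.σ_eq_zero.not.2, fun b hb => ⟨k.σ b, k.σ_eq_zero.not.2 hb, k.σσ b⟩,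
    fun _ => smul_mem_W⟩

theorem U_fam [Finite F] [FiniteDimensional F V] (hx : f.Q x = 0) (ψ : AddChar F ℂ) :
    Fam f x (fun y : Y => U f ψ x (W hx y)) (·⁻¹) :=
  ⟨fun _ _ _ _ ha hg h => U_map h ha hg, fun _ => inv_ne_zero, fun b hb => ⟨b⁻¹, inv_ne_zero hb, inv_inv b⟩,
    fun y a => ⟨by simp [f.B_self_of_Q hx], fun w hw => by simp [W_perp hw]⟩⟩

theorem Sp_fam [Finite F] [FiniteDimensional F V] : Fam f x (fun y : Y => (Sp f x y).toAddSubgroup) id :=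
  ⟨fun _ _ _ _ ha hg h => smul_mem _ _ (Sp_map h ha hg), fun _ h => h, fun b hb => ⟨b, hb, rfl⟩,
    fun _ _ => smul_mem _ _ (subset_span (self_mem_O _ _))⟩

theorem Fam.card_le [Finite V] {A : Y → AddSubgroup V} {τ : F → F} (h : Fam f x A τ) {y y' : Y} (hy : y' ∈ O (PE f x) y) :
    Nat.card (A y') ≤ Nat.card (A y) := by
  obtain ⟨g, ⟨-, a, ha, hg⟩, rfl⟩ := hy
  exact ncard_le_ncard_of_injOn (s := (A (g • y) : Set V)) (t := A y) (fun u => τ a⁻¹ • ((g⁻¹ : f.Isom) : V ≃ₗ[F] V) u)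
    (fun u hu => inv_smul_smul g y ▸ h.map _ _ _ _ (inv_ne_zero ha) (inv_apply ha hg) hu)
    fun u _ v _ e => LinearEquiv.injective _ (smul_right_injective V (h.ne _ (inv_ne_zero ha)) e)

theorem PE_eq (h0 : x ≠ 0) (hx : f.Q x = 0) : stabilizer f.Isom (f.pt x h0 hx) ⊓ f.Eich = PE f x :=
  Subgroup.ext fun g => ⟨fun h => ⟨h.2, ((f.smul_pt_eq_iff g).1 h.1).imp fun a e => ⟨fun e' => h0
    ((map_eq_zero_iff _ (g : V ≃ₗ[F] V).injective).1 (by rw [e, e', zero_smul])), e⟩⟩,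
    fun h => ⟨(f.smul_pt_eq_iff g).2 (h.2.imp fun _ h => h.2), h.1⟩⟩

theorem pt_le [Finite F] [Finite V] (h0 : x ≠ 0) (hx : f.Q x = 0) (Γ : Subgroup f.Isom) (T : Submodule F V)
    (h : ∀ g ∈ Γ, (g : V ≃ₗ[F] V) x ∈ T) : (O Γ (f.pt x h0 hx)).ncard * (Nat.card F - 1) + 1 ≤ Nat.card T := by
  have := dc (O Γ (f.pt x h0 hx)) ((T : Set V) \ {0}) (fun p v => ∃ h0 hQ, p = f.pt v h0 hQ) (m := Nat.card F - 1) (n := 1)
    (by
      rintro _ ⟨g, hg, rfl⟩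
      have h1 : (g : V ≃ₗ[F] V) x ≠ 0 := by simpa using h0
      rw [← ncard_univ, ← ncard_sdiff_singleton_of_mem (mem_univ (0 : F))]
      exact ncard_le_ncard_of_injOn (· • (g : V ≃ₗ[F] V) x) (fun a ha => ⟨⟨smul_mem _ _ (h g hg), smul_ne_zero ha.2 h1⟩,
        smul_ne_zero ha.2 h1, f.Q_smul_of_Q ((Q_coe_map f g x).trans hx) a, (f.smul_pt_eq_iff g).2 ⟨a⁻¹, (inv_smul_smul₀ ha.2 _).symm⟩⟩)
        (smul_left_injective F h1).injOn)
    fun v _ => (ncard_le_one (toFinite _)).2 fun a ⟨_, _, _, e⟩ b ⟨_, _, _, e'⟩ => e.trans e'.symm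
  rw [show Nat.card T = (T : Set V).ncard from rfl, ← ncard_sdiff_singleton_add_one (zero_mem T)]
  omega

theorem ind [Finite F] [FiniteDimensional F V] {z : V} (hz : f.IsHyp x z) {d : ℕ}
    (hd : ∀ K : Subgroup (f.restrict (f.perp (span F {x, z}))).Isom, ¬ Form.Eich _ ≤ K → d ≤ K.relIndex (Form.Eich _))
    {Ω : Type*} [Finite Ω] [MulAction f.Isom Ω] (ω : Ω) :
    d ≤ (O (PE f x) ω).ncard ∨ ∀ g ∈ Form.Eich _, f.extRight hz.isCompl g • ω = ω := by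
  refine or_iff_not_imp_right.2 fun h => (hd ((stabilizer _ ω).comap (f.extRight hz.isCompl)) h).trans ?_
  rw [Subgroup.relIndex_comap, ← ncard_O]
  refine ncard_le_ncard (O_mono ?_ (self_mem_O _ _))
  rintro _ ⟨g, hg, rfl⟩
  exact mem_PE (extRight_mem_Eich _ hg) (f.extRight_apply_left _ _ (subset_span (by simp)))

end gen

variable {F : Type*} [Field F] [Fintype F] {q : ℕ} {hF : Fintype.card F = q ^ 2} {V : Type*} [AddCommGroup V] [Module F V]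
  [FiniteDimensional F V] {f : Form (hermKind hF) V} (hf : f.Nondeg) {k : ℕ} (hn : finrank F V = k + 2) {x : V}
  (h0 : x ≠ 0) (hx : f.Q x = 0) {Y : Type*} [Finite Y] [MulAction f.Isom Y]

local notation:75 g:76 " ⊳ " v:75 => (g : V ≃ₗ[F] V) v

theorem card_R_le (y : Y) : Nat.card (R hx y) ≤ q := (AddSubgroup.card_le_of_le R_le).trans_eq (card_ker_π_hermKind hF)

theorem herm_rich : f.Rich := (herm_prim (conj_ne_id hF) f).rich

include hf

theorem irr' (h3 : 3 ≤ finrank F V) {A : AddSubgroup V} (h : ∀ g ∈ f.Eich, ∀ u ∈ A, g ⊳ u ∈ A) {w : V} (hw : w ∈ A)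
    (w0 : w ≠ 0) (v : V) : v ∈ A := by
  obtain ⟨x, x0, hx⟩ := herm_exists_singular' hF (f := f) (by omega)
  obtain ⟨z, hz⟩ := hf.exists_isHyp hx x0
  obtain ⟨u, hu, e⟩ : ∃ u, f.Q u = 0 ∧ f.B u w ≠ 0 := by
    by_contra! e
    refine w0 (hf.eq_zero_right fun v => ?_)
    obtain ⟨a, b, c, ha, hb, hc, rfl⟩ := hz.exists_eq_add_singular v
    simp [e _ ha, e _ hb, e _ hc]
  obtain ⟨c, c0, hc⟩ := herm_exists_π_eq_zero (conj_conj hF) (conj_ne_id hF)
  have := sub_mem hw (h _ (f.eichler_mem_Eich u 0 c (f.eichlerCond_zero hu hc)) w hw)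
  rw [eichler_zero_apply, sub_sub_cancel] at this
  have k : ∀ v, f.Q v = 0 → v ∈ A := fun v hv => by
    by_cases v0 : v = 0
    · exact v0 ▸ zero_mem _
    obtain ⟨g, hg, e'⟩ := witt1 hf h3 (u := ((hermKind hF).ε * c * f.B u w) • u)
      (smul_ne_zero (by simp [c0, e]) (by rintro rfl; simp at e)) v0 ((f.Q_smul_of_Q hu _).trans hv.symm)
    exact e' ▸ h g hg _ this
  obtain ⟨a, b, c, ha, hb, hc, rfl⟩ := hz.exists_eq_add_singular v
  exact add_mem (add_mem (k _ ha) (k _ hb)) (k _ hc)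

include hn

theorem irr (k3 : 3 ≤ k) {z : V} (hz : f.IsHyp x z) {A : AddSubgroup V} (h2 : ∀ a : F, a • x ∈ A)
    (h : ∀ g ∈ Form.Eich _, ∀ u ∈ A, f.extRight hz.isCompl g ⊳ u ∈ A) {w : V} (hw : w ∈ A) (e : f.B x w = 0)
    (hw' : w ∉ F ∙ x) (v : V) (hv : f.B x v = 0) : v ∈ A := by
  obtain ⟨w', h1, e1⟩ := hz.exists_decomp w
  obtain ⟨v', h3, e2⟩ := hz.exists_decomp v
  rw [e, zero_smul, add_zero] at e1
  rw [hv, zero_smul, add_zero] at e2
  rw [e2]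
  exact add_mem (h2 _) (irr' (hz.nondeg_perp hf) (by have := hz.finrank_perp; omega)
    (A := A.comap (f.perp _).subtype.toAddMonoidHom) (fun g hg u hu => by
      have := h g hg u.1 hu
      rwa [f.extRight_apply_right] at this) (w := ⟨w', h1⟩) 
      ((add_mem_cancel_left (h2 _)).1 (e1 ▸ hw))
    (fun h => hw' (by rw [e1, show w' = 0 from congrArg Subtype.val h, add_zero]; exact smul_mem _ _ (mem_span_singleton_self x)))
    ⟨v', h3⟩)

include h0 hx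

section cov
variable {A : Y → AddSubgroup V} {τ : F → F} (h : Fam f x A τ) {y : Y} {s : ℕ} (hs : Nat.card (A y) = q ^ 2 * s) {u : V}
  (e : f.B x u = 0) {Y₀ : Set Y} (hY : ∀ y' ∈ Y₀, y' ∈ O (PE f x) y ∧ u ∈ A y')
include h hs e hY

theorem covI (k3 : 3 ≤ k) (hu : u ∉ F ∙ x) (hQ : f.Q u = 0) :
    (q ^ 2 - 1) * NI q k * Y₀.ncard ≤ (O (PE f x) y).ncard * (s - 1) := by
  have : Finite V := Module.finite_of_finite F
  obtain ⟨a, ha, e1⟩ := h.surj 1 one_ne_zero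
  have := covA h0 A h.mem (s := s) (fun y' hy => by rw [cF hF, ← hs]; exact h.card_le hy) (fun y' hy => (hY y' hy).1)
    {u | f.B x u = 0 ∧ f.Q u = 0 ∧ u ∉ F ∙ x} fun v hv => ⟨hv.2.2, by
      obtain ⟨g, g0, g1, g2⟩ := witt2 hf hn h0 hx e hu hv.1 hv.2.2 (hQ.trans hv.2.1.symm) (Or.inl k3) ha
      exact ⟨g, ⟨g0, a, ha, g1⟩, fun y' hy => by simpa [e1, g2] using h.map g a y' u ha g1 (hY y' hy).2⟩⟩
  rw [ncard_Oi hf hn h0 hx, cF hF] at this
  exact Nat.le_of_mul_le_mul_left (c := q ^ 2) (by linarith) (cF hF ▸ Nat.card_pos)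

theorem covN (k2 : 2 ≤ k) (hQ : f.Q u ≠ 0) :
    (q ^ 2 - 1) * NA q k * Y₀.ncard ≤ (O (PE f x) y).ncard * (s - 1) := by
  have : Finite V := Module.finite_of_finite F
  have nx : ∀ {v}, f.Q v ≠ 0 → v ∉ F ∙ x := fun hv h => hv ((f.ts_span_singleton hx).Q_eq _ h)
  have := covA h0 A h.mem (s := s) (fun y' hy => by rw [cF hF, ← hs]; exact h.card_le hy) (fun y' hy => (hY y' hy).1)
    {u | f.B x u = 0 ∧ f.Q u ≠ 0} fun v hv => ⟨nx hv.2, by
      obtain ⟨b, hb⟩ := exists_norm_eq (conj hF) (conj_conj hF) (conj_ne_id hF) (f.Q v / f.Q u) (by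
        rw [map_div₀, f.herm_Q_fixed, f.herm_Q_fixed])
      have b0 : b ≠ 0 := by rintro rfl; exact div_ne_zero hv.2 hQ (by simpa using hb.symm)
      obtain ⟨a, ha, rfl⟩ := h.surj b b0
      have e1 : f.Q u = f.Q ((τ a)⁻¹ • v) := by
        rw [f.herm_Q_smul, map_inv₀, ← mul_inv, hb, inv_div, div_mul_cancel₀ _ hv.2]
      obtain ⟨g, g0, g1, g2⟩ := witt2 hf hn h0 hx e (nx hQ) (by simp [hv.1]) (nx (e1 ▸ hQ)) e1 (Or.inr ⟨k2, e1 ▸ hQ⟩) ha
      exact ⟨g, ⟨g0, a, ha, g1⟩, fun y' hy => by simpa [b0, g2] using h.map g a y' u ha g1 (hY y' hy).2⟩⟩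
  rw [ncard_On hf hn h0 hx, cF hF] at this
  exact Nat.le_of_mul_le_mul_left (c := q ^ 2) (by linarith) (cF hF ▸ Nat.card_pos)

end cov

theorem dualU (y : Y) : ∃ ψ : AddChar F ℂ, ψ ≠ 0 ∧ ∃ s t, Nat.card (W hx y) = q ^ 2 * s ∧
    Nat.card (U f ψ x (W hx y)) = q ^ 2 * t ∧ s * t = q ^ (2 * k) ∧
    q * t ≤ (O (f.Qgrp x) y).ncard * Nat.card (R hx y) ∧ (¬ Full hx y → 2 ≤ t) ∧ 1 ≤ s ∧ 1 ≤ t ∧
    (¬ (hermKind hF).π.ker ≤ R hx y → s ≤ q ^ k ∧ q ^ k ≤ t) := by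
  have : Finite V := Module.finite_of_finite F
  obtain ⟨ψ, hψ⟩ := (AddChar.exists_apply_ne_zero (a := (1 : F))).2 one_ne_zero
  have hψ : ψ ≠ 0 := by rintro rfl; exact hψ rfl
  obtain ⟨s, s1, hs⟩ := exists_card_eq h0 (smul_mem_W (hx := hx) (y := y))
  obtain ⟨t, t1, ht⟩ := exists_card_eq h0 ((U_fam hx ψ).mem y)
  have e := card_U hf h0 hψ (smul_mem_W (hx := hx) (y := y))
  have o := orbQ hf h0 hx y
  have p := cF hF ▸ Nat.card_pos (α := F)
  have hn' : finrank F V - 1 = k + 1 := by omega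
  rw [hs, ht, hn', cF hF, pow_succ' (q ^ 2), ← pow_mul] at e
  have e : s * t = q ^ (2 * k) := Nat.eq_of_mul_eq_mul_left (Nat.mul_pos p p) (by linarith)
  rw [card_ker_π_hermKind, hs, hn', cF hF, pow_succ' (q ^ 2), ← pow_mul, ← e] at o
  refine ⟨ψ, hψ, s, t, cF hF ▸ hs, cF hF ▸ ht, e, Nat.le_of_mul_le_mul_left (c := q ^ 2 * s) (by linarith) (by positivity),
    fun h => ?_, s1, t1, fun h => ?_⟩
  · by_contra! h'
    obtain rfl : t = 1 := by omega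
    have := AddSubgroup.eq_of_le_of_card_ge (H := W hx y) (K := (f.perp (F ∙ x)).toAddSubgroup)
      (fun w hw => f.mem_perp_span_singleton.2 (W_perp hw)) (by
        rw [hs, ← mul_one s, e, pow_mul, ← cF hF, ← pow_succ']; exact (card_perp hf h0).trans_le (by rw [hn']))
    exact h fun w hw => this ▸ f.mem_perp_span_singleton.2 hw
  · obtain ⟨v, hv, hv'⟩ := SetLike.not_le_iff_exists.1 h
    have := card_W_sq hf h0 hτ_herm hv hv'
    rw [hs, hn', cF hF, pow_succ' (q ^ 2), ← pow_mul, mul_comm 2, pow_mul] at this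
    have : s ≤ q ^ k := (Nat.pow_le_pow_iff_left two_ne_zero).1 (Nat.le_of_mul_le_mul_left (c := q ^ 2 * q ^ 2)
      (by linarith) (Nat.mul_pos p p))
    rw [mul_comm 2, pow_mul] at e
    exact ⟨this, Nat.le_of_mul_le_mul_left (c := q ^ k) (by nlinarith) (by omega)⟩

omit h0 in
theorem indW (k3 : 3 ≤ k) {z : V} (hz : f.IsHyp x z) {d : ℕ}
    (hd : ∀ K : Subgroup (f.restrict (f.perp (span F {x, z}))).Isom, ¬ Form.Eich _ ≤ K → d ≤ K.relIndex (Form.Eich _))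
    {y : Y} (h : ¬ Full hx y) {w : V} (hw : w ∈ W hx y) (hw' : w ∉ F ∙ x) :
    d * (O (f.Qgrp x) y).ncard ≤ (O (PE f x) y).ncard := by
  open Pointwise in
  refine orb_blk (Q_le_PE x) (fun g ⟨_, a, ha, hg⟩ e he => by
    have := f.conj_mem_Qgrp g he; rwa [hg, f.Qgrp_smul ha] at this) y ((ind hz hd _).resolve_right fun e => h
      (irr hf hn k3 hz smul_mem_W (fun g hg u hu => ?_) hw (W_perp hw) hw'))
  obtain ⟨g', hg', e'⟩ : f.extRight hz.isCompl g • y ∈ O (f.Qgrp x) y := by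
    rw [← e g hg]; exact ⟨y, self_mem_O _ _, rfl⟩
  rw [← W_Q hg', e']
  exact W_mov hu hx (f.extRight_apply_left _ _ (subset_span (by simp)))

theorem orb_pt (k1 : 1 ≤ k) (y : Y) : (O f.Eich y).ncard * (O (stabilizer f.Isom y ⊓ f.Eich) (f.pt x h0 hx)).ncard =
    NI q (k + 2) * (O (PE f x) y).ncard := by
  have : Finite V := Module.finite_of_finite F
  have := idx_pt h0 hx (Γ := f.Eich) fun v hv e => witt1 hf (by omega) h0 hv (hx.trans e.symm)
  have e := natCard_subtype_ne (fun v => f.Q v = 0) 0 f.Q_zero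
  rw [card_sing hf hn, Nat.add_right_cancel_iff] at e
  rw [show Set.ncard {v | v ≠ 0 ∧ f.Q v = 0} = _ from e, cF hF, mul_comm, ← ncard_O] at this
  rw [orb_mul, PE_eq, Nat.eq_of_mul_eq_mul_left (by have := Nat.pow_le_pow_left (two_le_of_card_sq hF) 2; omega) this]

theorem finU (k1 : 1 ≤ k) {y : Y} (h : (O f.Eich y).ncard + 1 = NI q (k + 2)) : (O f.Eich y).ncard ≤ (O (PE f x) y).ncard := by
  have h1 := orb_pt hf hn h0 hx k1 y
  rw [← h, mul_comm (_ + 1)] at h1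
  exact Nat.le_of_dvd (ncard_O_pos _ _)
    ((Nat.coprime_self_add_right.2 (Nat.coprime_one_right _)).dvd_of_dvd_mul_right (h1 ▸ Dvd.intro _ rfl))

theorem T0a (k1 : 1 ≤ k) {y : Y} (ts : f.TS (Sp f x y)) : ∃ s, Nat.card (Sp f x y).toAddSubgroup = q ^ 2 * s ∧ 1 ≤ s ∧
    (∃ j, s = (q ^ 2) ^ j ∧ 2 * j ≤ k) ∧ ∀ d, q ^ 2 * s ≤ (q ^ 2 - 1) * d + 1 →
      NI q (k + 2) * (O (PE f x) y).ncard ≤ (O f.Eich y).ncard * d := by
  have : Finite V := Module.finite_of_finite F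
  obtain ⟨s, s1, hs⟩ := exists_card_eq h0 ((Sp_fam (f := f)).mem y)
  have h1 := pt_le h0 hx (stabilizer f.Isom y ⊓ f.Eich) (Sp f x y) fun g hg => subset_span (mem_O hg.1 x)
  have h2 := hf.two_mul_finrank_le ts
  have h3 : Nat.card (Sp f x y).toAddSubgroup = _ := Module.natCard_eq_pow_finrank (K := F) (V := Sp f x y)
  have := Nat.pow_le_pow_left (two_le_of_card_sq hF) 2
  rw [show Nat.card (Sp f x y) = _ from hs] at h1
  rw [cF hF] at *
  refine ⟨s, hs, s1, ⟨finrank F (Sp f x y) - 1, Nat.eq_of_mul_eq_mul_left (by omega) (hs.symm.trans (h3.trans ?_)), by omega⟩,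
    fun d hd => orb_pt hf hn h0 hx k1 y ▸ Nat.mul_le_mul_left _ (Nat.le_of_mul_le_mul_left (c := q ^ 2 - 1) (by linarith)
      (by omega))⟩
  rw [← pow_succ', Nat.sub_add_cancel]
  exact Submodule.one_le_finrank_iff.2 fun e => h0 (by simpa [e] using (Sp_fam (f := f) (x := x)).mem y 1)

end CA.Coop
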