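import Cfsg.Agent.Lib.Lin.CoopU2

/-! Minimal degree of the unitary groups: structural lemmas. -/

set_option autoImplicit false
set_option linter.unusedSectionVars false

namespace CA.Coop

open MulAction Module CA.CForm CA.CForm.Form Set Submodule

theorem pair_le {F : Type*} [Field F] [Finite F] {ψ : AddChar F ℂ} (hψ : ψ ≠ 0) (A : AddSubgroup F) (B : Set F)
    (h : ∀ a ∈ A, ∀ b ∈ B, ψ (a * b) = 1) : Nat.card A * B.ncard ≤ Nat.card F := by
  classical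
  have := Fintype.ofFinite F
  have e1 : ∀ b : F, ∑ a : A, ψ (a * b) = if ∀ a ∈ A, ψ (a * b) = 1 then (Fintype.card A : ℂ) else 0 := fun b =>
    (AddChar.sum_eq_ite (ψ.compAddMonoidHom ((AddMonoidHom.mulRight b).comp A.subtype))).trans (if_congr
      ⟨fun h a ha => DFunLike.congr_fun h ⟨a, ha⟩, fun h => DFunLike.ext _ _ fun a : A => h a a.2⟩ rfl rfl)
  have e2 : ∀ a : A, ∑ b : F, ψ (a * b) = if a = 0 then (Fintype.card F : ℂ) else 0 := fun a =>
    (AddChar.sum_eq_ite (ψ.compAddMonoidHom (AddMonoidHom.mulLeft a.1))).trans (if_congr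
      ⟨fun h => by_contra fun a0 => hψ (DFunLike.ext _ _ fun c => by
        simpa [show a.1 ≠ 0 from fun e => a0 (Subtype.ext e)] using DFunLike.congr_fun h (a.1⁻¹ * c)),
      fun h => DFunLike.ext _ _ fun c => by simp [h]⟩ rfl rfl)
  have := Finset.sum_comm (s := Finset.univ) (t := Finset.univ) (f := fun (b : F) (a : A) => ψ (a * b))
  simp only [e1, e2, ← Finset.sum_filter, Finset.sum_const, nsmul_eq_mul,
    ← Fintype.card_subtype, ← Nat.card_eq_fintype_card, Nat.card_unique] at this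
  norm_cast at this
  rw [← one_mul (Nat.card F), ← this, mul_comm]
  exact Nat.mul_le_mul_right _ (ncard_le_ncard (t := {b | ∀ a ∈ A, ψ (a * b) = 1}) fun b hb a ha => h a ha b hb)

theorem ex_pp2 {F : Type*} [Field F] [Finite F] {m : ℕ} (hm : 3 ≤ m) (hd : m ∣ Nat.card F - 1) : ∃ (a : Fˣ) (r i : ℕ),
    r.Prime ∧ (r : F) ≠ 0 ∧ a ^ r ^ i = 1 ∧ (a : F) ^ m = 1 ∧ (a : F) * a ≠ 1 := by
  classical
  have := Fintype.ofFinite F
  obtain ⟨g, hg⟩ := IsCyclic.exists_ofOrder_eq_natCard (α := Fˣ)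
  rw [Nat.card_units] at hg
  have c : ∀ r : ℕ, r ∣ m → (r : F) ≠ 0 := fun r hr h => by
    obtain ⟨s, hs⟩ := hr.trans hd
    have : ((Nat.card F - 1 : ℕ) : F) = 0 := by rw [hs, Nat.cast_mul, h, zero_mul]
    rw [Nat.cast_sub Nat.card_pos, Nat.card_eq_fintype_card, FiniteField.cast_card_eq_zero] at this
    simp at this
  have o : ∀ r, 3 ≤ r → r ∣ m → ∃ a : Fˣ, a ^ r = 1 ∧ (a : F) ^ m = 1 ∧ (a : F) * a ≠ 1 := fun r r3 hr => by
    have e := orderOf_pow_orderOf_div (orderOf_pos g).ne' (hg ▸ hr.trans hd)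
    refine ⟨_, e ▸ pow_orderOf_eq_one _, ?_, fun h => ?_⟩
    · rw [← Units.val_pow_eq_pow_val, orderOf_dvd_iff_pow_eq_one.1 (e.symm ▸ hr), Units.val_one]
    · have := orderOf_le_of_pow_eq_one two_pos (Units.ext (by simpa [sq] using h) : (g ^ (orderOf g / r)) ^ 2 = 1)
      omega
  by_cases h : ∀ {r : ℕ}, r.Prime → r ∣ m → r = 2
  · obtain ⟨r, hr, hr'⟩ := Nat.exists_prime_and_dvd (n := m) (by omega)
    obtain ⟨a, h1, h2⟩ := o m hm dvd_rfl
    exact ⟨a, 2, _, Nat.prime_two, c 2 (h hr hr' ▸ hr'), Nat.eq_prime_pow_of_unique_prime_dvd (by omega) h ▸ h1, h2⟩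
  · push Not at h
    obtain ⟨r, hr, hr', r2⟩ := h
    obtain ⟨a, h1, h2⟩ := o r (by have := hr.two_le; omega) hr'
    exact ⟨a, r, 1, hr, c r hr', by rwa [pow_one], h2⟩

variable {F : Type*} [Field F] [Fintype F] {q : ℕ} {hF : Fintype.card F = q ^ 2} {V : Type*} [AddCommGroup V] [Module F V]
  [FiniteDimensional F V] {f : Form (hermKind hF) V} (hf : f.Nondeg) {k : ℕ} (hn : finrank F V = k + 2) {x : V}
  (h0 : x ≠ 0) (hx : f.Q x = 0) {Y : Type*} [Finite Y] [MulAction f.Isom Y]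

local notation:75 g:76 " ⊳ " v:75 => (g : V ≃ₗ[F] V) v
local notation "σ" => conj hF

theorem σ_neg {c : F} (h : (hermKind hF).π c = 0) : σ c = -c := eq_neg_of_add_eq_zero_right h

theorem ex_norm {c d : F} (hc : (hermKind hF).π c = 0) (hd : (hermKind hF).π d = 0) : ∃ b, b * σ b = c / d :=
  exists_norm_eq _ (conj_conj hF) (conj_ne_id hF) _ (by rw [map_div₀, σ_neg hc, σ_neg hd, neg_div_neg_eq])

theorem pow_of_closed (A : AddSubgroup V) (h : ∀ a : F, σ a = a → ∀ v ∈ A, a • v ∈ A) : ∃ j, Nat.card A = q ^ j := by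
  have : Finite V := Module.finite_of_finite F
  let K := (σ).eqLocusField (RingHom.id F)
  let A' : Submodule K V := { A with smul_mem' := fun a v hv => h a a.2 v hv }
  exact ⟨_, (Module.natCard_eq_pow_finrank (K := K) (V := A')).trans (by rw [show Nat.card K = q from card_conj_fixed hF])⟩

theorem TT_eq {z : V} (hz : f.Q z = 0) (e : f.B x z = 0) {c d b : F} (hc : (hermKind hF).π c = 0)
    (hd : (hermKind hF).π d = 0) (hb : d * (b * σ b) = -c) : ∃ h, f.eichler (x + b • z) ((d * b) • z) d h =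
      f.eichler x 0 d (f.eichlerCond_zero hx hd) * f.eichler z 0 c (f.eichlerCond_zero hz hc) := by
  refine ⟨⟨by rw [f.Q_add_smul_of_Q hz, e, hx]; simp, by simp [e, f.B_self_of_Q hz], by rw [hd, f.Q_smul_of_Q hz]⟩,
    f.isom_ext fun v => ?_⟩
  simp only [isom_mul_apply, eichler_apply, map_zero, map_add, map_sub, map_smul, B_add_left, B_smul_left, e,
    map_mul, σ_neg hd, B_zero_left, Kind.herm_σ, Kind.herm_ε]
  match_scalars
  · ring
  · linear_combination f.B z v * hb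
  · ring

include hf hn

theorem ex_hyp (k2 : 2 ≤ k) {z : V} (hz : f.IsHyp x z) : ∃ e e', f.IsHyp e e' ∧ f.B x e = 0 ∧ f.B z e = 0 ∧
    f.B x e' = 0 ∧ f.B z e' = 0 := by
  obtain ⟨e, e0, he⟩ := herm_exists_singular' hF (f := f.restrict (f.perp (span F {x, z})))
    (by have := hz.finrank_perp; omega)
  obtain ⟨e', h⟩ := (hz.nondeg_perp hf).exists_isHyp he e0
  exact ⟨e, e', ⟨h.1, h.2, h.3⟩, (f.mem_perp_span_pair.1 e.2).1, (f.mem_perp_span_pair.1 e.2).2,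
    (f.mem_perp_span_pair.1 e'.2).1, (f.mem_perp_span_pair.1 e'.2).2⟩

theorem T_top (k1 : 1 ≤ k) (h32 : ¬ (k = 1 ∧ q = 2)) {y : Y} (hS : ¬ f.Eich ≤ stabilizer f.Isom y)
    (H : ∀ (z : V) (hz : f.Q z = 0), z ≠ 0 → R hz y ≠ ⊥) (h0 : x ≠ 0) : ¬ (hermKind hF).π.ker ≤ R hx y := fun h => by
  refine hS ((f.Eich_le_SIsom).trans (herm_SIsom_le_of_Tgrp hF hf (by omega) (by omega) (T_all hf herm_rich hx h0
    (f.Tgrp_le fun c hc => (h hc.π_eq_zero).2) fun z hz z0 => ?_)))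
  obtain ⟨⟨c, h, e⟩, c0⟩ := AddSubgroup.ne_bot_iff_exists_ne_zero.1 (H z hz z0)
  exact ⟨c, h, fun e => c0 (Subtype.ext e), e⟩

theorem allD (k2 : 2 ≤ k) {y : Y} (hS : ¬ f.Eich ≤ stabilizer f.Isom y) (H : ∀ (z : V) (hz : f.Q z = 0), z ≠ 0 → R hz y ≠ ⊥) : False := by
  obtain ⟨x, h0, hx⟩ := herm_exists_singular' hF (f := f) (by omega)
  obtain ⟨z, hz⟩ := hf.exists_isHyp hx h0
  obtain ⟨v, hv, hv'⟩ := SetLike.not_le_iff_exists.1 (T_top hf hn hx (by omega) (by omega) hS H h0)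
  obtain ⟨ψ, hψ, hW⟩ := isotropy hf h0 hτ_herm hv hv'
  have q2 := two_le_of_card_sq hF
  have big : ∀ e, f.Q e = 0 → f.B x e = 0 → f.B z e = 0 → e ≠ 0 → q < {a : F | a • e ∈ W hx y}.ncard := fun e he e1 e2 e0 => by
    have hq : ∀ a : F, f.Q (e + a • x) = 0 := fun a => by rw [f.Q_add_smul_of_Q hx, f.eq_zero_symm e1, he]; simp
    have : ∀ a : F, ∃ c, c ≠ 0 ∧ c ∈ R (hq a) y := fun a => by
      obtain ⟨⟨c, h⟩, c0⟩ := AddSubgroup.ne_bot_iff_exists_ne_zero.1 (H _ (hq a) fun h => e0 (by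
        have := congrArg (f.B z) h
        simp only [map_add, map_smul, e2, hz.B_yx, map_zero] at this
        simpa [show a = 0 by simpa using this] using h))
      exact ⟨c, fun e => c0 (Subtype.ext e), h⟩
    choose d d0 hd using this
    by_contra! lt
    have := dc univ (((hermKind hF).π.ker : Set F) \ {0}) (fun a c => d a = c) (m := 1) (n := q)
      (fun a _ => (ncard_pos (toFinite _)).2 ⟨d a, ⟨R_le (hd a), d0 a⟩, rfl⟩) fun c hc => by
        rcases eq_empty_or_nonempty {a ∈ univ | d a = c} with h | ⟨a, -, rfl⟩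
        · rw [h, ncard_empty]; omega
        exact le_trans (ncard_le_ncard_of_injOn (fun b => (hermKind hF).ε * d a * σ (b - a))
          (fun b hb => W_of_T (hx := hx) he e1 (hd a).2 (hb.2 ▸ hd b).2) fun b _ b' _ h =>
            sub_left_injective ((σ).injective (mul_left_cancel₀ (by simp [d0]) h))) lt
    rw [ncard_univ, cF hF, ncard_sdiff_singleton_of_mem (zero_mem _),
      show ((hermKind hF).π.ker : Set F).ncard = q from card_ker_π_hermKind hF] at this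
    nlinarith [Nat.sub_add_cancel (show 1 ≤ q by omega)]
  obtain ⟨e, e', h, a1, a2, a3, a4⟩ := ex_hyp hf hn k2 hz
  have := pair_le hψ ((W hx y).comap ((smulAddHom F V).flip e')) ((σ) '' {a : F | a • e ∈ W hx y}) (by
    rintro a ha _ ⟨b, hb, rfl⟩
    simpa [h.B_xy, mul_comm] using (hW hb).2 _ ha)
  have h1 := big e h.Q_x a1 a2 h.x_ne_zero
  have h2 : q < Nat.card ((W hx y).comap ((smulAddHom F V).flip e')) := big e' h.Q_y a3 a4 h.y_ne_zero
  rw [ncard_image_of_injective _ (σ).injective, cF hF] at this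
  nlinarith

theorem regH {z e e' : V} (hz : f.IsHyp x z) (he : f.IsHyp e e') (a1 : f.B x e = 0) (a2 : f.B z e = 0) (a3 : f.B x e' = 0)
    (a4 : f.B z e' = 0) {y : Y} (T : Submodule F V) (hT : ∀ w, w ∈ W hx y ↔ w ∈ T) (h1 : ∀ w ∈ T, f.B e w = 0)
    (h2 : e ∈ T ∨ ∀ w ∈ T, f.B e' w = 0) (hB : ∀ g ∈ f.Eich, W hx (g • y) = W hx y → g • y ∈ O (f.Qgrp x) y) :
    ∃ y' ∈ O (f.Qgrp x) y, (∃ (g : f.Isom) (a : F), a * σ a = 1 ∧ a * a ≠ 1 ∧ g ⊳ x = a • x ∧ g ⊳ e = a⁻¹ • e ∧ g • y' = y') ∧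
      ∀ c hc, ∃ d h, f.eichler e 0 c hc • y' = f.eichler x 0 d h • y' := by
  have q2 := two_le_of_card_sq hF
  obtain ⟨a, r, i, hr, hr', ha, n1, n2⟩ := ex_pp2 (F := F) (m := q + 1) (by omega) (by
    rw [cF hF, ← one_pow 2, Nat.sq_sub_sq]; exact Dvd.intro _ rfl)
  have n1 : (a : F) * σ a = 1 := by rw [conj_apply, ← pow_succ', n1]
  have n3 : σ a = (a : F)⁻¹ := eq_inv_of_mul_eq_one_right n1
  have a0 := a.ne_zero
  have xT : x ∈ T := (hT x).1 (by simpa using smul_mem_W (hx := hx) 1)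
  have gx : (hz.torus a * he.torus a⁻¹ : f.Isom) ⊳ x = (a : F) • x := by
    rw [isom_mul_apply, he.torus_apply_of_B _ (f.eq_zero_symm a1) (f.eq_zero_symm a3), hz.torus_apply_x]
  have ge : (hz.torus a * he.torus a⁻¹ : f.Isom) ⊳ e = (a : F)⁻¹ • e := by
    rw [isom_mul_apply, he.torus_apply_x, map_smul, hz.torus_apply_of_B _ a1 a2, Units.val_inv_eq_inv_val]
  have ap : ∀ w, f.B x w = 0 → (hz.torus a * he.torus a⁻¹ : f.Isom) ⊳ w = w + (((a : F)⁻¹ - 1) * f.B e' w) • e +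
      (((a : F)⁻¹ - 1) * f.B e w) • e' + (((a : F) - 1) * f.B z w) • x := fun w hw => by
    simp [IsHyp.torus_apply, hw, a1, a2, a3, a4, n3]
  have gE : hz.torus a * he.torus a⁻¹ ∈ f.Eich := by
    rw [herm_Eich_eq hF hf (by omega), mem_SIsom, map_mul]
    exact Units.ext (by simp [IsHyp.detHom_torus, n3]; field_simp)
  have cm : Commute (hz.torus a) (he.torus a⁻¹) := f.isom_ext fun v => by
    simp [IsHyp.torus_apply, a1, a2, a3, a4, f.eq_zero_symm a1, f.eq_zero_symm a2, f.eq_zero_symm a3,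
      f.eq_zero_symm a4]
    module
  have eT : ∀ w ∈ T, ∀ c : F, (c * f.B e' w) • e ∈ T := fun w hw c =>
    h2.elim (smul_mem _ _) fun h => by simp [h w hw]
  obtain ⟨y', hy, e1⟩ := reg_fix (y := y) hf hz.x_ne_zero hx hr hr' (g := hz.torus a * he.torus a⁻¹) (i := i) (by
    rw [cm.mul_pow, ← hz.torusHom_apply, ← he.torusHom_apply, ← map_pow, ← map_pow, inv_pow, ha, inv_one, map_one, map_one,
      one_mul]) a0 gx (hB _ gE (W_eq_of a0 gx fun w hw => by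
        rw [ap w (W_perp hw), hT] at *
        rw [h1 w hw, mul_zero, zero_smul, add_zero]
        exact smul_mem _ _ (add_mem (add_mem hw (eT w hw _)) (smul_mem _ _ xT))))
  refine ⟨y', hy, ⟨_, a, n1, n2, gx, ge, e1⟩, fun c hc => ?_⟩
  have e2 : W hx y' = W hx y := by obtain ⟨g, hg, rfl⟩ := hy; exact W_Q hg
  obtain ⟨g, hg, e3⟩ : f.eichler e 0 c hc • y' ∈ O (f.Qgrp x) y' := by
    rw [O_eq hy]
    obtain ⟨g, hg, rfl⟩ := hy
    refine smul_smul _ g y ▸ hB _ (mul_mem (f.eichler_mem_Eich e 0 c hc) (f.Qgrp_le_Eich _ hg)) (Eq.trans ?_ e2)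
    rw [mul_smul]
    exact W_eq_of one_ne_zero (by simp [eichler_zero_apply, f.eq_zero_symm a1]) fun w hw => by
      simpa [eichler_zero_apply, h1 w ((hT w).1 (e2 ▸ hw))] using hw
  obtain ⟨w, c', h, rfl⟩ := (mem_Qgrp hx).1 hg
  refine e3 ▸ exists_T h (e2 ▸ (hT w).2 ?_)
  have e4 := f.conj_eichler (hz.torus a * he.torus a⁻¹) e 0 c hc
  rw [f.eichler_congr _ (f.eichlerCond_zero (f.Q_smul_of_Q he.Q_x _) hc.π_eq_zero) ge (map_zero _) rfl,
    f.eichler_smul e 0 _ c _ (by simpa [n3, a0] using hc), f.eichler_congr _ hc rfl (smul_zero _) (by simp [n3, a0]),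
    mul_inv_eq_iff_eq_mul] at e4
  have e5 := (hT _).1 (e2 ▸ W_of_fix (hx := hx) a0 gx e1 (h := h) (by rw [e3, ← mul_smul, e4, mul_smul, e1]))
  have n4 : (a : F)⁻¹ * (a : F)⁻¹ - 1 ≠ 0 := by rwa [← mul_inv, sub_ne_zero, Ne, inv_eq_one]
  have n5 : (a : F)⁻¹ - 1 ≠ 0 := by rw [sub_ne_zero, Ne, inv_eq_one]; rintro h; simp [h] at n2
  rw [ap w h.B_pw, Kind.herm_σ, n3] at e5
  have b1 : f.B e w = 0 := (mul_eq_zero.1 (Eq.trans (by simp [he.B_xx, he.B_xy, f.eq_zero_symm a1]; ring)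
    (h1 _ e5))).resolve_left n4
  have b2 : ∀ c : F, (c * f.B e' w) • e ∈ T := fun c => h2.elim (smul_mem _ _) fun h' => by
    have : f.B e' w = 0 := (mul_eq_zero.1 (Eq.trans (by simp [he.B_yx, he.B_yy, f.eq_zero_symm a3]; ring)
      (h' _ e5))).resolve_left n4
    simp [this]
  rw [← smul_mem_iff _ n5]
  convert sub_mem (sub_mem e5 (b2 ((a : F)⁻¹ * ((a : F)⁻¹ - 1)))) (smul_mem _ ((a : F)⁻¹ * ((a - 1) * f.B z w)) xT) using 1
  rw [b1]; module

theorem regU (k2 : 2 ≤ k) (h0 : x ≠ 0) (hx : f.Q x = 0) {y : Y} (H : ∀ g ∈ f.Eich, ∀ (z : V) (hz : f.Q z = 0), z ≠ 0 → R hz (g • y) = ⊥ ∧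
    ∀ w ∈ W hz (g • y), w ∈ F ∙ z) (hB : ∀ g ∈ f.Eich, g • y ∈ O (f.Qgrp x) y) : False := by
  obtain ⟨z, hz⟩ := hf.exists_isHyp hx h0
  obtain ⟨e, e', h, a1, a2, a3, a4⟩ := ex_hyp hf hn k2 hz
  have px : ∀ {v}, f.B x v = 0 → ∀ w ∈ F ∙ x, f.B v w = 0 := fun hv => f.mem_perp'.1 (f.mem_perp_span_singleton.2 hv)
  obtain ⟨_, ⟨g, hg, rfl⟩, -, hy⟩ := regH hf hn hx hz h a1 a2 a3 a4 (y := y) (F ∙ x) (fun w => ⟨by
    simpa using (H 1 (one_mem _) x hx h0).2 w, fun h => by obtain ⟨a, rfl⟩ := mem_span_singleton.1 h; exact smul_mem_W a⟩)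
    (px a1) (Or.inr (px a3)) fun g hg _ => hB g hg
  obtain ⟨c, c0, hc⟩ := herm_exists_π_eq_zero (conj_conj hF) (conj_ne_id hF)
  obtain ⟨d, hd, e1⟩ := hy c (f.eichlerCond_zero h.Q_x hc)
  have H := H g (f.Qgrp_le_Eich _ hg)
  have d0 : d ≠ 0 := by
    rintro rfl
    rw [eichler_zero, one_smul] at e1
    exact c0 (by simpa [(H e h.Q_x h.x_ne_zero).1] using show c ∈ R h.Q_x (g • y) from ⟨_, e1⟩)
  obtain ⟨b, hb⟩ := ex_norm hc hd.π_eq_zero
  have hd' := hd.neg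
  rw [neg_zero] at hd'
  obtain ⟨h', e2⟩ := TT_eq hx h.Q_x a1 hc hd'.π_eq_zero (b := b) (by simp [hb, σ_neg hd.π_eq_zero]; field_simp)
  obtain ⟨t, ht⟩ := mem_span_singleton.1 ((H _ h'.Q_p (fun e => by simpa [a2, hz.B_yx] using congrArg (f.B z) e)).2 _
    ⟨_, h', show _ • _ = _ by
      rw [e2, mul_smul, e1, ← f.eichler_congr hd.neg _ rfl neg_zero rfl, ← f.eichler_inv hd, inv_smul_smul]⟩)
  have t0 : t = 0 := by simpa [a2, hz.B_yx] using congrArg (f.B z) ht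
  have b0 : b ≠ 0 := by rintro rfl; exact div_ne_zero c0 d0 (by simpa using hb.symm)
  rw [t0, zero_smul] at ht
  exact smul_ne_zero (by simp [b0, d0]) h.x_ne_zero ht.symm

theorem mem_pair (k3 : k ≤ 3) (h0 : x ≠ 0) (hx : f.Q x = 0) {u w : V} (hu : f.Q u = 0) (e : f.B x u = 0) (hu' : u ∉ F ∙ x)
    (hw : f.Q w = 0) (e1 : f.B x w = 0) (e2 : f.B u w = 0) : w ∈ span F {x, u} := by
  have ts : f.TS (span F {x, u}) := f.ts_span (by simp [hx, hu]) (by
    simp [e, f.eq_zero_symm e, f.B_self_of_Q hx, f.B_self_of_Q hu])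
  exact (hf.isIndex_of_two_mul ts (finrank_pair h0 hu') (by omega)).mem_of_finrank_eq ts (finrank_pair h0 hu')
    (f.mem_perp_span_pair.2 ⟨e1, e2⟩) hw

theorem alliso (k3 : k ≤ 3) (h0 : x ≠ 0) (hx : f.Q x = 0) {A : AddSubgroup V} (h : ∀ u ∈ A, f.B x u = 0 ∧ f.Q u = 0) {s : ℕ}
    (hs : Nat.card A = q ^ 2 * s) : s ≤ q ^ 2 := by
  have : Finite V := Module.finite_of_finite F
  have p := cF hF ▸ Nat.card_pos (α := F)
  rcases lt_or_ge s 2 with s2 | s2
  · omega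
  refine Nat.le_of_mul_le_mul_left (hs ▸ ?_) p
  by_cases hB : ∀ u ∈ A, ∀ v ∈ A, f.B u v = 0
  · obtain ⟨u, hu, hu'⟩ := exists_not_line h0 (cF hF ▸ hs) s2
    rw [← sq, ← cF hF, ← ncard_pair h0 hu']
    exact ncard_le_ncard (s := (A : Set V)) fun w hw =>
      mem_pair hf hn k3 h0 hx (h u hu).2 (h u hu).1 hu' (h w hw).2 (h w hw).1 (hB u hu w hw)
  push Not at hB
  obtain ⟨u, hu, v, hv, e⟩ := hB
  obtain ⟨z, hz⟩ := hf.exists_isHyp hx h0
  have hπ : ∀ u ∈ A, ∀ w : A, f.B u w ∈ (hermKind hF).π.ker := fun u hu w => by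
    simpa [(h _ hu).2, (h _ w.2).2, (h _ (add_mem hu w.2)).2] using (f.Q_add u w).symm
  have := Nat.card_le_card_of_injective (fun w : A => ((⟨_, hπ u hu w⟩, ⟨_, hπ v hv w⟩, f.B z w) :
    (hermKind hF).π.ker × (hermKind hF).π.ker × F)) fun w w' e' => by
      simp only [Prod.mk.injEq, Subtype.mk.injEq, ← sub_eq_zero (a := f.B _ w.1), ← map_sub] at e'
      have hw := sub_mem w.2 w'.2
      obtain ⟨a, b, e1⟩ := mem_span_pair.1 (mem_pair hf hn k3 h0 hx (h u hu).2 (h u hu).1 (fun h' => by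
        obtain ⟨a, rfl⟩ := mem_span_singleton.1 h'
        simp [(h v hv).1] at e) (h _ hw).2 (h _ hw).1 e'.1)
      rw [← e1] at e'
      have b0 : b = 0 := by simpa [f.eq_zero_symm (h v hv).1, f.eq_zero_comm.not.1 e] using e'.2.1
      have a0 : a = 0 := by simpa [b0, hz.B_yx] using e'.2.2
      exact Subtype.ext (sub_eq_zero.1 (by simp [← e1, a0, b0]))
  rw [Nat.card_prod, Nat.card_prod, card_ker_π_hermKind, cF hF] at this
  linarith

end CA.Coop
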