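import Cfsg.Agent.Lib.Lin.CoopU3

/-! Minimal degree of the unitary groups: the induction step. -/

set_option autoImplicit false
set_option linter.unusedSectionVars false

namespace CA.Coop

open MulAction Module CA.CForm CA.CForm.Form Set Submodule

theorem arU1 {q s t m o y : ℕ} (q2 : 2 ≤ q) (e : s * t = q ^ (2 * 3)) (h : s ≤ q ^ 2) (ho : q * t ≤ o) (hm : q ^ 3 + 1 ≤ m)
    (c : (q ^ 2 - 1) * m * o ≤ y * (s - 1)) : NI q 5 ≤ y := by
  have := Nat.pow_le_pow_left q2 2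
  have t4 : q ^ 4 ≤ t := Nat.le_of_mul_le_mul_left (c := q ^ 2)
    (by rw [← pow_add, ← e]; exact Nat.mul_le_mul_right t h) (by omega)
  have : m * o ≤ y := Nat.le_of_mul_le_mul_left (c := q ^ 2 - 1)
    (by nlinarith [Nat.mul_le_mul_left y (show s - 1 ≤ q ^ 2 - 1 by omega)]) (by omega)
  refine le_trans ?_ ((Nat.mul_le_mul hm ((Nat.mul_le_mul_left q t4).trans ho)).trans this)
  obtain ⟨r, rfl⟩ : ∃ t, q = t + 2 := ⟨q - 2, by omega⟩
  norm_num [NI]
  ring_nf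
  omega

theorem arU2 {q s t o y : ℕ} (q3 : 3 ≤ q) (h : s ≤ q ^ 3) (h' : q ^ 3 ≤ t) (ho : 2 * (q * t) ≤ o)
    (c : (q ^ 2 - 1) * NA q 3 * o ≤ y * (s - 1)) : NI q 5 ≤ y := by
  have := pow_pos (show 0 < q by omega) 3
  have : (q ^ 2 - 1) * NA q 3 * (2 * q) ≤ y := Nat.le_of_mul_le_mul_right (c := t) (by
    nlinarith [Nat.mul_le_mul_left ((q ^ 2 - 1) * NA q 3) ho, Nat.mul_le_mul_left y (show s - 1 ≤ t by omega)]) (by omega)
  refine le_trans ?_ this
  obtain ⟨r, rfl⟩ : ∃ t, q = t + 3 := ⟨q - 3, by omega⟩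
  rw [show (r + 3) ^ 2 - 1 = (r + 2) * (r + 4) from Nat.sub_eq_of_eq_add (by ring)]
  norm_num [NI, NA]
  ring_nf
  omega

section gen
variable {F : Type*} [Field F] {k : Kind F} {V : Type*} [AddCommGroup V] [Module F V] {f : Form k V}
  {Y : Type*} [MulAction f.Isom Y] {x : V}

variable (f) in
/-- Every subgroup not containing `Eich` meets it in index at least `d`. -/
def DegB (d : ℕ) : Prop := ∀ K : Subgroup f.Isom, ¬ f.Eich ≤ K → d ≤ K.relIndex f.Eich

theorem nS {y : Y} (h : ¬ f.Eich ≤ stabilizer f.Isom y) (g : f.Isom) : ¬ f.Eich ≤ stabilizer f.Isom (g • y) := fun e =>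
  h fun a ha => by simpa [mul_smul] using e (f.Eich_normal.conj_mem a ha g)

theorem R_bot_PE [Finite F] (hx : f.Q x = 0) {y y' : Y} (h : y' ∈ O (PE f x) y) : R hx y' = ⊥ ↔ R hx y = ⊥ := by
  obtain ⟨g, ⟨-, a, ha, hg⟩, rfl⟩ := h
  rw [← AddSubgroup.card_eq_one, ← AddSubgroup.card_eq_one, card_R_map hx ha hg]

theorem W_Qy [Finite F] [FiniteDimensional F V] (hx : f.Q x = 0) {y : Y} {w : V} (hw : w ∈ W hx y) :
    ∀ y' ∈ O (f.Qgrp x) y, y' ∈ O (PE f x) y ∧ w ∈ W hx y' := by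
  rintro _ ⟨g, hg, rfl⟩; exact ⟨mem_O (Q_le_PE x hg) _, (W_Q (y := y) hg).symm ▸ hw⟩

theorem U_Qy [Finite F] [FiniteDimensional F V] (hx : f.Q x = 0) {y : Y} {ψ} {w : V} (hw : w ∈ U f ψ x (W hx y)) :
    ∀ y' ∈ O (f.Qgrp x) y, y' ∈ O (PE f x) y ∧ w ∈ U f ψ x (W hx y') := by
  rintro _ ⟨g, hg, rfl⟩; exact ⟨mem_O (Q_le_PE x hg) _, (W_Q (y := y) hg).symm ▸ hw⟩

end gen

variable {F : Type*} [Field F] [Fintype F] {q : ℕ} {hF : Fintype.card F = q ^ 2} {V : Type*} [AddCommGroup V] [Module F V]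
  [FiniteDimensional F V] {f : Form (hermKind hF) V} (hf : f.Nondeg) {k : ℕ} (hn : finrank F V = k + 2) {x : V}
  (h0 : x ≠ 0) (hx : f.Q x = 0) {Y : Type*} [Finite Y] [MulAction f.Isom Y]

local notation:75 g:76 " ⊳ " v:75 => (g : V ≃ₗ[F] V) v
local notation "σ" => conj hF

theorem not_ker_le {y : Y} (h : R hx y = ⊥) : ¬ (hermKind hF).π.ker ≤ R hx y := fun e => by
  obtain ⟨c, c0, hc⟩ := herm_exists_π_eq_zero (conj_conj hF) (conj_ne_id hF)
  exact c0 (by simpa [h] using e hc)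

theorem three_le {y : Y} (h : R hx y = ⊥) {w : V} (hw : w ∈ W hx y) (hQ : f.Q w ≠ 0) : (2 : F) ≠ 0 ∧ 3 ≤ q := by
  have h2 : (2 : F) ≠ 0 := fun h2 => by
    obtain ⟨c, hc, e⟩ := hw
    have e : _ • y = y := mul_mem e e
    rw [eichler_mul] at e
    have e1 : w + w = 0 := by rw [← two_smul F, h2, zero_smul]
    have := show _ ∈ R hx y from ⟨e1 ▸ hc.add hc, fix_congr e e1 rfl⟩
    rw [h, AddSubgroup.mem_bot, f.herm_B_self] at this
    exact hQ (by linear_combination this - c * h2)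
  have := two_ne_zero_iff_odd.1 h2
  rw [hF, Nat.odd_pow_iff two_ne_zero, Nat.odd_iff] at this
  have := two_le_of_card_sq hF
  exact ⟨h2, by omega⟩

include hf hn

theorem Full_R (k1 : 1 ≤ k) {y : Y} (h : Full hx y) : f.Qgrp x ≤ stabilizer f.Isom y :=
  Qgrp_le_of_lev (hf.Tgrp_le_of_lev (by omega) hτ_herm h) h

theorem not_Full (k1 : 1 ≤ k) {y : Y} (h : R hx y = ⊥) : ¬ Full hx y := fun e => not_ker_le hx h fun _ hc =>
  ⟨f.eichlerCond_zero hx hc, Full_R hf hn hx k1 e (f.eichler_mem_Qgrp _ _ _ _)⟩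

include h0

theorem regQ {y : Y} (hW : ∀ w ∈ W hx y, w ∈ F ∙ x) : q * q ^ (2 * k) ≤ (O (f.Qgrp x) y).ncard * Nat.card (R hx y) := by
  have : Finite V := Module.finite_of_finite F
  obtain ⟨ψ, -, s, t, hs, -, e, o, -, s1, -⟩ := dualU hf hn h0 hx y
  have := ncard_le_ncard (s := (W hx y : Set V)) (t := (F ∙ x : Submodule F V)) hW
  rw [ncard_line h0, show (W hx y : Set V).ncard = _ from hs, cF hF] at this
  obtain rfl : s = 1 := by nlinarith [cF hF ▸ Nat.card_pos (α := F)]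
  rwa [← e, one_mul]

theorem dbl (k3 : k = 3) {y : Y} (hR : R hx y = ⊥) {z w : V} (hz : f.IsHyp x z) (hw : w ∈ W hx y) (hQ : f.Q w ≠ 0)
    (zw : f.B z w = 0) {s : ℕ} (hs : Nat.card (W hx y) = q ^ 2 * s) :
    s ≤ q ^ 2 ∨ ∃ g ∈ f.Eich, g ⊳ x = x ∧ g ⊳ w = w ∧ W hx (g • y) ≠ W hx y := by
  have : Finite V := Module.finite_of_finite F
  have h2 := (three_le hx hR hw hQ).1
  have xw := W_perp hw
  have d1 : ∀ i j, i ≠ j → f.B (![z, x, w] i) (![x, z, w] j) = 0 := fun i j h => by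
    fin_cases i <;> fin_cases j <;> simp [hz.B_xx, hz.B_yy, xw, zw, f.eq_zero_symm xw, f.eq_zero_symm zw] at h ⊢
  have d2 : ∀ i, f.B (![z, x, w] i) (![x, z, w] i) ≠ 0 := fun i => by
    fin_cases i <;> simp [hz.B_yx, hz.B_xy, f.herm_B_self, hQ]
  have d3 := hf.finrank_perp (span F (range ![x, z, w]))
  rw [finrank_span_eq_card (linearIndependent_of_dual d1 d2), Fintype.card_fin] at d3
  obtain ⟨u, hu, u0, hQu⟩ := f.herm_exists_singular (conj_ne_id hF) (W := f.perp (span F (range ![x, z, w]))) (by omega)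
  obtain ⟨v, hv, hQv, uv⟩ := hf.exists_partner_perp hQu (fun h => u0 (Submodule.disjoint_def.1 (disjoint_perp_of_dual
    (fun i => subset_span (by fin_cases i <;> simp)) d1 d2) u h hu)) hu
  simp only [f.mem_perp_span, forall_mem_range, Fin.forall_fin_succ] at hu hv
  obtain ⟨c, c0, hc⟩ := herm_exists_π_eq_zero (conj_conj hF) (conj_ne_id hF)
  by_cases hd : ∀ u hu, f.B x u = 0 → f.B w u = 0 → W hx (f.eichler u 0 c (f.eichlerCond_zero hu hc) • y) = W hx y
  · have h1 : ∀ u, f.Q u = 0 → f.B x u = 0 → f.B w u = 0 → ∀ v ∈ W hx y, (c * f.B u v) • u ∈ W hx y := fun u hu a b v hv => by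
      have := W_mov hv hx (g := f.eichler u 0 c (f.eichlerCond_zero hu hc)) (by simp [eichler_zero_apply, f.eq_zero_symm a])
      rw [hd u hu a b] at this
      simpa [eichler_zero_apply] using sub_mem hv this
    have h3 : ∀ u v, f.Q u = 0 → f.B x u = 0 → f.B w u = 0 → f.Q v = 0 → f.B x v = 0 → f.B w v = 0 → f.B v u = 1 →
        ∀ w ∈ W hx y, f.B u w = 0 := fun u v a1 a2 a3 b1 b2 b3 e w' hw' => by
      have := comm_mem_R (h1 u a1 a2 a3 w' hw') (h1 v b1 b2 b3 _ (h1 u a1 a2 a3 w' hw'))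
      rw [hR, AddSubgroup.mem_bot] at this
      simp only [map_smul, B_smul_left, e, f.herm_symm v u, map_one, map_mul, smul_eq_mul, Kind.herm_σ, σ_neg hc] at this
      have : 2 * c ^ 3 * (f.B u w' * σ (f.B u w')) = 0 := by linear_combination -this
      simpa [h2, c0] using this
    have vu : f.B v u = 1 := by rw [f.herm_symm, uv, map_one]
    have d4 := hf.finrank_perp (span F (range ![x, u, v]))
    rw [finrank_span_eq_card (linearIndependent_of_dual (f := f) (w := ![z, v, u]) (fun i j h => by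
      fin_cases i <;> fin_cases j <;> simp [f.B_self_of_Q hQu, f.B_self_of_Q hQv, show f.B z u = 0 from hu.2.1,
        show f.B z v = 0 from hv.2.1, f.eq_zero_symm (show f.B x u = 0 from hu.1),
        f.eq_zero_symm (show f.B x v = 0 from hv.1)] at h ⊢) fun i => by
      fin_cases i <;> simp [hz.B_yx, uv, vu]), Fintype.card_fin] at d4
    have := AddSubgroup.card_le_of_le (H := W hx y) (K := (f.perp (span F (range ![x, u, v]))).toAddSubgroup) fun w' hw' =>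
      f.mem_perp_span.2 (forall_mem_range.2 fun i => by
        fin_cases i
        exacts [W_perp hw', h3 u v hQu hu.1 hu.2.2.1 hQv hv.1 hv.2.2.1 vu w' hw', h3 v u hQv hv.1 hv.2.2.1 hQu hu.1 hu.2.2.1 uv w' hw'])
    rw [hs, show Nat.card (f.perp (span F (range ![x, u, v]))).toAddSubgroup = _ from
      Module.natCard_eq_pow_finrank (K := F) (V := f.perp _), show finrank F (f.perp _) = 2 by omega, cF hF, sq (q ^ 2)] at this
    exact Or.inl (Nat.le_of_mul_le_mul_left this (cF hF ▸ Nat.card_pos))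
  push Not at hd
  obtain ⟨u, hu, a1, a2, hd⟩ := hd
  exact Or.inr ⟨_, f.eichler_mem_Eich _ _ _ _, by simp [eichler_zero_apply, f.eq_zero_symm a1],
    by simp [eichler_zero_apply, f.eq_zero_symm a2], hd⟩

theorem Rbot3 (k3 : k = 3) {y : Y} (hR : R hx y = ⊥) {w : V} (hw : w ∈ W hx y) (hw' : w ∉ F ∙ x) :
    NI q 5 ≤ (O (PE f x) y).ncard := by
  have : Finite V := Module.finite_of_finite F
  subst k3
  obtain ⟨ψ, -, s, t, hs, -, e, o, -, s1, -, st⟩ := dualU hf hn h0 hx y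
  obtain ⟨st, st'⟩ := st (not_ker_le hx hR)
  have q2 := two_le_of_card_sq hF
  rw [hR, AddSubgroup.card_bot, mul_one] at o
  by_cases hQ : ∀ w ∈ W hx y, f.Q w = 0
  · exact arU1 q2 e (alliso hf hn le_rfl h0 hx (fun u hu => ⟨W_perp hu, hQ u hu⟩) hs) o (by simp [NI])
      (covI hf hn h0 hx (W_fam hx) hs (W_perp hw) (W_Qy hx hw) le_rfl hw' (hQ w hw))
  push Not at hQ
  obtain ⟨z, hz⟩ := hf.exists_isHyp hx h0
  obtain ⟨w, hw, hQ, zw⟩ : ∃ w ∈ W hx y, f.Q w ≠ 0 ∧ f.B z w = 0 := by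
    obtain ⟨w, hw, hQ⟩ := hQ
    exact ⟨w + (-f.B z w) • x, add_mem hw (smul_mem_W _), by
      rwa [f.Q_add_smul_of_Q hx, f.eq_zero_symm (W_perp hw), mul_zero, map_zero, add_zero], by simp [hz.B_yx]⟩
  have q3 := (three_le hx hR hw hQ).2
  rcases dbl hf hn h0 hx rfl hR hz hw hQ zw hs with h | ⟨g, hg, gx, gw, hd⟩
  · exact arU1 q2 e h o ((by simp [NI] : q ^ 3 + 1 = NI q 3).trans_le (NI_le_NA q3 2))
      (covN hf hn h0 hx (W_fam hx) hs (W_perp hw) (W_Qy hx hw) (by omega) hQ)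
  have c := covN hf hn h0 hx (W_fam hx) hs (W_perp hw) (Y₀ := O (f.Qgrp x) y ∪ O (f.Qgrp x) (g • y)) (fun y' h => h.elim
    (W_Qy hx hw y') fun h => (W_Qy hx (gw ▸ W_mov hw hx gx) y' h).imp_left fun h => O_eq (mem_O (mem_PE hg gx) y) ▸ h)
    (by omega) hQ
  rw [ncard_union_eq (disjoint_left.2 (by
    rintro _ ⟨a, ha, rfl⟩ ⟨b, hb, e⟩; exact hd ((W_Q hb).symm.trans (e ▸ W_Q ha))))] at c
  obtain ⟨-, -, s', t', hs', -, e', o', -⟩ := dualU hf hn h0 hx (g • y)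
  rw [card_W_map (hx := hx) hx one_ne_zero (gx.trans (one_smul _ _).symm), hs] at hs'
  obtain rfl := Nat.eq_of_mul_eq_mul_left (by positivity) hs'
  obtain rfl := Nat.eq_of_mul_eq_mul_left s1 (e.trans e'.symm)
  rw [R_mov (hx := hx) hx gx, hR, AddSubgroup.card_bot, mul_one] at o'
  exact arU2 q3 st st' (by omega) c

variable {z : V} (hz : f.IsHyp x z) {e : ℕ}
  (hE : k = 3 ∨ (4 ≤ k ∧ DegB (f.restrict (f.perp (span F {x, z}))) e ∧ (q + 1) * q ^ k ≤ q * e ∧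
    (min (NI q k) (NA q k) ≤ e ∨ (k = 4 ∧ NI q 4 ≤ q * e))))
include hz hE hx

theorem T0k {y : Y} (ts : f.TS (Sp f x y)) : NI q (k + 2) ≤ (O f.Eich y).ncard := by
  have : Finite V := Module.finite_of_finite F
  obtain ⟨s, hs, s1, ⟨j, hj, jk⟩, h⟩ := T0a hf hn h0 hx (by omega) ts
  have o := ncard_O_pos (PE f x) y
  have q2 := two_le_of_card_sq hF
  obtain ⟨p, hp⟩ : ∃ p, q ^ 2 = p + 1 := ⟨q ^ 2 - 1, by have := Nat.pow_le_pow_left q2 2; omega⟩
  have hp' : q ^ 2 - 1 = p := by omega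
  refine Nat.le_of_mul_le_mul_right (h _ ?_) o
  rw [hp']
  rcases s1.eq_or_lt with rfl | s2
  · nlinarith
  obtain ⟨u, hu, hu'⟩ := exists_not_line h0 (cF hF ▸ hs) s2
  have xS : x ∈ Sp f x y := subset_span (self_mem_O _ _)
  rcases hE with rfl | ⟨k4, h1, h2, -⟩
  · have c := covI hf hn h0 hx Sp_fam hs (ts.B_eq _ xS _ hu) (Y₀ := {y}) (by rintro _ rfl; exact ⟨self_mem_O _ _, hu⟩)
      le_rfl hu' (ts.Q_eq _ hu)
    obtain rfl : j = 1 := by rcases j with _ | _ | j <;> simp_all; omega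
    rw [hj, pow_one, hp', ncard_singleton, mul_one, mul_comm] at c
    have := Nat.le_of_mul_le_mul_right c (by nlinarith)
    norm_num [NI] at this
    nlinarith [Nat.mul_le_mul_left p this, Nat.mul_le_mul_left (q ^ 2) q2]
  rcases ind hz h1 y with c | c
  · have : s ≤ q ^ k := by rw [hj, ← pow_mul]; exact Nat.pow_le_pow_right (by omega) jk
    refine le_trans (Nat.le_of_mul_le_mul_left (c := q) ?_ (by omega)) (Nat.le_succ _)
    have : q * q ^ 2 ≤ p * (q + 1) := by nlinarith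
    nlinarith [Nat.mul_le_mul_left (q * p) c, Nat.mul_le_mul_left p h2, Nat.mul_le_mul this ‹s ≤ q ^ k›]
  · obtain ⟨a, b, h, a1, -, a3, -⟩ := ex_hyp hf hn (by omega) hz
    have := irr hf hn (by omega) hz (Sp_fam.mem y) (fun g hg u hu => by
      simpa [c g hg] using Sp_map hu one_ne_zero (g := f.extRight hz.isCompl g)
        ((f.extRight_apply_left _ _ (subset_span (by simp))).trans (one_smul _ _).symm)) hu (ts.B_eq _ xS _ hu) hu'
    exact absurd (ts.B_eq _ (this a a1) _ (this b a3)) (by simp [h.B_xy])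

theorem Rbot {y : Y} (hR : R hx y = ⊥) {w : V} (hw : w ∈ W hx y) (hw' : w ∉ F ∙ x) : NI q (k + 2) ≤ (O (PE f x) y).ncard := by
  rcases hE with rfl | ⟨k4, h1, h2, -⟩
  · exact Rbot3 hf hn h0 hx rfl hR hw hw'
  have c := indW hf hn hx (by omega) hz h1 (not_Full hf hn hx (by omega) hR) hw hw'
  obtain ⟨ψ, -, s, t, -, -, -, o, -, -, -, st⟩ := dualU hf hn h0 hx y
  rw [hR, AddSubgroup.card_bot, mul_one] at o
  obtain ⟨k, rfl⟩ : ∃ j, k = j + 1 := ⟨k - 1, by omega⟩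
  refine (NI_le_pow (two_le_of_card_sq hF) k).trans ?_
  rw [pow_succ, two_mul, pow_add]
  nlinarith [Nat.mul_le_mul_left e ((Nat.mul_le_mul_left q (st (not_ker_le hx hR)).2).trans o),
    Nat.mul_le_mul_right (q ^ (k + 1)) h2]

theorem notFull {y : Y} (h : ¬ Full hx y) :
    q ^ 2 * min (NI q k) (NA q k) ≤ (O (PE f x) y).ncard ∨ NI q (k + 2) ≤ (O f.Eich y).ncard := by
  have : Finite V := Module.finite_of_finite F
  obtain ⟨ψ, -, s, t, hs, ht, e1, o, t2, s1, -, st⟩ := dualU hf hn h0 hx y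
  have q2 := two_le_of_card_sq hF
  have t2 := t2 h
  have o : t ≤ (O (f.Qgrp x) y).ncard := Nat.le_of_mul_le_mul_left (c := q)
    (by nlinarith [Nat.mul_le_mul_left (O (f.Qgrp x) y).ncard (card_R_le hx y)]) (by omega)
  obtain ⟨p, hp⟩ : ∃ p, q ^ 2 = p + 1 := ⟨q ^ 2 - 1, by have := Nat.pow_le_pow_left q2 2; omega⟩
  have hp' : q ^ 2 - 1 = p := by omega
  rcases le_or_gt t (q ^ 2) with tq | tq
  · obtain ⟨u, hu, hu'⟩ := exists_not_line h0 (cF hF ▸ ht) t2
    have : p * min (NI q k) (NA q k) * (O (f.Qgrp x) y).ncard ≤ (O (PE f x) y).ncard * (t - 1) := by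
      by_cases hQ : f.Q u = 0
      · exact le_trans (by gcongr; exact min_le_left _ _)
          (hp' ▸ covI hf hn h0 hx (U_fam hx ψ) ht hu.1 (U_Qy hx hu) (by omega) hu' hQ)
      · exact le_trans (by gcongr; exact min_le_right _ _)
          (hp' ▸ covN hf hn h0 hx (U_fam hx ψ) ht hu.1 (U_Qy hx hu) (by omega) hQ)
    obtain ⟨t, rfl⟩ : ∃ j, t = j + 1 := ⟨t - 1, by omega⟩
    refine Or.inl (Nat.le_of_mul_le_mul_right (c := t) ?_ (by omega))
    rw [hp, Nat.add_sub_cancel] at *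
    nlinarith [Nat.mul_le_mul_left (p * min (NI q k) (NA q k)) o, Nat.mul_le_mul_left (min (NI q k) (NA q k)) (show t ≤ p by omega)]
  rcases id hE with rfl | ⟨k4, h1, h2, h3⟩
  · obtain ⟨u, hu, hQ⟩ : ∃ u ∈ U f ψ x (W hx y), f.Q u ≠ 0 := by
      by_contra! e; exact tq.not_ge (alliso hf hn le_rfl h0 hx (A := U f ψ x _) (fun u hu => ⟨hu.1, e u hu⟩) ht)
    have c := hp' ▸ covN hf hn h0 hx (U_fam hx ψ) ht hu.1 (U_Qy hx hu) (by omega) hQ
    have : p * NA q 3 ≤ (O (PE f x) y).ncard := Nat.le_of_mul_le_mul_right (c := t) (by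
      nlinarith [Nat.mul_le_mul_left (p * NA q 3) o, Nat.mul_le_mul_left (O (PE f x) y).ncard (Nat.sub_le t 1)]) (by omega)
    refine Or.inl (((Nat.mul_le_mul_left _ (min_le_left _ _)).trans ?_).trans this)
    obtain ⟨r, rfl⟩ : ∃ r, q = r + 2 := ⟨q - 2, by omega⟩
    rw [show p = (r + 1) * (r + 3) by nlinarith]
    norm_num [NI, NA]
    ring_nf
    omega
  by_cases hW : ∀ w ∈ W hx y, w ∈ F ∙ x
  · have := regQ hf hn h0 hx hW
    have : q ^ (2 * k) ≤ (O (f.Qgrp x) y).ncard := Nat.le_of_mul_le_mul_left (c := q)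
      (by nlinarith [Nat.mul_le_mul_left (O (f.Qgrp x) y).ncard (card_R_le hx y)]) (by omega)
    refine Or.inl (le_trans ?_ (this.trans (ncard_le_ncard (O_mono (Q_le_PE x) (self_mem_O _ _)))))
    rw [← NI_NA (q := q) (by omega), hp', hp]
    nlinarith [min_le_left (NI q k) (NA q k), min_le_right (NI q k) (NA q k), Nat.pow_le_pow_left q2 2]
  push Not at hW
  obtain ⟨w, hw, hw'⟩ := hW
  have c := indW hf hn hx (by omega) hz h1 h hw hw'
  rcases h3 with h3 | ⟨rfl, h3⟩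
  · exact Or.inl (by nlinarith [Nat.mul_le_mul h3 (tq.le.trans o)])
  rcases le_or_gt (q ^ 3) t with t3 | t3
  · exact Or.inl (by nlinarith [Nat.mul_le_mul_left e (t3.trans o), Nat.mul_le_mul_left (q ^ 2) ((min_le_left _ (NA q 4)).trans h3)])
  have hR : (hermKind hF).π.ker ≤ R hx y := by
    by_contra hR
    exact (t3.trans_le (Nat.pow_le_pow_right (by omega) (by omega))).not_ge (st hR).2
  refine Or.inr (T0k hf hn h0 hx hz hE (f.ts_span ?_ ?_))
  · rintro _ ⟨a, -, rfl⟩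
    exact (Q_coe_map f a x).trans hx
  rintro _ ⟨a, ha, rfl⟩ _ ⟨b, hb, rfl⟩
  by_contra hne
  have hT : f.Tgrp x ≤ stabilizer f.Isom y := f.Tgrp_le fun c hc => (hR hc.π_eq_zero).2
  have hne : f.B x ((a⁻¹ * b : f.Isom) ⊳ x) ≠ 0 := by rwa [isom_mul_apply, ← B_isom_left]
  have hy : f.IsHyp x ((f.B x ((a⁻¹ * b : f.Isom) ⊳ x))⁻¹ • (a⁻¹ * b : f.Isom) ⊳ x) :=
    ⟨hx, f.Q_smul_of_Q ((Q_coe_map _ _ _).trans hx) _, by rw [map_smul, smul_eq_mul, inv_mul_cancel₀ hne]⟩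
  obtain ⟨c, c0, hc⟩ := herm_exists_π_eq_zero (conj_conj hF) (conj_ne_id hF)
  obtain ⟨j, hj⟩ := pow_of_closed (hF := hF) (W hx y) fun r hr v hv => by
    by_cases r0 : r = 0
    · simp [r0]
    have e := sup_le hT ((f.Tgrp_smul_le _ _).trans (Tgrp_map hT (mul_mem (inv_mem ha) hb)))
      (hy.torus_mem_of_π (a := Units.mk0 r r0) c0 hc (by simp [hr, σ_neg hc]))
    have := W_map hv hx r0 (hy.torus_apply_x (Units.mk0 r r0))
    rw [show _ • y = y from e, hy.torus_apply, W_perp hv, mul_zero, zero_smul, add_zero, smul_add, smul_smul,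
      add_mem_cancel_right (smul_mem_W _), Kind.herm_σ] at this
    exact hr ▸ this
  have e2 : q ^ j * t = q ^ 10 := by rw [← hj, hs, mul_assoc, e1]; ring
  have j10 : j ≤ 10 := (Nat.pow_dvd_pow_iff_le_right (by omega)).1 (e2 ▸ Dvd.intro _ rfl)
  obtain rfl : t = q ^ (10 - j) := Nat.eq_of_mul_eq_mul_left (pow_pos (by omega : 0 < q) j) (by rw [e2, ← pow_add, Nat.add_sub_cancel' j10])
  rw [Nat.pow_lt_pow_iff_right (by omega)] at tq t3
  omega

theorem stepU {y : Y} (hS : ¬ f.Eich ≤ stabilizer f.Isom y) : min (NI q (k + 2)) (NA q (k + 2)) ≤ (O f.Eich y).ncard := by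
  by_contra! lt
  have k3 : 3 ≤ k := by omega
  have q2 := two_le_of_card_sq hF
  have lt' := lt.trans_le (min_le_left _ _)
  have sub : ∀ y' ∈ O f.Eich y, O (PE f x) y' ⊆ O f.Eich y := fun y' h => O_mono (PE_le x) h
  have mv : ∀ z, f.Q z = 0 → z ≠ 0 → ∃ g ∈ f.Eich, g ⊳ x = z := fun z hz z0 => witt1 hf (by omega) h0 z0 (hx.trans hz.symm)
  have hA : ∀ y' ∈ O f.Eich y, R hx y' = ⊥ → (∀ w ∈ W hx y', w ∈ F ∙ x) ∧ q * q ^ (2 * k) ≤ (O (f.Qgrp x) y').ncard :=
    fun y' h hR => by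
      have : ∀ w ∈ W hx y', w ∈ F ∙ x := fun w hw => by_contra fun hw' =>
        lt'.not_ge ((Rbot hf hn h0 hx hz hE hR hw hw').trans (ncard_le_ncard (sub y' h)))
      exact ⟨this, by simpa [hR] using regQ hf hn h0 hx this⟩
  obtain ⟨y1, h1, r1⟩ : ∃ y' ∈ O f.Eich y, R hx y' = ⊥ := by
    by_contra! e
    refine allD hf hn (by omega) hS fun z hz z0 => ?_
    obtain ⟨g, hg, rfl⟩ := mv z hz z0
    rw [← smul_inv_smul g y, R_mov (hx := hx) _ rfl]
    exact e _ (mem_O (inv_mem hg) _)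
  obtain ⟨y2, h2, r2⟩ : ∃ y' ∈ O f.Eich y, R hx y' ≠ ⊥ := by
    by_contra! e
    refine regU hf hn (by omega) h0 hx (y := y) (fun g hg z hz z0 => ?_) fun g hg => by_contra fun hne => ?_
    · obtain ⟨a, ha, rfl⟩ := mv z hz z0
      have m := smul_mem_O (inv_mem ha) (mem_O hg y)
      rw [← smul_inv_smul a (g • y), R_mov (hx := hx) _ rfl]
      refine ⟨e _ m, fun w hw => ?_⟩
      rw [← isom_apply_inv_apply f a w, W_mov_iff (hx := hx) _ rfl] at hw
      obtain ⟨t, ht⟩ := mem_span_singleton.1 ((hA _ m (e _ m)).1 _ hw)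
      exact mem_span_singleton.2 ⟨t, by rw [← map_smul, ht, isom_apply_inv_apply]⟩
    · have := two_orb (O_mono (f.Qgrp_le_Eich x) (self_mem_O _ y)) (O_mono (f.Qgrp_le_Eich x) (mem_O hg y)) hne
      have := (hA _ (self_mem_O _ y) (e _ (self_mem_O _ y))).2
      have := (hA _ (mem_O hg y) (e _ (mem_O hg y))).2
      obtain ⟨k, rfl⟩ : ∃ j, k = j + 1 := ⟨k - 1, by omega⟩
      have := NI_le_pow q2 k
      rw [pow_succ'] at this
      nlinarith [Nat.zero_le (q ^ (2 * (k + 1)))]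
  have e2 := O_eq h2
  have c1 := ((notFull hf hn h0 hx hz hE (y := y2) fun h => lt'.not_ge (e2 ▸ T0k hf hn h0 hx hz hE (Sp_ts hf herm_rich hx
    (Full_R hf hn hx (by omega) h) (by obtain ⟨g, -, rfl⟩ := h2; exact nS hS g))))).resolve_right (e2 ▸ lt'.not_ge)
  have c2 := ncard_union_eq (s := O (PE f x) y1) (t := O (PE f x) y2) (disjoint_left.2 fun y' a b =>
    r2 ((R_bot_PE hx b).1 ((R_bot_PE hx a).2 r1)))
  have c3 := ncard_le_ncard (union_subset (sub _ h1) (sub _ h2))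
  have c4 := (hA _ h1 r1).2.trans (ncard_le_ncard (O_mono (Q_le_PE x) (self_mem_O _ _)))
  rw [← pow_succ'] at c4
  rcases le_or_gt (NI q k) (NA q k) with h | h
  · rw [min_eq_left h] at c1
    have := finU hf hn h0 hx (by omega) (y := y2) (by rw [e2]; rw [NI] at lt' ⊢; omega)
    have := pow_pos (show 0 < q by omega) (2 * k + 1)
    rw [e2] at *
    omega
  · obtain rfl : q = 2 := by
      by_contra
      obtain ⟨k, rfl⟩ : ∃ j, k = j + 1 := ⟨k - 1, by omega⟩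
      exact h.not_ge (NI_le_NA (by omega) k)
    have := lt.trans_le (min_le_right _ _)
    rw [min_eq_right h.le] at c1
    rw [NA] at this
    omega

end CA.Coop
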