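import Cfsg.Agent.Lib.Lin.CoopU4

/-! Minimal degree of the four-dimensional unitary groups: orbit bounds. -/

set_option autoImplicit false
set_option linter.unusedSectionVars false

namespace CA.Coop

open MulAction Module CA.CForm CA.CForm.Form Set Submodule

theorem two_mul_le_of_dvd {F : Type*} [Field F] [Finite F] {s t m : ℕ} (hs : s ∣ Nat.card F ^ m) (ht : t ∣ Nat.card F ^ m)
    (h' : s < t) : 2 * s ≤ t := by
  have := Fintype.ofFinite F
  obtain ⟨e, hp, he⟩ := FiniteField.card F (ringChar F)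
  rw [Nat.card_eq_fintype_card, he, ← pow_mul] at hs ht
  obtain ⟨i, -, rfl⟩ := (Nat.dvd_prime_pow hp).1 hs
  obtain ⟨j, -, rfl⟩ := (Nat.dvd_prime_pow hp).1 ht
  have := Nat.pow_le_pow_right hp.pos (show i + 1 ≤ j from (Nat.pow_lt_pow_iff_right hp.one_lt).1 h')
  nlinarith [hp.two_le, pow_succ (ringChar F) i]

section gen
variable {F : Type*} [Field F] {k : Kind F} {V : Type*} [AddCommGroup V] [Module F V] {f : Form k V}
  {Y : Type*} [MulAction f.Isom Y] {x : V}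

theorem c_uniq' (hx : f.Q x = 0) {y : Y} (hR : R hx y = ⊥) {w : V} {c c' : F} {h h'} (e : f.eichler x w c h • y = y)
    (e' : f.eichler x w c' h' • y = y) : c = c' := by
  simpa [hR, sub_eq_zero] using sub_mem_R (hx := hx) e e'

theorem span_fam (hx : f.Q x = 0) : Fam f x (fun y : Y => (span F (W hx y : Set V)).toAddSubgroup) id :=
  ⟨fun g a y u ha hg h => smul_mem _ _ (by
    induction h using span_induction with
    | mem _ h => exact (smul_mem_iff _ (k.σ_eq_zero.not.2 ha)).1 (subset_span (W_map h hx ha hg))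
    | zero => simp
    | add _ _ _ _ h h' => rw [map_add]; exact add_mem h h'
    | smul c _ _ h => rw [map_smul]; exact smul_mem _ _ h), fun _ h => h, fun b hb => ⟨b, hb, rfl⟩,
    fun _ a => subset_span (smul_mem_W a)⟩

end gen

variable {F : Type*} [Field F] [Fintype F] {q : ℕ} {hF : Fintype.card F = q ^ 2} {V : Type*} [AddCommGroup V] [Module F V]
  [FiniteDimensional F V] {f : Form (hermKind hF) V} (hf : f.Nondeg) (hn : finrank F V = 2 + 2) {x : V}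
  (h0 : x ≠ 0) (hx : f.Q x = 0) {Y : Type*} [Finite Y] [MulAction f.Isom Y]

local notation:75 g:76 " ⊳ " v:75 => (g : V ≃ₗ[F] V) v
local notation "σ" => conj hF

theorem comm_fix {y : Y} (hR : R hx y = ⊥) {u v : V} (hu : u ∈ W hx y) (hv : v ∈ W hx y) : σ (f.B u v) = f.B u v := by
  have := comm_mem_R hu hv
  rw [hR, AddSubgroup.mem_bot, sub_eq_zero, f.herm_symm u v] at this
  exact this.symm

include hf hn h0 hx

theorem mem_pair2 {u w : V} (hu : f.Q u = 0) (e : f.B x u = 0) (hu' : u ∉ F ∙ x) (e1 : f.B x w = 0) (e2 : f.B u w = 0) :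
    w ∈ span F {x, u} := by
  have ts : f.TS (span F {x, u}) := f.ts_span (by simp [hx, hu]) (by
    simp [e, f.eq_zero_symm e, f.B_self_of_Q hx, f.B_self_of_Q hu])
  rw [← hf.perp_eq_of_two_mul ts (by rw [finrank_pair h0 hu', hn])]
  exact f.mem_perp_span_pair.2 ⟨e1, e2⟩

section cov
variable {A : Y → AddSubgroup V} {τ : F → F} (h : Fam f x A τ) {y : Y} {s : ℕ} (hs : Nat.card (A y) = q ^ 2 * s) {u : V}
  (e : f.B x u = 0) {Y₀ : Set Y} (hY : ∀ y' ∈ Y₀, y' ∈ O (PE f x) y ∧ u ∈ A y') (hu : u ∉ F ∙ x) (hQ : f.Q u = 0)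
include h hs e hY hu hQ

theorem covS (hc : ∀ y (c : F), ∀ u ∈ A y, c • u ∈ A y) :
    (q ^ 2 - 1) * (q + 1) * Y₀.ncard ≤ (O (PE f x) y).ncard * (s - 1) := by
  have : Finite V := Module.finite_of_finite F
  have := covA h0 A h.mem (s := s) (fun y' hy => by rw [cF hF, ← hs]; exact h.card_le hy) (fun y' hy => (hY y' hy).1)
    {u | f.B x u = 0 ∧ f.Q u = 0 ∧ u ∉ F ∙ x} fun v hv => ⟨hv.2.2, by
      obtain ⟨δ, hδ, H⟩ := witt2' hf hn h0 hx e hu hv.1 hv.2.2 hQ hv.2.1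
      obtain ⟨a, a0, ha⟩ := exists_div_conj_eq hF hδ
      obtain ⟨g, g0, g1, g2⟩ := H (Units.mk0 a a0) ha
      refine ⟨g, mem_PE g0 g1, fun y' hy => ?_⟩
      have := hc _ (τ 1 * a)⁻¹ _ (h.map g 1 y' u one_ne_zero (g1.trans (one_smul _ _).symm) (hY y' hy).2)
      rwa [g2, smul_smul (τ 1), Units.val_mk0, inv_smul_smul₀ (mul_ne_zero (h.ne 1 one_ne_zero) a0)] at this⟩
  rw [ncard_Oi hf hn h0 hx, cF hF, show NI q 2 = q + 1 by simp [NI]] at this
  exact Nat.le_of_mul_le_mul_left (c := q ^ 2) (by linarith) (cF hF ▸ Nat.card_pos)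

theorem covWk : (q ^ 2 - 1) * Y₀.ncard ≤ (O (PE f x) y).ncard * (s - 1) := by
  have : Finite V := Module.finite_of_finite F
  choose! b b0 hb using fun (δ : F) (h : δ ^ (q + 1) = 1) => exists_div_conj_eq hF h
  have t := h.ne 1 one_ne_zero
  have := cover (G := f.Isom) {u | f.B x u = 0 ∧ f.Q u = 0 ∧ u ∉ F ∙ x} Y₀ (O (PE f x) y)
    (fun v y' => ∃ δ, δ ^ (q + 1) = 1 ∧ (τ 1 * b δ) • v ∈ A y') (n := (q + 1) * (q ^ 2 * (s - 1))) (fun v hv => by
      obtain ⟨δ, hδ, H⟩ := witt2' hf hn h0 hx e hu hv.1 hv.2.2 hQ hv.2.1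
      obtain ⟨g, g0, g1, g2⟩ := H (Units.mk0 _ (b0 δ hδ)) (hb δ hδ)
      exact ⟨g, fun y' hy => ⟨smul_mem_O (mem_PE g0 g1) (hY y' hy).1, δ, hδ, by
        simpa [g2, mul_smul] using h.map g 1 y' u one_ne_zero (g1.trans (one_smul _ _).symm) (hY y' hy).2⟩⟩) fun y' hy => by
    refine (ncard_le_ncard (t := (fun p : F × V => (τ 1 * b p.1)⁻¹ • p.2) '' ({δ | δ ^ (q + 1) = 1} ×ˢ
      {w | w ∈ A y' ∧ w ∉ F ∙ x})) (by
        rintro v ⟨hv, δ, hδ, h⟩
        exact ⟨(δ, _), ⟨hδ, h, fun h => hv.2.2 ((smul_mem_iff _ (mul_ne_zero t (b0 δ hδ))).1 h)⟩,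
          inv_smul_smul₀ (mul_ne_zero t (b0 δ hδ)) _⟩)).trans ((ncard_image_le (toFinite _)).trans ?_)
    rw [ncard_prod]
    refine Nat.mul_le_mul (card_norm_eq hF one_ne_zero (one_pow _)).le ((ncard_sub_line h0 (h.mem y') fun _ h => h).trans ?_)
    rw [Nat.mul_sub_one, ← hs, cF hF]
    exact Nat.sub_le_sub_right (h.card_le hy) _
  rw [ncard_Oi hf hn h0 hx, show NI q 2 = q + 1 by simp [NI]] at this
  exact Nat.le_of_mul_le_mul_left (c := q ^ 2 * (q + 1)) (by linarith) (Nat.mul_pos (cF hF ▸ Nat.card_pos) (by omega))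

end cov

theorem T04 {y : Y} (ts : f.TS (Sp f x y)) : (q + 1) * (q ^ 3 + 1) ≤ (O f.Eich y).ncard := by
  have : Finite V := Module.finite_of_finite F
  obtain ⟨s, hs, s1, ⟨j, hj, jk⟩, h⟩ := T0a hf hn h0 hx (by omega) ts
  have o := ncard_O_pos (PE f x) y
  have q2 := two_le_of_card_sq hF
  obtain ⟨p, hp⟩ : ∃ p, q ^ 2 = p + 1 := ⟨q ^ 2 - 1, by have := Nat.pow_le_pow_left q2 2; omega⟩
  have hp' : q ^ 2 - 1 = p := by omega
  rw [show NI q (2 + 2) = (q ^ 2 + 1) * (q ^ 3 + 1) by simp [NI]; ring, hp'] at h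
  rcases s1.eq_or_lt with rfl | s2
  · have := h 1 (by omega)
    nlinarith [Nat.mul_le_mul_right (q ^ 3 + 1) (show q + 1 ≤ q ^ 2 + 1 by nlinarith),
      Nat.mul_le_mul_left ((q ^ 2 + 1) * (q ^ 3 + 1)) o]
  obtain ⟨u, hu, hu'⟩ := exists_not_line h0 (cF hF ▸ hs) s2
  obtain rfl : j = 1 := by rcases j with _ | _ | j <;> simp_all
  have c := covS hf hn h0 hx Sp_fam hs (ts.B_eq _ (subset_span (self_mem_O _ _)) _ hu) (Y₀ := {y})
    (by rintro _ rfl; exact ⟨self_mem_O _ _, hu⟩) hu' (ts.Q_eq _ hu) fun _ c _ h => smul_mem _ c h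
  rw [hj, pow_one, hp', ncard_singleton, mul_one, mul_comm] at c
  have c := Nat.le_of_mul_le_mul_right c (by nlinarith)
  have := h (q ^ 2 + 1) (by rw [hj, pow_one, hp]; nlinarith)
  exact Nat.le_of_mul_le_mul_left (c := q ^ 2 + 1) (by nlinarith [Nat.mul_le_mul_left ((q ^ 2 + 1) * (q ^ 3 + 1)) c]) (by omega)

theorem B4 {y : Y} (h : ¬ Full hx y) : q + 1 ≤ (O (PE f x) y).ncard := by
  have : Finite V := Module.finite_of_finite F
  obtain ⟨ψ, -, s, t, hs, ht, e1, o, t2, s1, -, st⟩ := dualU hf hn h0 hx y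
  have q2 := two_le_of_card_sq hF
  have t2 := t2 h
  rcases le_or_gt (q + 1) t with tq | tq
  · exact (tq.trans (Nat.le_of_mul_le_mul_left (c := q) (by
      nlinarith [Nat.mul_le_mul_left (O (f.Qgrp x) y).ncard (card_R_le hx y)]) (by omega))).trans
      (ncard_le_ncard (O_mono (Q_le_PE x) (self_mem_O _ y)))
  obtain ⟨u, hu, hu'⟩ := exists_not_line h0 (cF hF ▸ ht) t2
  have hY : ∀ y' ∈ ({y} : Set Y), y' ∈ O (PE f x) y ∧ u ∈ U f ψ x (W hx y') := by rintro _ rfl; exact ⟨self_mem_O _ _, hu⟩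
  have : (q ^ 2 - 1) * 1 ≤ (O (PE f x) y).ncard * (t - 1) := by
    by_cases hQ : f.Q u = 0
    · exact ncard_singleton y ▸ covWk hf hn h0 hx (U_fam hx ψ) ht hu.1 hY hu' hQ
    · refine le_trans ?_ (covN hf hn h0 hx (U_fam hx ψ) ht hu.1 hY le_rfl hQ)
      rw [ncard_singleton, mul_one, mul_one]
      exact Nat.le_mul_of_pos_right _ (by simp [NA]; omega)
  obtain ⟨r, rfl⟩ : ∃ r, q = r + 1 := ⟨q - 1, by omega⟩
  rw [show (r + 1) ^ 2 - 1 = r * (r + 2) from Nat.sub_eq_of_eq_add (by ring)] at this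
  exact Nat.le_of_mul_le_mul_left (c := r) (by
    nlinarith [Nat.mul_le_mul_left (O (PE f x) y).ncard (show t - 1 ≤ r by omega)]) (by omega)

theorem covZ {y : Y} (h2 : (2 : F) = 0) (hR : R hx y = ⊥) {u v : V} (hu : u ∈ W hx y) (hv : v ∈ W hx y) (e : f.B u v ≠ 0) :
    (q + 1) * {y' ∈ O (PE f x) y | W hx y' = W hx y}.ncard ≤ (O (PE f x) y).ncard := by
  obtain ⟨z, hz⟩ := hf.exists_isHyp hx h0
  obtain ⟨e, e', he, a1, a2, a3, a4⟩ := ex_hyp hf hn le_rfl hz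
  have := cover (G := f.Isom) {a : F | a ^ (q + 1) = 1} {y' ∈ O (PE f x) y | W hx y' = W hx y} (O (PE f x) y)
    (fun a y' => ∀ w, σ a • σ a • w ∈ W hx y' ↔ w ∈ W hx y) (n := 1) (fun a ha => ?_) fun y' _ =>
      (ncard_le_one (toFinite _)).2 fun a ⟨ha, h⟩ b ⟨hb, h'⟩ => ?_
  · rwa [show {a : F | a ^ (q + 1) = 1}.ncard = _ from card_norm_eq hF one_ne_zero (one_pow _), mul_one] at this
  · have n1 : a * σ a = 1 := by rw [conj_apply, ← pow_succ', ha]
    have n3 : σ a = a⁻¹ := eq_inv_of_mul_eq_one_right n1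
    have a0 : a ≠ 0 := left_ne_zero_of_mul_eq_one n1
    have gx : (hz.torus (Units.mk0 a a0) * he.torus (Units.mk0 a a0)⁻¹ : f.Isom) ⊳ x = a • x := by
      rw [isom_mul_apply, he.torus_apply_of_B _ (f.eq_zero_symm a1) (f.eq_zero_symm a3), hz.torus_apply_x, Units.val_mk0]
    refine ⟨_, fun y' hy => ⟨smul_mem_O (Γ := PE f x) ⟨?_, a, a0, gx⟩ hy.1, fun w => ?_⟩⟩
    · rw [herm_Eich_eq hF hf (by omega), mem_SIsom, map_mul]
      exact Units.ext (by simp [IsHyp.detHom_torus, n3]; field_simp)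
    rw [← hy.2, ← W_map_iff (hx := hx) hx a0 gx (w := w)]
    by_cases hw : f.B x w = 0
    · obtain ⟨c, d, hc⟩ := mem_span_pair.1 (mem_pair2 hf hn h0 hx he.Q_x a1 (fun h => by
        obtain ⟨t, rfl⟩ := mem_span_singleton.1 h
        simpa [a3] using he.B_xy) (w := w - f.B e w • e') (by simp [hw, a3]) (by simp [he.B_xy]))
      rw [← add_mem_cancel_right (smul_mem_W (c * (1 - σ a * σ a)))]
      refine Iff.of_eq (congrArg (· ∈ _) ?_)
      rw [eq_add_of_sub_eq hc.symm]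
      simp only [map_add, map_smul, gx, isom_mul_apply, he.torus_apply_x, he.torus_apply_y, hz.torus_apply_of_B _ a1 a2,
        hz.torus_apply_of_B _ a3 a4, Kind.herm_σ, Units.val_inv_eq_inv_val, Units.val_mk0, map_inv₀, inv_inv, n3]
      match_scalars <;> field_simp
      ring
    · exact iff_of_false (fun h => hw (by simpa [n3, a0] using W_perp h)) fun h => hw (by
        have := W_perp h
        rw [← B_coe_map f (hz.torus (Units.mk0 a a0) * he.torus (Units.mk0 a a0)⁻¹) x w, gx, B_smul_left]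
        rwa [map_smul] at this)
  · have n1 : σ a = a⁻¹ := eq_inv_of_mul_eq_one_right (by rw [conj_apply, ← pow_succ', ha])
    have n2 : σ b = b⁻¹ := eq_inv_of_mul_eq_one_right (by rw [conj_apply, ← pow_succ', hb])
    have a0 : a ≠ 0 := by rintro rfl; simp at ha
    have b0 : b ≠ 0 := by rintro rfl; simp at hb
    have := comm_fix hx hR ((h' (b • b • σ a • σ a • u)).1 (by simpa [n2, b0] using (h u).2 hu)) hv
    simp only [B_smul_left, Kind.herm_σ, map_mul, comm_fix hx hR hu hv, n1, n2, map_inv₀, inv_inv] at this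
    field_simp at this
    exact sq_inj h2 (sq_inj h2 (by linear_combination -this))

theorem A4 {z : V} (hz : f.IsHyp x z) {y : Y} (hR : R hx y = ⊥) (lt : (O (PE f x) y).ncard < (q + 1) * (q ^ 3 + 1)) :
    (q + 1) * q ^ 3 ≤ (O (PE f x) y).ncard ∧ (∀ y' ∈ O (PE f x) y, W hx y' = W hx y → y' ∈ O (f.Qgrp x) y) ∧
    ∃ u ∈ W hx y, f.Q u = 0 ∧ f.B z u = 0 ∧ u ∉ F ∙ x ∧ ((∀ w, w ∈ W hx y ↔ w ∈ span F {x, u}) ∨ ((2 : F) = 0 ∧
      ∃ v ∈ W hx y, f.Q v = 0 ∧ f.B u v ≠ 0 ∧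
        ∀ w, w ∈ W hx y ↔ f.B x w = 0 ∧ σ (f.B u w) = f.B u w ∧ σ (f.B v w) = f.B v w)) := by
  have : Finite V := Module.finite_of_finite F
  have q2 := two_le_of_card_sq hF
  have q3 := Nat.pow_le_pow_left q2 3
  have sub := ncard_le_ncard (O_mono (Q_le_PE (f := f) x) (self_mem_O _ y))
  obtain ⟨w, hw, hw'⟩ : ∃ w ∈ W hx y, w ∉ F ∙ x := by
    by_contra! h
    have := regQ hf hn h0 hx h
    rw [hR, AddSubgroup.card_bot, mul_one] at this
    have := lt.trans_le' (this.trans sub)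
    obtain ⟨r, rfl⟩ : ∃ r, q = r + 2 := ⟨q - 2, by omega⟩
    ring_nf at this
    omega
  have orb : ∀ y' : Y, R hx y' = ⊥ → ∃ s t, Nat.card (W hx y') = q ^ 2 * s ∧ s * t = q ^ 2 * q ^ 2 ∧ s ≤ q ^ 2 ∧ q ^ 2 ≤ t ∧
      q * t ≤ (O (f.Qgrp x) y').ncard := fun y' hR => by
    obtain ⟨ψ, -, s, t, hs, -, e, o, -, -, -, st⟩ := dualU hf hn h0 hx y'
    exact ⟨s, t, hs, by rw [e, ← pow_add], (st (not_ker_le hx hR)).1, (st (not_ker_le hx hR)).2, by simpa [hR] using o⟩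
  obtain ⟨s, t, hs, e, s2, t2, o⟩ := orb y hR
  have o3 : q * q ^ 2 ≤ (O (f.Qgrp x) y).ncard := (Nat.mul_le_mul_left q t2).trans o
  have hQ : ∀ w ∈ W hx y, f.Q w = 0 := fun w hw => by_contra fun hQ => by
    have c := covN hf hn h0 hx (W_fam hx) hs (W_perp hw) (W_Qy hx hw) le_rfl hQ
    have := (three_le hx hR hw hQ).2
    have c : NA q 2 * (O (f.Qgrp x) y).ncard ≤ (O (PE f x) y).ncard := Nat.le_of_mul_le_mul_left (c := q ^ 2 - 1) (by
      nlinarith [Nat.mul_le_mul_left (O (PE f x) y).ncard (Nat.sub_le_sub_right s2 1)]) (by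
      have := Nat.pow_le_pow_left q2 2; omega)
    have := lt.trans_le' ((Nat.mul_le_mul_left _ o3).trans c)
    obtain ⟨r, rfl⟩ : ∃ r, q = r + 3 := ⟨q - 3, by omega⟩
    norm_num [NA] at this
    ring_nf at this
    omega
  have nz : ∀ u ∈ W hx y, u + (-f.B z u) • x ∈ W hx y ∧ f.B z (u + (-f.B z u) • x) = 0 := fun u hu =>
    ⟨add_mem hu (smul_mem_W _), by simp [hz.B_yx]⟩
  have key : (q + 1) * {y' ∈ O (PE f x) y | W hx y' = W hx y}.ncard ≤ (O (PE f x) y).ncard ∧ (s = q ^ 2 →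
      ∃ u ∈ W hx y, f.Q u = 0 ∧ f.B z u = 0 ∧ u ∉ F ∙ x ∧ ((∀ w, w ∈ W hx y ↔ w ∈ span F {x, u}) ∨ ((2 : F) = 0 ∧
      ∃ v ∈ W hx y, f.Q v = 0 ∧ f.B u v ≠ 0 ∧
        ∀ w, w ∈ W hx y ↔ f.B x w = 0 ∧ σ (f.B u w) = f.B u w ∧ σ (f.B v w) = f.B v w))) := by
    by_cases hB : ∀ u ∈ W hx y, ∀ v ∈ W hx y, f.B u v = 0
    · obtain ⟨u, hu, zu, hu'⟩ : ∃ u ∈ W hx y, f.B z u = 0 ∧ u ∉ F ∙ x := ⟨_, (nz w hw).1, (nz w hw).2, fun h =>
        hw' ((add_mem_cancel_right (smul_mem _ _ (mem_span_singleton_self x))).1 h)⟩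
      have le : (W hx y : Set V) ⊆ span F {x, u} := fun w hw =>
        mem_pair2 hf hn h0 hx (hQ u hu) (W_perp hu) hu' (W_perp hw) (hB u hu w hw)
      have c := covS hf hn h0 hx (span_fam hx) (y := y) (s := q ^ 2) (by
        rw [show span F (W hx y : Set V) = span F {x, u} from le_antisymm (span_le.2 le) (span_mono (insert_subset
          (by simpa using smul_mem_W (hx := hx) (y := y) 1) (singleton_subset_iff.2 hu))), ← sq, ← cF hF]
        exact ncard_pair h0 hu') (W_perp hu) (Y₀ := {y' ∈ O (PE f x) y | W hx y' = W hx y})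
        (fun y' h => ⟨h.1, subset_span (h.2 ▸ hu)⟩) hu' (hQ u hu) fun _ c _ h => smul_mem _ c h
      exact ⟨Nat.le_of_mul_le_mul_left (c := q ^ 2 - 1) (by linarith) (by have := Nat.pow_le_pow_left q2 2; omega),
        fun e => ⟨u, hu, hQ u hu, zu, hu', Or.inl (Set.ext_iff.1 (eq_of_subset_of_ncard_le le (by
          rw [ncard_pair h0 hu', show (W hx y : Set V).ncard = _ from hs, e, cF hF, sq (q ^ 2)])))⟩⟩
    push Not at hB
    obtain ⟨u, hu, v, hv, e, zu⟩ : ∃ u ∈ W hx y, ∃ v ∈ W hx y, f.B u v ≠ 0 ∧ f.B z u = 0 := by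
      obtain ⟨u, hu, v, hv, e⟩ := hB
      exact ⟨_, (nz u hu).1, v, hv, by simpa [W_perp hv] using e, (nz u hu).2⟩
    have h2 : (2 : F) = 0 := by
      have := f.herm_Q_add u v
      rw [hQ _ (add_mem hu hv), hQ u hu, hQ v hv, comm_fix hx hR hu hv] at this
      exact (mul_eq_zero.1 (by linear_combination -this)).resolve_right e
    have hu' : u ∉ F ∙ x := fun h => by
      obtain ⟨a, rfl⟩ := mem_span_singleton.1 h
      simp [W_perp hv] at e
    refine ⟨covZ hf hn h0 hx h2 hR hu hv e, fun e' => ⟨u, hu, hQ u hu, zu, hu', Or.inr ⟨h2, v, hv, hQ v hv, e,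
      Set.ext_iff.1 (eq_of_subset_of_ncard_le (s := (W hx y : Set V))
        (t := {w | f.B x w = 0 ∧ σ (f.B u w) = f.B u w ∧ σ (f.B v w) = f.B v w})
        (fun w hw => ⟨W_perp hw, comm_fix hx hR hu hw, comm_fix hx hR hv hw⟩) ?_)⟩⟩⟩
    refine (ncard_le_ncard_of_injOn (t := {a : F | a ^ q = a} ×ˢ {a : F | a ^ q = a} ×ˢ (univ : Set F))
      (fun w => (f.B u w, f.B v w, f.B z w)) (fun w hw => ⟨hw.2.1, hw.2.2, trivial⟩) fun w hw w' hw' e' => ?_).trans ?_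
    · simp only [Prod.mk.injEq, ← sub_eq_zero (a := f.B _ w), ← map_sub] at e'
      obtain ⟨a, b, e1⟩ := mem_span_pair.1 (mem_pair2 hf hn h0 hx (hQ u hu) (W_perp hu) hu' (by simp [hw.1, hw'.1]) e'.1)
      rw [← e1] at e'
      have b0 : b = 0 := by simpa [f.eq_zero_symm (W_perp hv), f.eq_zero_comm.not.1 e] using e'.2.1
      have a0 : a = 0 := by simpa [b0, hz.B_yx] using e'.2.2
      exact sub_eq_zero.1 (by simp [← e1, a0, b0])
    · rw [ncard_prod, ncard_prod, show {a : F | a ^ q = a}.ncard = q from card_conj_fixed hF, ncard_univ, cF hF,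
        show (W hx y : Set V).ncard = _ from hs, e']
      linarith
  have c1 : O (f.Qgrp x) y ⊆ {y' ∈ O (PE f x) y | W hx y' = W hx y} := by
    rintro _ ⟨g, hg, rfl⟩; exact ⟨mem_O (Q_le_PE x hg) _, W_Q hg⟩
  have c2 : {y' ∈ O (PE f x) y | W hx y' = W hx y}.ncard < 2 * (q * q ^ 2) :=
    Nat.lt_of_mul_lt_mul_left (a := q + 1) (by nlinarith [key.1])
  have c3 := ncard_le_ncard c1
  refine ⟨by nlinarith [key.1, Nat.mul_le_mul_left (q + 1) (o3.trans c3)], fun y' hy e' => by_contra fun hne => ?_,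
    key.2 (s2.eq_or_lt.resolve_right fun h => ?_)⟩
  · have := two_orb c1 (by rintro _ ⟨g, hg, rfl⟩; exact ⟨smul_mem_O (Q_le_PE x hg) hy, (W_Q hg).trans e'⟩) hne
    obtain ⟨s, t, -, -, -, t2, o⟩ := orb y' ((R_bot_PE hx hy).2 hR)
    nlinarith [Nat.mul_le_mul_left q t2]
  · have := two_mul_le_of_dvd (F := F) (m := 2) (by rw [cF hF, sq (q ^ 2), ← e]; exact Dvd.intro _ rfl)
      (by rw [cF hF]; exact dvd_pow_self _ two_ne_zero) h
    have : 2 * q ^ 2 ≤ t := Nat.le_of_mul_le_mul_left (c := q ^ 2) (by nlinarith [Nat.mul_le_mul_right t this]) (by positivity)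
    nlinarith [Nat.mul_le_mul_left q this]

end CA.Coop
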