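import Cfsg.Agent.Lib.Lin.CoopU5

/-! Minimal degree of the four-dimensional unitary groups. -/

set_option autoImplicit false
set_option linter.unusedSectionVars false

namespace CA.Coop

open MulAction Module CA.CForm CA.CForm.Form Set Submodule

variable {F : Type*} [Field F] [Fintype F] {q : ℕ} {hF : Fintype.card F = q ^ 2} {V : Type*} [AddCommGroup V] [Module F V]
  [FiniteDimensional F V] {f : Form (hermKind hF) V} (hf : f.Nondeg) (hn : finrank F V = 2 + 2) {x : V}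
  (h0 : x ≠ 0) (hx : f.Q x = 0) {Y : Type*} [Finite Y] [MulAction f.Isom Y]

local notation:75 g:76 " ⊳ " v:75 => (g : V ≃ₗ[F] V) v
local notation "σ" => conj hF

theorem hc {x w : V} {c : F} (hx : f.Q x = 0) (hw : f.Q w = 0) (e : f.B x w = 0) (hc : (hermKind hF).π c = 0) :
    f.EichlerCond x w c := ⟨hx, e, hc.trans hw.symm⟩

include hf hn h0 hx

theorem noB1 {z u : V} (hz : f.IsHyp x z) {y : Y} (H : ∀ g ∈ f.Eich, ∀ (z : V) (hz : f.Q z = 0), z ≠ 0 → R hz (g • y) = ⊥)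
    (hu : f.Q u = 0) (xu : f.B x u = 0) (zu : f.B z u = 0) (hu' : u ∉ F ∙ x) (hT : ∀ w, w ∈ W hx y ↔ w ∈ span F {x, u})
    (hB : ∀ g ∈ f.Eich, W hx (g • y) = W hx y → g • y ∈ O (f.Qgrp x) y) : False := by
  obtain ⟨v, hv, v1, v2⟩ := hf.exists_partner_perp (H := span F {x, z}) hu (fun h => by
    obtain ⟨a, b, rfl⟩ := mem_span_pair.1 h
    have : b = 0 := by simpa [hz.B_xx, hz.B_xy] using xu
    exact hu' (mem_span_singleton.2 ⟨a, by simp [this]⟩)) (f.mem_perp_span_pair.2 ⟨xu, zu⟩)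
  rw [f.mem_perp_span_pair] at hv
  have uT : ∀ a : F, a • u ∈ span F {x, u} := fun a => smul_mem _ _ (subset_span (by simp))
  obtain ⟨_, ⟨g, hg, rfl⟩, ⟨h, a, n1, n2, gx, gu, e1⟩, hy⟩ := regH hf hn hx hz ⟨hu, v1, v2⟩ xu zu hv.1 hv.2 (y := y) _ hT
    (fun w hw => by
      obtain ⟨a, b, rfl⟩ := mem_span_pair.1 hw
      simp [f.eq_zero_symm xu, f.B_self_of_Q hu]) (Or.inl (subset_span (by simp))) hB
  have a0 : a ≠ 0 := left_ne_zero_of_mul_eq_one n1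
  have n3 : σ a = a⁻¹ := eq_inv_of_mul_eq_one_right n1
  have n4 : a⁻¹ * a⁻¹ - 1 ≠ 0 := by rwa [← mul_inv, sub_ne_zero, Ne, inv_eq_one]
  have k : ∀ μ : F, f.eichler x (μ • u) 0 (hc hx (f.Q_smul_of_Q hu _) (by simp [xu]) (map_zero _)) • g • y = g • y := fun μ => by
    obtain ⟨c, h1, e⟩ := (W_Q (hx := hx) (y := y) hg).symm ▸ (hT _).2 (uT (μ / (a⁻¹ * a⁻¹ - 1)))
    obtain ⟨h2, e2⟩ := fix_map e a0 gx
    have e3 : _ • _ = _ := mul_mem (inv_mem e) (show _ ∈ stabilizer _ (g • y) from e1 ▸ e2)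
    rw [eichler_inv, eichler_mul] at e3
    refine fix_congr e3 ?_ ?_
    · rw [map_smul, gu, Kind.herm_σ, n3, ← div_mul_cancel₀ μ n4]; match_scalars; field_simp; ring
    · have := σ_neg (h1.π_c.trans (f.Q_smul_of_Q hu _))
      simp [gu, n1, f.B_self_of_Q hu, this]
  obtain ⟨c, c0, hc'⟩ := herm_exists_π_eq_zero (conj_conj hF) (conj_ne_id hF)
  obtain ⟨d, hd, e2⟩ := hy c (f.eichlerCond_zero hu hc')
  obtain ⟨b, hb⟩ := ex_norm (show (hermKind hF).π (-d) = 0 by rw [map_neg, hd.π_eq_zero, neg_zero]) hc'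
  obtain ⟨h1, h2, e3⟩ := T_add hx hu xu b hc'
  have : c ∈ R h1.Q_p (g • y) := ⟨h1, by
    rw [e3, mul_smul, e2, ← mul_smul, eichler_mul]
    exact fix_congr (k (-(c * σ b))) (by simp) (by simp [hb, c0])⟩
  rw [H g (f.Qgrp_le_Eich _ hg) _ _ (fun e => hu' (mem_span_singleton.2 ⟨-b, by
    rw [neg_smul, neg_eq_of_add_eq_zero_left e]⟩))] at this
  exact c0 this

theorem noB2 (hq : 3 ≤ q) (h2 : (2 : F) = 0) {z u v : V} (hz : f.IsHyp x z) {y : Y}
    (H : ∀ g ∈ f.Eich, ∀ (z : V) (hz : f.Q z = 0), z ≠ 0 → R hz (g • y) = ⊥) (hu : f.Q u = 0) (uW : u ∈ W hx y)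
    (zu : f.B z u = 0) (hu' : u ∉ F ∙ x)
    (hT : ∀ w, w ∈ W hx y ↔ f.B x w = 0 ∧ σ (f.B u w) = f.B u w ∧ σ (f.B v w) = f.B v w)
    (hB : ∀ g ∈ f.Eich, W hx (g • y) = W hx y → g • y ∈ O (f.Qgrp x) y) : False := by
  have : ¬ Odd (Fintype.card F) := fun h => two_ne_zero_iff_odd.2 h h2
  rw [hF, Nat.odd_pow_iff two_ne_zero, Nat.odd_iff] at this
  obtain ⟨a, r, i, hr, hr', ha, n1, n2⟩ := ex_pp2 (F := F) (m := q - 1) (by omega) (by
    rw [cF hF, ← one_pow 2, Nat.sq_sub_sq]; exact Dvd.intro_left _ rfl)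
  have n3 : σ a = a := by rw [conj_apply, ← Nat.sub_add_cancel (show 1 ≤ q by omega), pow_succ, n1, one_mul]
  have cl : ∀ c, σ c = c → ∀ w ∈ W hx y, c • w ∈ W hx y := fun c h w hw => by
    rw [hT] at hw ⊢; simp [hw, h]
  have ap : ∀ w, f.B x w = 0 → ∃ c : F, hz.torus a ⊳ w = w + c • x := fun w hw => ⟨_, by
    rw [hz.torus_apply, hw, mul_zero, zero_smul, add_zero]⟩
  obtain ⟨y', hy, e⟩ := reg_fix (y := y) hf h0 hx hr hr' (g := hz.torus a) (by
    rw [← hz.torusHom_apply, ← map_pow, ha, map_one]) a.ne_zero (hz.torus_apply_x a) (hB _ (by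
      rw [herm_Eich_eq hF hf (by omega), mem_SIsom]
      exact Units.ext (by simp [IsHyp.detHom_torus, n3])) (W_eq_of a.ne_zero (hz.torus_apply_x a) fun w hw => by
        obtain ⟨c, hc⟩ := ap w (W_perp hw)
        exact cl _ (by simp [n3]) _ (hc ▸ add_mem hw (smul_mem_W c))))
  have e1 : W hx y' = W hx y := by obtain ⟨g, hg, rfl⟩ := hy; exact W_Q hg
  have xu := W_perp uW
  have one : (hermKind hF).π 1 = 0 := by simpa [one_add_one_eq_two] using h2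
  obtain ⟨g, hg, e2⟩ : f.eichler u 0 1 (f.eichlerCond_zero hu one) • y' ∈ O (f.Qgrp x) y' := by
    rw [O_eq hy]
    obtain ⟨g, hg, rfl⟩ := hy
    refine smul_smul _ g y ▸ hB _ (mul_mem (f.eichler_mem_Eich u 0 1 _) (f.Qgrp_le_Eich _ hg)) (Eq.trans ?_ e1)
    rw [mul_smul]
    exact W_eq_of one_ne_zero (by simp [eichler_zero_apply, f.eq_zero_symm xu]) fun w hw => by
      rw [e1] at hw ⊢
      simpa [eichler_zero_apply] using sub_mem hw (cl _ ((hT w).1 hw).2.1 u uW)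
  obtain ⟨w, c, h, rfl⟩ := (mem_Qgrp hx).1 hg
  have e3 : hz.torus a • f.eichler x w c h • y' = f.eichler x w c h • y' := by
    have := f.conj_eichler (hz.torus a) u 0 1 (f.eichlerCond_zero hu one)
    rw [f.eichler_congr _ (f.eichlerCond_zero hu one) (hz.torus_apply_of_B a xu zu) (map_zero _) rfl,
      mul_inv_eq_iff_eq_mul] at this
    rw [e2, ← mul_smul, this, mul_smul, e]
  have e4 := W_of_fix (hx := hx) a.ne_zero (hz.torus_apply_x a) e e3
  obtain ⟨c', hc⟩ := ap w h.B_pw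
  have a1 : (a : F) - 1 ≠ 0 := by rw [sub_ne_zero]; rintro h; simp [h] at n2
  have := cl (a - 1)⁻¹ (by simp [n3]) _ (e1 ▸ sub_mem e4 (smul_mem_W (a * c')))
  rw [hc, show _ - _ = ((a : F) - 1) • w by simp only [Kind.herm_σ, n3]; module, inv_smul_smul₀ a1] at this
  obtain ⟨d, h', e5⟩ := exists_T (y := y') h (e1 ▸ this)
  have := R_of_fix (hx := hx) (hz.torus_apply_x a) e (e5 ▸ e3)
  obtain ⟨g, hg, rfl⟩ := hy
  have H := H g (f.Qgrp_le_Eich _ hg)
  rw [H x hx h0, AddSubgroup.mem_bot, Kind.herm_σ, n3, mul_eq_zero, sub_eq_zero, or_iff_right n2] at this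
  subst this
  rw [e5, eichler_zero, one_smul] at e2
  simpa [H u hu (by rintro rfl; simp at hu')] using show (1 : F) ∈ R hu (g • y) from ⟨_, e2.symm⟩

omit [Finite Y] in
theorem B2_line (h2 : (2 : F) = 0) {y : Y} {u v : V} (hu : f.Q u = 0) (hv : f.Q v = 0) (xu : f.B x u = 0) (xv : f.B x v = 0)
    (hu' : u ∉ F ∙ x) (uv : f.B u v ≠ 0) (suv : σ (f.B u v) = f.B u v)
    (hT : ∀ w, w ∈ W hx y ↔ f.B x w = 0 ∧ σ (f.B u w) = f.B u w ∧ σ (f.B v w) = f.B v w)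
    (hK : ∀ a, σ a = a → a = 0 ∨ a = 1) {e : V} (he : f.Q e = 0) (xe : f.B x e = 0) (he' : e ∉ F ∙ x) :
    ∃ l : F, l ≠ 0 ∧ l • e ∈ W hx y ∧ ∀ m : F, m ≠ 0 → m • e ∈ W hx y → m = l := by
  have uv : f.B u v = 1 := (hK _ suv).resolve_left uv
  have vu : f.B v u = 1 := by rw [f.herm_symm, uv, map_one]
  obtain ⟨a, b, h⟩ := mem_span_pair.1 (mem_pair2 hf hn h0 hx hu xu hu' (w := e - f.B u e • v) (by simp [xe, xv]) (by simp [uv]))
  obtain ⟨c, rfl⟩ : ∃ c : F, e = a • x + b • u + c • v := ⟨_, eq_add_of_sub_eq h.symm⟩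
  have hq : σ (σ b * c) = σ b * c := by
    rw [f.herm_Q_add, f.herm_Q_add, f.Q_smul_of_Q hx, f.Q_smul_of_Q hu, f.Q_smul_of_Q hv] at he
    simp only [map_smul, B_add_left, B_smul_left, xu, xv, uv, Kind.herm_σ, smul_eq_mul] at he
    simp only [map_mul, map_zero, mul_zero, mul_one, zero_add, add_zero] at he ⊢
    linear_combination he - c * σ b * h2
  have e1 : ∀ m : F, m • (a • x + b • u + c • v) ∈ W hx y ↔ σ (m * c) = m * c ∧ σ (m * b) = m * b := fun m => by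
    simp [hT, xu, xv, uv, vu, f.B_self_of_Q hx, f.B_self_of_Q hu, f.B_self_of_Q hv, f.eq_zero_symm xu, f.eq_zero_symm xv]
  simp only [e1]
  have N : ∀ b, σ (σ b * b) = σ b * b := fun b => by rw [map_mul, conj_conj, mul_comm]
  have U : ∀ {b l m : F}, b ≠ 0 → l ≠ 0 → m ≠ 0 → σ (l * b) = l * b → σ (m * b) = m * b → m = l := fun hb hl hm h h' =>
    mul_right_cancel₀ hb (((hK _ h').resolve_left (mul_ne_zero hm hb)).trans ((hK _ h).resolve_left (mul_ne_zero hl hb)).symm)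
  by_cases b0 : b = 0
  · have c0 : c ≠ 0 := by rintro rfl; exact he' (mem_span_singleton.2 ⟨a, by simp [b0]⟩)
    exact ⟨σ c, (map_ne_zero _).2 c0, ⟨N c, by simp [b0]⟩, fun m hm h => U c0 ((map_ne_zero _).2 c0) hm (N c) h.1⟩
  · exact ⟨σ b, (map_ne_zero _).2 b0, ⟨hq, N b⟩, fun m hm h => U b0 ((map_ne_zero _).2 b0) hm (N b) h.2⟩

omit hf hn [Finite Y] in
theorem noB2two (h2 : (2 : F) = 0) (hK : ∀ a, σ a = a → a = 0 ∨ a = 1) {y : Y} {u : V} (hu : f.Q u = 0) (hu' : u ∉ F ∙ x)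
    (uW : u ∈ W hx y) (H : ∀ (z : V) (hz : f.Q z = 0), z ≠ 0 → R hz y = ⊥ ∧ ∀ e, f.Q e = 0 → f.B z e = 0 → e ∉ F ∙ z →
      ∃ l : F, l ≠ 0 ∧ l • e ∈ W hz y ∧ ∀ m : F, m ≠ 0 → m • e ∈ W hz y → m = l) : False := by
  have one : (hermKind hF).π 1 = 0 := by simpa [one_add_one_eq_two] using h2
  have tr := Kind.exists_trace_eq (σ) (conj_conj hF) (conj_ne_id hF)
  have fx : ∀ {c : F}, (hermKind hF).π c = 0 → σ c = c := fun {c} h => by linear_combination σ_neg h - c * h2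
  have uq : ∀ z hz e, z ≠ 0 → f.Q e = 0 → f.B z e = 0 → e ∉ F ∙ z → ∀ m : F, m ≠ 0 → m • e ∈ W hz y → e ∈ W hz y → m = 1 :=
    fun z hz e z0 a b c m hm h h' => ((H z hz z0).2 e a b c).elim fun l hl =>
      (hl.2.2 m hm h).trans (hl.2.2 1 one_ne_zero (by simpa using h')).symm
  obtain ⟨w, hw, xw, hw', e1⟩ : ∃ w, ∃ (hw : f.Q w = 0) (xw : f.B x w = 0), w ∉ F ∙ x ∧
      f.eichler x w 1 (hc hx hw xw one) • y = y := by
    obtain ⟨c, h, e⟩ := uW
    obtain ⟨b, hb⟩ := tr (1 + c) (by rw [map_add, map_one, fx (h.π_c.trans hu)])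
    have h1 : f.Q (u + b • x) = 0 := by rw [f.Q_add_smul_of_Q hx, f.eq_zero_symm h.B_pw, hu]; simp
    have h3 : f.B x (u + b • x) = 0 := by simp [h.B_pw, f.B_self_of_Q hx]
    have h4 : c + (hermKind hF).ε * b - (hermKind hF).σ b = 1 := by
      simp only [Kind.herm_ε, Kind.herm_σ]; linear_combination hb + (c - σ b) * h2
    exact ⟨_, h1, h3, fun h => hu' ((add_mem_cancel_right (smul_mem _ _ (mem_span_singleton_self x))).1 h),
      fix_congr (f.eichler_add_smul h b (h4 ▸ hc hx h1 h3 one) ▸ e :) rfl h4⟩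
  have wx := f.eq_zero_symm xw
  have nl : ∀ b : F, w + b • x ≠ 0 ∧ x ∉ F ∙ (w + b • x) := fun b => by
    have h : w + b • x ∉ F ∙ x := fun h => hw' ((add_mem_cancel_right (smul_mem _ _ (mem_span_singleton_self x))).1 h)
    refine ⟨fun e => h (e ▸ zero_mem _), fun h' => h ?_⟩
    obtain ⟨t, ht⟩ := mem_span_singleton.1 h'
    exact mem_span_singleton.2 ⟨t⁻¹, by rw [← ht, inv_smul_smul₀ (left_ne_zero_of_smul (ht ▸ h0)), ht]⟩
  obtain ⟨γ, γ0, ⟨c, h, e2⟩, -⟩ := (H w hw (by simpa using (nl 0).1)).2 x hx wx (by simpa using (nl 0).2)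
  have e2 : _ • y = y := e2
  rcases hK c (fx (h.π_c.trans (f.Q_smul_of_Q hx _))) with rfl | rfl
  · have h1 := hc (hF := hF) hx (f.Q_smul_of_Q hw (σ γ)) (c := 0) (by simp [xw]) (map_zero _)
    rw [show f.eichler w _ 0 h = f.eichler x _ 0 h1 from f.isom_ext fun v => by
      simp only [eichler_apply, B_smul_left, Kind.herm_σ, Kind.herm_ε, conj_conj]
      match_scalars
      exacts [by ring, by linear_combination f.B w v * γ * h2, by linear_combination -f.B x v * σ γ * h2]] at e2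
    have := uq x hx w h0 hw xw hw' _ ((map_ne_zero _).2 γ0) ⟨_, _, e2⟩ ⟨_, _, e1⟩
    exact zero_ne_one (c_uniq' hx (H x hx h0).1 (fix_congr e2 (by rw [this, one_smul]) rfl (h' := hc hx hw xw (map_zero _))) e1)
  have N : ∀ a, a ≠ 0 → a * σ a = 1 := fun a ha => (hK _ (by rw [map_mul, conj_conj, mul_comm])).resolve_left
    (mul_ne_zero ha ((map_ne_zero _).2 ha))
  obtain ⟨b, hb, bγ⟩ : ∃ b, b + σ b = 1 ∧ γ + b ≠ 0 := by
    obtain ⟨b, hb⟩ := tr 1 (map_one _)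
    by_cases e : γ + b = 0
    · exact ⟨σ b, by rwa [conj_conj, add_comm], fun e' => one_ne_zero (α := F) (by linear_combination e + e' - hb - γ * h2)⟩
    · exact ⟨b, hb, e⟩
  have hz : f.Q (w + b • x) = 0 := by rw [f.Q_add_smul_of_Q hx, wx, hw]; simp
  have zx : f.B (w + b • x) x = 0 := by simp [wx, f.B_self_of_Q hx]
  have n1 := N _ bγ
  have n2 := N _ γ0
  have n3 := N b (by rintro rfl; simp at hb)
  rw [map_add] at n1
  rw [show f.eichler x w 1 _ = f.eichler _ x 0 (hc hz hx zx (map_zero _)) from f.isom_ext fun v => by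
    simp only [eichler_apply, B_add_left, B_smul_left, Kind.herm_σ, Kind.herm_ε]
    match_scalars
    exacts [by ring, by linear_combination f.B x v * h2,
      by linear_combination -f.B x v * hb + (b * f.B x v - f.B w v - f.B x v) * h2]] at e1
  rw [show f.eichler w _ 1 h = f.eichler _ ((γ + b) • x) 1 (hc hz (f.Q_smul_of_Q hx _) (by simp [zx]) one) from
    f.isom_ext fun v => by
      simp only [eichler_apply, B_add_left, B_smul_left, Kind.herm_σ, Kind.herm_ε, map_add]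
      match_scalars
      exacts [by ring, by linear_combination -f.B x v * (n1 - n2) + (b * σ γ + b * σ b) * f.B x v * h2 - f.B x v * n3 * 0,
        by linear_combination σ b * f.B x v * h2]] at e2
  have := uq _ hz x (nl b).1 hx zx (nl b).2 _ bγ ⟨_, _, e2⟩ ⟨_, _, e1⟩
  exact zero_ne_one (c_uniq' hz (H _ hz (nl b).1).1 e1 (fix_congr e2 (by rw [this, one_smul]) rfl (h' := hc hz hx zx one)))

omit h0 hx in
theorem deg4 {y : Y} (hS : ¬ f.Eich ≤ stabilizer f.Isom y) : (q + 1) * (q ^ 3 + 1) ≤ (O f.Eich y).ncard := by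
  by_contra! lt
  have q2 := two_le_of_card_sq hF
  have sub : ∀ x, ∀ y' ∈ O f.Eich y, O (PE f x) y' ⊆ O f.Eich y := fun x y' h => O_mono (PE_le x) h
  have lt' : ∀ x, ∀ y' ∈ O f.Eich y, (O (PE f x) y').ncard < (q + 1) * (q ^ 3 + 1) := fun x y' h =>
    (ncard_le_ncard (sub x y' h)).trans_lt lt
  obtain ⟨x, h0, hx⟩ := herm_exists_singular' hF (f := f) (by omega)
  obtain ⟨z, hz⟩ := hf.exists_isHyp hx h0
  have mv : ∀ z (hz : f.Q z = 0), z ≠ 0 → ∀ y' ∈ O f.Eich y, ∃ y'' ∈ O f.Eich y, R hz y' = R hx y'' := fun z hz z0 y' h => by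
    obtain ⟨g, hg, rfl⟩ := witt1 hf (by omega) h0 z0 (hx.trans hz.symm)
    exact ⟨_, smul_mem_O (inv_mem hg) h, by rw [← R_mov (hx := hx) hz rfl, smul_inv_smul]⟩
  obtain ⟨y1, h1, r1⟩ : ∃ y' ∈ O f.Eich y, R hx y' = ⊥ := by
    by_contra! e
    exact allD hf hn le_rfl hS fun z hz z0 => (mv z hz z0 y (self_mem_O _ _)).elim fun y' h => h.2 ▸ e _ h.1
  by_cases hD : ∃ y' ∈ O f.Eich y, R hx y' ≠ ⊥
  · obtain ⟨y2, h2, r2⟩ := hD
    have c1 := B4 hf hn h0 hx (y := y2) fun h => lt.not_ge (O_eq h2 ▸ T04 hf hn h0 hx (Sp_ts hf herm_rich hx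
      (Full_R hf hn hx (by omega) h) (by obtain ⟨g, -, rfl⟩ := h2; exact nS hS g)))
    have c2 := ncard_union_eq (s := O (PE f x) y1) (t := O (PE f x) y2) (disjoint_left.2 fun y' a b =>
      r2 ((R_bot_PE hx b).1 ((R_bot_PE hx a).2 r1)))
    have c3 := ncard_le_ncard (union_subset (sub x _ h1) (sub x _ h2))
    have c4 := (A4 hf hn h0 hx hz r1 (lt' _ _ h1)).1
    nlinarith
  push Not at hD
  have H : ∀ g ∈ f.Eich, ∀ (z : V) (hz : f.Q z = 0), z ≠ 0 → R hz (g • y) = ⊥ := fun g hg z hz z0 =>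
    (mv z hz z0 _ (mem_O hg y)).elim fun y' h => h.2 ▸ hD _ h.1
  have H1 : ∀ (z : V) (hz : f.Q z = 0), z ≠ 0 → R hz y = ⊥ := fun z hz z0 => by simpa using H 1 (one_mem _) z hz z0
  have key : ∀ x (hx : f.Q x = 0), x ≠ 0 → q = 2 ∧ (2 : F) = 0 ∧ ∃ u ∈ W hx y, f.Q u = 0 ∧ u ∉ F ∙ x ∧ ∃ v ∈ W hx y,
      f.Q v = 0 ∧ f.B u v ≠ 0 ∧ ∀ w, w ∈ W hx y ↔ f.B x w = 0 ∧ σ (f.B u w) = f.B u w ∧ σ (f.B v w) = f.B v w :=
    fun x hx h0 => by
      obtain ⟨z, hz⟩ := hf.exists_isHyp hx h0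
      obtain ⟨c1, c2, u, hu, u1, u2, u3, h⟩ := A4 hf hn h0 hx hz (H1 x hx h0) (lt' _ _ (self_mem_O _ _))
      have hB : ∀ g ∈ f.Eich, W hx (g • y) = W hx y → g • y ∈ O (f.Qgrp x) y := fun g hg => c2 _ (by_contra fun hne => by
        have := two_orb (sub x _ (self_mem_O _ _)) (sub x _ (mem_O hg y)) hne
        have := (A4 hf hn h0 hx hz (H g hg x hx h0) (lt' _ _ (mem_O hg y))).1
        nlinarith [Nat.mul_le_mul_left (q + 1) (Nat.one_le_pow 3 q (by omega))])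
      rcases h with h | ⟨h2, v, hv, v1, v2, h⟩
      · exact (noB1 hf hn h0 hx hz H u1 (W_perp hu) u2 u3 h hB).elim
      · exact ⟨by_contra fun e => noB2 hf hn h0 hx (by omega) h2 hz H u1 hu u2 u3 h hB, h2, u, hu, u1, u3, v, hv, v1, v2, h⟩
  obtain ⟨rfl, h2, u, hu, u1, u3, -⟩ := key x hx h0
  have hK : ∀ a, conj hF a = a → a = 0 ∨ a = 1 := fun a h => by
    rw [conj_apply, sq] at h
    exact or_iff_not_imp_left.2 fun a0 => mul_left_cancel₀ a0 (h.trans (mul_one a).symm)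
  refine noB2two h0 hx h2 hK u1 u3 hu fun z hz z0 => ⟨H1 z hz z0, fun e a b c => ?_⟩
  obtain ⟨-, -, u, hu, u1, u3, v, hv, v1, v2, h⟩ := key z hz z0
  exact B2_line hf hn z0 hz h2 u1 v1 (W_perp hu) (W_perp hv) u3 v2 (comm_fix hz (H1 z hz z0) hu hv) h hK a b c

end CA.Coop
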