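import Cfsg.Agent.Lib.Lin.CoopU6
import Cfsg.Agent.Lib.Lin.CFormMisc2

/-! Minimal degree of the unitary groups in dimension at least four. -/

set_option autoImplicit false
set_option linter.unusedSectionVars false

namespace CA.Coop

open MulAction Module CA.CForm CA.CForm.Form Set Submodule

universe u

theorem NI_le_NA_odd {q : ℕ} (hq : 2 ≤ q) : ∀ m, NI q (2 * m + 1) < NA q (2 * m + 1)
  | 0 => by simp [NI, NA]
  | m + 1 => by
    have h := NI_le_NA_odd hq m
    rw [show 2 * (m + 1) + 1 = 2 * m + 1 + 2 from rfl, NI, NA]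
    nlinarith [Nat.mul_le_mul_left (q ^ 2) h, Nat.pow_le_pow_left hq 2,
      Nat.mul_le_mul_right (q ^ (2 * (2 * m + 1) + 1)) (show 1 ≤ q - 1 by omega)]

theorem NA_two : ∀ m, 6 * NA 2 (2 * m) + 2 ^ (2 * m) = 2 ^ (2 * m) * 2 ^ (2 * m)
  | 0 => by simp [NA]
  | m + 1 => by
    have h := NA_two m
    rw [show 2 * (m + 1) = 2 * m + 2 from rfl, NA, pow_succ 2 (2 * (2 * m)), two_mul (2 * m), pow_add, pow_add 2 (2 * m) 2]
    linarith

theorem degB_of {F : Type*} [Field F] {k : Kind F} {V : Type*} [AddCommGroup V] [Module F V] {f : Form k V} {d : ℕ}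
    (h : ∀ (K : Subgroup f.Isom) (y : f.Isom ⧸ K), ¬ f.Eich ≤ stabilizer f.Isom y → d ≤ (O f.Eich y).ncard) : DegB f d :=
  fun K hK => by simpa only [ncard_O, stabilizer_quotient] using h K (1 : f.Isom) (by rwa [stabilizer_quotient])

variable {F : Type*} [Field F] [Fintype F] {q : ℕ} {hF : Fintype.card F = q ^ 2}

theorem degB4 {V : Type*} [AddCommGroup V] [Module F V] [FiniteDimensional F V] {f : Form (hermKind hF) V} (hf : f.Nondeg)
    (hn : finrank F V = 4) : DegB f ((q + 1) * (q ^ 3 + 1)) := degB_of fun _ _ => deg4 hf hn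

theorem degBn (n : ℕ) : ∀ {V : Type u} [AddCommGroup V] [Module F V] [FiniteDimensional F V] {f : Form (hermKind hF) V},
    f.Nondeg → finrank F V = n + 5 → DegB f (min (NI q (n + 5)) (NA q (n + 5))) := by
  induction n using Nat.strong_induction_on with | _ n ih =>
  intro V _ _ _ f hf hn
  obtain ⟨x, h0, hx⟩ := herm_exists_singular' hF (f := f) (by omega)
  obtain ⟨z, hz⟩ := hf.exists_isHyp hx h0
  have q2 := two_le_of_card_sq hF
  have := hz.finrank_perp
  rcases n with _ | _ | n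
  · exact degB_of fun _ _ => stepU (k := 3) (e := 0) hf hn h0 hx hz (Or.inl rfl)
  · exact degB_of fun _ _ => stepU (k := 4) hf hn h0 hx hz (Or.inr ⟨le_rfl, degB4 (hz.nondeg_perp hf) (by omega),
      by nlinarith, Or.inr ⟨rfl, by norm_num [NI]; nlinarith [Nat.zero_le (q ^ 4)]⟩⟩)
  · refine degB_of fun _ _ => stepU (k := n + 5) hf hn h0 hx hz (Or.inr ⟨by omega,
      ih n (by omega) (hz.nondeg_perp hf) (by omega), ?_, Or.inl le_rfl⟩)
    have h1 : q ^ (2 * (n + 3) + 1) ≤ min (NI q (n + 5)) (NA q (n + 5)) := le_min (by rw [NI]; omega) (by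
      rw [NA]; nlinarith [Nat.mul_le_mul_right (q ^ (2 * (n + 3) + 1)) (show 1 ≤ q - 1 by omega)])
    have h2 := Nat.pow_le_pow_right (show 0 < q by omega) (show n + 5 + 1 ≤ 2 * (n + 3) + 1 by omega)
    rw [pow_succ] at h2
    nlinarith [Nat.mul_le_mul_left q (h2.trans h1), Nat.mul_le_mul_left (q ^ (n + 5)) (show q + 1 ≤ q * q by nlinarith)]

theorem su_transfer {n d : ℕ} (hn : 2 ≤ n) (h1 : DegB (hermStd hF n) d)
    (h2 : ∃ K, (hermStd hF n).scalars ≤ K ∧ K.relIndex (hermStd hF n).Eich = d) :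
    (∀ H : Subgroup (Cfsg.PSU n F q), H ≠ ⊤ → d ≤ H.index) ∧ ∃ H : Subgroup (Cfsg.PSU n F q), H.index = d := by
  have hf := hermStd_nondeg hF n
  have e := herm_Eich_eq hF hf (by simpa using hn)
  rw [DegB, e] at h1
  rw [e] at h2
  refine transfer (suEquiv hF n) (fun K hK => ?_) (h2.elim fun K hK => ⟨K.subgroupOf _, by
    rw [herm_center_eq hF hf (by simpa using hn) le_rfl]; exact Subgroup.comap_mono hK.1, hK.2⟩)
  have := h1 (K.map (Subgroup.subtype _)) fun h => hK (by
    rw [← Subgroup.comap_map_eq_self_of_injective (Subgroup.subtype_injective _) K]; exact Subgroup.subgroupOf_eq_top.2 h)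
  rwa [Subgroup.relIndex, Subgroup.subgroupOf, Subgroup.comap_map_eq_self_of_injective (Subgroup.subtype_injective _)] at this

variable {V : Type*} [AddCommGroup V] [Module F V] [FiniteDimensional F V] {f : Form (hermKind hF) V} (hf : f.Nondeg)
include hf

theorem ex_NI {n : ℕ} (hn : finrank F V = n) (n3 : 3 ≤ n) : ∃ K, f.scalars ≤ K ∧ K.relIndex f.Eich = NI q n := by
  have : Finite V := Module.finite_of_finite F
  obtain ⟨x, h0, hx⟩ := herm_exists_singular' hF (f := f) (by omega)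
  have := idx_pt h0 hx (Γ := f.Eich) fun v hv e => witt1 hf (by omega) h0 hv (hx.trans e.symm)
  have e := natCard_subtype_ne (fun v => f.Q v = 0) 0 f.Q_zero
  rw [card_sing hf hn, Nat.add_right_cancel_iff] at e
  rw [show Set.ncard {v | v ≠ 0 ∧ f.Q v = 0} = _ from e, cF hF, mul_comm] at this
  exact ⟨_, fun g hg => f.smul_eq_of_mem_scalars hg _,
    Nat.eq_of_mul_eq_mul_left (by have := Nat.pow_le_pow_left (two_le_of_card_sq hF) 2; omega) this⟩

theorem NI_eq {n : ℕ} (hn : finrank F V = n) :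
    (if Even n then (q ^ n - 1) * (q ^ (n - 1) + 1) else (q ^ n + 1) * (q ^ (n - 1) - 1)) / (q ^ 2 - 1) = NI q n := by
  rw [Nat.add_right_cancel ((herm_card_singular hF hf hn).symm.trans (card_sing hf hn)), Nat.mul_div_cancel_left _
    (by have := Nat.pow_le_pow_left (two_le_of_card_sq hF) 2; omega)]

theorem ex_line (hn : finrank F V = 4) : ∃ K, f.scalars ≤ K ∧ K.relIndex f.Eich = (q + 1) * (q ^ 3 + 1) := by
  obtain ⟨W, hW, h2⟩ := (hf.herm_isIndex (conj_ne_id hF)).exists_ts (j := 2) (by omega)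
  obtain ⟨N, -, -, -, h3, h4⟩ := hf.card_fix_ts hW h2 (r := 0) hn
  have h5 := hf.card_stab_ts hW h2
  have h6 := herm_card_subgroupOf_SIsom hF hf (by omega) (herm_exists_stab_det hF hf (by omega) hW)
  have h7 := herm_card_SIsom hF hf (by omega)
  have h8 := ((f.stab W).subgroupOf f.SIsom).card_mul_index
  have q2 := two_le_of_card_sq hF
  rw [h4, card_isom_of_finrank_zero _ h3, card_ker_π_hermKind, cF hF, hF, Fin.prod_univ_two] at h5
  rw [herm_card_isom hF 4 hf hn, ← h8, ← mul_assoc, h6, h5] at h7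
  refine ⟨f.stab W, fun g ⟨a, ha⟩ => f.mem_stab_of_le fun v hv => ha v ▸ smul_mem _ _ hv, ?_⟩
  rw [herm_Eich_eq hF hf (by omega)]
  have p : ∀ i j, j < i → q ^ j < q ^ i := fun i j => Nat.pow_lt_pow_right (by omega)
  refine Nat.eq_of_mul_eq_mul_left ?_ (h7.trans ?_)
  · have := p 4 0 (by omega)
    have := p 4 2 (by omega)
    simp only [Fin.val_zero, Fin.val_one, ← pow_mul, Nat.reduceMul] at *
    exact Nat.mul_pos (Nat.mul_pos (by omega) (by omega)) (by positivity)
  · simp only [Finset.prod_range_succ, Fin.val_zero, Fin.val_one, ← pow_mul]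
    norm_num [Nat.even_add_one]
    zify [(p 4 2 (by omega)).le, Nat.one_le_pow _ q (by omega)]
    ring

theorem ex_NA (hq : q = 2) {n : ℕ} (hn : finrank F V = n) (n3 : 3 ≤ n) (h : Even n) :
    ∃ K, f.scalars ≤ K ∧ K.relIndex f.Eich = 2 ^ (n - 1) * (2 ^ n - 1) / 3 := by
  subst hq
  obtain ⟨x, -, hx⟩ := f.herm_exists_Q_eq (conj_ne_id hF) (W := ⊤) (by rw [hf.perp_top]; exact disjoint_bot_right)
    (fun e => by have := finrank_top F V; rw [e, finrank_bot] at this; omega) (map_one _)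
  have h0 : x ≠ 0 := by rintro rfl; simp at hx
  have e : ∀ g : f.Isom, g • Projectivization.mk F x h0 = Projectivization.mk F x h0 ↔ ∃ a : F, a • x = (g : V ≃ₗ[F] V) x :=
    fun g => Projectivization.mk_eq_mk_iff' F _ _ _ _
  have tr : ∀ v, f.Q v = 1 → ∃ g ∈ f.Eich, (g : V ≃ₗ[F] V) x = v := fun v hv =>
    witt1 hf (by omega) h0 (by rintro rfl; simp at hv) (hx.trans hv.symm)
  have := orb_mul f.Eich (Projectivization.mk F x h0) x
  rw [ncard_O, show O (stabilizer f.Isom x ⊓ f.Eich) (Projectivization.mk F x h0) = {Projectivization.mk F x h0} from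
    eq_singleton_iff_unique_mem.2 ⟨self_mem_O _ _, by
      rintro _ ⟨g, hg, rfl⟩; exact (e g).2 ⟨1, (one_smul _ _).trans hg.1.symm⟩⟩, ncard_singleton, mul_one,
    show O f.Eich x = {v | f.Q v = 1} from Set.ext fun v => ⟨by rintro ⟨g, -, rfl⟩; exact (Q_coe_map f g x).trans hx, tr v⟩,
    show O (stabilizer f.Isom (Projectivization.mk F x h0) ⊓ f.Eich) x = (· • x) '' {a : F | a ^ (2 + 1) = 1} from
      Set.ext fun v => ⟨by
        rintro ⟨g, hg, rfl⟩
        obtain ⟨a, ha⟩ := (e g).1 hg.1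
        have := Q_coe_map f g x
        rw [← ha, f.herm_Q_smul, hx, mul_one, conj_apply, ← pow_succ'] at this
        exact ⟨a, this, ha⟩, by
        rintro ⟨a, ha, rfl⟩
        obtain ⟨g, hg, e'⟩ := tr (a • x) (by rw [f.herm_Q_smul, hx, mul_one, conj_apply, ← pow_succ', ha])
        exact ⟨g, ⟨(e g).2 ⟨a, e'.symm⟩, hg⟩, e'⟩⟩, ncard_image_of_injective _ (smul_left_injective F h0),
    show {a : F | a ^ (2 + 1) = 1}.ncard = _ from card_norm_eq hF one_ne_zero (one_pow _),
    show {v | f.Q v = 1}.ncard = _ from herm_card_Q_eq hF hf hn (one_pow _) one_ne_zero, if_pos h] at this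
  exact ⟨_, fun g ⟨a, ha⟩ => (e g).2 ⟨a, (ha x).symm⟩, by rw [← this, Nat.mul_div_cancel _ (by omega)]⟩

end CA.Coop
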