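import Cfsg.Agent.Lib.Lin.CoopU7
import Cfsg.Agent.Lib.Lie.Singer

/-! Counting with irreducible tori in dimension three. -/

set_option autoImplicit false
set_option linter.unusedSectionVars false

namespace CA.Coop

open MulAction Module Subgroup
open Set hiding centralizer center

theorem singer3 {F V : Type*} [Field F] [Finite F] [AddCommGroup V] [Module F V] [Finite V] (hn : finrank F V = 3)
    {g : End F V} (hg : ∀ W : Submodule F V, (∀ v ∈ W, g v ∈ W) → W = ⊥ ∨ W = ⊤) {u : End F V} (hu : Commute g u) :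
    (LinearMap.det u = 1 → u ^ (1 + Nat.card F + Nat.card F ^ 2) = 1) ∧
      ((∀ a : F, u ≠ a • 1) → (∀ (a : F) v, u v = a • v → v = 0) ∧ ∀ w, Commute u w → Commute g w) := by
  have : Nontrivial V := Module.finrank_pos_iff.1 (by omega : 0 < finrank F V)
  have : Finite (End F V) := Finite.of_injective (fun f : End F V => (f : V → V)) DFunLike.coe_injective
  obtain ⟨s, hs⟩ := exists_ne (0 : V)
  let L := Subalgebra.centralizer F {g}
  have hL : ∀ f, f ∈ L ↔ Commute g f := fun f => by simp [L, Subalgebra.mem_centralizer_iff, commute_iff_eq]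
  have inj : ∀ f, Commute g f → ∀ v, f v = 0 → f = 0 ∨ v = 0 := fun f hf v e =>
    (hg (LinearMap.ker f) fun w hw => by
      rw [LinearMap.mem_ker, ← End.mul_apply, ← hf.eq, End.mul_apply, hw, map_zero]).symm.imp LinearMap.ker_eq_top.1
      fun h => (Submodule.eq_bot_iff _).1 h v e
  have : NoZeroDivisors L := ⟨fun {a b} e => or_iff_not_imp_left.2 fun h => Subtype.ext (LinearMap.ext fun v =>
    (inj a ((hL _).1 a.2) _ (LinearMap.congr_fun (congrArg Subtype.val e) v)).resolve_left fun e => h (Subtype.ext e))⟩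
  have := NoZeroDivisors.to_isDomain L
  let _ := (Finite.isDomain_to_isField L).toField
  let e : L ≃ₗ[F] V := LinearEquiv.ofBijective ((LinearMap.applyₗ s).comp L.val.toLinearMap)
    ⟨(injective_iff_map_eq_zero _).2 fun f h => Subtype.ext ((inj f ((hL _).1 f.2) s h).resolve_right hs),
      LinearMap.range_eq_top.1 ((hg _ (by
        rintro _ ⟨f, rfl⟩; exact ⟨⟨g, (hL _).2 rfl⟩ * f, rfl⟩)).resolve_left fun h =>
          hs ((Submodule.eq_bot_iff _).1 h _ ⟨1, rfl⟩))⟩
  have hd : finrank F L = 3 := e.finrank_eq.trans hn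
  refine ⟨fun h => ?_, fun h => ⟨fun a v e => by
    simpa [h a, sub_eq_zero] using inj (u - a • 1) (hu.sub_right ((Commute.one_right g).smul_right a)) v (by simp [e]),
    fun w hw => ?_⟩⟩
  · have := FiniteField.algebraMap_norm_eq_pow_sum F L ⟨u, (hL _).2 hu⟩
    rw [Algebra.norm_apply, ← LinearMap.det_conj _ e, show _ ∘ₗ _ = u from LinearMap.ext fun v => by
      obtain ⟨f, rfl⟩ := e.surjective v; simp; rfl, h, hd, map_one] at this
    simpa [Finset.sum_range_succ] using (congrArg Subtype.val this).symm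
  rcases (Subalgebra.isSimpleOrder_of_finrank_prime F L (hd ▸ Nat.prime_three)).eq_bot_or_eq_top
    ((Subalgebra.centralizer F {w}).comap L.val) with e | e
  · obtain ⟨a, ha⟩ := Algebra.mem_bot.1 (e.le (show ⟨u, (hL _).2 hu⟩ ∈ _ from by
      simpa [Subalgebra.mem_centralizer_iff] using hw.symm.eq))
    exact absurd ((congrArg Subtype.val ha).symm.trans (Algebra.algebraMap_eq_smul_one a)) (h a)
  · have := e.ge (Algebra.mem_top (x := ⟨g, (hL _).2 rfl⟩))
    exact Eq.symm (by simpa [Subalgebra.mem_centralizer_iff] using this)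

theorem dvd_of_orbits {G Y : Type*} [Group G] [MulAction G Y] [Finite Y] (Γ : Subgroup G) {m : ℕ} (B : Set Y)
    (h : ∀ y ∈ B, O Γ y ⊆ B ∧ m ∣ (O Γ y).ncard) : m ∣ B.ncard := by
  induction hn : B.ncard using Nat.strong_induction_on generalizing B with | _ n ih =>
  subst hn
  rcases B.eq_empty_or_nonempty with rfl | ⟨y, hy⟩
  · simp
  have := ncard_O_pos Γ y
  have e := ncard_sdiff_add_ncard_of_subset (h y hy).1
  rw [← e]
  exact dvd_add (ih _ (by omega) (B \ O Γ y) (fun z hz => ⟨fun w hw => ⟨(h z hz.1).1 hw, fun h' =>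
    hz.2 (by rw [← O_eq h', O_eq hw]; exact self_mem_O _ _)⟩, (h z hz.1).2⟩) rfl) (h y hy).2

theorem count_D {G Ω : Type*} [Group G] [Finite G] [MulAction G Ω] [Finite Ω] [Nonempty Ω] {e : ℕ}
    (h : ∀ p : Ω, {g : G | g • p = p ∧ 3 ≤ (fixedBy Ω g).ncard}.ncard ≤ {g : G | fixedBy Ω g = {p}}.ncard + e) :
    Nat.card G ≤ 2 * {g : G | ∃ p : Ω, g • p = p}.ncard + e * Nat.card Ω := by
  classical
  have := Fintype.ofFinite G
  have := Fintype.ofFinite Ω
  have h1 := sum_card_fixedBy_eq_card_orbits_mul_card_group G Ω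
  have h2 := Finset.sum_le_sum fun p (_ : p ∈ Finset.univ) => h p
  simp only [ncard_eq_toFinset_card', toFinset_ofPred, Finset.card_filter, Finset.sum_add_distrib, Finset.sum_const,
    smul_eq_mul, Finset.card_univ, Nat.card_eq_fintype_card] at h2 ⊢
  rw [Finset.sum_comm, Finset.sum_comm (f := fun p g => if fixedBy Ω g = {p} then 1 else 0)] at h2
  have h3 : ∑ g : G, (Fintype.card (fixedBy Ω g) + ∑ p : Ω, if fixedBy Ω g = {p} then 1 else 0) ≤
      ∑ g : G, ((∑ p : Ω, if g • p = p ∧ 3 ≤ (fixedBy Ω g).toFinset.card then 1 else 0) +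
        2 * if ∃ p : Ω, g • p = p then 1 else 0) := Finset.sum_le_sum fun g _ => by
    rw [← Finset.card_filter, ← Finset.card_filter, ← toFinset_card]
    have a1 : (Finset.univ.filter fun p => fixedBy Ω g = {p}).card ≤ 1 := Finset.card_le_one.2 fun a ha b hb =>
      singleton_injective ((Finset.mem_filter.1 ha).2.symm.trans (Finset.mem_filter.1 hb).2)
    have a2 : (fixedBy Ω g).toFinset.card ≠ 1 → (Finset.univ.filter fun p => fixedBy Ω g = {p}).card = 0 := fun h =>
      Finset.card_eq_zero.2 (Finset.filter_eq_empty_iff.2 fun p _ e => h (by simp [e]))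
    have a3 : 3 ≤ (fixedBy Ω g).toFinset.card → (fixedBy Ω g).toFinset.card ≤
        (Finset.univ.filter fun p => g • p = p ∧ 3 ≤ (fixedBy Ω g).toFinset.card).card := fun h =>
      Finset.card_le_card fun p hp => Finset.mem_filter.2 ⟨Finset.mem_univ _, (mem_toFinset.1 hp :), h⟩
    split_ifs with h
    · omega
    · have : (fixedBy Ω g).toFinset.card = 0 := Finset.card_eq_zero.2 (Finset.eq_empty_of_forall_notMem fun p hp =>
        h ⟨p, (mem_toFinset.1 hp :)⟩)
      omega
  have : Nonempty (Quotient (orbitRel G Ω)) := ⟨⟦Classical.arbitrary Ω⟧⟩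
  have := Fintype.card_pos (α := Quotient (orbitRel G Ω))
  rw [Finset.sum_add_distrib, Finset.sum_add_distrib, h1, ← Finset.mul_sum] at h3
  nlinarith

/-- A group as a set on which it acts by conjugation. -/
@[ext] structure Cj (G : Type*) where
  val : G

instance {G : Type*} [Group G] : MulAction G (Cj G) where
  smul a b := ⟨a * b.1 * a⁻¹⟩
  one_smul b := Cj.ext (show 1 * b.1 * 1⁻¹ = b.1 by simp)
  mul_smul a b c := Cj.ext (show a * b * c.1 * (a * b)⁻¹ = a * (b * c.1 * b⁻¹) * a⁻¹ by group)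

instance {G : Type*} [Finite G] : Finite (Cj G) := Finite.of_injective Cj.val fun _ _ => Cj.ext

theorem sing_cong {G : Type*} [Group G] [Finite G] {Z : Subgroup G} (hZ : Z ≤ center G) {D : Set G}
    (hD : ∀ h u, h * u * h⁻¹ ∈ D → u ∈ D) {κ : ℕ} (hκ : κ ∣ Nat.card G)
    (h7 : ∀ r, r.Prime → r ∣ κ → 7 ≤ r ∧ ¬ r ∣ Nat.card Z) (k1 : κ ≠ 1) (hD1 : Nat.card G < 7 * D.ncard)
    (hD2 : 77 ≤ κ → 3 * Nat.card G < 7 * D.ncard) (hS : ∀ g : G, (orderOf g).Prime → orderOf g ∣ κ →
      (∀ u ∈ centralizer {g}, u ∉ Z → u ∉ D ∧ centralizer {u} = centralizer {g}) ∧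
      Nat.card (centralizer {g}) ∣ Nat.card Z * κ ∧
      ∃ N : Subgroup G, (∀ h, h * g * h⁻¹ ∈ centralizer {g} ↔ h ∈ N) ∧ (centralizer {g}).relIndex N ∣ 3) :
    ∃ b, Nat.card G = Nat.card Z * κ * (3 + κ * b) := by
  have st : ∀ g : G, stabilizer G (Cj.mk g) = centralizer {g} := fun g => Subgroup.ext fun a =>
    Cj.ext_iff.trans (mul_inv_eq_iff_eq_mul.trans mem_centralizer_singleton_iff.symm)
  have p0 := Nat.card_pos (α := G)
  have pZ := Nat.card_pos (α := Z)
  have key : ∀ r, r.Prime → r ∣ κ → ∃ k b, r ∣ k ∧ k ∣ κ ∧ Nat.card G = Nat.card Z * k * (3 + k * b) ∧ ∃ E : Set G,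
      Disjoint E D ∧ 2 * Nat.card G ≤ 7 * E.ncard ∧ ∀ e ∈ E, Nat.card (centralizer {e}) = Nat.card Z * k := fun r hr rκ => by
    have := Fact.mk hr
    obtain ⟨g, rfl⟩ := exists_prime_orderOf_dvd_card' r (rκ.trans hκ)
    obtain ⟨h1, h2, N, h3, h4⟩ := hS g hr rκ
    set C := centralizer {g}
    have ZC : Z ≤ C := hZ.trans (center_le_centralizer _)
    have hk := (Z.subgroupOf C).card_mul_index
    rw [Nat.card_congr (subgroupOfEquivOfLe ZC).toEquiv] at hk
    set k := (Z.subgroupOf C).index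
    have rk : orderOf g ∣ k := ((Nat.Prime.dvd_mul hr).1 (hk ▸ orderOf_dvd_natCard C (mem_centralizer_singleton_iff.2 rfl))).resolve_left
      (h7 _ hr rκ).2
    have k7 : 7 ≤ k := (h7 _ hr rκ).1.trans (Nat.le_of_dvd (Nat.pos_of_ne_zero index_ne_zero_of_finite) rk)
    have CN : C ≤ N := fun a ha => (h3 a).1 (mul_mem (mul_mem ha (mem_centralizer_singleton_iff.2 rfl)) (inv_mem ha))
    have hN := (C.subgroupOf N).card_mul_index
    rw [Nat.card_congr (subgroupOfEquivOfLe CN).toEquiv] at hN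
    let E := {e | ∃ h, ∃ u ∈ C, u ∉ Z ∧ h * u * h⁻¹ = e}
    have dj : Disjoint E D := disjoint_left.2 fun _ ⟨h, u, a, b, e⟩ c => (h1 u a b).1 (hD h u (e ▸ c))
    have c1 := dc (univ ×ˢ ((C : Set G) \ Z)) E (fun p e => p.1 * p.2 * p.1⁻¹ = e) (m := 1) (n := Nat.card N)
      (fun p hp => (ncard_pos (toFinite _)).2 ⟨_, ⟨_, _, hp.2.1, hp.2.2, rfl⟩, rfl⟩) (by
        rintro _ ⟨h, u, a, b, rfl⟩
        refine ncard_le_ncard_of_injOn (t := (N : Set G)) (fun p => h⁻¹ * p.1) (fun p hp => (h3 _).1 ?_) fun p hp p' hp' e => ?_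
        · rw [← (h1 u a b).2, show u = h⁻¹ * p.1 * p.2 * (h⁻¹ * p.1)⁻¹ by rw [mul_inv_rev, mul_assoc h⁻¹, ← mul_assoc, mul_assoc h⁻¹, hp.2]; group,
            mem_centralizer_singleton_iff]
          exact (Commute.conj (mem_centralizer_singleton_iff.1 hp.1.2.1).symm _).eq
        · have e := mul_left_cancel e
          have := hp.2.trans hp'.2.symm
          exact Prod.ext e (by simpa [e] using this))
    rw [ncard_prod, ncard_univ, ncard_sdiff ZC, show (C : Set G).ncard = _ from hk.symm,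
      show (Z : Set G).ncard = Nat.card Z from rfl, ← hN, ← hk, ← Nat.mul_sub_one] at c1
    have c1 : Nat.card G * (k - 1) ≤ E.ncard * k * C.relIndex N := Nat.le_of_mul_le_mul_left (c := Nat.card Z)
      (by rw [relIndex]; linarith) pZ
    have c2 := ncard_le_card (E ∪ D)
    rw [ncard_union_eq dj] at c2
    obtain ⟨j, hj⟩ : ∃ j, k = j + 1 := ⟨k - 1, by omega⟩
    rw [hj, Nat.add_sub_cancel] at c1
    have t3 : C.relIndex N = 3 := ((Nat.dvd_prime Nat.prime_three).1 h4).resolve_left fun e => by rw [e] at c1; nlinarith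
    have c3 := ncard_O_mul (⊤ : Subgroup G) (Cj.mk g)
    obtain ⟨b, hb⟩ := dvd_of_orbits C (m := k) (O (⊤ : Subgroup G) (Cj.mk g) \ O N (Cj.mk g)) fun y hy => ⟨by
        rintro _ ⟨a, ha, rfl⟩
        exact ⟨smul_mem_O (mem_top a) hy.1, fun h => hy.2 (inv_smul_smul a y ▸ smul_mem_O (inv_mem (CN ha)) h)⟩, by
      rw [ncard_O, st]
      refine index_dvd_of_le fun a ha => by_contra fun h => hy.2 ?_
      obtain ⟨x, -, rfl⟩ := hy.1
      exact mem_O ((h3 x).1 ((h1 a a.2 h).2 ▸ mem_centralizer_singleton_iff.2 (mem_centralizer_singleton_iff.1 ha).symm)) _⟩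
    have := ncard_sdiff_add_ncard_of_subset (O_mono (le_top (a := N)) (self_mem_O _ (Cj.mk g)))
    rw [hb, ncard_O N, st, t3] at this
    rw [← this, st, inf_top_eq, card_top, ← hk] at c3
    refine ⟨k, b, rk, Nat.dvd_of_mul_dvd_mul_left pZ (hk ▸ h2), by rw [← c3]; ring, E, dj, by rw [t3] at c1; nlinarith, ?_⟩
    rintro _ ⟨h, u, a, b, rfl⟩
    rw [hk, ← (h1 u a b).2, ← st, ← st]
    exact (Nat.card_congr (stabilizerEquivStabilizer (g := h) (a := Cj.mk u) rfl).toEquiv).symm
  obtain ⟨k, b, h1, h2, h3, E, h4, h5, h6⟩ := key _ (Nat.minFac_prime k1) κ.minFac_dvd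
  have : κ.Coprime (3 + k * b) := Nat.coprime_of_dvd fun r hr rκ h => by
    have r7 := (h7 r hr rκ).1
    refine absurd (Nat.le_of_dvd three_pos ((Nat.dvd_add_left (Dvd.dvd.mul_right (by_contra fun rk => ?_) b)).1 h)) (by omega)
    obtain ⟨k', -, h1', -, -, E', h4', h5', h6'⟩ := key r hr rκ
    have c := ncard_le_card (E ∪ E' ∪ D)
    rw [ncard_union_eq (disjoint_union_left.2 ⟨h4, h4'⟩), ncard_union_eq (disjoint_left.2 fun e a b =>
      rk (Nat.eq_of_mul_eq_mul_left pZ ((h6 e a).symm.trans (h6' e b)) ▸ h1'))] at c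
    have ne : κ.minFac ≠ r := fun e => rk (e ▸ h1)
    have m7 := (h7 _ (Nat.minFac_prime k1) κ.minFac_dvd).1
    have := Nat.le_of_dvd (Nat.pos_of_dvd_of_pos hκ p0) (((Nat.coprime_primes (Nat.minFac_prime k1) hr).2 ne).mul_dvd_of_dvd_of_dvd
      κ.minFac_dvd rκ)
    have mr := Nat.minFac_le_of_dvd hr.two_le rκ
    have : 11 ≤ r := by
      by_contra! h
      interval_cases r <;> first | omega | norm_num at hr
    have := hD2 (by nlinarith)
    omega
  rw [h3] at hκ
  obtain rfl := Nat.dvd_antisymm h2 ((Nat.coprime_of_dvd fun r hr rκ => (h7 r hr rκ).2).dvd_of_dvd_mul_left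
    (this.dvd_of_dvd_mul_right hκ))
  exact ⟨b, h3⟩

end CA.Coop
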