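import Cfsg.Agent.Lib.Lin.CoopV1

/-! Minimal degree of the three-dimensional unitary groups: elements fixing isotropic points. -/

set_option autoImplicit false
set_option linter.unusedSectionVars false

namespace CA.Coop

open MulAction Module CA.CForm CA.CForm.Form Set Submodule

variable {F : Type*} [Field F] [Fintype F] {q : ℕ} {hF : Fintype.card F = q ^ 2} {V : Type*} [AddCommGroup V] [Module F V]
  [FiniteDimensional F V] {f : Form (hermKind hF) V} (hf : f.Nondeg) (hn : finrank F V = 1 + 2) {x : V}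
  (h0 : x ≠ 0) (hx : f.Q x = 0) {Y : Type*} [Finite Y] [MulAction f.Isom Y]

local notation:75 g:76 " ⊳ " v:75 => (g : V ≃ₗ[F] V) v
local notation "σ" => conj hF

theorem eig {g : f.Isom} {u v : V} {a b : F} (hu : g ⊳ u = a • u) (hv : g ⊳ v = b • v) (e : f.B u v ≠ 0) : σ a * b = 1 := by
  have := B_coe_map f g u v
  rw [hu, hv, B_smul_left, map_smul, smul_eq_mul, ← mul_assoc] at this
  exact (mul_eq_right₀ e).1 this

include hf hn

theorem card_Z {K : Subgroup f.Isom} (h : f.scalars ⊓ f.Eich ≤ K) (h' : K ≤ f.Eich) :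
    Nat.card (f.scalars.subgroupOf K) = Nat.gcd 3 (q + 1) := by
  have e : ∀ K : Subgroup f.Isom, Nat.card (f.scalars.subgroupOf K) = Nat.card (f.scalars ⊓ K : Subgroup _) := fun K => by
    rw [← Subgroup.inf_subgroupOf_right, Nat.card_congr (Subgroup.subgroupOfEquivOfLe inf_le_right).toEquiv]
  have := herm_card_center_SIsom hF hf (by omega)
  rwa [herm_center_eq hF hf (by omega) le_rfl, e, hn, ← herm_Eich_eq hF hf (by omega),
    le_antisymm (le_inf inf_le_left h) (inf_le_inf_left _ h'), ← e] at this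

include h0 hx

theorem iso1 {v : V} (hv : f.Q v = 0) (e : f.B x v = 0) : v ∈ F ∙ x := by_contra fun h => by
  have := hf.two_mul_finrank_le (f.ts_span (S := {x, v}) (by simp [hx, hv]) (by
    simp [e, f.eq_zero_symm e, f.B_self_of_Q hx, f.B_self_of_Q hv]))
  rw [finrank_pair h0 h] at this
  omega

theorem pt_ne {v : V} {v0 : v ≠ 0} {hv : f.Q v = 0} (h : f.pt v v0 hv ≠ f.pt x h0 hx) : f.B x v ≠ 0 := fun e =>
  h (f.pt_eq_iff.2 (mem_span_singleton.1 (iso1 hf hn h0 hx hv e)))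

theorem fix1 {K : Subgroup f.Isom} {g : K} {a : F} (h : g.1 ⊳ x = a • x)
    (h' : ∀ v (b : F), f.B x v ≠ 0 → g.1 ⊳ v ≠ b • v) : fixedBy f.Pt g = {f.pt x h0 hx} :=
  eq_singleton_iff_unique_mem.2 ⟨(f.smul_pt_eq_iff g.1).2 ⟨a, h⟩, fun p hp => by_contra fun e => by
    obtain ⟨v, v0, hv, rfl⟩ := f.exists_pt p
    obtain ⟨b, hb⟩ := (f.smul_pt_eq_iff g.1).1 hp
    exact h' v b (pt_ne hf hn h0 hx e) hb⟩

theorem big {K : Subgroup f.Isom} {g : K} (h : g • f.pt x h0 hx = f.pt x h0 hx) (h3 : 3 ≤ (fixedBy f.Pt g).ncard) :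
    ∃ a z, a * σ a = 1 ∧ f.IsHyp x z ∧ g.1 ⊳ x = a • x ∧ g.1 ⊳ z = a • z := by
  have : Finite V := Module.finite_of_finite F
  have := ncard_sdiff_singleton_add_one (s := fixedBy f.Pt g) h
  obtain ⟨p, p', hp, hp', ne⟩ := (one_lt_ncard_iff (toFinite _)).1 (show 1 < (fixedBy f.Pt g \ {f.pt x h0 hx}).ncard by omega)
  obtain ⟨v, v0, hv, rfl⟩ := f.exists_pt p
  obtain ⟨w, w0, hw, rfl⟩ := f.exists_pt p'
  obtain ⟨a, ha⟩ := (f.smul_pt_eq_iff g.1).1 h
  obtain ⟨b, hb⟩ := (f.smul_pt_eq_iff g.1).1 hp.1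
  obtain ⟨c, hc⟩ := (f.smul_pt_eq_iff g.1).1 hp'.1
  have e := pt_ne hf hn h0 hx hp.2
  have e1 := eig ha hb e
  have e2 := eig ha hc (pt_ne hf hn h0 hx hp'.2)
  have e3 := eig hb hc (pt_ne hf hn v0 hv ne.symm)
  obtain rfl : a = b := (σ).injective (mul_right_cancel₀ (right_ne_zero_of_mul_eq_one e2) (e2.trans e3.symm))
  exact ⟨a, (f.B x v)⁻¹ • v, (mul_comm _ _).trans e1, ⟨hx, f.Q_smul_of_Q hv _, by simp [e]⟩, ha, by
    rw [map_smul, hb, smul_comm]⟩

theorem det3 {z : V} (hz : f.IsHyp x z) {g : f.Isom} (hg : g ∈ f.Eich) {a c : F} (ha : g ⊳ x = a • x) (hc : g ⊳ z = c • z) :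
    ∃ b, a * c * b = 1 ∧ ∀ w, f.B x w = 0 → f.B z w = 0 → g ⊳ w = b • w := by
  obtain ⟨⟨e, he⟩, e0, h⟩ := finrank_eq_one_iff'.1 (show finrank F (f.perp (span F {x, z})) = 1 by
    have := hz.finrank_perp; omega)
  have h : ∀ w, f.B x w = 0 → f.B z w = 0 → ∃ c : F, c • e = w := fun w h1 h2 =>
    (h ⟨w, f.mem_perp_span_pair.2 ⟨h1, h2⟩⟩).imp fun _ => congrArg Subtype.val
  obtain ⟨e1, e2⟩ := f.mem_perp_span_pair.1 he
  have ac := eig ha hc (by simp [hz.B_xy])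
  have ca := eig hc ha (by simp [hz.B_yx])
  obtain ⟨b, hb⟩ := h (g ⊳ e) (by simpa [ha, e1, left_ne_zero_of_mul_eq_one ac] using B_coe_map f g x e)
    (by simpa [hc, e2, left_ne_zero_of_mul_eq_one ca] using B_coe_map f g z e)
  refine ⟨b, ?_, fun w h1 h2 => by obtain ⟨c, rfl⟩ := h w h1 h2; rw [map_smul, ← hb, smul_comm]⟩
  have hQ : f.Q e ≠ 0 := fun hQ => by
    obtain ⟨t, rfl⟩ := mem_span_singleton.1 (iso1 hf hn h0 hx hQ e1)
    exact e0 (Subtype.ext (by simpa [hz.B_yx, h0] using e2))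
  let B := basisOfLinearIndependentOfCardEqFinrank (linearIndependent_of_dual (f := f) (v := ![x, z, e]) (w := ![z, x, e])
    (fun i j h => by
      fin_cases i <;> fin_cases j <;> simp [hz.B_xx, hz.B_yy, e1, e2, f.eq_zero_symm e1, f.eq_zero_symm e2] at h ⊢)
    fun i => by fin_cases i <;> simp [hz.B_yx, hz.B_xy, f.herm_B_self, hQ]) (by simp [hn])
  have := B.det_comp (g : V ≃ₗ[F] V) B
  rw [show _ ∘ _ = fun i => ![a, c, b] i • B i from funext fun i => by fin_cases i <;> simp [B, ha, hc, hb],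
    AlternatingMap.map_smul_univ, ← coe_detHom, mem_SIsom.1 (f.Eich_le_SIsom hg), B.det_self, Fin.prod_univ_three] at this
  simpa using this

theorem Q_of_fix {g : f.Isom} (hg : g ∈ f.Eich) (h : g ⊳ x = x) : g ∈ f.Qgrp x := by
  obtain ⟨z, hz⟩ := hf.exists_isHyp hx h0
  obtain ⟨e, he, e1⟩ := exists_Qgrp_apply_eq hx (v := z) (v' := g ⊳ z) (by simp [hz.B_xy])
    (by rw [← B_coe_map f g x z, h]) (Q_coe_map f g z)
  have e2 : (e⁻¹ * g : f.Isom) ⊳ x = x := by rw [isom_mul_apply, h, f.apply_of_mem_Qgrp (inv_mem he)]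
  have e3 : (e⁻¹ * g : f.Isom) ⊳ z = z := by rw [isom_mul_apply, ← e1, isom_inv_apply_apply]
  obtain ⟨b, hb, h⟩ := det3 hf hn h0 hx hz (mul_mem (inv_mem (f.Qgrp_le_Eich x he)) hg) (e2.trans (one_smul F x).symm)
    (e3.trans (one_smul F z).symm)
  rwa [← inv_mul_eq_one.1 (hz.isom_ext (g' := 1) e2 e3 fun w h1 h2 => by
    rw [h w h1 h2, show b = 1 by simpa using hb, one_smul, isom_one_apply])]

theorem cardQ : Nat.card (f.Qgrp x) = q ^ 3 := by
  rw [CA.AutForm.card_Qgrp hf hx h0, card_ker_π_hermKind, cF hF, hn]; simp [pow_succ]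

theorem bigcount (hq : 3 ≤ q) (y : Y) (hZ : f.scalars ⊓ f.Eich ≤ stabilizer f.Isom y) :
    {g : ↥(stabilizer f.Isom y ⊓ f.Eich) | g • f.pt x h0 hx = f.pt x h0 hx ∧ 3 ≤ (fixedBy f.Pt g).ncard}.ncard ≤
      {g : ↥(stabilizer f.Isom y ⊓ f.Eich) | fixedBy f.Pt g = {f.pt x h0 hx}}.ncard + (q + 1) := by
  have : Finite V := Module.finite_of_finite F
  set A := {g : ↥(stabilizer f.Isom y ⊓ f.Eich) | g • f.pt x h0 hx = f.pt x h0 hx ∧ 3 ≤ (fixedBy f.Pt g).ncard}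
  have hA : ∀ g ∈ A, ∃ a z, a * σ a = 1 ∧ f.IsHyp x z ∧ g.1 ⊳ x = a • x ∧ g.1 ⊳ z = a • z := fun g hg =>
    big hf hn h0 hx hg.1 hg.2
  by_cases hR : R hx y = ⊥
  swap
  · obtain ⟨⟨c, h, e⟩, c0⟩ := AddSubgroup.ne_bot_iff_exists_ne_zero.1 hR
    refine le_add_right (ncard_le_ncard_of_injOn (· * ⟨_, e, f.eichler_mem_Eich _ _ _ h⟩) (fun g hg => ?_)
      (mul_left_injective _).injOn)
    obtain ⟨a, z, h1, hz, h2, h3⟩ := hA g hg
    refine fix1 hf hn h0 hx (a := a) (by simp [eichler_apply_self, h2]) fun v b hv e => c0 (Subtype.ext ?_)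
    have e1 := B_coe_map f g.1 x (f.eichler x 0 c h ⊳ v)
    have e2 := B_coe_map f g.1 z (f.eichler x 0 c h ⊳ v)
    rw [show g.1 ⊳ f.eichler x 0 c h ⊳ v = b • v from e] at e1 e2
    simp [h2, h3, eichler_zero_apply, f.B_self_of_Q hx, hz.B_yx, ← mul_assoc, hv] at e1 e2
    rw [e1, one_mul] at e2
    exact (mul_eq_zero.1 (by linear_combination e2)).resolve_right hv
  by_cases hW : ∀ w ∈ W hx y, w ∈ F ∙ x
  · have h1 := regQ hf hn h0 hx hW
    have h2 := ncard_O_mul (f.Qgrp x) y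
    rw [cardQ hf hn h0 hx] at h2
    rw [hR, AddSubgroup.card_bot, mul_one, ← pow_succ', ← h2] at h1
    have h3 := Subgroup.eq_bot_of_card_le _ (Nat.le_of_mul_le_mul_left h1 (ncard_O_pos (f.Qgrp x) y))
    choose! a z h4 _ h5 _ using hA
    refine le_add_left ((ncard_le_ncard_of_injOn (t := {a : F | a ^ (q + 1) = 1}) a (fun g hg => (pow_succ' _ _).trans (h4 g hg))
      fun g hg g' hg' e => ?_).trans (card_norm_eq hF one_ne_zero (one_pow _)).le)
    exact Subtype.ext (inv_mul_eq_one.1 (Subgroup.mem_bot.1 (h3 ▸ ⟨(g⁻¹ * g').2.1, Q_of_fix hf hn h0 hx (g⁻¹ * g').2.2 (by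
      rw [isom_mul_apply, h5 g' hg', ← e, ← h5 g hg, isom_inv_apply_apply])⟩)))
  push Not at hW
  obtain ⟨w, hw, hw'⟩ := hW
  have h3 : ∀ g ∈ A, g.1 ∉ f.scalars → ∃ a, a * σ a = 1 ∧ a ^ 3 = -1 ∧ g.1 ⊳ x = a • x := fun g hg hs => by
    obtain ⟨a, z, h1, hz, h2, h3⟩ := hA g hg
    obtain ⟨b, h4, h5⟩ := det3 hf hn h0 hx hz g.2.2 h2 h3
    have a0 := left_ne_zero_of_mul_eq_one h1
    have m := add_mem hw (smul_mem_W (-f.B z w))
    have := W_map m hx a0 h2
    rw [show g.1 • y = y from g.2.1, h5 _ (W_perp m) (by simp [hz.B_yx])] at this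
    have := comm_fix hx hR m this
    have hQ : f.Q (w + -f.B z w • x) ≠ 0 := fun e => hw' ((add_mem_cancel_right (smul_mem _ _ (mem_span_singleton_self x))).1
      (iso1 hf hn h0 hx e (W_perp m)))
    have e1 : σ a = a⁻¹ := eq_inv_of_mul_eq_one_right h1
    have e2 : b = a⁻¹ * a⁻¹ := by field_simp; linear_combination h4
    simp only [map_smul, smul_eq_mul, f.herm_B_self, map_mul, f.herm_Q_fixed, Kind.herm_σ, e1, e2, map_inv₀, inv_inv] at this
    field_simp at this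
    refine ⟨a, h1, (sq_eq_one_iff.1 (by linear_combination this)).resolve_left fun e => hs ?_, h2⟩
    rw [hz.isom_ext (g' := f.scalarIsom a h1) h2 h3 fun w h1 h2 => by
      rw [h5 w h1 h2, show b = a by rw [e2]; field_simp; linear_combination -e]; rfl]
    exact f.scalarIsom_mem _ _
  set S := (f.scalars.subgroupOf (stabilizer f.Isom y ⊓ f.Eich) : Set ↥(stabilizer f.Isom y ⊓ f.Eich))
  have hS : S.ncard = _ := card_Z hf hn (le_inf hZ inf_le_right) inf_le_right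
  have d : 2 * S.ncard ≤ q + 1 := by
    rw [hS]
    rcases (Nat.dvd_prime Nat.prime_three).1 (Nat.gcd_dvd_left 3 (q + 1)) with h | h
    · omega
    · have := h ▸ Nat.gcd_dvd_right 3 (q + 1); omega
  by_cases hAS : A ⊆ S
  · have := ncard_le_ncard hAS; omega
  obtain ⟨k, hk, hk'⟩ := not_subset.1 hAS
  obtain ⟨a, a1, a2, a3⟩ := h3 k hk hk'
  have c1 := ncard_le_ncard_of_injOn (s := A \ S) (t := {g | fixedBy f.Pt g = {f.pt x h0 hx}} ∪ S) (k * ·) (fun g hg => by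
    obtain ⟨b, b1, b2, b3⟩ := h3 g hg.1 hg.2
    have e : (k * g).1 ⊳ x = (a * b) • x := by simp [b3, a3, smul_smul, mul_comm]
    have n : a * b * (hermKind hF).σ (a * b) = 1 := by
      simp only [map_mul, Kind.herm_σ]; linear_combination (b * σ b) * a1 + b1
    refine or_iff_not_imp_right.2 fun h => fix1 hf hn h0 hx e fun v c hv e' => h ?_
    have := eq_one_of_mem_Qgrp hx (Q_of_fix hf hn h0 hx (g := (f.scalarIsom _ n)⁻¹ * (k * g).1) (mul_mem (inv_mem (by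
      rw [herm_Eich_eq hF hf (by omega), mem_SIsom, ← Units.val_eq_one, detHom_of_smul _ (scalarIsom_apply _ _ _), hn, mul_pow,
        a2, b2]; simp)) (k * g).2.2) (by rw [isom_mul_apply, e]; exact isom_inv_apply_apply f _ x)) hv (a := c * (a * b)⁻¹) (by
      rw [isom_mul_apply, e', map_smul, inv_apply (left_ne_zero_of_mul_eq_one n) (scalarIsom_apply _ _ _ _), smul_smul])
    exact show (k * g).1 ∈ f.scalars from inv_mul_eq_one.1 this ▸ f.scalarIsom_mem _ _) (mul_right_injective _).injOn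
  have := ncard_union_le {g : ↥(stabilizer f.Isom y ⊓ f.Eich) | fixedBy f.Pt g = {f.pt x h0 hx}} S
  have := ncard_le_ncard_sdiff_add_ncard A S
  omega

end CA.Coop
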