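import Cfsg.Agent.Lib.Lin.CoopV2

/-! Minimal degree of the three-dimensional unitary groups. -/

set_option autoImplicit false
set_option linter.unusedSectionVars false

namespace CA.Coop

open MulAction Module CA.CForm CA.CForm.Form Set Submodule

theorem numC {q n N : ℕ} (hq : 3 ≤ q) (hN : N + q = q ^ 2 + 1) (h1 : 1 < n) (h2 : n ≤ q ^ 3) (h3 : N ∣ 3 * (n - 1))
    {m : ℕ} (h4 : n = q * m) : ∃ v, 3 * m + 3 * q ^ 2 = N * v ∧ 3 * (q + 1) < q * v ∧ q * v < 6 * (q + 1) := by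
  obtain ⟨e, he⟩ := h3
  have e1 : N * (q + 1) = q ^ 3 + 1 := by zify at *; linear_combination (q + 1) * hN
  have e2 : q * (3 * m + 3 * q ^ 2) = N * (e + 3 * (q + 1)) := by zify [h1.le] at *; linear_combination he - 3 * h4 - 3 * e1
  obtain ⟨v, hv⟩ := (show q.Coprime N from Nat.coprime_of_dvd fun r hr h h' => hr.not_dvd_one
    ((Nat.dvd_add_right (dvd_pow h two_ne_zero)).1 (hN ▸ dvd_add h' h))).dvd_of_dvd_mul_left ⟨_, e2.symm⟩
  have : e ≠ 0 := by rintro rfl; omega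
  have : e < 3 * (q + 1) := lt_of_mul_lt_mul_left (a := N) (by rw [← he, mul_left_comm, e1]; omega) (by omega)
  exact ⟨v, Nat.eq_of_mul_eq_mul_left (by omega : 0 < q) (by rw [e2, hv]; ring), by omega, by omega⟩

theorem numA {q n N : ℕ} (hq : 3 ≤ q) (hN : N + q = q ^ 2 + 1) (h1 : 1 < n) (h2 : n ≤ q ^ 3) (h3 : N ∣ 3 * (n - 1))
    (h4 : q ^ 2 ∣ n) : q = 5 ∧ n = 50 := by
  obtain ⟨c, hc⟩ := h4
  obtain ⟨v, h5, h6, h7⟩ := numC hq hN h1 h2 h3 (m := q * c) (by rw [hc]; ring)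
  have : q ∣ v := by
    have : (v : ℤ) = q * (3 * c + 3 * q + v - q * v) := by zify at *; linear_combination -h5 - v * hN
    exact Int.natCast_dvd_natCast.1 ⟨_, this⟩
  have : q ≤ 6 := by nlinarith [Nat.le_of_dvd (Nat.pos_of_mul_pos_left (by omega : 0 < q * v)) this]
  obtain rfl : N = q ^ 2 + 1 - q := by omega
  interval_cases q <;> omega

theorem numB {q n N τ : ℕ} (hq : 4 ≤ q) (h5 : q ≠ 5) (hN : N + q = q ^ 2 + 1) (h1 : 1 < n) (h2 : n ≤ q ^ 3)
    (h3 : N ∣ 3 * (n - 1)) (h4 : q ∣ n) (t1 : τ ∣ n) (t2 : τ ∣ q - 1) (t3 : 3 ≤ τ) : False := by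
  obtain ⟨m, hm⟩ := h4
  obtain ⟨v, h5, h6, h7⟩ := numC (by omega) hN h1 h2 h3 hm
  obtain ⟨a, ha⟩ := t2
  obtain rfl : q = τ * a + 1 := by omega
  obtain ⟨b, rfl⟩ := Nat.Coprime.dvd_of_dvd_mul_left (by simp) (hm ▸ t1)
  obtain ⟨w, rfl⟩ : ∃ w, v = w + 3 := ⟨v - 3, by have : 3 < v := by nlinarith
                                                 omega⟩
  have : (w : ℤ) = τ * (3 * b + 6 * a + 3 * τ * a ^ 2 - (τ * a ^ 2 + a) * (w + 3)) := by
    zify at hN h5; linear_combination -h5 - (w + 3) * hN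
  have t := Int.natCast_dvd_natCast.1 ⟨_, this⟩
  have w0 : 0 < w := by nlinarith
  have := Nat.le_of_dvd w0 t
  have : w ≤ 4 := by nlinarith
  have : τ = 3 ∧ w = 3 ∨ τ = 4 ∧ w = 4 := by
    have : τ ≤ 4 := by omega
    interval_cases τ <;> omega
  rcases this with ⟨rfl, rfl⟩ | ⟨rfl, rfl⟩
  · ring_nf at hN h5; omega
  · omega

theorem kap_ex {q : ℕ} (hq : 3 ≤ q) : ∃ κ N, N + q = q ^ 2 + 1 ∧ Nat.gcd 3 (q + 1) * κ = N ∧ κ ≠ 1 ∧
    ∀ r, r.Prime → r ∣ κ → 7 ≤ r := by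
  obtain ⟨N, hN⟩ : ∃ N, N + q = q ^ 2 + 1 := ⟨q ^ 2 + 1 - q, by have := Nat.le_self_pow two_ne_zero q; omega⟩
  have m : ∀ k, k ∣ N → (q % k) ^ 2 + 1 ≡ q % k [MOD k] := fun k h =>
    (((Nat.mod_modEq q k).pow 2).add_right 1).trans (hN ▸ ((Nat.modEq_zero_iff_dvd.2 h).add_right q).trans
      (by rw [zero_add]; exact (Nat.mod_modEq q k).symm))
  have a : ∀ k, 0 < k → (∀ i < k, ¬ i ^ 2 + 1 ≡ i [MOD k]) → ¬ k ∣ N := fun k k0 h e => h _ (Nat.mod_lt _ k0) (m k e)
  have a2 := a 2 (by omega) (by decide)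
  have a5 := a 5 (by omega) (by decide)
  have a9 := a 9 (by omega) (by decide)
  have a3 : 3 ∣ N ↔ 3 ∣ q + 1 := ⟨fun h => by
    have := (show ∀ i < 3, i ^ 2 + 1 ≡ i [MOD 3] → i = 2 by decide) _ (Nat.mod_lt _ three_pos) (m 3 h); omega, fun ⟨c, h⟩ => by
    obtain ⟨c, rfl⟩ : ∃ d, q = 3 * d + 2 := ⟨c - 1, by omega⟩
    ring_nf at hN; omega⟩
  have N7 : 7 ≤ N := by nlinarith
  have k : ∀ κ, κ ∣ N → ¬ 3 ∣ κ → ∀ r, r.Prime → r ∣ κ → 7 ≤ r := fun κ h h3 r hr e => by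
    by_contra! c
    have := e.trans h
    interval_cases r <;> first | omega | norm_num at hr
  by_cases h : 3 ∣ q + 1
  · obtain ⟨κ, rfl⟩ := a3.2 h
    exact ⟨κ, _, hN, by rw [Nat.gcd_eq_left h], by omega, k κ (by simp) (by omega)⟩
  · exact ⟨N, N, hN, by rw [(Nat.prime_three.coprime_iff_not_dvd.2 h).gcd_eq_one, one_mul], by omega, k N dvd_rfl (a3.not.2 h)⟩

theorem dvd_of_le_pow {F : Type*} [Field F] [Finite F] {s t m : ℕ} (hs : s ∣ Nat.card F ^ m) (ht : t ∣ Nat.card F ^ m)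
    (h : s ≤ t) : s ∣ t := by
  have := Fintype.ofFinite F
  obtain ⟨e, hp, he⟩ := FiniteField.card F (ringChar F)
  rw [Nat.card_eq_fintype_card, he, ← pow_mul] at hs ht
  obtain ⟨i, -, rfl⟩ := (Nat.dvd_prime_pow hp).1 hs
  obtain ⟨j, -, rfl⟩ := (Nat.dvd_prime_pow hp).1 ht
  exact pow_dvd_pow _ ((Nat.pow_le_pow_iff_right hp.one_lt).1 h)

theorem mem_zp {C : Type*} [Group C] [Finite C] [IsCyclic C] {g x : C} (h : x ^ orderOf g = 1) : x ∈ Subgroup.zpowers g := by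
  classical
  have := Fintype.ofFinite C
  refine (eq_of_subset_of_ncard_le (s := (Subgroup.zpowers g : Set C)) (t := {x | x ^ orderOf g = 1}) (fun _ h =>
    orderOf_dvd_iff_pow_eq_one.1 (orderOf_dvd_of_mem_zpowers h)) ?_).ge h
  rw [show Set.ncard _ = _ from Nat.card_zpowers g, ncard_eq_toFinset_card', toFinset_ofPred]
  exact IsCyclic.card_pow_eq_one_le (orderOf_pos g)

variable {F : Type*} [Field F] [Fintype F] {q : ℕ} {hF : Fintype.card F = q ^ 2} {V : Type*} [AddCommGroup V] [Module F V]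
  [FiniteDimensional F V] {f : Form (hermKind hF) V} (hf : f.Nondeg) (hn : finrank F V = 1 + 2) {x : V}
  (h0 : x ≠ 0) (hx : f.Q x = 0) {Y : Type*} [Finite Y] [MulAction f.Isom Y]

local notation:75 g:76 " ⊳ " v:75 => (g : V ≃ₗ[F] V) v
local notation "σ" => conj hF

include hf hn

theorem trans3 {y : Y} (h : (O f.Eich y).ncard ≤ q ^ 3) (p p' : f.Pt) : p' ∈ O (stabilizer f.Isom y ⊓ f.Eich) p := by
  have : Finite V := Module.finite_of_finite F
  by_cases H : ∀ z, z ≠ 0 → f.Q z = 0 → ∃ u ∈ f.Qgrp z, u • y = y ∧ u ≠ 1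
  · have pr := CharP.char_is_prime F (ringChar F)
    have k : ∀ p : f.Pt, ∃ u ∈ stabilizer f.Isom y ⊓ f.Eich, u • p = p ∧
        ∀ B : Set f.Pt, (∀ y ∈ B, u • y ∈ B) → ¬ ringChar F ∣ B.ncard → p ∈ B := fun p => by
      obtain ⟨z, z0, hz, rfl⟩ := f.exists_pt p
      obtain ⟨u, hu, e, u1⟩ := H z z0 hz
      have := Fact.mk pr
      obtain ⟨i, hi⟩ := CA.AutForm.Qgrp_isPGroup (p := ringChar F) hf hz z0 ⟨u, hu⟩
      refine ⟨u, ⟨e, f.Qgrp_le_Eich z hu⟩, (f.smul_pt_eq_iff u).2 ⟨1, by rw [f.apply_of_mem_Qgrp hu, one_smul]⟩,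
        fun B hB c => ?_⟩
      obtain ⟨p, hp, e⟩ := exists_fixed pr (congrArg Subtype.val hi) hB c
      obtain ⟨v, v0, hv, rfl⟩ := f.exists_pt p
      obtain ⟨a, ha⟩ := (f.smul_pt_eq_iff u).1 e
      exact by_contra fun c => u1 (eq_one_of_mem_Qgrp hz hu (pt_ne hf hn z0 hz fun e => c (e ▸ hp)) ha)
    obtain ⟨u, hu, e, h1⟩ := k p
    obtain ⟨u', hu', -, h2⟩ := k p'
    refine h2 _ (fun _ => smul_mem_O hu') fun c => (h1 (O (stabilizer f.Isom y ⊓ f.Eich) p \ {p}) (fun y hy => ⟨smul_mem_O hu hy.1, fun c =>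
      hy.2 (MulAction.injective u (c.trans e.symm))⟩) fun c' => pr.not_dvd_one ?_).2 rfl
    exact (Nat.dvd_add_right c').1 (ncard_sdiff_singleton_add_one (self_mem_O (stabilizer f.Isom y ⊓ f.Eich) p) ▸ c)
  push Not at H
  obtain ⟨z, z0, hz, H⟩ := H
  have e := ncard_O_mul (f.Qgrp z) y
  rw [cardQ hf hn z0 hz, (Subgroup.eq_bot_iff_forall (stabilizer f.Isom y ⊓ f.Qgrp z)).2 fun u hu => H u hu.2 hu.1, Subgroup.card_bot, mul_one] at e
  have e := eq_of_subset_of_ncard_le (O_mono (f.Qgrp_le_Eich z) (self_mem_O _ y)) (e ▸ h)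
  have k : ∀ p, p ∈ O (stabilizer f.Isom y ⊓ f.Eich) (f.pt z z0 hz) := fun p => by
    obtain ⟨v, v0, hv, rfl⟩ := f.exists_pt p
    obtain ⟨g, hg, rfl⟩ := witt1 hf (by omega) z0 v0 (hz.trans hv.symm)
    obtain ⟨u, hu, e⟩ := e.ge (mem_O (inv_mem hg) y)
    exact ⟨g * u, ⟨show _ • _ = _ by rw [mul_smul, e, smul_inv_smul], mul_mem hg (f.Qgrp_le_Eich z hu)⟩,
      (f.smul_pt_eq_iff _).2 ⟨1, by rw [isom_mul_apply, f.apply_of_mem_Qgrp hu, one_smul]⟩⟩
  exact O_eq (k p) ▸ k p'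

theorem PE_trans {y : Y} (h : (O f.Eich y).ncard ≤ q ^ 3) (h0 : x ≠ 0) (hx : f.Q x = 0) : O (PE f x) y = O f.Eich y :=
  (O_mono (PE_le x) (self_mem_O _ _)).antisymm (by
    rintro _ ⟨g, hg, rfl⟩
    obtain ⟨a, ha, e⟩ := trans3 hf hn h (f.pt x h0 hx) (g⁻¹ • f.pt x h0 hx)
    exact ⟨g * a, PE_eq h0 hx ▸ ⟨show _ • _ = _ by rw [mul_smul, e, smul_inv_smul], mul_mem hg ha.2⟩, by
      rw [mul_smul, ha.1]⟩)

theorem card_Pt : Nat.card f.Pt = q ^ 3 + 1 := by
  have : Finite V := Module.finite_of_finite F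
  obtain ⟨x, h0, hx⟩ := herm_exists_singular' hF (f := f) (by omega)
  have := orb_pt (Y := Unit) hf hn h0 hx le_rfl ()
  rw [eq_univ_of_forall (trans3 (Y := Unit) hf hn ((ncard_le_card _).trans (by
    simpa using Nat.one_le_pow _ _ (by have := two_le_of_card_sq hF; omega))) _), ncard_univ] at this
  have k : ∀ Γ : Subgroup f.Isom, (O Γ ()).ncard = 1 := fun Γ => by
    rw [show O Γ () = univ from eq_univ_of_forall (self_mem_O Γ), ncard_univ, Nat.card_unique]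
  simpa [k, NI] using this

theorem cong3 (hq : 3 ≤ q) {y : Y} (h : (O f.Eich y).ncard ≤ q ^ 3) (hZ : f.scalars ⊓ f.Eich ≤ stabilizer f.Isom y) :
    ∃ N, N + q = q ^ 2 + 1 ∧ N ∣ 3 * ((O f.Eich y).ncard - 1) := by
  have : Finite V := Module.finite_of_finite F
  obtain ⟨x, h0, hx⟩ := herm_exists_singular' hF (f := f) (by omega)
  have : Nonempty f.Pt := ⟨f.pt x h0 hx⟩
  obtain ⟨κ, N, hN, e, k1, h7⟩ := kap_ex hq
  have e1 : N * (q + 1) = q ^ 3 + 1 := by zify at *; linear_combination (q + 1) * hN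
  have q1 := Nat.one_le_pow 2 q (by omega)
  have cG : Nat.card f.Eich = q ^ 3 * ((q ^ 2 - 1) * (q ^ 3 + 1)) := by
    have := herm_card_SIsom hF hf (by omega)
    rw [herm_card_isom hF 3 hf hn, ← herm_Eich_eq hF hf (by omega)] at this
    refine Nat.eq_of_mul_eq_mul_left (show 0 < q + 1 by omega) (this.trans ?_)
    norm_num [Finset.prod_range_succ, Nat.even_add_one]
    ring
  have cH := ncard_O_mul f.Eich y
  have cZ := card_Z hf hn (le_inf hZ inf_le_right) inf_le_right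
  have c1 := ncard_O_mul (stabilizer f.Isom y ⊓ f.Eich) (f.pt x h0 hx)
  rw [eq_univ_of_forall (trans3 hf hn h _), ncard_univ, card_Pt hf hn, ← e1, ← e] at c1
  have cD := count_D (G := ↥(stabilizer f.Isom y ⊓ f.Eich)) (Ω := f.Pt) fun p => by
    obtain ⟨v, v0, hv, rfl⟩ := f.exists_pt p
    exact bigcount hf hn v0 hv hq y hZ
  set H := stabilizer f.Isom y ⊓ f.Eich
  set n := (O f.Eich y).ncard
  have c2 : (q ^ 2 - 1) * (q ^ 3 + 1) ≤ Nat.card H := Nat.le_of_mul_le_mul_left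
    (by rw [← cG, ← cH]; exact Nat.mul_le_mul_right _ h) (pow_pos (by omega) 3)
  rw [card_Pt hf hn] at cD
  rw [show q ^ 2 - 1 = (q - 1) * (q + 1) by rw [mul_comm, ← Nat.sq_sub_sq], mul_assoc] at c2
  have p0 : 0 < (q + 1) * (q ^ 3 + 1) := by positivity
  have d3 := Nat.gcd_dvd_left 3 (q + 1)
  let ρ : H →* End F V := LinearEquiv.automorphismGroup.toLinearMapMonoidHom.comp (f.Isom.subtype.comp H.subtype)
  have hρ : Function.Injective ρ := fun a b e => Subtype.ext (f.isom_ext (LinearMap.congr_fun e))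
  obtain ⟨b, hb⟩ := sing_cong (Z := f.scalars.subgroupOf H) (D := {g | ∃ p : f.Pt, g • p = p}) (κ := κ)
    (fun g hg => Subgroup.mem_center_iff.2 fun a => Subtype.ext (Subgroup.mem_center_iff.1 (f.scalars_le_center hg) a))
    (fun a u ⟨p, e⟩ => ⟨a⁻¹ • p, by rwa [mul_smul, mul_smul, smul_eq_iff_eq_inv_smul] at e⟩) (c1 ▸ ((Dvd.intro_left _ rfl).mul_right _).mul_right _)
    (fun r hr e => ⟨h7 r hr e, fun c => by have := h7 r hr e; have := Nat.le_of_dvd three_pos (c.trans (cZ ▸ d3)); omega⟩) k1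
    (by nlinarith [Nat.mul_le_mul_right ((q + 1) * (q ^ 3 + 1)) (show 2 ≤ q - 1 by omega)]) (fun h => by
      have : 9 ≤ q := by nlinarith [Nat.le_of_dvd (by nlinarith) (Dvd.intro_left _ e)]
      nlinarith [Nat.mul_le_mul_right ((q + 1) * (q ^ 3 + 1)) (show 8 ≤ q - 1 by omega)]) fun g hr rκ => by
    have r7 := h7 _ hr rκ
    have := Fact.mk hr
    have z : (q : ZMod (orderOf g)) ^ 2 + 1 = q := by
      have := congrArg (Nat.cast (R := ZMod (orderOf g))) hN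
      rw [Nat.cast_add, (ZMod.natCast_eq_zero_iff _ _).2 (rκ.trans (Dvd.intro_left _ e))] at this
      simpa using this.symm
    have irr := CA.Singer.irreducible_of_prime (M := ρ g) hr (by rw [← map_pow, pow_orderOf_eq_one, map_one])
      (fun e => hr.ne_one (orderOf_eq_one_iff.2 (hρ (e.trans (map_one ρ).symm)))) (fun c => by
        have := (ZMod.natCast_eq_zero_iff _ _).2 ((prime_dvd_char_iff_dvd_card (R := F) _).1 ((Nat.prime_dvd_prime_iff_eq
          (CharP.char_is_prime F _) hr).1 ((ringChar.spec F _).1 c)).symm.dvd)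
        simp_all) fun k k0 k3 c => by
        have c := (ZMod.natCast_eq_natCast_iff _ _ _).2 c
        have : (q : ZMod (orderOf g)) ^ 4 = 1 := by
          rw [cF hF] at c; push_cast at c
          obtain rfl | rfl : k = 1 ∨ k = 2 := by omega
          exacts [by linear_combination (q ^ 2 + 1) * c, by linear_combination c]
        have := Nat.le_of_dvd three_pos ((ZMod.natCast_eq_zero_iff 3 (orderOf g)).1 (by
          push_cast; linear_combination (1 - ((q : ZMod (orderOf g)) - 2) * (q ^ 2 + q)) * z + (q - 2) * this))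
        omega
    have : Nontrivial V := nontrivial_of_ne x 0 h0
    obtain ⟨cy, ix⟩ := CA.Singer.cyclic_and_index ρ hρ g irr
    have cm : ∀ {u w : H}, u ∈ Subgroup.centralizer {w} ↔ Commute (ρ w) (ρ u) := Subgroup.mem_centralizer_singleton_iff.trans
      ⟨fun e => by rw [commute_iff_eq, ← map_mul, ← map_mul, e], fun e => hρ (by rw [map_mul, map_mul, e.eq])⟩
    have k : ∀ u ∈ Subgroup.centralizer {g}, u ∉ f.scalars.subgroupOf H → (¬ ∃ p : f.Pt, u • p = p) ∧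
        Subgroup.centralizer {u} = Subgroup.centralizer {g} := fun u hu h => by
      obtain ⟨h1, h2⟩ := (singer3 hn irr (cm.1 hu)).2 fun a e => h ⟨a, LinearMap.congr_fun e⟩
      refine ⟨fun ⟨p, e⟩ => ?_, le_antisymm (fun w hw => cm.2 (h2 _ (cm.1 hw))) fun w hw =>
        Subgroup.mem_centralizer_singleton_iff.2 (congrArg Subtype.val (mul_comm' (⟨w, hw⟩ : Subgroup.centralizer {g}) ⟨u, hu⟩))⟩
      obtain ⟨v, v0, hv, rfl⟩ := f.exists_pt p
      obtain ⟨a, ha⟩ := (f.smul_pt_eq_iff u.1).1 e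
      exact v0 (h1 a v ha)
    refine ⟨k, ?_, _, fun h => ⟨fun e => Subgroup.mem_normalizer_fintype ?_, fun e => Subgroup.zpowers_le.2
      (Subgroup.mem_centralizer_singleton_iff.2 rfl) ((Subgroup.mem_normalizer_iff.1 e g).1 (Subgroup.mem_zpowers g))⟩, by rwa [hn] at ix⟩
    · rw [cZ, e]
      refine Nat.Coprime.dvd_of_dvd_mul_left (m := q ^ 2 + q + 1) (Nat.coprime_of_dvd fun l hl l1 l2 => ?_) ?_
      · have := Fact.mk hl
        obtain ⟨u, hu⟩ := exists_prime_orderOf_dvd_card' l l1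
        have : l ∣ q ^ 3 + 1 := by_contra fun c => by
          obtain ⟨p, -, e⟩ := exists_fixed (i := 1) (g := u.1) (B := (univ : Set f.Pt)) hl (by
            rw [pow_one, ← hu]; exact congrArg Subtype.val (pow_orderOf_eq_one u)) (by simp) (by rwa [ncard_univ, card_Pt hf hn])
          have := Subgroup.orderOf_dvd_natCard (f.scalars.subgroupOf H) (by_contra fun c => (k u u.2 c).1 ⟨p, e⟩)
          rw [Subgroup.orderOf_coe, hu, cZ] at this
          exact c (e1 ▸ (this.trans (Nat.gcd_dvd_right _ _)).mul_left N)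
        have : (l : ℤ) ∣ 2 := by
          rw [show (2 : ℤ) = (q ^ 3 + 1 : ℕ) - (q - 1) * (q ^ 2 + q + 1 : ℕ) by push_cast; ring]
          exact dvd_sub (Int.natCast_dvd_natCast.2 this) ((Int.natCast_dvd_natCast.2 l2).mul_left _)
        obtain rfl := (Nat.prime_dvd_prime_iff_eq hl Nat.prime_two).1 (Int.natCast_dvd_natCast.1 this)
        have := Nat.even_mul_succ_self q
        rw [mul_add, ← sq, mul_one, even_iff_two_dvd] at this
        omega
      · rw [← IsCyclic.exponent_eq_card]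
        refine Monoid.exponent_dvd_of_forall_pow_eq_one fun u => Subtype.ext (hρ ?_)
        rw [show (q ^ 2 + q + 1) * N = 1 + q ^ 2 + (q ^ 2) ^ 2 by zify at hN ⊢; linear_combination (q ^ 2 + q + 1) * hN, ← cF hF]
        simpa using (singer3 hn irr (cm.1 u.2)).1 ((f.coe_detHom _).symm.trans (congrArg Units.val (f.Eich_le_SIsom u.1.2.2)))
    · rintro _ ⟨i, rfl⟩
      obtain ⟨j, hj⟩ := mem_zp (g := (⟨g, Subgroup.mem_centralizer_singleton_iff.2 rfl⟩ : Subgroup.centralizer {g})) (x := ⟨_, e⟩)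
        (Subtype.ext (by simp [conj_pow]))
      exact ⟨j * i, by rw [← conj_zpow, ← show g ^ j = h * g * h⁻¹ from congrArg Subtype.val hj]; exact zpow_mul _ _ _⟩
  rw [cZ, e] at hb
  have : κ ∣ n - 1 := (Nat.coprime_of_dvd fun r hr h c => by
      have := h7 r hr h; have := Nat.le_of_dvd three_pos c; omega : κ.Coprime 3).dvd_of_dvd_mul_left (by
    have n1 : 1 ≤ n := ncard_O_pos f.Eich y
    rw [hb, cG, ← e1] at cH
    have : n * (3 + κ * b) = q ^ 3 * (q ^ 2 - 1) * (q + 1) := Nat.eq_of_mul_eq_mul_left (show 0 < N by nlinarith) (by linarith)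
    refine Int.natCast_dvd_natCast.1 ⟨Nat.gcd 3 (q + 1) * (q ^ 4 + 2 * q ^ 3 - 3 * q - 3) - n * b, ?_⟩
    zify [n1, q1] at this hN e ⊢
    linear_combination this - (q ^ 4 + 2 * q ^ 3 - 3 * q - 3) * (hN + e))
  exact ⟨N, hN, e ▸ Nat.mul_dvd_mul d3 this⟩

theorem deg3 (hq : 3 ≤ q) {y : Y} (hS : ¬ f.Eich ≤ stabilizer f.Isom y) (hZ : f.scalars ⊓ f.Eich ≤ stabilizer f.Isom y) :
    q ^ 3 + 1 ≤ (O f.Eich y).ncard ∨ (q = 5 ∧ (O f.Eich y).ncard = 50) := or_iff_not_imp_left.2 fun h => by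
  have : Finite V := Module.finite_of_finite F
  have h : (O f.Eich y).ncard ≤ q ^ 3 := by omega
  obtain ⟨N, hN, h3⟩ := cong3 hf hn hq h hZ
  have h1 : 1 < (O f.Eich y).ncard := (one_lt_ncard_iff (toFinite _)).2 (by
    obtain ⟨g, hg, e⟩ := SetLike.not_le_iff_exists.1 hS
    exact ⟨_, _, mem_O hg y, self_mem_O _ y, e⟩)
  have key : ∀ x (h0 : x ≠ 0) (hx : f.Q x = 0) (m : ℕ), m ∣ q ^ 2 → (∀ y' ∈ O f.Eich y, ¬ (hermKind hF).π.ker ≤ R hx y' ∧
      m * Nat.card (R hx y') ≤ q * q) → m ∣ (O f.Eich y).ncard := fun x h0 hx m hm H =>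
    dvd_of_orbits (f.Qgrp x) _ fun y' hy => ⟨O_mono (f.Qgrp_le_Eich x) hy, by
      obtain ⟨-, -, s, t, -, -, -, o, -, -, -, st⟩ := dualU hf hn h0 hx y'
      refine dvd_of_le_pow (F := F) (m := 2) (cF hF ▸ hm.trans (dvd_pow_self _ two_ne_zero)) (((Dvd.intro _
        (ncard_O_mul _ y')).trans (cardQ hf hn h0 hx).dvd).trans (by rw [cF hF, ← pow_mul]; exact pow_dvd_pow _ (by omega)))
        (Nat.le_of_mul_le_mul_right (((H y' hy).2.trans (Nat.mul_le_mul_left q ?_)).trans o) Nat.card_pos)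
      simpa using (st (H y' hy).1).2⟩
  by_cases H : ∀ y' ∈ O f.Eich y, ∀ (z : V) (hz : f.Q z = 0), z ≠ 0 → R hz y' ≠ ⊥
  swap
  · push Not at H
    obtain ⟨y1, h2, x, hx, h0, e⟩ := H
    refine numA hq hN h1 h h3 (key x h0 hx _ dvd_rfl fun y' hy => ?_)
    rw [← O_eq h2, ← PE_trans hf hn (O_eq h2 ▸ h) h0 hx] at hy
    have := (R_bot_PE hx hy).2 e
    exact ⟨not_ker_le hx this, by simp [this, sq]⟩
  obtain ⟨x, h0, hx⟩ := herm_exists_singular' hF (f := f) (by omega)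
  have hT : ∀ y' ∈ O f.Eich y, ¬ (hermKind hF).π.ker ≤ R hx y' := fun y' hy => T_top hf hn hx le_rfl (by omega)
    (by obtain ⟨g, -, rfl⟩ := hy; exact nS hS g) (H y' hy) h0
  obtain ⟨j, hj⟩ := (AddSubgroup.card_dvd_of_le (R_le (hx := hx) (y := y))).trans (card_ker_π_hermKind hF).dvd
  obtain ⟨⟨c, hc⟩, c0⟩ := AddSubgroup.ne_bot_iff_exists_ne_zero.1 (H y (self_mem_O _ _) x hx h0)
  have c0 : c ≠ 0 := fun e => c0 (Subtype.ext e)
  have r1 := (R hx y).one_lt_card_iff_ne_bot.2 (H y (self_mem_O _ _) x hx h0)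
  have j2 : 2 ≤ j := by
    rcases j with _ | _ | j
    · omega
    · exact absurd (AddSubgroup.eq_of_le_of_card_ge R_le (by rw [card_ker_π_hermKind]; omega)).ge
        (hT y (self_mem_O _ _))
    · omega
  let Λ : Subgroup Fˣ := ⟨⟨⟨{b | ∀ c, b * σ b * c ∈ R hx y ↔ c ∈ R hx y}, fun {a b} ha hb c => by
    rw [← hb c, ← ha (b * _ * c), Units.val_mul, map_mul]; ring_nf⟩, by simp⟩, fun {a} ha c => by
      rw [← ha, Units.val_inv_eq_inv_val, map_inv₀]; congr! 1; field_simp⟩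
  choose a a0 ha using fun g : PE f x => g.2.2
  let φ : PE f x →* Fˣ := MonoidHom.mk' (fun g => Units.mk0 (a g) (a0 g)) fun g g' => Units.ext (smul_left_injective F h0 (by
    simp only [Units.val_mul, Units.val_mk0, ← ha, mul_comm (a g), mul_smul, ← map_smul]; rfl))
  have c1 := dc (Λ : Set Fˣ) ((R hx y : Set F) \ {0}) (fun b d => b * σ b * c = d) (m := 1) (n := q + 1)
    (fun b hb => (ncard_pos (toFinite _)).2 ⟨_, ⟨(hb c).2 hc, by simp [c0]⟩, rfl⟩) fun d hd =>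
      (ncard_le_ncard_of_injOn (t := {a : F | a ^ (q + 1) = d / c}) Units.val (fun b hb => by
        rw [mem_ofPred_eq, ← hb.2, pow_succ', mul_div_cancel_right₀ _ c0, conj_apply]) Units.val_injective.injOn).trans
      (card_norm_eq hF (div_ne_zero hd.2 c0) (by rw [← conj_apply hF, map_div₀, σ_neg (R_le hd.1), σ_neg (R_le hc), neg_div_neg_eq])).le
  have c2 := Λ.card_mul_index
  rw [ncard_sdiff_singleton_of_mem (zero_mem _), mul_one, show (R hx y : Set F).ncard = Nat.card (R hx y) from rfl] at c1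
  rw [Nat.card_units, cF hF, show q ^ 2 - 1 = (q - 1) * (q + 1) by rw [mul_comm, ← Nat.sq_sub_sq]] at c2
  refine (numB (τ := Λ.index) (by nlinarith) (by
    rintro rfl; have : j ≤ 5 := by nlinarith
    interval_cases j <;> omega) hN h1 h h3 (key x h0 hx q (dvd_pow_self _ two_ne_zero) fun y' hy =>
      ⟨hT y' hy, Nat.mul_le_mul_left q (card_R_le hx y')⟩) ?_ ?_ ?_).elim
  · rw [← PE_trans hf hn h h0 hx, ncard_O, ← Λ.index_comap_of_surjective (f := φ) fun b => ?_]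
    · exact Subgroup.index_dvd_of_le fun g hg c => by
        have := R_map_iff (hx := hx) (y := y) (c := c) hx (a0 g) (ha g)
        rwa [show g.1 • y = y from hg] at this
    · obtain ⟨g, hg, e⟩ := witt1 hf (by omega) h0 (smul_ne_zero b.ne_zero h0) (hx.trans (f.Q_smul_of_Q hx _).symm)
      exact ⟨⟨g, hg, b, b.ne_zero, e⟩, Units.ext (smul_left_injective F h0 ((ha _).symm.trans e))⟩
  · have := isCyclic_of_surjective _ (QuotientGroup.mk'_surjective Λ)
    rw [Subgroup.index, ← IsCyclic.exponent_eq_card]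
    refine Monoid.exponent_dvd_of_forall_pow_eq_one fun b => QuotientGroup.induction_on b fun b =>
      (QuotientGroup.eq_one_iff (b ^ (q - 1))).2 fun c => ?_
    rw [conj_apply, ← pow_succ', Units.val_pow_eq_pow_val, ← pow_mul, mul_comm (q - 1), ← Nat.sq_sub_sq, one_pow, ← hF,
      FiniteField.pow_card_sub_one_eq_one _ b.ne_zero, one_mul]
  · by_contra! c
    obtain ⟨r, hr⟩ : ∃ r, Nat.card (R hx y) = r + 1 := ⟨_, (Nat.sub_add_cancel r1.le).symm⟩
    rw [hr] at c1 hj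
    have : 2 * r + 1 ≤ q - 1 := by have := Nat.mul_le_mul_left (r + 1) j2; omega
    nlinarith [Nat.mul_le_mul c1 (Nat.le_of_lt_succ c), Nat.mul_le_mul_right (q + 1) this, show Set.ncard _ = Nat.card Λ from rfl,
      Nat.add_sub_cancel r 1]

omit hf hn in
theorem psu3 (hF : Fintype.card F = q ^ 2) (hq : 3 ≤ q) (H : Subgroup (Cfsg.PSU 3 F q)) (hH : H ≠ ⊤) :
    q ^ 3 + 1 ≤ H.index ∨ (q = 5 ∧ H.index = 50) := by
  have hf := hermStd_nondeg hF 3
  have e := herm_Eich_eq hF hf (by simp)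
  let φ : (hermStd hF 3).SIsom →* Cfsg.PSU 3 F q :=
    (quotCenterCongr (suEquiv hF 3)).symm.toMonoidHom.comp (QuotientGroup.mk' _)
  have s : Function.Surjective φ := (quotCenterCongr _).symm.surjective.comp (QuotientGroup.mk'_surjective _)
  have := deg3 hf (by simp) hq (Y := _ ⧸ (H.comap φ).map (Subgroup.subtype _)) (y := (1 : (hermStd hF 3).Isom)) (fun h => hH (by
    rw [← Subgroup.map_comap_eq_self_of_surjective s H, ← Subgroup.comap_map_eq_self_of_injective (Subgroup.subtype_injective _)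
      (H.comap φ), show Subgroup.comap _ _ = ⊤ from Subgroup.subgroupOf_eq_top.2 (by rwa [stabilizer_quotient, e] at h)]
    exact Subgroup.map_top_of_surjective _ s)) fun g hg => by
    rw [stabilizer_quotient]
    refine ⟨⟨g, e ▸ hg.2⟩, show φ _ ∈ H from ?_, rfl⟩
    rw [show φ _ = 1 from (map_eq_one_iff _ (quotCenterCongr (suEquiv hF 3)).symm.injective).2 ((QuotientGroup.eq_one_iff _).2
      (herm_center_eq hF hf (by simp) le_rfl ▸ hg.1))]
    exact H.one_mem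
  rwa [ncard_O, stabilizer_quotient, e, Subgroup.relIndex, Subgroup.subgroupOf,
    Subgroup.comap_map_eq_self_of_injective (Subgroup.subtype_injective _), H.index_comap_of_surjective s] at this

omit hf hn in
theorem psu3_ex (hF : Fintype.card F = q ^ 2) : ∃ H : Subgroup (Cfsg.PSU 3 F q), H.index = q ^ 3 + 1 := by
  have hf := hermStd_nondeg hF 3
  obtain ⟨K, h1, h2⟩ := ex_NI hf (n := 3) (by simp) le_rfl
  let φ : (hermStd hF 3).SIsom →* Cfsg.PSU 3 F q :=
    (quotCenterCongr (suEquiv hF 3)).symm.toMonoidHom.comp (QuotientGroup.mk' _)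
  refine ⟨(K.subgroupOf _).map φ, (Subgroup.index_map_eq _
    ((quotCenterCongr _).symm.surjective.comp (QuotientGroup.mk'_surjective _)) (le_of_eq_of_le
      ((MonoidHom.ker_comp_of_injective _ _ (quotCenterCongr _).symm.injective).trans (QuotientGroup.ker_mk' _)) ?_)).trans ?_⟩
  · rw [herm_center_eq hF hf (by simp) le_rfl]; exact Subgroup.comap_mono h1
  · rw [herm_Eich_eq hF hf (by simp)] at h2
    exact h2.trans (by simp [NI])

end CA.Coop
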