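import Cfsg.Agent.Lib.Lin.Unip3
import Cfsg.Agent.Lib.Lin.CFormSpU
import Cfsg.Agent.Lib.Lin.SLnGen

/-! Normal coverings by two subgroups: generalities and the linear groups. -/

namespace CA.Cov

open Module Polynomial CA.Rcf CA.CForm CA.CForm.Form Submodule

section Grp
variable {G G' : Type*} [Group G] [Group G'] {ι κ : Type*}

/-- `G` is the union of the conjugates of two proper subgroups. -/
def Cov (G : Type*) [Group G] : Prop :=
  ∃ H K : Subgroup G, H ≠ ⊤ ∧ K ≠ ⊤ ∧ ∀ g : G, ∃ x : G, x * g * x⁻¹ ∈ H ∨ x * g * x⁻¹ ∈ K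

theorem Cov.map (h : Cov G) (φ : G →* G') (hs : Function.Surjective φ) (h' : ∀ H : Subgroup G, H.map φ = ⊤ → H = ⊤) :
    Cov G' := by
  obtain ⟨H, K, h1, h2, h3⟩ := h
  refine ⟨H.map φ, K.map φ, mt (h' H) h1, mt (h' K) h2, fun g => ?_⟩
  obtain ⟨g, rfl⟩ := hs g
  obtain ⟨x, hx⟩ := h3 g
  exact ⟨φ x, hx.imp (fun h => ⟨_, h, by simp⟩) fun h => ⟨_, h, by simp⟩⟩

theorem Cov.equiv (h : Cov G') (e : G ≃* G') : Cov G :=
  h.map e.symm.toMonoidHom e.symm.surjective fun _ h => Subgroup.map_injective e.symm.injective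
    (h.trans (Subgroup.map_top_of_surjective _ e.symm.surjective).symm)

theorem Cov.quot (h : Cov G') (e : G ≃* G') (hp : commutator G = ⊤ ∨ commutator G' = ⊤) : Cov (G ⧸ Subgroup.center G) := by
  replace hp : commutator G = ⊤ := hp.elim id fun h => by
    have := map_commutator_eq G' e.symm.toMonoidHom
    rwa [h, Subgroup.map_top_of_surjective _ e.symm.surjective, MonoidHom.range_eq_top.2 e.symm.surjective, eq_comm] at this
  refine (h.equiv e).map (QuotientGroup.mk' _) (QuotientGroup.mk'_surjective _) fun H h => ?_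
  have : H.Normal := ⟨fun n hn g => by
    obtain ⟨a, ha, e⟩ := h.ge (Subgroup.mem_top (QuotientGroup.mk g))
    obtain ⟨z, hz, rfl⟩ := (QuotientGroup.mk'_eq_mk' _).1 e
    convert mul_mem (mul_mem ha hn) (inv_mem ha) using 1
    rw [mul_assoc a, ← Subgroup.mem_center_iff.1 hz n]; group⟩
  refine eq_top_of_sup_center hp ?_
  rw [← QuotientGroup.ker_mk' (Subgroup.center G), ← Subgroup.comap_map_eq, h, Subgroup.comap_top]

/-- A family of proper subgroups which are conjugate under `E`. -/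
def Fam (E : Subgroup G) (A : ι → Subgroup G) : Prop :=
  (∀ i, ¬E ≤ A i) ∧ (∀ i x, ∃ c ∈ A i, c * x ∈ E) ∧ ∀ i j, ∃ x, ∀ g ∈ A i, x * g * x⁻¹ ∈ A j

theorem Fam.ex {E : Subgroup G} {A : ι → Subgroup G} (hA : Fam E A) {H₀ : Subgroup G} (h0 : ¬E ≤ H₀) :
    ∃ H : Subgroup E, H ≠ ⊤ ∧ ∀ g : E, (∃ i, g.1 ∈ A i) → ∃ x : E, x * g * x⁻¹ ∈ H := by
  cases isEmpty_or_nonempty ι with
  | inl _ => exact ⟨H₀.subgroupOf E, mt Subgroup.subgroupOf_eq_top.1 h0, fun _ h => h.elim isEmptyElim⟩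
  | inr h =>
    obtain ⟨j⟩ := h
    refine ⟨(A j).subgroupOf E, mt Subgroup.subgroupOf_eq_top.1 (hA.1 j), fun g ⟨i, hi⟩ => ?_⟩
    obtain ⟨x, hx⟩ := hA.2.2 i j
    obtain ⟨c, h1, h2⟩ := hA.2.1 j x
    refine ⟨⟨_, h2⟩, Subgroup.mem_subgroupOf.2 ?_⟩
    convert mul_mem (mul_mem h1 (hx _ hi)) (inv_mem h1) using 1
    simp [mul_assoc]

theorem cov_of {E : Subgroup G} {A : ι → Subgroup G} {B : κ → Subgroup G} (hA : Fam E A) (hB : Fam E B)
    (h : ∀ g ∈ E, (∃ i, g ∈ A i) ∨ ∃ j, g ∈ B j) : Cov E := by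
  obtain ⟨H₀, h0⟩ : ∃ H : Subgroup G, ¬E ≤ H := (h 1 (one_mem _)).elim (fun ⟨i, _⟩ => ⟨_, hA.1 i⟩) fun ⟨i, _⟩ => ⟨_, hB.1 i⟩
  obtain ⟨H, h1, h2⟩ := hA.ex h0
  obtain ⟨K, h3, h4⟩ := hB.ex h0
  exact ⟨H, K, h1, h3, fun g => (h g g.2).elim (fun h => (h2 g h).imp fun _ => .inl) fun h => (h4 g h).imp fun _ => .inr⟩

theorem cov_of_top {A : ι → Subgroup G} {B : κ → Subgroup G} (hA : ∀ i, A i ≠ ⊤) (hB : ∀ i, B i ≠ ⊤)
    (cA : ∀ i j, ∃ x, ∀ g ∈ A i, x * g * x⁻¹ ∈ A j) (cB : ∀ i j, ∃ x, ∀ g ∈ B i, x * g * x⁻¹ ∈ B j)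
    (h : ∀ g, (∃ i, g ∈ A i) ∨ ∃ j, g ∈ B j) : Cov G :=
  (cov_of (E := ⊤) ⟨fun i => mt top_le_iff.1 (hA i), fun _ _ => ⟨1, one_mem _, trivial⟩, cA⟩
    ⟨fun i => mt top_le_iff.1 (hB i), fun _ _ => ⟨1, one_mem _, trivial⟩, cB⟩ fun g _ => h g).equiv Subgroup.topEquiv.symm

end Grp

variable {F : Type*} [Field F] {V : Type*} [AddCommGroup V] [Module F V]

theorem exists_root [Finite F] {π : F[X]} (hπ : Irreducible π) (μ : F[X]) :
    μ ≠ 0 → (∀ ρ, Irreducible ρ → ρ ∣ μ → π.natDegree ∣ ρ.natDegree) → ∃ a : F[X], μ ∣ aeval a π := by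
  have := Fintype.ofFinite F
  have k : ∀ a b : F[X], a - b ∣ aeval a π - aeval b π := fun a b => by
    simpa only [eval_map_algebraMap] using sub_dvd_eval_sub a b (π.map (algebraMap F F[X]))
  induction μ using UniqueFactorizationMonoid.induction_on_coprime with
  | h0 => simp
  | h1 h => exact fun _ _ => ⟨0, h.dvd⟩
  | @hpr ρ i h =>
    refine fun _ H => ?_
    rcases i with _ | i
    · simp
    have := Fact.mk h.irreducible
    have := Fact.mk hπ
    have := finite_adjoinRoot h.ne_zero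
    have := finite_adjoinRoot hπ.ne_zero
    have : Finite (AdjoinRoot ρ) := Module.finite_of_finite F
    obtain ⟨φ⟩ := (FiniteField.nonempty_algHom_iff_finrank_dvd (F := F) (K := AdjoinRoot π) (L := AdjoinRoot ρ)).2 (by
      rw [finrank_adjoinRoot, finrank_adjoinRoot]; exact H ρ h.irreducible (dvd_pow_self _ i.succ_ne_zero))
    obtain ⟨a, ha⟩ := AdjoinRoot.mk_surjective (φ (AdjoinRoot.root π))
    have h1 : ρ ∣ aeval a π := by
      rw [← AdjoinRoot.mk_eq_zero, ← AdjoinRoot.aeval_eq, ← aeval_algHom_apply, AdjoinRoot.aeval_eq, ha, aeval_algHom_apply,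
        AdjoinRoot.aeval_eq, AdjoinRoot.mk_self, map_zero]
    have h2 : ∀ j, aeval (a ^ Fintype.card F ^ j) π = aeval a π ^ Fintype.card F ^ j := fun j => by
      induction j with
      | zero => simp
      | succ j ih => rw [pow_succ, pow_mul, pow_mul, ← ih, ← expand_aeval, FiniteField.expand_card, map_pow]
    exact ⟨_, h2 (i + 1) ▸ pow_dvd_pow_of_dvd_of_le h1 (Nat.lt_pow_self Fintype.one_lt_card).le⟩
  | @hcp x y h hx hy =>
    intro h0 H
    obtain ⟨a, ha⟩ := hx (left_ne_zero_of_mul h0) fun ρ h1 h2 => H ρ h1 (h2.mul_right _)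
    obtain ⟨b, hb⟩ := hy (right_ne_zero_of_mul h0) fun ρ h1 h2 => H ρ h1 (h2.mul_left _)
    obtain ⟨u, v, e⟩ := h.isCoprime
    refine ⟨a * v * y + b * u * x, h.isCoprime.mul_dvd ?_ ?_⟩
    · simpa using dvd_add (dvd_trans ⟨(b - a) * u, by linear_combination a * e⟩ (k (a * v * y + b * u * x) a)) ha
    · simpa using dvd_add (dvd_trans ⟨(a - b) * v, by linear_combination b * e⟩ (k (a * v * y + b * u * x) b)) hb

theorem exists_root' [Finite F] {π : F[X]} (hπ : Irreducible π) {μ : F[X]} (h0 : μ ≠ 0) {A : End F V} (hA : aeval A μ = 0)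
    (h : ∀ ρ, Irreducible ρ → ρ ∣ μ → π.natDegree ∣ ρ.natDegree) : ∃ a : F[X], aeval (aeval A a) π = 0 := by
  obtain ⟨a, b, hb⟩ := exists_root hπ μ h0 h
  exact ⟨a, by rw [aeval_algHom_apply, hb, map_mul, hA, zero_mul]⟩

/-- Stabiliser of the line through `v`. -/
def Ln (v : V) : Subgroup (V ≃ₗ[F] V) where
  carrier := {g | ∃ a : F, g v = a • v}
  one_mem' := ⟨1, by simp⟩
  mul_mem' := fun ⟨a, ha⟩ ⟨b, hb⟩ => ⟨b * a, by simp [ha, hb, smul_smul]⟩
  inv_mem' := fun {g} ⟨a, ha⟩ => ⟨a⁻¹, g.injective (by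
    by_cases h : a = 0
    · simp_all
    · simp [ha, smul_smul, h])⟩

/-- Maps normalising `J` up to translation by an element of `T`. -/
def NJ (T : AddSubgroup F) (J : End F V) : Subgroup (V ≃ₗ[F] V) where
  carrier := {g | ∃ t ∈ T, ∀ v, g (J v) = J (g v) + t • g v}
  one_mem' := ⟨0, zero_mem _, by simp⟩
  mul_mem' := fun ⟨a, ha, h⟩ ⟨b, hb, h'⟩ => ⟨a + b, add_mem ha hb, fun v => by simp [h, h', add_smul, add_assoc]⟩
  inv_mem' := fun {g} ⟨a, ha, h⟩ => ⟨-a, neg_mem ha, fun v => g.injective (by simp [h])⟩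

theorem Ln.conj {v w : V} {x g : V ≃ₗ[F] V} (h : x v = w) (hg : g ∈ Ln (F := F) v) : x * g * x⁻¹ ∈ Ln (F := F) w :=
  hg.imp fun a ha => by simp [← h, ha]

theorem NJ.conj {T : AddSubgroup F} {J J' : End F V} {x g : V ≃ₗ[F] V} (h : ∀ v, x (J v) = J' (x v)) (hg : g ∈ NJ T J) :
    x * g * x⁻¹ ∈ NJ T J' := hg.imp fun a ha => ⟨ha.1, fun v => by
  obtain ⟨v, rfl⟩ := x.surjective v
  simp [← h, ha.2]⟩

theorem NJ.not_mem {T : AddSubgroup F} {J : End F V} (hT : ∀ t ∈ T, t + t = 0 → t = 0) (hJ : ∀ (a : F) z, J z = a • z → z = 0)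
    {g : V ≃ₗ[F] V} {φ : V →ₗ[F] F} {x z : V} (h0 : z ≠ 0) (h1 : φ z = 0) (h2 : φ x = 1) (h : ∀ v, g v = v + φ v • z) :
    g ∉ NJ T J := by
  rintro ⟨t, ht, H⟩
  have a1 : (φ (J z) - t) • z = 0 := by
    have := H z
    simp only [h, h1, zero_smul, add_zero] at this
    linear_combination (norm := module) this
  have a2 : J z = (φ (J x) - t) • z - t • x := by
    have := H x
    simp only [h, h2, one_smul, map_add] at this
    linear_combination (norm := module) -this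
  have a3 := congrArg φ a2
  simp only [map_sub, map_smul, h1, h2, smul_eq_mul] at a3
  obtain rfl := hT t ht (by linear_combination a3 - (smul_eq_zero.1 a1).resolve_right h0)
  exact h0 (hJ _ _ (by simpa using a2))

theorem no_eigen {π : F[X]} {J : End F V} (h : aeval J π = 0) (h' : ∀ a, π.eval a ≠ 0) (a : F) (z : V) (e : J z = a • z) :
    z = 0 := by_contra fun h0 => h' a (by
  simpa [h, h0] using (End.aeval_apply_of_hasEigenvector (p := π) ⟨End.mem_eigenspace_iff.2 e, h0⟩).symm)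

variable [FiniteDimensional F V]

theorem sim_of_root {π : F[X]} (hπ : Irreducible π) {J J' : End F V} (h : aeval J π = 0) (h' : aeval J' π = 0) : Sim J J' := by
  have k : ∀ {J : End F V}, aeval J π = 0 → edivs J = Multiset.replicate (finrank F V / π.natDegree) (mon π) := by
    intro J h
    have h1 := Multiset.eq_replicate_card.2 fun d hd => eq_of_monic_of_associated (isPrim_of_mem_edivs hd).monic
      (mon_monic hπ.ne_zero) (((irreducible_of_mem_edivs hπ.squarefree h hd).associated_of_dvd hπ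
        ((aeval_eq_zero_iff J π).1 h d hd)).trans (mon_associated π).symm)
    rw [← sum_natDegree_edivs J, h1]
    simp [natDegree_eq_of_degree_eq (degree_eq_degree_of_associated (mon_associated π)), hπ.natDegree_pos]
  exact sim_iff_edivs.2 ((k h).trans (k h').symm)

theorem eigen_or_deg (A : End F V) : (∃ v, v ≠ 0 ∧ ∃ a : F, A v = a • v) ∨ ∀ ρ, Irreducible ρ → ρ ∣ A.charpoly →
    2 ≤ ρ.natDegree ∧ ρ.natDegree ≤ finrank F V ∧ ρ.natDegree + 1 ≠ finrank F V := by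
  refine or_iff_not_imp_left.2 fun h ρ h1 ⟨b, hb⟩ => ?_
  have k : ∀ ρ : F[X], ρ ∣ A.charpoly → ρ.natDegree ≠ 1 := fun ρ h2 e => by
    obtain ⟨a, ha⟩ := exists_root_of_degree_eq_one ((degree_eq_iff_natDegree_eq_of_pos one_pos).2 e)
    obtain ⟨v, hv⟩ := ((End.hasEigenvalue_iff_isRoot_charpoly A a).2 (ha.dvd h2)).exists_hasEigenvector
    exact h ⟨v, hv.2, a, hv.apply_eq_smul⟩
  have h2 := A.charpoly_natDegree
  rw [hb, natDegree_mul h1.ne_zero (right_ne_zero_of_mul (hb ▸ A.charpoly_monic.ne_zero))] at h2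
  have := k ρ ⟨b, hb⟩
  have := k b ⟨ρ, hb.trans (mul_comm _ _)⟩
  have := h1.natDegree_pos
  omega

theorem cov_lin [Finite F] {r : ℕ} (hr : 2 ≤ r) (h2 : 2 ≤ finrank F V)
    (h : ∀ d, 2 ≤ d → d ≤ finrank F V → d + 1 ≠ finrank F V → r ∣ d) : Cov (LinearEquiv.det (R := F) (M := V)).ker := by
  obtain ⟨p, _⟩ := CharP.exists F
  have := Fact.mk (CharP.char_is_prime F p)
  have : NeZero r := ⟨by omega⟩
  obtain ⟨θ, hθ⟩ := Field.exists_primitive_element F (FiniteField.Extension F p r)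
  have h3 := minpoly.irreducible (Algebra.IsIntegral.isIntegral (R := F) θ)
  have h4 := ((Field.primitive_element_iff_minpoly_natDegree_eq F θ).1 hθ).trans (FiniteField.finrank_extension F p r)
  generalize minpoly F θ = π at h3 h4
  have k : ∀ {J : End F V}, IsSS J → ∀ x : V ≃ₗ[F] V, ∃ c : V ≃ₗ[F] V, (∀ v, c (J v) = J (c v)) ∧ c * x ∈ LinearEquiv.det.ker := by
    intro J hJ x
    obtain ⟨c, h1, h2⟩ := hJ.exists_commute_det (by omega) (LinearEquiv.det x)⁻¹.ne_zero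
    exact ⟨c, h1, by rw [MonoidHom.mem_ker, map_mul, Units.ext ((LinearEquiv.coe_det c).trans h2), inv_mul_cancel]⟩
  have tv : ∀ z w : V, w ∉ F ∙ z → ∃ φ : V →ₗ[F] F, φ z = 0 ∧ φ w = 1 ∧ 
      ∃ g : V ≃ₗ[F] V, g ∈ LinearEquiv.det.ker ∧ ∀ v, g v = v + φ v • z := by
    intro z w hw
    obtain ⟨φ, a1, a2⟩ := exists_dual_map_eq_bot_of_notMem hw inferInstance
    have a3 : ((φ w)⁻¹ • φ) z = 0 := by simpa using .inr (a2.le ⟨z, mem_span_singleton_self z, rfl⟩)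
    exact ⟨_, a3, by simp [a1], LinearEquiv.transvection a3, LinearEquiv.transvection.det_eq_one a3, fun _ => rfl⟩
  have ex : ∀ z : V, ∃ w, w ∉ F ∙ z := fun z => by
    by_contra! H
    have := (finrank_span_le_card (R := F) {z}).trans' (finrank_mono (s := ⊤) fun w _ => H w)
    simp at this; omega
  refine cov_of (A := fun v : {v : V // v ≠ 0} => Ln v.1) (B := fun J : {J : End F V // aeval J π = 0} => NJ ⊥ J.1)
    ⟨fun v H => ?_, fun v x => ?_, fun v w => ?_⟩ ⟨fun J H => ?_, fun J x => ?_, fun J J' => ?_⟩ fun g _ => ?_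
  · obtain ⟨w, hw⟩ := ex v
    obtain ⟨φ, -, a1, g, a2, a3⟩ := tv w v fun e => by
      obtain ⟨a, ha⟩ := mem_span_singleton.1 e
      exact hw (mem_span_singleton.2 ⟨a⁻¹, by rw [← ha, inv_smul_smul₀ fun e => v.2 (by simp [← ha, e])]⟩)
    obtain ⟨a, ha⟩ := H a2
    exact hw (mem_span_singleton.2 ⟨a - 1, by rw [sub_smul, ← ha, a3, a1]; simp⟩)
  · obtain ⟨w, hw⟩ := ex v
    obtain ⟨φ, -, a1, -⟩ := tv 0 v (by simpa using v.2)
    obtain ⟨c, a2, a3⟩ := k (J := φ.smulRight v.1) (fun _ => irreducible_of_mem_edivs (s := X * (X - C 1))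
      (((separable_X.mul (separable_X_sub_C) ⟨1, -1, by simp⟩)).squarefree) (by ext u; simp [a1])) x
    exact ⟨c, ⟨φ (c v), by simpa [a1] using a2 v⟩, a3⟩
  · obtain ⟨x, hx⟩ := exists_linearEquiv_restrict_eq
      ((LinearEquiv.toSpanNonzeroSingleton F V _ v.2).symm.trans (LinearEquiv.toSpanNonzeroSingleton F V _ w.2))
    have := hx (LinearEquiv.toSpanNonzeroSingleton F V _ v.2 1)
    rw [LinearEquiv.trans_apply, LinearEquiv.symm_apply_apply] at this
    exact ⟨x, fun g => Ln.conj (by simpa using this.symm)⟩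
  · have := nontrivial_of_finrank_pos (R := F) (M := V) (by omega)
    obtain ⟨z, hz⟩ := exists_ne (0 : V)
    obtain ⟨w, hw⟩ := ex z
    obtain ⟨φ, a1, a2, g, a3, a4⟩ := tv z w hw
    refine NJ.not_mem (by simp +contextual) (no_eigen J.2 fun a e => ?_) hz a1 a2 a4 (H a3)
    have : π.natDegree = 1 := natDegree_eq_of_degree_eq_some (degree_eq_one_of_irreducible_of_root h3 e)
    omega
  · obtain ⟨c, a1, a2⟩ := k (fun _ => irreducible_of_mem_edivs h3.squarefree J.2) x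
    exact ⟨c, ⟨0, rfl, by simpa⟩, a2⟩
  · obtain ⟨x, hx⟩ := sim_of_root h3 J.2 J'.2
    exact ⟨x, fun g => NJ.conj hx⟩
  refine (eigen_or_deg (g : End F V)).imp (fun ⟨v, hv, h⟩ => ⟨⟨v, hv⟩, h⟩) fun H => ?_
  obtain ⟨a, ha⟩ := exists_root' h3 (LinearMap.charpoly_monic _).ne_zero (LinearMap.aeval_self_charpoly (g : End F V))
    fun ρ a b => h4 ▸ h _ (H ρ a b).1 (H ρ a b).2.1 (H ρ a b).2.2
  exact ⟨⟨_, ha⟩, 0, rfl, fun v => by simpa using aeval_apply_of_comm (g : End F V) (fun _ => rfl) a v⟩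

theorem cov_PSL [Finite F] {n r : ℕ} (hr : 2 ≤ r) (h2 : 2 ≤ n) (h3 : 3 ≤ n ∨ 4 ≤ Nat.card F)
    (h : ∀ d, 2 ≤ d → d ≤ n → d + 1 ≠ n → r ∣ d) : Cov (Matrix.ProjectiveSpecialLinearGroup (Fin n) F) :=
  (cov_lin (V := Fin n → F) hr (by simpa) (by simpa)).quot ((MonoidHom.ofInjective Matrix.SpecialLinearGroup.toLin'_injective).trans
    (MulEquiv.subgroupCongr (Subgroup.ext fun x => ⟨fun ⟨A, hA⟩ => hA ▸ (Matrix.SpecialLinearGroup.toLin'_equiv A).2,
      fun h => ⟨_, congrArg Subtype.val (Matrix.SpecialLinearGroup.toLin'_equiv.apply_symm_apply ⟨x, h⟩)⟩⟩)))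
    (.inl (SLnGen.commutator_eq_top (h3.imp (by simp) SLnGen.exists_sq_ne_one)))

end CA.Cov
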