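import Cfsg.Agent.Lib.Lin.Cov1
import Cfsg.Agent.Lib.Lie.H19G2b

/-! Normal coverings by two subgroups: symplectic groups and `G₂` in characteristic two. -/

namespace CA.Cov

open Module CA.CForm CA.CForm.Form Submodule

variable {F : Type*} [Field F] {V : Type*} [AddCommGroup V] [Module F V] [FiniteDimensional F V]

theorem dye [Finite F] {p : Form (Kind.orth F) V} (hp : p.Nondeg) (h2 : (2 : F) = 0) (g : (p.toSymp h2).Isom) :
    ∃ p' : Form (Kind.orth F) V, p'.B = p.B ∧ g.1 ∈ p'.Isom := by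
  have := (CharP.charP_iff_prime_eq_zero (R := F) Nat.prime_two).2 h2
  have hB : ∀ x y, p.B (g.1 x) (g.1 y) = p.B x y := g.2.1
  let l : V →ₗ[F] F :=
    { toFun := fun x => (frobeniusEquiv F 2).symm (p.Q (g.1 x) + p.Q x)
      map_add' := fun x y => by
        rw [← map_add, map_add g.1, orth_Q_add, orth_Q_add, hB]; congr 1; linear_combination p.B x y * h2
      map_smul' := fun a x => (frobeniusEquiv F 2).injective (by
        simp only [map_smul, orth_Q_smul, RingHom.id_apply, smul_eq_mul, map_mul, RingEquiv.apply_symm_apply]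
        rw [frobeniusEquiv_def]; ring) }
  have hl : ∀ x, l x ^ 2 = p.Q (g.1 x) + p.Q x := fun x => (frobeniusEquiv F 2).apply_symm_apply _
  obtain ⟨v, hv⟩ := hp.exists_B_eq l
  have hf : (p.toSymp h2).Nondeg := hp
  obtain ⟨w, hw⟩ : ∃ w, (g⁻¹).1 w - w = v := by
    rw [← mem_commSub, hf.commSub_inv, ← hf.perp_fixSub]
    refine fun x hx => p.eq_zero_symm ((pow_eq_zero_iff two_ne_zero).1 ?_)
    rw [hv, hl, (mem_fixSub _).1 hx]; linear_combination p.Q x * h2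
  refine ⟨ofFun (fun x => p.Q x + p.B w x ^ 2) p.B (fun x y => ?_) fun a x => ?_, rfl, (orth_mem_Isom _).2 fun x => ?_⟩
  · rw [orth_Q_add, map_add]; linear_combination p.B w x * p.B w y * h2
  · rw [orth_Q_smul, map_smul, smul_eq_mul]; ring
  · have e : p.B w (g.1 x) = l x + p.B w x := by
      rw [← hv, ← hw, B_sub_left, sub_add_cancel, ← hB ((g⁻¹).1 w) x, isom_apply_inv_apply]
    change p.Q (g.1 x) + p.B w (g.1 x) ^ 2 = p.Q x + p.B w x ^ 2
    rw [e]; linear_combination hl x + (l x * p.B w x + p.Q (g.1 x)) * h2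

theorem cov_symp_two [Finite F] {p : Form (Kind.orth F) V} (hp : p.Nondeg) (h2 : (2 : F) = 0) {m : ℕ}
    (hm : finrank F V = 2 * m + 4) : Cov (p.toSymp h2).Isom := by
  have nd : ∀ {p' : Form (Kind.orth F) V}, p'.B = p.B → p'.Nondeg := fun h x hx => hp x (h ▸ hx)
  let A := fun j (p' : {p' : Form (Kind.orth F) V // p'.B = p.B ∧ p'.IsIndex j}) => p'.1.Isom.subgroupOf (p.toSymp h2).Isom
  have k1 : ∀ j i, A j i ≠ ⊤ := fun j ⟨p', h, _⟩ H => by
    obtain ⟨x, hx, e⟩ := p'.exists_singular' (by omega)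
    obtain ⟨y, hy⟩ := (nd h).exists_isHyp e hx
    have hc : (p.toSymp h2).QreflCond x 1 := by rw [QreflCond, symp_Q]; simp
    have : p'.Q (((p.toSymp h2).qrefl x 1 hc).1 y) = p'.Q y := (H.ge (Subgroup.mem_top ((p.toSymp h2).qrefl x 1 hc))).2 y
    rw [qrefl_apply, show (p.toSymp h2).B = p'.B from h.symm, hy.B_xy, orth_Q_add] at this
    simp [e, hy.B_yx] at this
  have k2 : ∀ j i i', ∃ x, ∀ g ∈ A j i, x * g * x⁻¹ ∈ A j i' := fun j ⟨p', h, a⟩ ⟨p'', h', a'⟩ => by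
    obtain ⟨e, he⟩ := a.equivalent_of_even (nd h) a' (nd h') rfl ⟨m + 2, by omega⟩
    refine ⟨⟨e, (symp_mem_Isom _).2 fun x y => ?_⟩, fun g hg => (orth_mem_Isom _).2 fun v => ?_⟩
    · have := he.B_eq x y
      rwa [h, h'] at this
    · obtain ⟨v, rfl⟩ := e.surjective v
      simpa [he.Q_eq] using hg.2 v
  refine cov_of_top (k1 (m + 2)) (k1 (m + 1)) (k2 _) (k2 _) fun g => ?_
  obtain ⟨p', h1, h3⟩ := dye hp h2 g
  exact ((nd h1).isIndex_even (m := m + 1) (by omega)).imp (fun h => ⟨⟨p', h1, h⟩, h3⟩) fun h => ⟨⟨p', h1, h⟩, h3⟩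

theorem cov_PSp_two [Fintype F] (h2 : (2 : F) = 0) {m : ℕ} (hm : 2 ≤ m) (h : m = 2 → Fintype.card F ≠ 2) : Cov (Cfsg.PSp m F) := by
  obtain ⟨e, he⟩ := (sympStd_nondeg F m).symp_equivalent (f' := (plusForm F m).toSymp h2) (plusForm_nondeg F m) rfl
  refine ((cov_symp_two (m := m - 2) (plusForm_nondeg F m) h2 (by rw [finrank_plus]; omega)).equiv (isomCongr e he)).quot
    (spEquiv F m) (.inr ((sympStd_nondeg F m).symp_perfect' (finrank_plus m) ?_))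
  have := Fintype.one_lt_card (α := F)
  omega

theorem dye' {p : Form (Kind.orth F) V} (hp : p.Nondeg) (g : p.Isom) {u : V} (hu : p.Q u ≠ 0) :
    ∃ x, p.B u x = 1 ∧ ∃ t : F, g.1 x = x + t • u := by
  obtain ⟨x, h1, h2⟩ := hp.exists_perp_B_eq' (W := (p.perp (F ∙ u)).map (((g⁻¹).1 : V →ₗ[F] V) - LinearMap.id)) (u := u) (by
    rintro ⟨y, hy, e⟩
    have := p.Q_coe_map g⁻¹ y
    rw [show (g⁻¹).1 y = u + y from eq_add_of_sub_eq e, orth_Q_add, p.mem_perp_span_singleton.1 hy] at this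
    exact hu (by linear_combination this)) 1
  obtain ⟨t, ht⟩ : ∃ t : F, t • u = g.1 x - x := by
    rw [← mem_span_singleton, ← hp.perp_perp (F ∙ u)]
    intro y hy
    have := h1 _ ⟨y, hy, rfl⟩
    rw [map_sub, ← p.B_coe_map g⁻¹ y, isom_inv_apply_apply]
    simpa using this
  exact ⟨x, h2, t, by simp [ht]⟩

section G2
open Cfsg.Lie CA.H19G2 Matrix

/-- The norm form of the split octonions. -/
def nm : Form (Kind.orth F) (Fin 8 → F) :=
  ofFun (fun x => x 0 * x 7 - (x 1 * x 4 + x 2 * x 5 + x 3 * x 6))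
    (fun x => x 0 • .proj 7 + x 7 • .proj 0 - (x 1 • .proj 4 + x 4 • .proj 1 + x 2 • .proj 5 + x 5 • .proj 2 +
      x 3 • .proj 6 + x 6 • .proj 3)) (fun x y => by simp; ring) fun a x => by simp; ring

theorem nm_Q (x : Fin 8 → F) : nm.Q x = x 0 * x 7 - (x 1 * x 4 + x 2 * x 5 + x 3 * x 6) := rfl

theorem nm_un (x : Fin 8 → F) : nm.B (un : Fin 8 → F) x = x 0 + x 7 := by simp [nm, ofFun, un, add_comm]

theorem nm_nondeg : (nm (F := F)).Nondeg := fun x h => by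
  have := fun i => h (Pi.single i 1)
  ext i
  fin_cases i
  exacts [by simpa [nm, ofFun] using this 7, by simpa [nm, ofFun] using this 4, by simpa [nm, ofFun] using this 5,
    by simpa [nm, ofFun] using this 6, by simpa [nm, ofFun] using this 1, by simpa [nm, ofFun] using this 2,
    by simpa [nm, ofFun] using this 3, by simpa [nm, ofFun] using this 0]

theorem nm_smul (g : G2 F) (x : Fin 8 → F) : nm.Q (g • x) = nm.Q x := by
  have k : ∀ x : Fin 8 → F, zornMul x x = (x 0 + x 7) • x + (-nm.Q x) • un := fun x => by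
    obtain ⟨a0, a1, a2, a3, a4, a5, a6, a7, rfl⟩ := vec8 x
    rw [zorn_eq, nm_Q, un]
    simp only [smul_cons, smul_empty, cons_add_cons, empty_add_empty, vec8_inj]
    simp; refine ⟨?_, ?_, ?_, ?_, ?_, ?_, ?_, ?_⟩ <;> ring
  have h := smul_zorn g x x
  rw [k, k, smul_add', smul_smul', smul_smul', smul_un] at h
  by_cases e : x 0 + x 7 - ((g • x) 0 + (g • x) 7) = 0
  · simpa [sub_eq_zero.1 e, un] using (congrFun h 0).symm
  obtain ⟨c, h1⟩ : ∃ c : F, g • x = c • un := ⟨(x 0 + x 7 - ((g • x) 0 + (g • x) 7))⁻¹ * (nm.Q x - nm.Q (g • x)), by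
    rw [mul_smul, eq_inv_smul_iff₀ e]
    generalize g • x = y at h ⊢
    linear_combination (norm := module) h⟩
  rw [h1, ← inv_smul_smul g x, h1, smul_smul', smul_un]

theorem ob_of' (g : G2 F) {x y z : Fin 8 → F} (h : g • x = y) (hy : y ∈ MulAction.orbit (G2 F) z) :
    x ∈ MulAction.orbit (G2 F) z := by
  obtain ⟨k, hk⟩ := hy
  exact ⟨g⁻¹ * k, by simp only at hk ⊢; rw [mul_smul, hk, ← h, inv_smul_smul]⟩

theorem ob_an (x : Fin 8 → F) (h1 : x 0 + x 7 = 1) (h2 : x 1 * x 4 + x 2 * x 5 + x 3 * x 6 ≠ 0) :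
    x ∈ MulAction.orbit (G2 F) (![0, 0, 0, -nm.Q x, 0, 0, 1, 1] : Fin 8 → F) := by
  obtain ⟨a0, a1, a2, a3, a4, a5, a6, a7, rfl⟩ := vec8 x
  replace h1 : a0 + a7 = 1 := h1
  replace h2 : a1 * a4 + a2 * a5 + a3 * a6 ≠ 0 := h2
  generalize hn : nm.Q ![a0, a1, a2, a3, a4, a5, a6, a7] = n
  replace hn : a0 * a7 - (a1 * a4 + a2 * a5 + a3 * a6) = n := hn
  let O := fun a1 a2 a3 a4 a5 a6 => ![a0, a1, a2, a3, a4, a5, a6, a7] ∈
    MulAction.orbit (G2 F) (![0, 0, 0, -n, 0, 0, 1, 1] : Fin 8 → F)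
  have cyc : ∀ {a1 a2 a3 a4 a5 a6}, O a2 a3 a1 a5 a6 a4 → O a1 a2 a3 a4 a5 a6 := fun h =>
    (exists_cyc (F := F)).elim fun g hg => ob_of' g (hg ..) h
  have e12 : ∀ {a1 a2 a3 a4 a5 a6} t, O (a1 + t * a2) a2 a3 a4 (a5 - t * a4) a6 → O a1 a2 a3 a4 a5 a6 := fun t h => by
    refine ob_of' (Phi ⟨(1, up t), mem_Gm.2 (Units.ext (by simp [up]))⟩) (enc.injective ?_) h
    rw [enc_Phi, enc_apply, enc_apply]
    simp [cdA, up, sub_eq_add_neg]
  have e21 : ∀ {a1 a2 a3 a4 a5 a6} t, O a1 (a2 + t * a1) a3 (a4 - t * a5) a5 a6 → O a1 a2 a3 a4 a5 a6 := fun t h => by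
    refine ob_of' (Phi ⟨(1, lo t), mem_Gm.2 (Units.ext (by simp [lo]))⟩) (enc.injective ?_) h
    rw [enc_Phi, enc_apply, enc_apply]
    simp [cdA, lo, sub_eq_add_neg, add_comm]
  have k0 : ∀ a3 a4 a5 a6, a0 * a7 - a3 * a6 = n → a6 ≠ 0 → O 0 0 a3 a4 a5 a6 := fun a3 a4 a5 a6 e h6 => by
    refine cyc (e21 (a5 / a6) (cyc (e12 (a4 / a6) ?_)))
    simp only [div_mul_cancel₀ _ h6, mul_zero, add_zero, sub_self]
    let U : GL (Fin 2) F := GeneralLinearGroup.mkOfDetNeZero !![1, a0; 0, a6] (by simpa)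
    have hU : (U : M2 F) = !![1, a0; 0, a6] := rfl
    have e' : !![a0, a3; a6, a7] * (U : M2 F) = U * !![0, -n; 1, 1] := by
      ext i j; fin_cases i <;> fin_cases j <;> simp [hU, Matrix.mul_apply, Fin.sum_univ_two] <;> grind
    refine cyc ⟨Phi ⟨(U, U), mem_Gm.2 rfl⟩, enc.injective ?_⟩
    simp only
    rw [enc_Phi, enc_apply, enc_apply]
    simp only [cdA, LinearMap.coe_mk, AddHom.coe_mk, ← e']
    rw [mul_assoc, U.mul_inv, mul_one, neg_zero,
      show (!![0, 0; 0, 0] : M2 F) = 0 by ext i j; fin_cases i <;> fin_cases j <;> rfl, mul_zero, zero_mul]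
  have k : ∀ a1 a2 a3 a4 a5 a6 : F, a0 * a7 - (a1 * a4 + a2 * a5 + a3 * a6) = n → a1 * a4 + a2 * a5 + a3 * a6 ≠ 0 →
      a3 ≠ 0 → O a1 a2 a3 a4 a5 a6 := by
    intro a1 a2 a3 a4 a5 a6 h2 h0 h3
    refine cyc (e12 (-a2 / a3) ?_)
    rw [div_mul_cancel₀ _ h3, add_neg_cancel]
    refine cyc (e21 (-a1 / a3) ?_)
    rw [div_mul_cancel₀ _ h3, add_neg_cancel]
    refine cyc (k0 _ _ _ _ (by rw [← h2]; field_simp; ring) fun e => h0 ?_)
    field_simp at e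
    linear_combination e
  by_cases h3 : a3 = 0
  · by_cases h4 : a2 = 0
    · exact cyc (k _ _ _ _ _ _ (by rw [← hn]; ring) (by rwa [add_rotate] at h2) fun e => h2 (by simp [*]))
    · exact cyc (cyc (k _ _ _ _ _ _ (by rw [← hn]; ring) (by rwa [← add_rotate] at h2) h4))
  · exact k _ _ _ _ _ _ hn h2 h3

/-- Stabiliser of `x` modulo scalars. -/
def SU (x : Fin 8 → F) : Subgroup (G2 F) where
  carrier := {g | ∃ t : F, g • x = x + t • un}
  one_mem' := ⟨0, by simp⟩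
  mul_mem' := fun ⟨a, ha⟩ ⟨b, hb⟩ => ⟨a + b, by rw [mul_smul, hb, smul_add', ha, smul_smul', smul_un, add_smul, add_assoc]⟩
  inv_mem' := fun ⟨a, ha⟩ => ⟨-a, by rw [inv_smul_eq_iff, smul_add', ha, smul_smul', smul_un]; simp⟩

theorem cov_G2 [Finite F] (h2 : (2 : F) = 0) : Cov (G2 F) := by
  have hu : nm.Q (un : Fin 8 → F) = 1 := by simp [nm_Q, un]
  have hs : ∀ (x : Fin 8 → F) (s : F), x 0 + x 7 = 1 →
      (x + s • un : Fin 8 → F) 0 + (x + s • un : Fin 8 → F) 7 = 1 ∧ nm.Q (x + s • un) = s ^ 2 + s + nm.Q x := fun x s h =>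
    ⟨by simp [un]; linear_combination h + s * h2, by
      rw [add_comm, orth_Q_add, orth_Q_smul, hu, B_smul_left, nm_un, h]; simp; ring⟩
  have k : ∀ {x y : Fin 8 → F} (s s' : F) z, x + s • un ∈ MulAction.orbit (G2 F) z → y + s' • un ∈ MulAction.orbit (G2 F) z →
      ∃ a, ∀ g ∈ SU x, a * g * a⁻¹ ∈ SU y := fun {x y} s s' z ⟨a, ha⟩ ⟨b, hb⟩ => ⟨b * a⁻¹, fun g ⟨t, ht⟩ => ⟨t, by
        have e : (b * a⁻¹) • x = y + (s' - s) • un := by
          rw [mul_smul, ← add_sub_cancel_right x (s • un), ← ha, sub_eq_add_neg, ← neg_smul, smul_add', smul_add',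
            smul_smul', smul_smul', smul_un, smul_un, inv_smul_smul, show b • z = _ from hb]; module
        generalize b * a⁻¹ = c at e
        rw [show y = c • (x + (s - s') • un) by rw [smul_add', smul_smul', smul_un, e]; module, mul_smul, inv_smul_smul]
        simp only [mul_smul, smul_add', smul_smul', smul_un, ht, add_right_comm]⟩⟩
  have k1 : ∀ (x : Fin 8 → F), x 0 + x 7 = 1 → Aniso 1 (nm.Q x) →
      x ∈ MulAction.orbit (G2 F) (![0, 0, 0, -nm.Q x, 0, 0, 1, 1] : Fin 8 → F) := fun x a b =>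
    ob_an x a fun e => aniso_one_iff.1 b (x 0) (by rw [nm_Q, e]; linear_combination x 0 * a + x 0 * h2)
  have k2 : ∀ (x : Fin 8 → F), x 0 + x 7 = 1 → ¬Aniso 1 (nm.Q x) → ∃ s : F, x + s • un ∈ MulAction.orbit (G2 F) e0 := by
    simp only [aniso_one_iff, not_forall, not_not]
    exact fun x a ⟨s, b⟩ => ⟨s, (mem_orbit_iff _).2 ⟨(hs x s a).1, sub_eq_zero.1 ((hs x s a).2.trans b)⟩⟩
  have k3 : ∀ {x y : Fin 8 → F}, SU y ≠ ⊤ → (∃ a, ∀ g ∈ SU x, a * g * a⁻¹ ∈ SU y) → SU x ≠ ⊤ := fun h ⟨a, ha⟩ e =>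
    h (eq_top_iff.2 fun g _ => by simpa [mul_assoc] using ha (a⁻¹ * g * a) (e ▸ trivial))
  refine cov_of_top (A := fun x : {x : Fin 8 → F // x 0 + x 7 = 1 ∧ Aniso 1 (nm.Q x)} => SU x.1)
    (B := fun x : {x : Fin 8 → F // x 0 + x 7 = 1 ∧ ¬Aniso 1 (nm.Q x)} => SU x.1) (fun x => ?_) (fun x => ?_)
    (fun x y => ?_) (fun x y => ?_) fun g => ?_
  · refine k3 (y := ![0, 0, 0, -nm.Q x.1, 0, 0, 1, 1]) (fun e => ?_)
      (k 0 0 _ (by simpa using k1 _ x.2.1 x.2.2) ⟨1, by simp⟩)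
    obtain ⟨g, hg⟩ := exists_cyc (F := F)
    obtain ⟨t, ht⟩ := e.ge (Subgroup.mem_top g)
    simpa [hg, un] using congrFun ht 6
  · obtain ⟨s, h⟩ := k2 _ x.2.1 x.2.2
    refine k3 (y := e0) (fun e => ?_) (k s 0 _ h ⟨1, by simp⟩)
    obtain ⟨g, hg⟩ := (mem_orbit_iff (![1, 1, 0, 0, 0, 0, 0, 0] : Fin 8 → F)).2 (by simp)
    obtain ⟨t, ht⟩ := e.ge (Subgroup.mem_top g)
    rw [show g • e0 = _ from hg] at ht
    simpa [un, e0] using congrFun ht 1
  · obtain ⟨s, r, -, a, b⟩ := x.2.2.exists_change y.2.2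
    obtain rfl : r = 1 := by linear_combination a - s * h2
    have e : nm.Q (x.1 + s • un) = nm.Q y.1 := (hs _ s x.2.1).2.trans (by linear_combination b)
    exact k s 0 _ (k1 _ (hs _ s x.2.1).1 (e ▸ y.2.2)) (by simpa [e] using k1 _ y.2.1 y.2.2)
  · obtain ⟨s, h⟩ := k2 _ x.2.1 x.2.2
    obtain ⟨s', h'⟩ := k2 _ y.2.1 y.2.2
    exact k s s' _ h h'
  obtain ⟨x, a, b⟩ := dye' nm_nondeg ⟨glEquiv g.1, (orth_mem_Isom _).2 (nm_smul g)⟩ (hu ▸ one_ne_zero)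
  rw [nm_un] at a
  exact (em _).imp (fun h => ⟨⟨x, a, h⟩, b⟩) fun h => ⟨⟨x, a, h⟩, b⟩

end G2

end CA.Cov
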