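import Cfsg.Agent.Lib.Lin.Cov1

/-! Normal coverings by two subgroups: indecomposable isometries and `SU₄`. -/

namespace CA.Cov

open Module Polynomial CA.Rcf CA.CForm CA.CForm.Form Submodule

variable {F : Type*} [Field F] {V : Type*} [AddCommGroup V] [Module F V] [FiniteDimensional F V] {k : Kind F}
  {f : Form k V}

theorem not_le_stab (hf : f.Nondeg) (hr : f.Rich) {W : Submodule F V} {x : V} (hx : x ∈ W) (h0 : x ≠ 0) (h1 : f.Q x = 0)
    (hW : finrank F W < finrank F V) : ¬f.SIsom ≤ f.stab W := fun H => by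
  obtain ⟨y, hy⟩ := hf.exists_isHyp h1 h0
  obtain ⟨g, hg, a, ha, e⟩ := hf.exists_Eich_smul hr h1 h0 hy.Q_y hy.y_ne_zero
  have : y ∈ W := (W.smul_mem_iff ha).1 (e ▸ (H (f.Eich_le_SIsom hg) x).1 hx)
  obtain rfl : W = ⊤ := eq_top_iff.2 fun v _ => by
    obtain ⟨g, hg, e⟩ := hy.exists_Eich_mem_span hf v
    exact (H (f.Eich_le_SIsom hg) v).2 (span_le.2 (by simp [Set.insert_subset_iff, *]) e)
  simp at hW

omit [FiniteDimensional F V] in
theorem stab_conj {W W' : Submodule F V} (h : ∃ x, f.act x W = W') : ∃ x, ∀ g ∈ f.stab W, x * g * x⁻¹ ∈ f.stab W' := by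
  obtain ⟨x, rfl⟩ := h
  refine ⟨x, fun g hg => ?_⟩
  rw [mem_stab_iff_act] at hg ⊢
  rw [← act_mul, inv_mul_cancel_right, act_mul, hg]

theorem exists_act (hf : f.Nondeg) {U W : Submodule F V} (h : (f.restrict U).Equivalent (f.restrict W)) :
    ∃ x, f.act x U = W := by
  obtain ⟨e, he⟩ := h
  obtain ⟨g, hg⟩ := hf.witt U (W.subtype ∘ₗ e.toLinearMap) (W.injective_subtype.comp e.injective) he.B_eq he.Q_eq
  refine ⟨g, eq_of_le_of_finrank_eq ?_ ((f.finrank_act g U).trans e.finrank_eq)⟩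
  rintro _ ⟨x, hx, rfl⟩
  exact (hg ⟨x, hx⟩).symm ▸ (e ⟨x, hx⟩).2

theorem exists_det [Finite F] (hf : f.Nondeg) (hne : k.σ ≠ RingHom.id F) {W : Submodule F V} {x y : V} (h : f.IsHyp x y)
    (hx : x ∈ W) (hy : y ∈ W ∨ f.TS W) (g : f.Isom) : ∃ c ∈ f.stab W, c * g ∈ f.SIsom := by
  obtain ⟨a, ha⟩ := DFunLike.ne_iff.1 hne
  obtain ⟨d, hd, e⟩ := h90_comm k.σ k.σσ (a := a) (sub_ne_zero.2 (Ne.symm ha)).isUnit (hf.det_mul_σ_det g⁻¹)
  refine ⟨h.torus hd.unit, f.mem_stab_of_le fun v hv => ?_, ?_⟩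
  · rw [h.torus_apply]
    refine add_mem (add_mem hv (W.smul_mem _ hx)) (hy.elim (W.smul_mem _) fun hy => ?_)
    simp [hy.B_eq x hx v hv]
  · rw [mem_SIsom, map_mul, mul_eq_one_iff_eq_inv, ← map_inv]
    ext
    rw [h.detHom_torus, hd.unit_spec, mul_inv_eq_iff_eq_mul₀ (by simpa using hd.ne_zero), e]

theorem fix_of_pow {K : Type*} [Field K] [Finite K] {τ : K →+* K} (hne : τ ≠ RingHom.id K) (hτ : ∀ a, τ (τ a) = a) {Q : ℕ}
    (hQ : Nat.card K = Q ^ 2) {x : K} (hx : x ^ Q = x) : τ x = x := by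
  let S := RingHom.eqLocusField τ (RingHom.id K)
  have := Fintype.ofFinite S
  have h : Fintype.card S = Q := by
    rw [card_eq_card_fix_sq hne hτ τ.toAddMonoidHom hτ (map_mul τ)] at hQ
    exact Fintype.card_eq_nat_card.trans (Nat.pow_left_injective two_ne_zero hQ)
  obtain ⟨y, rfl⟩ := Splits.mem_range_of_isRoot (f := (X ^ Fintype.card S - X : S[X])) (splits_iff_card_roots.2 (by
    rw [FiniteField.roots_X_pow_card_sub_X, FiniteField.X_pow_card_sub_X_natDegree_eq _ Fintype.one_lt_card]; rfl))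
    (FiniteField.X_pow_card_sub_X_ne_zero _ Fintype.one_lt_card) (i := S.subtype) (x := x) (by simp [h, hx])
  exact y.2

theorem odd_of_dual [Finite F] {σ : F →+* F} (hσ : ∀ a, σ (σ a) = a) (hne : σ ≠ RingHom.id F) {ρ : F[X]} (h : Irreducible ρ)
    (hX : ¬X ∣ ρ) (hd : dual σ ρ = ρ) : Odd ρ.natDegree := by
  have := Fact.mk h
  have := finite_adjoinRoot h.ne_zero
  have : Finite (AdjoinRoot ρ) := Module.finite_of_finite F
  have := Fintype.ofFinite F
  have h0 : AdjoinRoot.root ρ ≠ 0 := fun e =>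
    hX ((h.associated_of_dvd irreducible_X (AdjoinRoot.mk_eq_zero.1 e)).symm.dvd)
  have h1 : ρ.eval₂ ((AdjoinRoot.of ρ).comp σ) (AdjoinRoot.root ρ)⁻¹ = 0 := by
    have := aeval_mirror (F := F) (mul_inv_cancel₀ h0) (ρ.map σ)
    rw [AdjoinRoot.aeval_eq, AdjoinRoot.mk_eq_zero.2 (hd ▸ dual_associated σ ρ).dvd, eq_comm, mul_eq_zero] at this
    rw [← eval₂_map]
    exact this.resolve_left (pow_ne_zero _ h0)
  let τ := AdjoinRoot.lift _ _ h1
  have h2 : ∀ a, τ (AdjoinRoot.of ρ a) = AdjoinRoot.of ρ (σ a) := fun a => AdjoinRoot.lift_of h1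
  have h3 : τ.comp τ = RingHom.id _ := AdjoinRoot.ringHom_ext (RingHom.ext fun a => by simp [h2, hσ]) (by simp [τ])
  have h4 : ¬∀ a, τ (AdjoinRoot.of ρ a) = AdjoinRoot.of ρ a := fun H =>
    hne (RingHom.ext fun a => (AdjoinRoot.of ρ).injective ((h2 a).symm.trans (H a)))
  refine Nat.not_even_iff_odd.1 fun ⟨j, hj⟩ => h4 fun a => fix_of_pow (fun e => h4 (by simp [e])) (RingHom.congr_fun h3)
    (Q := Fintype.card F ^ j) ?_ (by rw [← map_pow, FiniteField.pow_card_pow])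
  rw [Module.natCard_eq_pow_finrank (K := F), finrank_adjoinRoot, hj, Nat.card_eq_fintype_card, pow_add, sq]

/-- There is a proper non-degenerate invariant subspace. -/
def Dec (g : f.Isom) : Prop := ∃ W, Disjoint W (f.perp W) ∧ g ∈ f.stab W ∧ 0 < finrank F W ∧ finrank F W < finrank F V

theorem Dec.ex {g : f.Isom} (h : Dec g) (hf : f.Nondeg) : ∃ W W', Disjoint W (f.perp W) ∧ g ∈ f.stab W ∧ Disjoint W' (f.perp W') ∧
    g ∈ f.stab W' ∧ W' ≤ f.perp W ∧ finrank F W + finrank F W' = finrank F V ∧ 0 < finrank F W ∧ finrank F W ≤ finrank F W' := by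
  obtain ⟨W, a, b, c, d⟩ := h
  have := hf.finrank_perp W
  by_cases e : finrank F W ≤ finrank F (f.perp W)
  · exact ⟨W, _, a, b, hf.disjoint_perp_perp a, f.stab_le_stab_perp W b, le_rfl, this, c, e⟩
  · exact ⟨_, W, hf.disjoint_perp_perp a, f.stab_le_stab_perp W b, a, b, f.le_perp_perp W, by omega, by omega, by omega⟩

theorem indec [Finite F] (hf : f.Nondeg) {g : f.Isom} (hG : Tame k g.1) (hV : finrank F V ≠ 0) :
    Dec g ∨ ∃ (ρ : F[X]) (e : ℕ), ρ.Monic ∧ Irreducible ρ ∧ ¬X ∣ ρ ∧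
      ((dual k.σ ρ = ρ ∧ edivs (g.1 : End F V) = {ρ ^ (e + 1)}) ∨
        (IsCoprime (dual k.σ ρ) ρ ∧ edivs (g.1 : End F V) = {ρ ^ (e + 1), dual k.σ ρ ^ (e + 1)})) := by
  have key : ∀ m ≤ edivs (g.1 : End F V), m ≠ 0 → m.map (dual k.σ) = m → Dec g ∨ edivs (g.1 : End F V) = m := by
    intro m hm h0 hd
    obtain ⟨m', hm'⟩ := Multiset.le_iff_exists_add.1 hm
    obtain ⟨n, n', p, p', u, u', hp, -, h1, h2, e, he, he'⟩ := hf.split hG hm' hd
    refine (em (m' = 0)).symm.imp (fun h => ⟨LinearMap.range (e.toLinearMap ∘ₗ LinearMap.inl F _ _), ?_, ?_, ?_⟩)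
      fun h => by simpa [h] using hm'
    · refine disjoint_def.2 ?_
      rintro _ ⟨x, rfl⟩ hx
      rw [hp.eq_zero_right (y := x) fun y => by simpa using (he.B_eq (y, 0) (x, 0)).symm.trans (hx _ ⟨y, rfl⟩), map_zero]
    · refine f.mem_stab_of_le ?_
      rintro _ ⟨x, rfl⟩
      exact ⟨u.1 x, by simpa [prodHom_apply] using he' (x, 0)⟩
    · have := e.finrank_eq
      rw [← h1, ne_eq, edivs_eq_zero_iff] at h0
      rw [← h2, edivs_eq_zero_iff] at h
      rw [LinearMap.finrank_range_of_inj (by exact e.injective.comp LinearMap.inl_injective)]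
      rw [finrank_prod] at this
      omega
  obtain ⟨d, hd⟩ := Multiset.exists_mem_of_ne_zero (mt (edivs_eq_zero_iff (g.1 : End F V)).1 hV)
  obtain ⟨ρ, e, h1, h2, rfl⟩ := isPrim_of_mem_edivs hd
  have h3 : ¬X ∣ ρ := fun h => not_X_dvd_of_mem_edivs g.1 hd (h.pow e.succ_ne_zero)
  by_cases h : dual k.σ ρ = ρ
  · exact (key _ (Multiset.singleton_le.2 hd) (by simp) (by simp [h])).imp_right fun H => ⟨ρ, e, h1, h2, h3, .inl ⟨h, H⟩⟩
  have hc := isCoprime_of_ne (dual_monic _ h1.ne_zero) (irreducible_dual k.σσ h2) h1 h2 h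
  refine (key {ρ ^ (e + 1), dual k.σ ρ ^ (e + 1)} ?_ (by simp) ?_).imp_right fun H => ⟨ρ, e, h1, h2, h3, .inr ⟨hc, H⟩⟩
  · refine (Multiset.le_iff_subset (by
      simpa using fun H => h2.not_isUnit ((isUnit_pow_iff e.succ_ne_zero).1 (isCoprime_self.1
        (by simpa [← H] using hc.pow (m := e + 1) (n := e + 1)))))).2 ?_
    have := Multiset.mem_map_of_mem (dual k.σ) hd
    rw [hf.edivs_dual g, map_pow] at this
    simp [Multiset.cons_subset, *]
  · simpa [dual_dual k.σσ h1] using Multiset.pair_comm _ _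

omit [FiniteDimensional F V] in
theorem B_aeval (g : f.Isom) (p : F[X]) (x : V) {y : V} (hy : aeval (g.1 : End F V) (dual k.σ p) y = 0) :
    f.B (aeval (g.1 : End F V) p x) y = 0 := by
  have := aeval_adj k.σσ (fun _ _ => LinearMap.ext (f.B_add_left _ _)) (fun _ _ => LinearMap.ext (f.B_smul_left _ _))
    (S := g.1) (T := (g⁻¹).1) (fun x y => f.B_isom_left g x y) (p.map k.σ) x y
  obtain ⟨c, hc⟩ := (dual_associated k.σ p).dvd
  rw [show (p.map k.σ).map k.σ = p from (mapE k.σσ).left_inv p] at this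
  rw [this, ← mirror_mirror (p.map k.σ), show aeval ((g⁻¹).1 : End F V) (p.map k.σ).mirror.mirror y = 0 from
    (ker_aeval_mirror g.1 _).ge (by simp [hc, mul_comm _ c, hy]), map_zero]

section Herm
variable [Finite F] {σ : F →+* F} {hσ : ∀ a, σ (σ a) = a} (hne : σ ≠ RingHom.id F) {f : Form (Kind.herm σ hσ) V}
  (hf : f.Nondeg)
include hne hf

theorem fam_nd {j : ℕ} (h2 : 2 ≤ j) (hj : j < finrank F V) :
    Fam f.SIsom fun W : {W // Disjoint W (f.perp W) ∧ finrank F W = j} => f.stab W.1 := by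
  refine ⟨fun ⟨W, a, b⟩ => ?_, fun ⟨W, a, b⟩ => ?_, fun ⟨W, a, b⟩ ⟨W', a', b'⟩ => stab_conj (exists_act hf
    (((f.nondeg_restrict_iff W).2 a).herm_equivalent hne ((f.nondeg_restrict_iff W').2 a') (b.trans b'.symm)))⟩ <;>
  obtain ⟨x, hx, h0, h1⟩ := f.herm_exists_singular hne (W := W) (b ▸ h2)
  · exact not_le_stab hf (herm_prim hne f).rich hx h0 h1 (b ▸ hj)
  · obtain ⟨y, hy⟩ := ((f.nondeg_restrict_iff W).2 a).exists_isHyp (x := ⟨x, hx⟩) h1 (by simpa using h0)
    exact exists_det hf hne ⟨h1, hy.Q_y, hy.B_xy⟩ hx (.inl y.2)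

theorem fam_ts {j : ℕ} (hj : 0 < j) : Fam f.SIsom fun W : {W // f.TS W ∧ finrank F W = j} => f.stab W.1 := by
  refine ⟨fun ⟨W, a, b⟩ => ?_, fun ⟨W, a, b⟩ => ?_, fun ⟨W, a, b⟩ ⟨W', a', b'⟩ => stab_conj
    (hf.exists_map_eq_of_ts a a' (b.trans b'.symm))⟩ <;>
  obtain ⟨x, hx, h0⟩ := W.exists_mem_ne_zero_of_ne_bot (by rintro rfl; simp at b; omega)
  · exact not_le_stab hf (herm_prim hne f).rich hx h0 (a.1 x hx) (by have := hf.two_mul_finrank_le a; simp only; omega)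
  · obtain ⟨y, hy⟩ := hf.exists_isHyp (a.1 x hx) h0
    exact exists_det hf hne hy hx (.inr a)

theorem eig2 (g : f.Isom) (h : finrank F V = 2) : ∃ v, v ≠ 0 ∧ ∃ a : F, g.1 v = a • v := by
  refine (eigen_or_deg (g.1 : End F V)).resolve_right fun H => ?_
  have h1 := (g.1 : End F V).charpoly_natDegree
  obtain ⟨ρ, a, b, c⟩ := exists_monic_irreducible_factor (g.1 : End F V).charpoly fun e => by
    have := natDegree_eq_zero_of_isUnit e; omega
  obtain rfl := eq_of_monic_of_dvd_of_natDegree_le a (g.1 : End F V).charpoly_monic c (by have := H ρ b c; omega)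
  have := odd_of_dual hσ hne b (fun e => by simpa using (H _ irreducible_X e).1) (hf.dual_charpoly g)
  rw [h1, h] at this
  exact absurd this (by decide)

theorem cov_U4 (h : finrank F V = 4) : Cov f.SIsom := by
  refine cov_of (fam_nd hne hf (j := 3) (by omega) (by omega)) (fam_ts hne hf (j := 2) two_pos) fun g _ => ?_
  have k0 : ∀ {v} {a : F}, g.1 v = a • v → g ∈ f.stab (F ∙ v) := fun e => f.mem_stab_of_le fun w hw => by
    obtain ⟨c, rfl⟩ := mem_span_singleton.1 hw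
    rw [map_smul, e]
    exact smul_mem _ _ (smul_mem _ _ (mem_span_singleton_self _))
  have k1 : ∀ {v} {a : F}, g.1 v = a • v → f.Q v ≠ 0 → ∃ W : {W // Disjoint W (f.perp W) ∧ finrank F W = 3}, g ∈ f.stab W.1 :=
    fun {v a} e hv => ⟨⟨_, hf.disjoint_perp_perp (disjoint_perp_singleton (by rwa [herm_B_self])), by
      have := hf.finrank_perp (F ∙ v)
      rw [finrank_span_singleton (by rintro rfl; simp at hv)] at this
      omega⟩, f.stab_le_stab_perp _ (k0 e)⟩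
  have k2 : ∀ p : F[X], aeval (g.1 : End F V) (dual σ p * p) = 0 → ((edivs (g.1 : End F V)).map (kd · p)).sum = 2 →
      ∃ W : {W // f.TS W ∧ finrank F W = 2}, g ∈ f.stab W.1 := fun p a b =>
    ⟨⟨LinearMap.range (aeval (g.1 : End F V) p), herm_ts_iff.2 (by
      rintro _ ⟨x, rfl⟩ _ ⟨y, rfl⟩
      exact B_aeval g p x (by rw [map_mul] at a; exact LinearMap.congr_fun a y)), by
      have := (aeval (g.1 : End F V) p).finrank_range_add_finrank_ker
      rw [finrank_ker_aeval] at this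
      omega⟩, f.mem_stab_of_le (by
      rintro _ ⟨x, rfl⟩
      exact ⟨g.1 x, (aeval_apply_of_comm (g.1 : End F V) (fun _ => rfl) p x).symm⟩)⟩
  have k3 := sum_natDegree_edivs (g.1 : End F V)
  obtain hD | ⟨ρ, e, h1, h2, h3, ⟨h4, h5⟩ | ⟨h4, h5⟩⟩ := indec hf (tame_herm hne g.1) (by omega)
  · obtain ⟨W, W', a, b, c, d, e, h1, h2, h3⟩ := hD.ex hf
    by_cases h4 : finrank F W = 1
    · exact .inl ⟨⟨W', c, by omega⟩, d⟩
    obtain ⟨v, v0, s, hv⟩ := eig2 hne ((f.nondeg_restrict_iff W).2 a) (res b) (by omega)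
    obtain ⟨w, w0, t, hw⟩ := eig2 hne ((f.nondeg_restrict_iff W').2 c) (res d) (by omega)
    replace hv : g.1 v = s • v := congrArg Subtype.val hv
    replace hw : g.1 w = t • w := congrArg Subtype.val hw
    by_cases q1 : f.Q v = 0
    · by_cases q2 : f.Q w = 0
      · refine .inr ⟨⟨F ∙ v.1 ⊔ F ∙ w.1, (ts_span_singleton q1).sup_singleton q2
          (f.mem_perp_span_singleton.2 (e w.2 v v.2)), ?_⟩, ?_⟩
        · have := finrank_sup_add_finrank_inf_eq (F ∙ v.1) (F ∙ w.1)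
          rwa [disjoint_iff.1 (a.mono ((span_singleton_le_iff_mem _ _).2 v.2) ((span_singleton_le_iff_mem _ _).2 (e w.2))),
            finrank_span_singleton (by simpa using v0), finrank_span_singleton (by simpa using w0), finrank_bot] at this
        · rw [mem_stab_iff_act, act_sup, f.mem_stab_iff_act.1 (k0 hv), f.mem_stab_iff_act.1 (k0 hw)]
      · exact .inl (k1 hw q2)
    · exact .inl (k1 hv q1)
  · obtain ⟨j, hj⟩ := odd_of_dual hσ hne h2 h3 h4
    simp only [h5, Multiset.map_singleton, Multiset.sum_singleton, natDegree_pow, hj, h] at k3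
    obtain rfl : j = 0 := by
      by_contra H
      obtain rfl | rfl : j = 1 ∨ e = 0 := by
        by_contra! H'
        nlinarith [Nat.pos_of_ne_zero H, Nat.pos_of_ne_zero H'.2]
      all_goals omega
    obtain rfl : e = 3 := by omega
    refine .inr (k2 (ρ ^ 2) ((aeval_eq_zero_iff _ _).2 ?_) (by simp [h5, kd_pow_pow h1.ne_zero, hj]))
    simp [h5, show dual σ ρ = ρ from h4, ← pow_add]
  · change IsCoprime (dual σ ρ) ρ at h4
    change _ = {_, dual σ ρ ^ _} at h5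
    refine .inr (k2 (ρ ^ (e + 1)) ((aeval_eq_zero_iff _ _).2 (by simp [h5])) ?_)
    have := kd_of_isCoprime (pow_ne_zero (e + 1) (dual_monic σ h1.ne_zero).ne_zero) (h4.pow (m := e + 1) (n := e + 1))
    simp [h5, natDegree_dual, h] at k3
    simp [h5, this, kd_of_dvd (pow_ne_zero _ h1.ne_zero)]
    omega

end Herm

theorem cov_PSU4 [Fintype F] {q : ℕ} (hF : Fintype.card F = q ^ 2) : Cov (Cfsg.PSU 4 F q) :=
  (cov_U4 (conj_ne_id hF) (hermStd_nondeg hF 4) (by simp)).quot (suEquiv hF 4)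
    (.inr (herm_SIsom_perfect hF (hermStd_nondeg hF 4) (by simp) (by simp)))

end CA.Cov
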