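import Cfsg.Agent.Lib.Lin.Cov3

/-! Normal coverings by two subgroups: cubic extension subgroups in characteristic three, `SU₃`. -/

namespace CA.Cov

open Module Polynomial CA.Rcf CA.CForm CA.CForm.Form Submodule

variable {F : Type*} [Field F] {V : Type*} [AddCommGroup V] [Module F V] {k : Kind F} {f : Form k V} {c : F}
  {V' : Type*} [AddCommGroup V'] [Module F V'] {f' : Form k V'}

/-- `J` is self-adjoint with `J ^ 3 = J + c`. -/
def SA (f : Form k V) (c : F) (J : End F V) : Prop :=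
  (∀ x y, f.B (J x) y = f.B x (J y)) ∧ ∀ v, J (J (J v)) = J v + c • v

/-- `g` normalises a self-adjoint Artin-Schreier operator. -/
def Good (c : F) (g : f.Isom) : Prop := ∃ J : {J // SA f c J}, g ∈ (NJ ⊤ J.1).comap f.Isom.subtype

theorem Good.isoSim {g : f.Isom} {g' : f'.Isom} (h : Good c g) (H : IsoSim g g') : Good c g' := by
  obtain ⟨⟨J, h1, h2⟩, t, -, h3⟩ := h
  obtain ⟨e, he, he'⟩ := H
  refine ⟨⟨e.conj J, fun x y => ?_, fun v => by simp [LinearEquiv.conj_apply, h2]⟩, t, trivial, fun v => ?_⟩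
  · obtain ⟨x, rfl⟩ := e.surjective x
    obtain ⟨y, rfl⟩ := e.surjective y
    simp [LinearEquiv.conj_apply, he.B_eq, h1]
  · obtain ⟨v, rfl⟩ := e.surjective v
    have := congrArg e (h3 v)
    simpa [LinearEquiv.conj_apply, ← he'] using this

theorem aeval_as {J : End F V} : aeval J (X ^ 3 - X - C c : F[X]) = 0 ↔ ∀ v, J (J (J v)) = J v + c • v := by
  simp [LinearMap.ext_iff, pow_succ, sub_sub, sub_eq_zero]

theorem deg_as : (X ^ 3 - X - C c : F[X]).natDegree = 3 := by compute_degree!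

theorem dual_lin (σ : F →+* F) {a : F} (h0 : a ≠ 0) : dual σ (X - C a) = X - C (σ a)⁻¹ := by
  rw [dual_eq σ (by simpa using h0), Polynomial.map_sub, map_X, map_C, sub_eq_add_neg X (C (σ a)), ← C_neg,
    reverse_add_C, natDegree_X, ← mul_one X, reverse_X_mul, ← C_1, reverse_C]
  simp only [coeff_mul_C, coeff_X_zero, coeff_C_zero, zero_mul, mul_add,
    ← mul_assoc, ← C_mul, coeff_sub, zero_sub, map_neg σ]
  rw [inv_mul_cancel₀ (by simpa using h0), inv_neg]
  simp [sub_eq_add_neg, add_comm]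

theorem lin_of_deg {ρ : F[X]} (h : ρ.Monic) (h1 : ρ.natDegree = 1) (h2 : ¬X ∣ ρ) : ∃ a, a ≠ 0 ∧ ρ = X - C a :=
  ⟨-ρ.coeff 0, by simpa [X_dvd_iff] using h2, by simpa using h.eq_X_add_C h1⟩

variable [CharP F 3]

theorem exists_as [Finite F] (σ : F →+* F) (hσ : ∀ a, σ (σ a) = a) : ∃ c, σ c = c ∧ ∀ a : F, a ^ 3 - a - c ≠ 0 := by
  have : ¬Function.Surjective fun x : {a // σ a = a} => (⟨x.1 ^ 3 - x.1, by simp [x.2]⟩ : {a // σ a = a}) := fun h => by
    simpa using Finite.injective_iff_surjective.2 h (a₁ := ⟨0, by simp⟩) (a₂ := ⟨1, by simp⟩) (by simp)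
  simp only [Function.Surjective, not_forall, not_exists] at this
  obtain ⟨⟨c, hc⟩, h⟩ := this
  refine ⟨c, hc, fun a ha => h ⟨-(a + σ a), by simp [hσ, add_comm]⟩ (Subtype.ext ?_)⟩
  have := congrArg σ ha
  simp only [map_sub, map_pow, hc, map_zero] at this ⊢
  grind

/-- Companion operator. -/
def J0 (c : F) : End F (Fin 3 → F) := Matrix.toLin' !![0, 0, c; 1, 0, 1; 0, 1, 0]

/-- The substitution `θ ↦ θ + 1`. -/
def ph : End F (Fin 3 → F) := Matrix.toLin' !![1, 1, 1; 0, 1, -1; 0, 0, 1]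

omit [CharP F 3] in
theorem J0_apply (x : Fin 3 → F) : J0 c x = ![c * x 2, x 0 + x 2, x 1] := by
  ext i; fin_cases i <;> simp [J0, Matrix.mulVec, dotProduct, Fin.sum_univ_three]

omit [CharP F 3] in
theorem ph_apply (x : Fin 3 → F) : ph x = ![x 0 + x 1 + x 2, x 1 - x 2, x 2] := by
  ext i; fin_cases i <;> simp [ph, Matrix.mulVec, dotProduct, Fin.sum_univ_three, sub_eq_add_neg]

omit [CharP F 3] in
theorem J0_cube (x : Fin 3 → F) : J0 c (J0 c (J0 c x)) = J0 c x + c • x := by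
  ext i; fin_cases i <;> simp [J0_apply] <;> ring

theorem ph_J0 (x : Fin 3 → F) : ph (J0 c x) = J0 c (ph x) + ph x := by
  ext i; fin_cases i <;> simp [J0_apply, ph_apply] <;> grind

omit [CharP F 3] in
theorem edivs_ph {a : F} (ha : a ≠ 0) : edivs (a • ph : End F (Fin 3 → F)) = {(X - C a) ^ 3} := by
  have h : ∀ x, (a • ph - algebraMap F _ a : End F (Fin 3 → F)) x = ![a * (x 1 + x 2), -(a * x 2), 0] := fun x => by
    ext i; fin_cases i <;> simp [ph_apply] <;> ring
  refine edivs_of_regular (e := 2) (LinearMap.ext fun x => ?_) (fun e => ?_) (by simp)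
  · simp only [pow_succ, pow_zero, one_mul, End.mul_apply, h]
    simp
  · have := congrFun (LinearMap.congr_fun e ![0, 0, 1]) 0
    simp only [pow_succ, pow_zero, one_mul, End.mul_apply, h] at this
    simp [ha] at this

variable [FiniteDimensional F V] (hc : ∀ a : F, a ^ 3 - a - c ≠ 0)
include hc

omit [CharP F 3] [FiniteDimensional F V] in
theorem irr_as : Irreducible (X ^ 3 - X - C c : F[X]) :=
  irreducible_of_degree_le_three_of_not_isRoot (by rw [deg_as]; decide) (by simpa using hc)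

omit [CharP F 3] [FiniteDimensional F V] in
theorem SA.no_eigen {J : End F V} (h : SA f c J) (a : F) (z : V) (e : J z = a • z) : z = 0 :=
  Cov.no_eigen (aeval_as.2 h.2) (by simpa using hc) a z e

theorem not_le_NJ (hf : f.Nondeg) {x : V} (h0 : x ≠ 0) (h1 : f.Q x = 0) (h : ∃ d, d ≠ 0 ∧ k.π d = 0) (J : {J // SA f c J}) :
    ¬f.SIsom ≤ (NJ ⊤ J.1).comap f.Isom.subtype := fun H => by
  obtain ⟨y, hy⟩ := hf.exists_isHyp h1 h0
  obtain ⟨d, d0, hd⟩ := h
  refine NJ.not_mem (fun t _ e => by grind) (J.2.no_eigen hc) (φ := f.B x) (z := -(k.ε * d) • x)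
    (by simp [h0, d0, k.ε_ne_zero]) (by simp [hy.B_xx]) hy.B_xy (fun v => ?_)
    (H (f.Eich_le_SIsom (f.eichler_mem_Eich x 0 d (f.eichlerCond_zero h1 hd))))
  rw [Subgroup.coe_subtype, eichler_zero_apply]
  module

theorem good_of_deg [Finite F] (hf : f.Nondeg) (hσ : k.σ c = c) {g : f.Isom} {ρ ρ' : F[X]} (h : Irreducible ρ)
    (h' : Irreducible ρ') (h3 : 3 ∣ ρ.natDegree) (h3' : 3 ∣ ρ'.natDegree) {e : ℕ}
    (H : ∀ d ∈ edivs (g.1 : End F V), d = ρ ^ e ∨ d = ρ' ^ e) : Good c g := by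
  obtain ⟨a, ha⟩ := exists_root' (irr_as hc) (μ := ρ ^ e * ρ' ^ e) (by simp [h.ne_zero, h'.ne_zero])
    ((aeval_eq_zero_iff (g.1 : End F V) _).2 fun d hd => by obtain rfl | rfl := H d hd <;> simp) fun p hp e => by
      rw [deg_as]
      obtain e | e := hp.prime.dvd_or_dvd e
      · rwa [natDegree_eq_of_degree_eq (degree_eq_degree_of_associated (hp.associated_of_dvd h (hp.prime.dvd_of_dvd_pow e)))]
      · rwa [natDegree_eq_of_degree_eq (degree_eq_degree_of_associated (hp.associated_of_dvd h' (hp.prime.dvd_of_dvd_pow e)))]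
  rw [aeval_as] at ha
  have h1 : ∀ x, g.1 (aeval (g.1 : End F V) a x) = aeval (g.1 : End F V) a (g.1 x) :=
    aeval_apply_of_comm (g.1 : End F V) (fun _ => rfl) a
  have h2 : ∀ T : End F V, (∀ x, T (g.1 x) = g.1 (T x)) → ∀ x, T (aeval (g.1 : End F V) a x) = aeval (g.1 : End F V) a (T x) :=
    fun T h => aeval_apply_of_comm T h a
  generalize aeval (g.1 : End F V) a = A at *
  obtain ⟨T, t1, t2⟩ : ∃ T : End F V, (∀ x y, f.B (T x) y = f.B x (A y)) ∧ ∀ x y, f.B x (T y) = f.B (A x) y :=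
    ⟨_, hf.pre.B_adj A, hf.pre.B_adj' A⟩
  have t3 : ∀ x, T (g.1 x) = g.1 (T x) := fun x => hf.eq_of_B_eq fun y => by
    obtain ⟨y, rfl⟩ := g.1.surjective y
    rw [t1, ← h1, B_coe_map, B_coe_map, t1]
  have t4 : ∀ v, T (T (T v)) = T v + c • v := fun v => hf.eq_of_B_eq fun y => by simp [t1, ha, hσ]
  refine ⟨⟨-(A + T), fun x y => by simp [t1, t2, add_comm], fun v => ?_⟩, 0, trivial, fun v => by simp [h1, t3]⟩
  simp only [LinearMap.neg_apply, LinearMap.add_apply, map_neg, map_add, h2 T t3, ha, t4]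
  have h3 : (3 : F) = 0 := by grind
  linear_combination (norm := module) h3 • (-c • v - A (A (T v)) - A (T (T v)))

section Herm
variable [Finite F] {σ : F →+* F} {hσ : ∀ a, σ (σ a) = a} (hne : σ ≠ RingHom.id F) {f : Form (Kind.herm σ hσ) V}
  (hf : f.Nondeg)
include hne hf

theorem herm_trans {J J' : End F V} (h : SA f c J) (h' : SA f c J') : ∃ x : f.Isom, ∀ v, x.1 (J v) = J' (x.1 v) := by
  obtain ⟨i, i0, hi⟩ := herm_exists_π_eq_zero hσ hne
  replace hi : σ i = -i := eq_neg_of_add_eq_zero_right hi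
  have key : ∀ {J}, SA f c J → ∃ u : f.Isom, (∀ v, u.1 (J v - i • v) = J v + i • v) ∧
      ∀ w, ∃ v, J v - i • v = w := fun {J} h => by
    let E := fun a : F => LinearEquiv.ofInjectiveEndo (J - a • 1 : End F V) ((injective_iff_map_eq_zero _).2 fun z e =>
      h.no_eigen hc a z (sub_eq_zero.1 e))
    refine ⟨⟨(E i).symm.trans (E (-i)), (herm_mem_Isom _).2 fun x y => ?_⟩, fun v => ?_, (E i).surjective⟩
    · obtain ⟨x, rfl⟩ := (E i).surjective x
      obtain ⟨y, rfl⟩ := (E i).surjective y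
      simp only [LinearEquiv.trans_apply, LinearEquiv.symm_apply_apply]
      simp [E, h.1, hi]
      ring
    · change E (-i) ((E i).symm (E i v)) = _
      rw [LinearEquiv.symm_apply_apply]
      simp [E]
  obtain ⟨u, u1, u2⟩ := key h
  obtain ⟨u', u1', u2'⟩ := key h'
  obtain ⟨e, he⟩ := sim_of_root (irr_as hc) (aeval_as.2 h.2) (aeval_as.2 h'.2)
  obtain ⟨x, hx, hx'⟩ := hf.isoSim_of_sim hf (g := u) (g' := u') (tame_herm hne _) ⟨e, fun w => by
    obtain ⟨v, rfl⟩ := u2 w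
    simp [u1, he, u1']⟩
  refine ⟨⟨x, mem_Isom_iff_pres.2 hx⟩, fun v => ?_⟩
  obtain ⟨w, hw⟩ := u2' (x (J v - i • v))
  have e1 := hx' (J v - i • v)
  rw [u1, ← hw, u1'] at e1
  rw [map_sub, map_smul] at hw
  rw [map_add, map_smul] at e1
  obtain rfl : w = x v := smul_right_injective V (by grind : i + i ≠ 0) (by linear_combination (norm := module) -e1 - hw)
  exact add_right_cancel e1

theorem cov_U3 (hσc : σ c = c) (h : finrank F V = 3) : Cov f.SIsom := by
  obtain ⟨x, -, x0, hx⟩ := f.herm_exists_singular hne (W := ⊤) (by simp [h])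
  refine cov_of (fam_nd hne hf (j := 2) le_rfl (by omega)) (B := fun J : {J // SA f c J} => (NJ ⊤ J.1).comap f.Isom.subtype)
    ⟨not_le_NJ hc hf x0 hx (herm_exists_π_eq_zero hσ hne), fun J g => ?_, fun J J' =>
      (herm_trans hc hne hf J.2 J'.2).imp fun x hx g hg => NJ.conj hx hg⟩ fun g _ => ?_
  · obtain ⟨a, ha⟩ := (frobeniusEquiv F 3).surjective (f.detHom g⁻¹)
    rw [frobeniusEquiv_def] at ha
    have h1 : a * (Kind.herm σ hσ).σ a = 1 := (frobeniusEquiv F 3).injective (by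
      rw [frobeniusEquiv_def, mul_pow, ← map_pow, ha, map_one]; exact hf.det_mul_σ_det g⁻¹)
    refine ⟨f.scalarIsom a h1, ⟨0, trivial, by simp [scalarIsom_apply]⟩, ?_⟩
    rw [mem_SIsom, map_mul, mul_eq_one_iff_eq_inv, ← map_inv]
    exact Units.ext (by rw [detHom_of_smul _ (scalarIsom_apply _ _ _), h, ha])
  have k3 := sum_natDegree_edivs (g.1 : End F V)
  obtain hD | ⟨ρ, e, h1, h2, h3, ⟨h4, h5⟩ | ⟨h4, h5⟩⟩ := indec hf (tame_herm hne g.1) (by omega)
  · obtain ⟨W, W', a, b, c, d, e, h1, h2, h3⟩ := hD.ex hf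
    exact .inl ⟨⟨W', c, by omega⟩, d⟩
  · right
    simp only [h5, Multiset.map_singleton, Multiset.sum_singleton, natDegree_pow, h] at k3
    obtain h6 | h6 := (Nat.dvd_prime Nat.prime_three).1 (Dvd.intro_left _ k3)
    · obtain ⟨a, a0, rfl⟩ := lin_of_deg h1 h6 h3
      obtain rfl : e = 2 := by rw [h6] at k3; omega
      rw [dual_lin _ a0, sub_right_inj, C_inj, inv_eq_iff_eq_inv, ← mul_eq_one_iff_eq_inv₀ a0, mul_comm] at h4
      let f0 : Form (Kind.herm σ hσ) (Fin 3 → F) := ofHerm hne hσ (LinearMap.mk₂'ₛₗ σ (RingHom.id F)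
        (fun x y => σ (x 0) * y 2 + σ (x 1) * y 1 + σ (x 2) * y 0 + σ (x 2) * y 2) (by simp; intros; ring) (by simp; intros; ring)
        (by simp; intros; ring) (by simp; intros; ring)) ⟨fun x y => by simp [hσ]; ring⟩
      have b0 : ∀ x y, f0.B x y = σ (x 0) * y 2 + σ (x 1) * y 1 + σ (x 2) * y 0 + σ (x 2) * y 2 := fun _ _ => rfl
      have hf0 : f0.Nondeg := fun x H => by
        have e2 : x 2 = 0 := by simpa [b0] using H ![1, 0, 0]
        ext i; fin_cases i
        exacts [by simpa [b0, e2] using H ![0, 0, 1], by simpa [b0] using H ![0, 1, 0], e2]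
      have b1 : ∀ x y, f0.B ((a • ph : End F _) x) ((a • ph : End F _) y) = f0.B x y := fun x y => by
        replace h4 : a * σ a = 1 := h4
        simp [b0, ph_apply]; grind
      refine Good.isoSim (g := ⟨LinearEquiv.ofInjectiveEndo _ (hf0.injective_of_B f0 _ b1), (herm_mem_Isom _).2 b1⟩)
        ⟨⟨J0 c, fun x y => by simp [b0, J0_apply, hσc]; ring, J0_cube⟩, 1, trivial, fun v => by simp [ph_J0]⟩
        (hf0.isoSim_of_sim hf (tame_herm hne _) (sim_iff_edivs.2 ((edivs_ph a0).trans h5.symm)))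
    · exact good_of_deg hc hf hσc h2 h2 h6.symm.dvd h6.symm.dvd (e := e + 1) (by simp [h5])
  · simp [h5, natDegree_dual, h] at k3
    omega

end Herm

omit hc in
theorem cov_PSU3 [Fintype F] {q : ℕ} (hF : Fintype.card F = q ^ 2) (hq : q ≠ 2) : Cov (Cfsg.PSU 3 F q) := by
  obtain ⟨c, h1, h2⟩ := exists_as (conj hF) (conj_conj hF)
  exact (cov_U3 h2 (conj_ne_id hF) (hermStd_nondeg hF 3) h1 (by simp)).quot (suEquiv hF 3)
    (.inr (herm_SIsom_perfect hF (hermStd_nondeg hF 3) (by simp) (by simpa)))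

end CA.Cov
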