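import Cfsg.Agent.Lib.Lin.Cov4

/-! Normal coverings by two subgroups: `Sp₆` in characteristic three. -/

namespace CA.Cov

open Module Polynomial CA.Rcf CA.CForm CA.CForm.Form Submodule

variable {F : Type*} [Field F] {V : Type*} [AddCommGroup V] [Module F V] [FiniteDimensional F V] {c : F}

theorem edivs_single {A : End F V} {ρ : F[X]} {e : ℕ} (h1 : ρ.Monic) (h2 : Irreducible ρ) (h : aeval A ρ ^ (e + 1) = 0)
    (h' : aeval A ρ ^ e ≠ 0) (hd : finrank F V = (e + 1) * ρ.natDegree) : edivs A = {ρ ^ (e + 1)} := by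
  rw [← map_pow, aeval_eq_zero_iff] at h
  rw [← map_pow, ne_eq, aeval_eq_zero_iff] at h'
  push Not at h'
  obtain ⟨d, hd1, hd2⟩ := h'
  obtain ⟨i, hi, H⟩ := (dvd_prime_pow h2.prime _).1 (h d hd1)
  obtain rfl := eq_of_monic_of_associated (isPrim_of_mem_edivs hd1).monic (h1.pow i) H
  obtain rfl : i = e + 1 := by
    by_contra H
    exact hd2 (pow_dvd_pow _ (by omega))
  obtain ⟨m, hm⟩ := Multiset.exists_cons_of_mem hd1
  have := sum_natDegree_edivs A
  rw [hm, Multiset.map_cons, Multiset.sum_cons, natDegree_pow, hd, add_eq_left, Multiset.sum_eq_zero_iff] at this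
  rw [hm, Multiset.eq_zero_of_forall_notMem (s := m) fun d hd => (isPrim_of_mem_edivs (hm ▸ Multiset.mem_cons_of_mem hd)).natDegree_pos.ne'
    (this _ (Multiset.mem_map_of_mem _ hd))]
  rfl

theorem hom_of_indec {k : Kind F} {f : Form k V} {g : f.Isom} {a : F} (ha : a * a = 1) (hσ : ∀ a, k.σ a = a) (hf : f.Nondeg)
    (h : ¬Dec g) : (∀ d ∈ edivs (g.1 : End F V), IsCoprime d (X - C a)) ∨
      ∃ n e, edivs (g.1 : End F V) = Multiset.replicate n ((X - C a) ^ (e + 1)) := by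
  have k0 : ∀ {W} (a : Disjoint W (f.perp W)) (b : g ∈ f.stab W), edivs (g.1 : End F V) = edivs ((res b).1 : End F W) ∨
      edivs (g.1 : End F V) = edivs ((res (f.stab_le_stab_perp W b)).1 : End F (f.perp W)) := fun {W} a b => by
    have := hf.finrank_perp W
    rw [hf.edivs_res a b, add_eq_left, add_eq_right, edivs_eq_zero_iff, edivs_eq_zero_iff]
    by_contra H
    exact h ⟨W, a, b, by omega, by omega⟩
  obtain ⟨W, a1, b, e, h1, h2⟩ := hf.exists_fitting ha hσ g
  refine (k0 a1 b).elim (fun H => .inr ?_) fun H => .inl (by rw [H]; exact h2)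
  replace h1 : nl g a ^ e = 0 := (sub_pow_eq_zero_iff e).2 (H ▸ (sub_pow_eq_zero_iff e).1 h1)
  clear H
  induction e with
  | zero => exact ⟨0, 0, (edivs_eq_zero_iff _).2 (by
      have : Subsingleton V := ⟨fun x y => by simpa using (LinearMap.congr_fun h1 x).trans (LinearMap.congr_fun h1 y).symm⟩
      exact finrank_zero_of_subsingleton)⟩
  | succ e ih =>
    obtain ⟨W, a1, b, n, h3, h4⟩ := hf.exists_top ha hσ h1
    exact (k0 a1 b).elim (fun H => ⟨n, e, H.trans h3⟩) fun H =>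
      ih ((sub_pow_eq_zero_iff e).2 (H ▸ (sub_pow_eq_zero_iff e).1 h4))

/-- The trace form of the cubic extension. -/
def be : LinearMap.BilinForm F (Fin 3 → F) := LinearMap.mk₂ F (fun x y => x 0 * y 2 + x 1 * y 1 + x 2 * y 0 + x 2 * y 2)
  (by simp; intros; ring) (by simp; intros; ring) (by simp; intros; ring) (by simp; intros; ring)

theorem be_apply (x y : Fin 3 → F) : be x y = x 0 * y 2 + x 1 * y 1 + x 2 * y 0 + x 2 * y 2 := rfl

/-- The model symplectic space. -/
def sp6 : Form (Kind.symp F) ((Fin 3 → F) × (Fin 3 → F)) :=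
  ofAlt (be.compl₁₂ (.fst ..) (.snd ..) - be.compl₁₂ (.snd ..) (.fst ..)) fun x => by simp [be_apply]; ring

theorem sp6_B (x y : (Fin 3 → F) × (Fin 3 → F)) : sp6.B x y = be x.1 y.2 - be x.2 y.1 := rfl

theorem sp6_nondeg : (sp6 (F := F)).Nondeg := fun x H => by
  have k : ∀ x : Fin 3 → F, (∀ y, be x y = 0) → x = 0 := fun x H => by
    have e2 : x 2 = 0 := by simpa [be_apply] using H ![1, 0, 0]
    ext i; fin_cases i
    exacts [by simpa [be_apply, e2] using H ![0, 0, 1], by simpa [be_apply] using H ![0, 1, 0], e2]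
  exact Prod.ext (k _ fun y => by simpa [sp6_B] using H (0, y)) (k _ fun y => by simpa [sp6_B] using H (y, 0))

theorem be_J0 (x y : Fin 3 → F) : be (J0 c x) y = be x (J0 c y) := by simp [be_apply, J0_apply]; ring

theorem sa6 : SA sp6 c ((J0 c).prodMap (J0 c)) := ⟨fun x y => by simp [sp6_B, be_J0], fun v => by simp [J0_cube]; rfl⟩

variable [CharP F 3] {f : Form (Kind.symp F) V}

theorem be_ph (x y : Fin 3 → F) : be (ph x) (ph y) = be x y := by simp [be_apply, ph_apply]; grind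

omit [CharP F 3] in
theorem good6 (A : End F ((Fin 3 → F) × (Fin 3 → F))) (h : ∀ x y, sp6.B (A x) (A y) = sp6.B x y)
    (h' : ∀ v, A ((J0 c).prodMap (J0 c) v) = (J0 c).prodMap (J0 c) (A v) + A v) : ∃ g : sp6.Isom, (g.1 : End F _) = A ∧ Good c g :=
  ⟨⟨LinearEquiv.ofInjectiveEndo _ (sp6_nondeg.injective_of_B sp6 _ h), (symp_mem_Isom _).2 h⟩, rfl, ⟨_, sa6⟩, 1, trivial,
    by simpa using h'⟩

theorem good_diag {a : F} (ha : a ≠ 0) :
    ∃ g : sp6.Isom, edivs (g.1 : End F ((Fin 3 → F) × (Fin 3 → F))) = {(X - C a) ^ 3, (X - C a⁻¹) ^ 3} ∧ Good c g := by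
  obtain ⟨g, h1, h2⟩ := good6 (c := c) ((a • ph).prodMap (a⁻¹ • ph)) (fun x y => by simp [sp6_B, be_ph, ha])
    fun v => by simp [ph_J0]
  exact ⟨g, by rw [h1, edivs_prodMap, edivs_ph ha, edivs_ph (inv_ne_zero ha)]; rfl, h2⟩

theorem good_comp {b : F} (h : Irreducible (X ^ 2 + C b * X + 1 : F[X])) (hb : b ^ 2 ≠ 1) :
    ∃ g : sp6.Isom, edivs (g.1 : End F ((Fin 3 → F) × (Fin 3 → F))) = {(X ^ 2 + C b * X + 1) ^ 3} ∧ Good c g := by
  obtain ⟨g, h1, h2⟩ := good6 (c := c) (LinearMap.prod (-ph ∘ₗ .snd ..) (ph ∘ₗ .fst .. - b • ph ∘ₗ .snd ..))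
    (fun x y => by simp [sp6_B, be_ph]; ring) fun v => by simp [ph_J0]; constructor <;> abel
  have k : ∀ v, aeval (g.1 : End F ((Fin 3 → F) × (Fin 3 → F))) (X ^ 2 + C b * X + 1 : F[X]) v = (![v.1 1 - v.1 2 + b * v.2 1, -v.1 2 - b * v.2 2, 0],
      ![v.2 1 - v.2 2 - b * v.1 1 + b ^ 2 * v.2 1, -v.2 2 + b * v.1 2 - b ^ 2 * v.2 2, 0]) := fun v => by
    rw [h1]
    ext i <;> fin_cases i <;> simp [ph_apply, sq] <;> grind
  refine ⟨g, edivs_single (e := 2) (by monicity!) h (LinearMap.ext fun v => ?_) (fun e => hb ?_) ?_, h2⟩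
  · generalize aeval (g.1 : End F ((Fin 3 → F) × (Fin 3 → F))) (X ^ 2 + C b * X + 1 : F[X]) = M at k ⊢
    simp only [pow_succ, pow_zero, one_mul, End.mul_apply, k]
    simp
  · generalize aeval (g.1 : End F ((Fin 3 → F) × (Fin 3 → F))) (X ^ 2 + C b * X + 1 : F[X]) = M at k e
    have := congrFun (congrArg Prod.fst (LinearMap.congr_fun e (![0, 0, 1], 0))) 0
    simp only [pow_succ, pow_zero, one_mul, End.mul_apply, k] at this
    simp at this
    grind
  · rw [show (X ^ 2 + C b * X + 1 : F[X]).natDegree = 2 by compute_degree!]; simp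

theorem good_reg {a : F} (ha : a * a = 1) (b : F) : ∃ g : sp6.Isom, Reg g a 5 b ∧ Good c g := by
  obtain ⟨g, h1, h2⟩ := good6 (c := c) (a • LinearMap.prod (ph ∘ₗ .fst .. + (-a * b) • J0 c ∘ₗ J0 c ∘ₗ ph ∘ₗ .snd ..) (ph ∘ₗ .snd ..))
    (fun x y => by simp [sp6_B, be_ph, be_J0]; grind) fun v => by simp [ph_J0]; abel
  have k0 : ∀ v, nl g a v = (![a * (v.1 1 + v.1 2) - b * (c * (v.2 1 - v.2 2)), -(a * v.1 2) - b * ((c - 1) * v.2 2 + v.2 1),
      -(b * (v.2 0 + v.2 1 - v.2 2))], ![a * (v.2 1 + v.2 2), -(a * v.2 2), 0]) := fun v => by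
    rw [nl, h1]
    ext i <;> fin_cases i <;> simp [ph_apply, J0_apply] <;> grind
  have k : ∀ v, nl g a (nl g a (nl g a v)) = (b • v.2, 0) := fun v => by
    ext i <;> fin_cases i <;> simp [k0] <;> grind
  refine ⟨g, ⟨LinearMap.ext fun v => ?_, (0, ![0, 0, 1]), ?_⟩, h2⟩ <;> simp only [pow_succ, pow_zero, one_mul, End.mul_apply, k]
  · simp
  · simp [k0, sp6_B, be_apply]; grind

variable (hc : ∀ a : F, a ^ 3 - a - c ≠ 0) (hf : f.Nondeg) (h : finrank F V = 6)
include hc hf h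

theorem symp_model {J : End F V} (hJ : SA f c J) :
    ∃ e : ((Fin 3 → F) × (Fin 3 → F)) ≃ₗ[F] V, sp6.Pres f e ∧ ∀ v, e ((J0 c).prodMap (J0 c) v) = J (e v) := by
  have : Nontrivial V := Module.finrank_pos_iff.1 (by omega : 0 < finrank F V)
  obtain ⟨x, hx⟩ := exists_ne (0 : V)
  have h1 : LinearIndependent F ![x, J x, J (J x)] := Fintype.linearIndependent_iff.2 fun a ha => by
    have h0 : (C (a 2) * X ^ 2 + C (a 1) * X + C (a 0) : F[X]) = 0 := by
      by_contra H
      obtain ⟨u, v, e⟩ := (irr_as hc).coprime_iff_not_dvd.2 fun e => by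
        have := natDegree_le_of_dvd e H
        have := natDegree_quadratic_le (a := a 2) (b := a 1) (c := a 0)
        rw [deg_as] at *
        omega
      have e1 : aeval J (C (a 2) * X ^ 2 + C (a 1) * X + C (a 0) : F[X]) x = 0 := by
        simpa [Fin.sum_univ_three, sq, add_comm, add_left_comm, add_assoc] using ha
      have := congrArg (aeval J · x) e
      simp only [map_add (aeval J) (u * _), map_mul, aeval_as.2 hJ.2, LinearMap.add_apply, End.mul_apply, e1] at this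
      exact hx (by simpa using this.symm)
    intro i
    fin_cases i
    exacts [by simpa using congrArg (coeff · 0) h0, by simpa using congrArg (coeff · 1) h0, by simpa using congrArg (coeff · 2) h0]
  obtain ⟨y, hy⟩ := hf.exists_B_eq_of_linearIndependent h1 ![0, 0, 1]
  have a1 : ∀ v, f.B v (J v) = 0 := fun v => by
    have := f.symp_symm v (J v)
    rw [hJ.1] at this
    grind
  have a2 : ∀ v, f.B v (J (J v)) = 0 := fun v => by rw [← hJ.1, symp_B_self]
  have b0 : f.B x y = 0 := hy 0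
  have b1 : f.B x (J y) = 0 := (hJ.1 _ _).symm.trans (hy 1)
  have b2 : f.B x (J (J y)) = 1 := (hJ.1 _ _).symm.trans ((hJ.1 _ _).symm.trans (hy 2))
  have c0 : f.B y x = 0 := f.eq_zero_symm b0
  have c1 : f.B y (J x) = 0 := f.eq_zero_symm (hy 1)
  have c2 : f.B y (J (J x)) = -1 := (f.symp_symm _ _).trans (congrArg Neg.neg (hy 2))
  let L := fun x => Fintype.linearCombination F ![x, J x, J (J x)]
  have hL : ∀ x a, L x a = a 0 • x + a 1 • J x + a 2 • J (J x) := fun x a => by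
    simp [L, Fintype.linearCombination_apply, Fin.sum_univ_three]
  have hB : ∀ v w, f.B ((L x).coprod (L y) v) ((L x).coprod (L y) w) = sp6.B v w := fun v w => by
    simp [hL, hJ.1, hJ.2, symp_B_self, sp6_B, be_apply, *]
    ring
  refine ⟨LinearMap.linearEquivOfInjective _ (sp6_nondeg.injective_of_B f _ hB) (by simp [h]),
    ⟨hB, fun _ => by rw [symp_Q, symp_Q]⟩, fun v => ?_⟩
  simp [hL, J0_apply, hJ.2]
  module

theorem cov_Sp6 [Finite F] : Cov f.Isom := by
  have h2 : (2 : F) ≠ 0 := by grind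
  have : Nontrivial V := Module.finrank_pos_iff.1 (by omega : 0 < finrank F V)
  obtain ⟨x, hx⟩ := exists_ne (0 : V)
  refine cov_of_top (A := fun W : {W // Disjoint W (f.perp W) ∧ finrank F W = 2} => f.stab W.1)
    (B := fun J : {J // SA f c J} => (NJ ⊤ J.1).comap f.Isom.subtype) (fun ⟨W, a, b⟩ H => ?_)
    (fun J H => not_le_NJ hc hf hx (f.symp_Q x) ⟨1, one_ne_zero, rfl⟩ J (H ▸ le_top))
    (fun ⟨W, a, b⟩ ⟨W', a', b'⟩ => stab_conj (exists_act hf
      (((f.nondeg_restrict_iff W).2 a).symp_equivalent ((f.nondeg_restrict_iff W').2 a') (b.trans b'.symm))))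
    (fun J J' => ?_) fun g => ?_
  · obtain ⟨x, hx, h0⟩ := W.exists_mem_ne_zero_of_ne_bot (by rintro rfl; simp at b)
    exact not_le_stab hf f.symp_prim.rich hx h0 (f.symp_Q x) (by omega) (le_top.trans H.ge)
  · obtain ⟨e, e1, e2⟩ := symp_model hc hf h J.2
    obtain ⟨e', e1', e2'⟩ := symp_model hc hf h J'.2
    refine ⟨⟨e.symm.trans e', mem_Isom_iff_pres.2 (e1.symm.comp e1')⟩, fun g => NJ.conj fun v => ?_⟩
    obtain ⟨v, rfl⟩ := e.surjective v
    simpa [← e2] using e2' v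
  refine (em (Dec g)).imp (fun hD => ?_) fun hD => ?_
  · obtain ⟨W, W', a, b, -, -, -, h1, h3, h4⟩ := hD.ex hf
    obtain ⟨j, hj⟩ := ((f.nondeg_restrict_iff W).2 a).symp_even
    exact ⟨⟨W, a, by omega⟩, b⟩
  have k3 := sum_natDegree_edivs (g.1 : End F V)
  have k1 : ∀ (a : F) n e, a * a = 1 → edivs (g.1 : End F V) = Multiset.replicate n ((X - C a) ^ (e + 1)) → Good c g := by
    intro a n e ha H
    obtain ⟨h1, h3, -⟩ := hom_of_edivs H
    have a0 : a ≠ 0 := left_ne_zero_of_mul_eq_one ha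
    by_cases he : e ≤ 1
    · replace h1 : nl g a ^ (1 + 1) = 0 := pow_eq_zero_of_le (by omega) h1
      obtain ⟨x, y, h4, h5, h6⟩ : ∃ x y, f.B x y ≠ 0 ∧ nl g a x ∈ span F {x, y} ∧ nl g a y ∈ span F {x, y} := by
        by_cases h0 : ∃ x, f.B x (nl g a x) ≠ 0
        · obtain ⟨x, hx⟩ := h0
          exact ⟨x, _, hx, subset_span (by simp), (LinearMap.congr_fun h1 x).symm ▸ zero_mem _⟩
        push Not at h0
        have : ∀ y, nl g a y = 0 := fun y => hf.eq_zero_right fun x => by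
          have e1 : f.B x ((nl g a ^ 1) y) = (-1) ^ 1 * -1 * f.B y ((nl g a ^ 1) x) :=
            tf_symm ha (fun _ => rfl) (g := g) (j := 1) (x := x) y (LinearMap.congr_fun h1 x)
          have e2 := h0 (x + y)
          simp only [pow_one, map_add, B_add_left, h0] at e1 e2
          grind
        obtain ⟨y, hy⟩ := hf.exists_B_ne_zero hx
        exact ⟨x, y, hy, by simp [this], by simp [this]⟩
      have hy : f.IsHyp x ((f.B x y)⁻¹ • y) := ⟨f.symp_Q _, f.symp_Q _, by simp [h4]⟩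
      have e : span F {x, (f.B x y)⁻¹ • y} = span F {x, y} := by
        rw [span_insert, span_insert, span_singleton_smul_eq (inv_ne_zero h4).isUnit]
      refine (hD ⟨_, hy.isCompl.disjoint, f.mem_stab_of_le fun v hv => ?_, by simp [hy.finrank_span], by simp [hy.finrank_span, h]⟩).elim
      rw [e] at hv ⊢
      obtain ⟨s, t, rfl⟩ := mem_span_pair.1 hv
      rw [← sub_add_cancel (g.1 _) (a • (s • x + t • y)), ← nl_apply, map_add, map_smul, map_smul]
      exact add_mem (add_mem (smul_mem _ _ h5) (smul_mem _ _ h6)) (smul_mem _ _ hv)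
    obtain ⟨rfl, rfl⟩ | ⟨rfl, rfl⟩ : (n = 2 ∧ e = 2) ∨ (n = 1 ∧ e = 5) := by
      have := Nat.le_of_dvd (by omega) (Dvd.intro_left _ h3.symm)
      rw [h] at h3 this
      obtain rfl | rfl | rfl | rfl : e = 2 ∨ e = 3 ∨ e = 4 ∨ e = 5 := by omega
      all_goals omega
    · obtain ⟨u, u1, u2⟩ := good_diag (c := c) a0
      rw [inv_eq_of_mul_eq_one_left ha] at u1
      exact u2.isoSim (sp6_nondeg.isoSim_of_hom ha (fun _ => rfl) hf h2 (c := 2) u1 H fun e => by simp at e; grind)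
    · obtain ⟨b, b0, hb⟩ : ∃ b : F, b ≠ 0 ∧ (IsSquare b ↔ dl g a 5) := by
        by_cases hd : dl g a 5
        · exact ⟨1, one_ne_zero, by simp [hd]⟩
        obtain ⟨b, hb⟩ := FiniteField.exists_nonsquare (F := F) (by rw [ringChar.eq F 3]; decide)
        exact ⟨b, by rintro rfl; simp at hb, by simp [hd, hb]⟩
      obtain ⟨u, u1, u2⟩ := good_reg (c := c) ha b
      exact u2.isoSim (sp6_nondeg.isoSim_of_hom ha (fun _ => rfl) hf h2 (c := 1) (u1.edivs_eq b0 (by simp)) H fun _ =>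
        (u1.dl_iff ha (fun _ => rfl) b0 (by simp)).trans hb)
  obtain t1 | ⟨n, e, H⟩ := hom_of_indec (one_mul 1) (fun _ => rfl) hf hD
  swap
  · exact k1 _ n e (one_mul 1) H
  obtain t2 | ⟨n, e, H⟩ := hom_of_indec (a := -1) (by simp) (fun _ => rfl) hf hD
  swap
  · exact k1 _ n e (by simp) H
  have hG : Tame (Kind.symp F) g.1 := .inr ((tame_iff_edivs _).2 fun d hd => by
    convert (t1 d hd).mul_right (t2 d hd) using 1
    simp; ring)
  have k2 : ∀ m, edivs (g.1 : End F V) = m → (∃ u : sp6.Isom, edivs (u.1 : End F ((Fin 3 → F) × (Fin 3 → F))) = m ∧ Good c u) → Good c g :=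
    fun m a ⟨u, u1, u2⟩ => u2.isoSim (hf.isoSim_of_sim sp6_nondeg hG (sim_iff_edivs.2 (a.trans u1.symm))).symm
  obtain ⟨ρ, e, h1, h3, h4, ⟨h5, h6⟩ | ⟨h5, h6⟩⟩ := (indec hf hG (by omega)).resolve_left hD
  · simp only [h6, Multiset.map_singleton, Multiset.sum_singleton, natDegree_pow, h] at k3
    by_cases d3 : 3 ∣ ρ.natDegree
    · exact good_of_deg hc hf rfl h3 h3 d3 d3 (e := e + 1) (by simp [h6])
    obtain d1 | d2 : ρ.natDegree = 1 ∨ ρ.natDegree = 2 := by
      have := Nat.le_of_dvd (by omega) (Dvd.intro_left _ k3)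
      have : ρ.natDegree ≠ 4 ∧ ρ.natDegree ≠ 5 := by constructor <;> intro H <;> rw [H] at k3 <;> omega
      omega
    · obtain ⟨a, a0, rfl⟩ := lin_of_deg h1 d1 h4
      rw [dual_lin _ a0, sub_right_inj, C_inj, inv_eq_iff_eq_inv, ← mul_eq_one_iff_eq_inv₀ a0] at h5
      exact k1 a 1 e h5 h6
    obtain rfl : e = 2 := by rw [d2] at k3; omega
    have hr : ∀ a, ρ.eval a ≠ 0 := fun a e => by
      have : ρ.natDegree = 1 := natDegree_eq_of_degree_eq_some (degree_eq_one_of_irreducible_of_root h3 e)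
      omega
    have e0 := h1.as_sum
    have e1 := (dual_eq_iff_coeff (mt X_dvd_iff.2 h4)).1 h5
    have e2 := h1.coeff_natDegree
    simp only [d2, Finset.sum_range_succ, Finset.range_zero, Finset.sum_empty] at e0 e2
    have e3 := e1 0
    have e4 := e1 ⟨1, by omega⟩
    simp [d2, e2] at e3 e4
    have r1 := hr 1
    have r2 := hr (ρ.coeff 1)
    generalize ρ.coeff 0 = s at *
    generalize ρ.coeff 1 = t at *
    rw [e0] at r1 r2
    simp at r1 r2
    obtain rfl : s = 1 := by grind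
    obtain rfl : ρ = X ^ 2 + C t * X + 1 := by rw [e0]; simp; ring
    exact k2 _ h6 (good_comp h3 (by grind))
  · simp [h6, natDegree_dual, h] at k3
    obtain d1 | d3 := (Nat.dvd_prime Nat.prime_three).1 (Dvd.intro_left (e + 1) (by omega : _ * ρ.natDegree = 3))
    · obtain ⟨a, a0, rfl⟩ := lin_of_deg h1 d1 h4
      obtain rfl : e = 2 := by rw [d1] at k3; omega
      rw [dual_lin _ a0] at h6
      exact k2 _ h6 (good_diag a0)
    · exact good_of_deg hc hf rfl h3 (irreducible_dual (Kind.symp F).σσ h3) d3.symm.dvd (by rw [natDegree_dual, d3])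
        (e := e + 1) (by simp [h6])

omit hc hf h in
theorem cov_PSp6 [Fintype F] : Cov (Cfsg.PSp 3 F) := by
  obtain ⟨c, -, h2⟩ := exists_as (RingHom.id F) fun _ => rfl
  exact (cov_Sp6 h2 (sympStd_nondeg F 3) (finrank_plus 3)).quot (spEquiv F 3)
    (.inr ((sympStd_nondeg F 3).symp_perfect' (finrank_plus 3) (.inl le_rfl)))

end CA.Cov
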