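import Cfsg.Agent.Lib.Lin.El13

/-! Classical subgroups of `SL` and orthogonal subgroups of `Sp`: elements of prime order. -/

namespace CA.El
open Module Polynomial CA.Rcf CA.CForm CA.CForm.Form

theorem odd_cofactor {i j : ℕ} (h1 : i ∣ 2 * j) (h2 : ¬i ∣ j) : ∃ t, i * (2 * t + 1) = 2 * j := by
  obtain ⟨t, ht⟩ := h1
  obtain ⟨s, rfl | rfl⟩ := t.even_or_odd'
  · exact absurd ⟨s, by nlinarith⟩ h2
  · exact ⟨s, ht.symm⟩

theorem Unif.exists_card {α : Type*} {T : Finset α} {τ : α → α} {e : ℕ} (h : Unif T τ e) (s : ℕ) :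
    ∃ m : Multiset α, (∀ d ∈ m, d ∈ T) ∧ m.map τ = m ∧ m.card = e * s := by
  obtain ⟨d, hd⟩ := h.ne
  have h3 : ∀ x ∈ Multiset.replicate s d, x ∈ T := fun x hx => Multiset.eq_of_mem_replicate hx ▸ hd
  exact ⟨_, h.mem_un h3, h.map_un h3, by rw [h.card_un]; simp⟩

/-- The factors of the order of `GU`. -/
def Hq (q n : ℕ) : ℕ := ∏ j ∈ Finset.range n, (if Even j then q ^ (j + 1) + 1 else q ^ (j + 1) - 1)

/-- The complementary factors. -/
def Hq' (q n : ℕ) : ℕ := ∏ j ∈ Finset.range n, (if Even j then q ^ (j + 1) - 1 else q ^ (j + 1) + 1)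

theorem Pq_sq (q n : ℕ) : Pq (q ^ 2) n = Hq q n * Hq' q n := by
  rw [Pq, Hq, Hq', ← Finset.prod_mul_distrib]
  refine Finset.prod_congr rfl fun j _ => ?_
  rw [← pow_mul, mul_comm 2, pow_mul, ← one_pow 2, Nat.sq_sub_sq]
  split_ifs <;> simp [mul_comm]

theorem Hq_fac_ne {q : ℕ} (hq : 2 ≤ q) (j : ℕ) :
    (if Even j then q ^ (j + 1) + 1 else q ^ (j + 1) - 1) ≠ 0 := by
  split_ifs
  exacts [by simp, pow_sub_one_ne_zero hq (by simp)]

variable {F : Type*} [Field F] {k : Kind F} {V : Type*} [AddCommGroup V] [Module F V]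
  {U : Type*} [AddCommGroup U] [Module F U] {U' : Type*} [AddCommGroup U'] [Module F U']
  {f : Form k V} {p : Form k U} {p' : Form k U'} {r : ℕ} {g : End F V} {μ : F}
  [FiniteDimensional F V] [FiniteDimensional F U] [FiniteDimensional F U']

theorem SimB.exists_equiv (hf : f.Nondeg) (h : SimB f g μ) (hμ : μ ≠ 0) :
    ∃ e : V ≃ₗ[F] V, e = g :=
  ⟨LinearEquiv.ofInjectiveEndo g ((injective_iff_map_eq_zero _).2 fun x hx =>
    hf x fun y => by simpa [hx, hμ] using (h x y).symm), rfl⟩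

theorem exists_pm (h : (p.prod p').Equivalent f) : ∃ g : f.Isom, edivs (g.1 : End F V) =
    lin (Multiset.replicate (finrank F U) 1 + Multiset.replicate (finrank F U') (-1)) := by
  obtain ⟨g, hg⟩ := h.exists_isom_edivs (p'.scalarIsom (-1) (by simp)) (a := 1) (by simp)
  exact ⟨g, by rw [hg, edivs_of_smul (p'.scalarIsom_apply _ _)]; simp [lin]⟩

theorem count_lin [DecidableEq F] [DecidableEq F[X]] (Λ : Multiset F) (a : F) :
    (lin Λ).count (X - C a) = Λ.count a := Multiset.count_map_eq_count' _ _ XC_inj a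

variable [Finite F]

theorem two_dvd (h2 : (2 : F) ≠ 0) : 2 ∣ Nat.card F - 1 := by have := card_odd h2; omega

theorem all_two (h2 : (2 : F) ≠ 0)
    (hA : ∀ i j, i ≠ 0 → j ≠ 0 → i + j = finrank F V →
      (∃ a : F, a ≠ 0 ∧ a ^ finrank F V * (-1) ^ j = 1) → ∃ g : f.Isom, edivs (g.1 : End F V) =
        lin (Multiset.replicate i 1 + Multiset.replicate j (-1)))
    (hB : ¬NoB 2 (finrank F V) (Nat.card F - 1) → ∀ c : F, (∀ a, a ^ 2 ≠ c) → ∀ A : End F V,
      A ^ 2 = c • 1 → Sm f A) : AllSm f 2 := fun g h1 h3 => by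
  rcases po_cases h3 h1 with ⟨a, u, ha, hu, h4, hg⟩ | ⟨-, h, c, h4, h5⟩
  · obtain ⟨Λ, h5, h6⟩ := exists_lin_of_pow (two_dvd h2) hu
    obtain ⟨i, j, rfl⟩ := eq_rep_add (m := Λ) fun a ha => sq_eq_one_iff.1 (h6 a ha)
    rw [hg, LinearMap.det_smul, det_linear h5] at h1
    obtain ⟨v, hv⟩ := hA i j
      (by rintro rfl; exact h4 (-1) ((eq_smul_iff _ _).2 (by simp +contextual [h5, lin, Multiset.mem_replicate])))
      (by rintro rfl; exact h4 1 ((eq_smul_iff _ _).2 (by simp +contextual [h5, lin, Multiset.mem_replicate])))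
      (by rw [← dg_edivs (u : End F V), h5, dg_lin]; simp) ⟨a, ha, by simpa using h1⟩
    exact hg ▸ (sm_of_isom v (hv.trans h5.symm)).smul ha
  · exact hB h c h4 _ h5

theorem all_two_char (h2 : (2 : F) = 0) (hU : ∀ i j, i + 2 * j = finrank F V →
    UT f (Multiset.replicate i 1 + Multiset.replicate j 2)) : AllSm f 2 := fun g h1 h3 => by
  have : CharP F 2 := (CharP.charP_iff_prime_eq_zero Nat.prime_two).2 h2
  rcases po_cases h3 h1 with ⟨a, u, ha, hu, h4, hg⟩ | ⟨h, -⟩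
  · rw [orderOf_eq_char_iff] at hu
    obtain ⟨i, j, h5⟩ := eq_rep_add (x := 1) (y := 2) fun a ha => by
      have := hu.2.1 a ha; have := pos_of_mem_jt ha; omega
    obtain ⟨v, hv⟩ := hU i j (by rw [← sum_jt (u : End F V), h5]; simp [mul_comm])
    exact hg ▸ (sm_of_isom v (by rw [hv, edivs_eq_map_jt hu.1, h5])).smul ha
  · exact absurd h (by simpa using not_dvd_char (F := F) 2 one_ne_zero)

theorem val_two (h2 : (2 : F) = 0) : padicValNat 2 (Nat.card F - 1) = 0 :=
  padicValNat.eq_zero_of_not_dvd (by have := card_even h2; have := two_le_card (F := F); omega)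

theorem symp_two {f : Form (Kind.symp F) V} (hf : f.Nondeg) (hn : 4 ≤ finrank F V) :
    AllSm f 2 ↔ padicValNat 2 (Nat.card F - 1) ≤ padicValNat 2 (finrank F V) := by
  classical
  obtain ⟨t, ht⟩ := hf.symp_even.two_dvd
  by_cases h2 : (2 : F) = 0
  · refine iff_of_true (all_two_char h2 fun i j h => hf.symp_exists_iff.2 ⟨adm_unip _ (by
      simp +contextual [Multiset.mem_replicate, or_imp]), (par_unip_iff _ _).2 fun a ha => ?_,
      (dg_unip _).trans (by simp; omega)⟩) (by simp [val_two h2])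
    have := Nat.even_iff.1 ha
    rw [Multiset.count_add, Multiset.count_replicate, Multiset.count_replicate, Nat.even_iff]
    split_ifs <;> omega
  have h1 : (-1 : F) ≠ 1 := fun h => h2 (by linear_combination -h)
  have h3 := det_root_iff (r := 2) (dvd_refl (Nat.card F - 1)) (by omega : finrank F V ≠ 0)
    (ζ := -1) (by simp) h1
  refine ⟨fun H => not_lt.1 fun h => ?_, fun h => all_two h2 (fun i j _ _ h4 ⟨a, ha, h5⟩ => ?_)
    fun _ c hc A hA => ?_⟩
  · obtain ⟨a, h5, h7⟩ := h3.2 h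
    have h8 : ∀ a ∈ Multiset.replicate (finrank F V - 1) (1 : F) + Multiset.replicate 1 (-1),
      a ^ 2 = 1 := by simp +contextual [Multiset.mem_replicate, or_imp]
    have h0 : ∀ a ∈ _, a ≠ (0 : F) := fun a ha => ne_zero_pow two_ne_zero ((h8 a ha).symm ▸ one_ne_zero)
    obtain ⟨u, hu⟩ := exists_lin (V := V) h0 (by simp; omega)
    have ha : a ≠ 0 := ne_zero_pow (ne_zero_of_dvd (F := F) dvd_rfl) (h5 ▸ one_ne_zero)
    obtain ⟨g, hg⟩ := exists_smul u ha
    have h9 := po_lin hu h8 (x := -1) (y := 1) (by simp) (by simp [Multiset.mem_replicate]; omega) h1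
    have := h9.nontrivial
    obtain ⟨v, μ, a1, a2, a3, -, a4⟩ := (Sm.of_smul (hg ▸ H g (by
      rw [hg, LinearMap.det_smul, det_linear hu]; simpa using h7) (hg ▸ h9.smul ha)) ha).exists_mul
      hf ((pow_lin hu).2 h8)
    obtain ⟨e, rfl⟩ := a2.exists_equiv hf a1
    have a5 := (sim_iff_edivs.1 a3).symm.trans hu
    rcases sq_eq_one_iff.1 (a4.trans (by simp)) with rfl | rfl
    · have := hf.even_count (a := -1) (by simp) (fun _ => rfl) ⟨e, (symp_mem_Isom _).2 fun x y => by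
        simpa using a2 x y⟩ (Or.inr ⟨rfl, Even.zero⟩)
      rw [zero_add, pow_one, a5, count_lin] at this
      simp [Multiset.count_replicate, h1.symm] at this
    · have := edivs_adj_inv (Kind.symp F).σσ hf.pre.bij hf.pre.add hf.pre.smul (g := e)
        (T := (-1 : F) • e) fun x y => by
          have := a2 x y; simp only [LinearEquiv.coe_coe] at this; simp [Nondeg.pre, this]
      rw [edivs_smul_lin a5 (by simp), a5, dual_lin_map (by
        simp +contextual [Multiset.mem_replicate, or_imp])] at this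
      have := rep_swap h1.symm (i := finrank F V - 1) (j := 1) (by simpa using (lin_inj this).symm)
      omega
  · obtain ⟨s, rfl⟩ : 2 ∣ i := by
      rcases j.even_or_odd with h6 | h6
      · have := Nat.even_iff.1 h6; omega
      · exact absurd (h3.1 ⟨a, pow_card_sub_one ha, by rwa [h6.neg_one_pow] at h5⟩) (not_lt.2 h)
    obtain ⟨p', h6⟩ := exists_symp_compl hf (sympStd_nondeg F s) (n := j) (by rw [finrank_plus]; omega)
    simpa [finrank_plus, two_mul] using exists_pm h6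
  · obtain ⟨g, h4, h5⟩ := hyp_sim (k := Kind.symp F) (fun _ => rfl) t c
    exact (sm_typeB hc hA h5 h4 (by simpa using (hc 0).symm) (ht.trans finrank_hyp.symm)).equiv
      (hypF_nondeg.symp_equivalent hf (finrank_hyp.trans ht.symm))

theorem exists_aniso_of {c : F} (hc : c ≠ 0) : ∃ a, Aniso a c := by
  by_contra h
  simp only [aniso_iff, not_exists, not_forall, ne_eq, not_not] at h
  have := Nat.card_le_card_of_surjective (fun t : Fˣ => -(t.1 + c / t)) fun a => by
    obtain ⟨t, ht⟩ := h a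
    have h0 : t ≠ 0 := by rintro rfl; simp [hc] at ht
    exact ⟨Units.mk0 t h0, by simp only [Units.val_mk0]; field_simp; linear_combination -ht⟩
  have := two_le_card (F := F)
  rw [Nat.card_units] at *; omega

theorem orth_two {f : Form (Kind.orth F) V} (hf : f.Nondeg) (h2 : (2 : F) ≠ 0) : AllSm f 2 := by
  refine all_two h2 (fun i j hi hj h _ => ?_) fun _ c hc A hA => ?_
  · obtain ⟨p, h3, -⟩ := exists_disc_form h2 hi one_ne_zero
    obtain ⟨p', h4⟩ := exists_orth_compl hf h3 hj (by simp [h])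
    simpa using exists_pm h4
  obtain ⟨t, ht⟩ := (edivs_typeB hA hc).1
  have h0 : c ≠ 0 := by simpa using (hc 0).symm
  by_cases hP : Pl f
  · obtain ⟨g, h4, h5⟩ := hyp_sim (k := Kind.orth F) (fun _ => rfl) t c
    exact (sm_typeB hc hA h5 h4 (by simpa using h0) (ht.trans finrank_hyp.symm)).equiv
      (equiv_of_hyp hypF_nondeg hf hypF_isIndex ((pl_iff ht).1 hP) finrank_hyp ht)
  obtain ⟨j, rfl, h3⟩ := isIndex_of_not_pl hf ht hP
  obtain ⟨g, h4, h5⟩ := hyp_sim (k := Kind.orth F) (fun _ => rfl) j c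
  obtain ⟨a, ha⟩ := exists_aniso_of h0
  have h6 := binForm_nondeg (disc_ne_zero_of_anisotropic ha)
  have h7 : finrank F (((Fin j → F) × (Fin j → F)) × (Fin 2 → F)) = 2 * (j + 1) := by simp; ring
  refine (sm_typeB hc hA (g := g.prodMap (Matrix.toLin' !![0, c; 1, 0])) ?_
    (h4.prod (p := binForm a c) fun u v => ?_) (by simpa using h0) (ht.trans h7.symm)).equiv
    (equiv_of_pl (hypF_nondeg.prod h6) hf (h7.trans ht.symm) (h7 ▸ even_two_mul _)
      (iff_of_false (fun h => ?_) hP))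
  · have := fun x => LinearMap.congr_fun h5 x
    refine LinearMap.ext fun x => Prod.ext (this x.1) ?_
    ext i; fin_cases i <;> simp [sq, Matrix.mulVec, dotProduct, mul_comm]
  · simp [binForm, ofFun, Matrix.mulVec, dotProduct]; ring
  · have := ((pl_iff h7).1 h).unique
      (isIndex_prod hypF_nondeg h6 hypF_isIndex finrank_hyp (binForm_isIndex ha))
    omega

variable [Fact r.Prime]

omit [FiniteDimensional F V] in
theorem num_cancel (hr : (r : F) ≠ 0) {y u a w z : ℕ} (h : y * (u * a) = Nat.card F ^ w * (a * z))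
    (hy : r ∣ y) (ha : a ≠ 0) : r ∣ z :=
  ((Fact.out : r.Prime).dvd_mul.1 ((Nat.eq_of_mul_eq_mul_left (Nat.pos_of_ne_zero ha)
    (show a * (y * u) = a * (Nat.card F ^ w * z) by linarith)) ▸ hy.mul_right u)).resolve_left
    (not_dvd_card_pow hr w)

omit [Finite F] in
theorem odd_ord {q a : ℕ} (hq : 1 ≤ q) (h : r ∣ Oq q a) :
    Odd (orderOf (q : ZMod r)) ∧ orderOf (q : ZMod r) < 2 * a := by
  obtain ⟨j, h1, h2⟩ := (Fact.out : r.Prime).prime.exists_mem_finset_dvd h
  rw [dvd_pow_sub_one_iff hq] at h2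
  exact ⟨(odd_two_mul_add_one j).of_dvd_nat h2, by
    have := Nat.le_of_dvd (by omega) h2; have := Finset.mem_range.1 h1; omega⟩

omit [Fact r.Prime] in
theorem Sq_ne_zero (a : ℕ) : Sq (Nat.card F) a ≠ 0 :=
  Finset.prod_ne_zero_iff.2 fun _ _ => pow_sub_one_ne_zero two_le_card (by simp)

theorem orth_bad (hr : (r : F) ≠ 0) (hr2 : r ≠ 2) {f : Form (Kind.orth F) V} (hf : f.Nondeg) {a : ℕ}
    (hn : 2 * a = finrank F V) (h0 : finrank F V ≠ 0)
    (h : (Pl f ∧ r ∣ Nat.card F ^ a + 1) ∨ (¬Pl f ∧ r ∣ Nat.card F ^ a - 1)) :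
    ∃ m ≠ 0, (∀ d ∈ m, d ∈ cycT F r) ∧ m.map (dual (RingHom.id F)) = m ∧
      orderOf (Nat.card F : ZMod r) * m.card = finrank F V ∧ ¬Ok f m := by
  have hq := two_le_card (F := F)
  have h1 := pm_facts (a := a) (by omega : 1 ≤ Nat.card F) hr2
  obtain ⟨s, h2, h3⟩ := exists_unit (by omega) rfl (orderOf_card_pos hr) rfl
    (h.elim (fun h => (h1.2 h.2).1) fun h => h1.1 h.2)
  obtain ⟨m, h4, h5, h6⟩ := (unif_id (k := Kind.orth F) hr hr2 rfl).exists_card s
  have h7 := (mul_unit rfl s).trans (h2.trans hn)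
  rw [← h6] at h7
  refine ⟨m, by rintro rfl; exact h0 h7.symm, h4, h5, h7, fun H => ?_⟩
  have := ((nc_unit rfl _ _).1 (h6 ▸ ((ok_orth hr hr2 hf m h4).1 H).2)).2 (h2.trans hn)
  rcases h with h | h
  exacts [(h1.2 h.2).2 (h3.2 (this.1 h.1)), h.1 (this.2 (h3.1 h.2))]

theorem sp_o {f : Form (Kind.orth F) V} (hf : f.Nondeg) (h2 : (2 : F) = 0) {d y : ℕ}
    (hd : finrank F V = 2 * d) (h0 : d ≠ 0) (hy : r ∣ y)
    (h : y * Nat.card f.Isom = Nat.card (f.toSymp h2).Isom) :
    (∀ t : (f.toSymp h2).Isom, PO r (t.1 : End F V) → ∃ s, IsConj t s ∧ s.1 ∈ f.Isom) ↔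
      r = 2 ∧ (Pl f ∨ Odd d) := by
  have hs : (f.toSymp h2).Nondeg := hf
  rw [forall_po (fun _ => rfl) hs (Or.inr h2) fun a ha g H => by
    obtain rfl : a = 1 := sub_eq_zero.1 (pow_eq_zero_iff two_ne_zero |>.1 (show (a - 1) ^ 2 = 0 by
      have : a * a = 1 := ha
      linear_combination this + (1 - a) * h2))
    rwa [show scalarIsom _ 1 ha = 1 from isom_ext _ fun x => one_smul _ _, one_mul]]
  obtain ⟨i, E, hi⟩ : ∃ i, f.IsIndex i ∧ ((Pl f ∧ i = d) ∨ (¬Pl f ∧ i + 1 = d)) := by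
    by_cases h : Pl f
    · exact ⟨d, (pl_iff hd).1 h, Or.inl ⟨h, rfl⟩⟩
    · obtain ⟨j, rfl, h'⟩ := isIndex_of_not_pl hf hd h
      exact ⟨j, h', Or.inr ⟨h, rfl⟩⟩
  rcases (Fact.out : r.Prime).eq_two_or_odd' with rfl | ho
  · have I := hf.orth_exists_inv2 h2 hd E (by omega)
    have J := hs.symp_exists_inv2 h2 hd
    have K := fun {t s} ht => hs.inv2_isConj_iff (t := t) (s := s) (fun _ => rfl) h2
      (CForm.orderOf_eq_two_iff.1 ht).1
    refine ⟨fun H => ⟨rfl, by_contra fun h => ?_⟩, fun H t ht => ?_⟩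
    · simp only [not_or, Nat.not_odd_iff_even] at h
      obtain ⟨t, h3, h4⟩ := (J d True).2 ⟨by omega, le_rfl, fun _ => h.2⟩
      obtain ⟨s, h5, h6⟩ := H t h3
      have h7 := (isoSim_order (isConj_iff_isoSim.1 h5)).symm.trans h3
      have h8 := (K h3 (CForm.orderOf_eq_two_iff.1 h7).1).1 h5
      have := ((I d True).1 ⟨⟨s.1, h6⟩, (Subgroup.orderOf_mk _ _).trans ((Subgroup.orderOf_coe s).trans h7),
        (Prod.ext h8.1.symm (propext h8.2.symm)).trans h4⟩).2.2 trivial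
      rcases hi with hi | hi
      exacts [h.1 hi.1, by omega]
    · have h3 := (J _ _).1 ⟨t, ht, rfl⟩
      obtain ⟨s, h4, h5⟩ := (I _ _).2 ⟨h3.1, h3.2.1, fun h => ⟨h3.2.2 h, by
        have := Nat.even_iff.1 (h3.2.2 h)
        rcases hi with hi | hi
        · omega
        · have := Nat.odd_iff.1 (H.2.resolve_left hi.1); omega⟩⟩
      rw [Prod.mk.injEq] at h5
      exact ⟨⟨s.1, (symp_mem_Isom _).2 s.2.1⟩, (K ht (Subtype.ext (show s.1 * s.1 = 1 from congrArg
        Subtype.val (CForm.orderOf_eq_two_iff.1 h4).1))).2 ⟨h5.1.symm, h5.2.symm.to_iff⟩, s.2⟩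
  · have hr2 : r ≠ 2 := by rintro rfl; exact absurd ho (by decide)
    refine iff_of_false (fun H => ?_) fun h => hr2 h.1
    have : CharP F 2 := (CharP.charP_iff_prime_eq_zero Nat.prime_two).2 h2
    have hr := (cast_ne_zero_iff (F := F) 2).2 hr2
    obtain ⟨x, x', h3, h4, h5⟩ := card_orth hf hd (by omega)
    rw [show 2 * d / 2 = d by omega] at h3 h4 h5
    have h6 := num_cancel hr (w := d ^ 2) (z := x') (by
      rw [← h3, h, Nondeg.card_isom_symp d hs hd, mul_comm _ x', h4]; rfl) hy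
      (right_ne_zero_of_mul (h4 ▸ Sq_ne_zero d))
    obtain ⟨m, a1, a2, a3, a4, a5⟩ := orth_bad hr hr2 hf hd.symm (by omega) (by
      rcases h5 with h | ⟨-, h | h⟩
      exacts [absurd (h.2 ▸ h6) (Fact.out : r.Prime).not_dvd_one, Or.inl ⟨h.1, h.2.2 ▸ h6⟩,
        Or.inr ⟨h.1, h.2.2 ▸ h6⟩])
    obtain ⟨t, j, ht⟩ := (hs.symp_cycT_iff hr hr2 a2).2 ⟨a3, a4.le⟩
    obtain ⟨s, h7, h8⟩ := H t ((Subgroup.orderOf_coe t).symm.trans
      ((orderOf_eq_prime_iff hr _).2 ⟨j, m, a1, a2, ht⟩))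
    exact a5 ⟨⟨s.1, h8⟩, j, (sim_iff_edivs.1 (isConj_iff_isoSim.1 h7).sim).symm.trans ht⟩

variable (l : ℕ) [Fact l.Prime] [CharP F l] (ho : Odd r) {y : ℕ} (hy : r ∣ y)

section Id
include l ho hy

theorem symp_odd {f : Form (Kind.symp F) V} (hf : f.Nondeg) (hn : 4 ≤ finrank F V)
    (h6 : ¬(finrank F V = 6 ∧ r = 3)) (h : y * Nat.card f.Isom =
      Nat.card F ^ (finrank F V).choose 2 * Pq (Nat.card F) (finrank F V)) : ¬AllSm f r := by
  have hQ : ∀ g : V ≃ₗ[F] V, SimB f g 1 → g ∈ f.Isom := fun g h =>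
    (symp_mem_Isom _).2 fun x y => by simpa using h x y
  have hr2 : r ≠ 2 := by rintro rfl; exact absurd ho (by decide)
  have := (Fact.out : r.Prime).two_le
  obtain ⟨t, ht⟩ := hf.symp_even.two_dvd
  by_cases hl : r = l
  · subst hl
    refine not_all_unip ho hf hQ (μ := {3} + Multiset.replicate (finrank F V - 3) 1) (by
      simp +contextual [Multiset.mem_replicate, or_imp]; omega) (by simp; omega) (by simp) fun h => ?_
    exact absurd (by simpa [Multiset.count_replicate] using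
      (par_unip_iff _ _).1 (hf.symp_exists_iff.1 h).2.1 2 even_two : Even 1) (by decide)
  have hr := (cast_ne_zero_iff (F := F) l).2 hl
  by_cases h1 : r ∣ Nat.card F - 1
  · exact not_all_two ho hf hQ (fun _ _ => rfl) h1 hn (by omega) h6
  rw [Nondeg.card_isom_symp t hf ht, Pq_eq, show finrank F V / 2 = t by omega] at h
  have h3 := odd_ord (by have := two_le_card (F := F); omega) (num_cancel hr h hy (Sq_ne_zero t))
  exact not_all_dual ho hf hQ hr h1 (fun d hd => mt (dual_id_eq_self_iff hr hr2 hd).1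
    (Nat.not_even_iff_odd.2 h3.1)) (by omega)

theorem orth_odd {f : Form (Kind.orth F) V} (hf : f.Nondeg) (h2 : (2 : F) ≠ 0) (hn : 3 ≤ finrank F V)
    (h6 : ¬(finrank F V = 6 ∧ r = 3)) (h : y * Nat.card f.Isom =
      Nat.card F ^ (finrank F V).choose 2 * Pq (Nat.card F) (finrank F V)) :
    AllSm f r ↔ (r = 3 ∨ r = 5) ∧ finrank F V = r ∧ padicValNat r (Nat.card F - 1) = 1 := by
  have hQ : ∀ g : V ≃ₗ[F] V, SimB f g 1 → g ∈ f.Isom := fun g h =>
    (orth_mem_Isom _).2 fun x => mul_left_cancel₀ h2 (by simpa [orth_B_self] using h x x)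
  have hr2 : r ≠ 2 := by rintro rfl; exact absurd ho (by decide)
  have := (Fact.out : r.Prime).two_le
  by_cases h1 : r ∣ Nat.card F - 1
  · refine one_case ho hf hQ (fun _ _ => rfl) h1 hn h6 (fun μ c hμ _ h => ?_)
      fun Λ a1 a2 a3 a4 => (hf.orth_odd_exists_iff a4).2 ⟨⟨(prim_lin a1).1, (prim_lin a1).2, a2⟩,
        fun a _ j hj => ?_, dg_lin.trans a3⟩
    · obtain ⟨j, rfl⟩ := ho
      have h0 : c ≠ 0 := by rintro rfl; simp [hμ] at h
      refine ⟨μ ^ (j + 1) / c, ?_⟩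
      rw [div_pow, pow_right_comm, h, Kind.orth_σ]; field_simp; ring
    · classical
      rw [Multiset.count_eq_zero.2 fun h => ?_]; simp
      obtain ⟨b, -, hb⟩ := Multiset.mem_map.1 h
      have := congrArg natDegree hb
      rw [natDegree_X_sub_C, natDegree_X_sub_C_pow] at this
      have := hj.pos; omega
  refine iff_of_false ?_ fun h => by simp [padicValNat.eq_zero_of_not_dvd h1] at h
  by_cases hl : r = l
  · subst hl
    refine not_all_unip ho hf hQ (μ := {2} + Multiset.replicate (finrank F V - 2) 1) (by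
      simp +contextual [Multiset.mem_replicate, or_imp]; omega) (by simp; omega) (by simp) fun h => ?_
    exact absurd (by simpa [Multiset.count_replicate] using h.evP h2 hf 2 even_two : Even 1)
      (by decide)
  have hr := (cast_ne_zero_iff (F := F) l).2 hl
  obtain ⟨x, x', h3, h4, h5⟩ := card_orth hf rfl (by omega)
  rw [h3, Pq_eq, ← h4, mul_comm x', mul_assoc _ x'] at h
  rcases (Fact.out : r.Prime).dvd_mul.1
    (num_cancel hr h hy (right_ne_zero_of_mul (h4 ▸ Sq_ne_zero _))) with h7 | h7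
  · rcases h5 with h | ⟨h8, h⟩
    · exact absurd (h.2 ▸ h7) (Fact.out : r.Prime).not_dvd_one
    obtain ⟨m, a1, a2, -, a4, a5⟩ := orth_bad hr hr2 hf h8 (by omega) (by
      rcases h with h | h
      exacts [Or.inl ⟨h.1, h.2.2 ▸ h7⟩, Or.inr ⟨h.1, h.2.2 ▸ h7⟩])
    exact not_all_ok ho hf hQ hr h1 a1 a2 a4.le a5
  · have h3 := odd_ord (by have := two_le_card (F := F); omega) h7
    exact not_all_dual ho hf hQ hr h1 (fun d hd => mt (dual_id_eq_self_iff hr hr2 hd).1
      (Nat.not_even_iff_odd.2 h3.1)) (by omega)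

end Id

end CA.El

namespace CA.El
open Module Polynomial CA.Rcf CA.CForm CA.CForm.Form

variable {F : Type*} [Field F] [Fintype F] {V : Type*} [AddCommGroup V] [Module F V]
  [FiniteDimensional F V] {q r i : ℕ} [Fact r.Prime] (hF : Fintype.card F = q ^ 2)
include hF

omit [Fact r.Prime] [Field F] in
theorem card_sq : Nat.card F = q ^ 2 := Nat.card_eq_fintype_card.trans hF

omit [Fact r.Prime] [Field F] in
theorem card_sub_one : Nat.card F - 1 = (q + 1) * (q - 1) := by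
  rw [card_sq hF, ← Nat.sq_sub_sq, one_pow]

omit [Field F] in
theorem herm_ord (hi : i = orderOf (q : ZMod r)) :
    orderOf (Nat.card F : ZMod r) = if Even i then i / 2 else i := by
  rw [card_sq hF, Nat.cast_pow, orderOf_pow' _ two_ne_zero, ← hi]
  split_ifs with h
  · rw [Nat.gcd_eq_right (even_iff_two_dvd.1 h)]
  · rw [Nat.coprime_two_right.2 (Nat.not_even_iff_odd.1 h), Nat.div_one]

theorem herm_dual (hr : (r : F) ≠ 0) (hr2 : r ≠ 2) (hi : i = orderOf (q : ZMod r)) {d : F[X]}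
    (hd : d ∈ cycT F r) : dual (conj hF) d = d ↔ i % 4 = 2 := by
  have hi0 : 0 < i := by
    have := orderOf_card_pos hr
    rw [herm_ord hF hi] at this; split_ifs at this <;> omega
  obtain ⟨p, _⟩ := CharP.exists F
  obtain ⟨j, hp, h⟩ := FiniteField.card F p
  have := Fact.mk hp
  obtain ⟨j, -, hj⟩ := (Nat.dvd_prime_pow hp).1 (show q ∣ p ^ (j : ℕ) from ⟨q, by rw [← h, hF, sq]⟩)
  rw [dual_eq_self_iff (conj_conj hF) hr hd p (j := j) (fun a => by rw [← hj]; rfl), card_sq hF,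
    Nat.cast_pow, ← Nat.cast_pow p, ← hj]
  have h6 : (q : ZMod r) ^ i = 1 := hi ▸ pow_orderOf_eq_one _
  constructor
  · rintro ⟨l, hl⟩
    have h7 : (q : ZMod r) ^ (2 * l + (i - 1)) = -1 := by
      rw [pow_add, pow_mul, hl, neg_mul, ← pow_succ', Nat.sub_add_cancel hi0, h6]
    obtain ⟨c, hc⟩ := (exists_pow_eq_neg_one_iff hr2 (hi ▸ hi0)).1 ⟨_, h7⟩
    obtain ⟨e, he⟩ : orderOf (q : ZMod r) ∣ (2 * l + (i - 1)) * 2 :=
      orderOf_dvd_of_pow_eq_one (by rw [pow_mul, h7]; simp)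
    rw [← hi] at hc he
    rcases Nat.even_or_odd' c with ⟨c, rfl | rfl⟩
    · have : i * e = 4 * (c * e) := by rw [hc]; ring
      omega
    · omega
  · intro h
    refine ⟨i / 4 + 1, ?_⟩
    rw [← pow_mul, show 2 * (i / 4 + 1) = i / 2 + 1 by omega, pow_succ,
      ((mul_self_eq_one_iff (a := (q : ZMod r) ^ (i / 2))).1 (by
        rw [← pow_add, show i / 2 + i / 2 = i by omega, h6])).resolve_left
        (pow_ne_one_of_lt_orderOf (by omega) (by omega)), neg_one_mul]

theorem herm_root (h1 : r ∣ q - 1) (μ c : F) (hμ : μ ≠ 0) (h2 : (hermKind hF).σ μ = μ)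
    (h3 : μ ^ r = (hermKind hF).σ c * c) : ∃ a, a ^ r = c := by
  have hq := two_le_of_card_sq hF
  have h0 : c ≠ 0 := by rintro rfl; simp [hμ] at h3
  obtain ⟨t, ht⟩ := h1
  obtain ⟨a, -, ha⟩ := (root_iff dvd_rfl (r := r) ⟨(q + 1) * t, by rw [card_sub_one hF, ht]; ring⟩
    (pow_card_sub_one h0)).2 (by
      rw [card_sub_one hF, ht, mul_left_comm, Nat.mul_div_cancel_left _ (Fact.out : r.Prime).pos,
        pow_mul, pow_succ]
      rw [show c ^ q * c = μ ^ r from h3.symm, ← pow_mul, ← ht]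
      exact mul_right_cancel₀ hμ (by rw [← pow_succ, Nat.sub_add_cancel (by omega), one_mul]; exact h2))
  exact ⟨a, ha⟩

variable {f : Form (hermKind hF) V} (hf : f.Nondeg)
include hf

omit [Fact r.Prime] in
theorem herm_lin {Λ : Multiset F} (h0 : ∀ a ∈ Λ, a ≠ 0) (h : (lin Λ).map (dual (conj hF)) = lin Λ)
    (hn : Λ.card = finrank F V) : ∃ g : f.Isom, edivs (g.1 : End F V) = lin Λ :=
  hf.herm_exists_isom (conj_ne_id hF) (prim_lin h0).1 (prim_lin h0).2 h (dg_lin.trans hn)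

omit [Fact r.Prime] in
theorem herm_ut {μ : Multiset ℕ} (h0 : ∀ a ∈ μ, 0 < a) (hn : μ.sum = finrank F V) : UT f μ :=
  have := adm_unip (k := hermKind hF) μ h0
  hf.herm_exists_isom (conj_ne_id hF) this.1 this.2.1 this.2.2 ((dg_unip μ).trans hn)

omit [Fact r.Prime] in
theorem herm_two (h0 : finrank F V ≠ 0) : AllSm f 2 ↔
    (2 : F) = 0 ∨ padicValNat 2 (finrank F V) ≤ padicValNat 2 (Nat.card F - 1) := by
  by_cases h2 : (2 : F) = 0
  · exact iff_of_true (all_two_char h2 fun i j h => herm_ut hF hf (by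
      simp +contextual [Multiset.mem_replicate, or_imp]) (by simp; omega)) (Or.inl h2)
  have h3 := card_odd h2
  rw [card_sq hF, ← Nat.odd_iff, Nat.odd_pow_iff two_ne_zero] at h3
  obtain ⟨t, ht⟩ := h3
  have h4 : padicValNat 2 (finrank F V) ≤ padicValNat 2 (Nat.card F - 1) ↔
      NoB 2 (finrank F V) (Nat.card F - 1) := ⟨fun h => ⟨h, fun _ _ => ⟨(t + 1) * t, by
    rw [card_sub_one hF, ht, Nat.add_sub_cancel]; ring⟩⟩, fun h => h.1⟩
  have : Nontrivial V := nontrivial_of_finrank_pos (R := F) (by omega)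
  rw [or_iff_right h2, h4]
  refine ⟨fun H => by_contra fun h => ?_, fun h => all_two h2 (fun i j _ _ h5 _ =>
    herm_lin hF hf (by simp +contextual [Multiset.mem_replicate, or_imp]) ?_ (by simpa using h5))
    fun h' => absurd h h'⟩
  · obtain ⟨g, c, h4, h5, h7, h8⟩ := exists_B (two_dvd h2) h h0
    obtain ⟨-, μ, a1, -, -, a2, a3⟩ := (H g h4 h5).exists_mul hf h8
    exact (herm_root hF (by omega) μ c a1 a2 a3).elim h7
  · rw [dual_lin_map (by simp +contextual [Multiset.mem_replicate, or_imp])]; simp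

theorem herm_odd (ho : Odd r) (hr : (r : F) ≠ 0) {y : ℕ} (hy : r ∣ y) (hn : 3 ≤ finrank F V)
    (h6 : ¬(finrank F V = 6 ∧ r = 3)) (h : y * Nat.card f.Isom =
      Nat.card F ^ (finrank F V).choose 2 * Pq (Nat.card F) (finrank F V)) :
    AllSm f r ↔ (r = 3 ∨ r = 5) ∧ finrank F V = r ∧ padicValNat r (q - 1) = 1 := by
  have hQ : ∀ g : V ≃ₗ[F] V, SimB f g 1 → g ∈ f.Isom := fun g h =>
    (herm_mem_Isom _).2 fun x y => by simpa using h x y
  have hr2 : r ≠ 2 := by rintro rfl; exact absurd ho (by decide)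
  have hq := two_le_of_card_sq hF
  have hp := (Fact.out : r.Prime)
  by_cases h1 : r ∣ q - 1
  · have h2 : ¬r ∣ q + 1 := fun h => ((pm_facts (a := 1) (by omega : 1 ≤ q) hr2).2
      (by simpa using h)).2 (by simpa using h1)
    rw [one_case ho hf hQ (fun ζ h => ?_) (card_sub_one hF ▸ h1.mul_left _) hn h6 (herm_root hF h1)
      fun Λ a1 a2 a3 _ => herm_lin hF hf a1 a2 a3, card_sub_one hF,
      padicValNat.mul (by omega) (by omega), padicValNat.eq_zero_of_not_dvd h2, zero_add]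
    obtain ⟨t, ht⟩ := h1
    rw [Kind.herm_σ, conj_apply, show q = r * t + 1 by omega, pow_succ, pow_mul, h, one_pow, one_mul]
  refine iff_of_false ?_ fun h => by simp [padicValNat.eq_zero_of_not_dvd h1] at h
  rw [herm_card_isom hF _ hf rfl, card_sq hF, Pq_sq, ← card_sq hF] at h
  obtain ⟨j, h3, h4⟩ := hp.prime.exists_mem_finset_dvd (num_cancel hr h hy
    (Finset.prod_ne_zero_iff.2 fun j _ => Hq_fac_ne hq j))
  have h5 := Finset.mem_range.1 h3
  obtain ⟨i, hi⟩ : ∃ i, i = orderOf (q : ZMod r) := ⟨_, rfl⟩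
  have h7 : i % 4 ≠ 2 ∧ (if Even i then i / 2 else i) ≤ finrank F V := by
    split_ifs at h4 with h8
    · rw [dvd_pow_sub_one_iff (by omega), ← hi] at h4
      have := Nat.odd_iff.1 (h8.add_one.of_dvd_nat h4)
      have := Nat.le_of_dvd (by omega) h4
      split_ifs <;> omega
    · have h9 := (pm_facts (by omega : 1 ≤ q) hr2).2 h4
      rw [dvd_pow_sub_one_iff (by omega), dvd_pow_sub_one_iff (by omega), ← hi] at h9
      obtain ⟨t, ht⟩ := odd_cofactor h9.1 h9.2
      obtain ⟨s, rfl⟩ := Nat.not_even_iff_odd.1 h8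
      obtain ⟨w, rfl⟩ : 4 ∣ i := (Nat.Coprime.pow_left 2 (Nat.coprime_two_left.2
        (odd_two_mul_add_one t))).dvd_of_dvd_mul_right ⟨s + 1, by rw [ht]; ring⟩
      rw [if_pos ⟨2 * w, by ring⟩]
      have : 4 * w ≤ 4 * w * (2 * t + 1) := Nat.le_mul_of_pos_right _ (by omega)
      omega
  refine not_all_dual ho hf hQ hr (fun h => h1 ?_) (fun d hd => mt (herm_dual hF hr hr2 hi hd).1 h7.1)
    (herm_ord hF hi ▸ h7.2)
  rw [← ord_eq_one_iff, herm_ord hF hi] at h
  rw [← pow_one q, dvd_pow_sub_one_iff (by omega), ← hi, Nat.dvd_one]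
  split_ifs at h with h8
  exacts [by have := Nat.even_iff.1 h8; omega, h]

end CA.El
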