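import Cfsg.Agent.Lib.Lin.El14

/-! Elements of prime order of unitary groups: nondegenerate and totally singular subspaces. -/

namespace CA.El
open Module Polynomial CA.Rcf CA.CForm CA.CForm.Form

theorem exists_sym {F : Type*} [Field F] {ζ : F} {r : ℕ} (hζ : IsPrimitiveRoot ζ r) :
    ∀ j, 2 * j < r → ∃ S : Multiset F, S.Nodup ∧ S.card = 2 * j ∧ S.prod = 1 ∧
      ∀ a ∈ S, ∃ e, a = ζ ^ e ∧ 0 < e ∧ e < r ∧ (e ≤ j ∨ r - j ≤ e)
  | 0, _ => ⟨0, by simp⟩
  | j + 1, h => by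
    obtain ⟨S, h1, h2, h3, h4⟩ := exists_sym hζ j (by omega)
    have h5 : ∀ e, e < r → j < e → e < r - j → ζ ^ e ∉ S := fun e _ _ _ he => by
      obtain ⟨e', h6, -, h7, h8⟩ := h4 _ he
      have := hζ.pow_inj ‹_› h7 h6
      omega
    refine ⟨ζ ^ (j + 1) ::ₘ ζ ^ (r - (j + 1)) ::ₘ S, ?_, by simp [h2]; omega, ?_, ?_⟩
    · simp only [Multiset.nodup_cons, Multiset.mem_cons, not_or]
      refine ⟨⟨fun e => ?_, h5 _ (by omega) (by omega) (by omega)⟩,
        h5 _ (by omega) (by omega) (by omega), h1⟩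
      have := hζ.pow_inj (by omega) (by omega) e
      omega
    · rw [Multiset.prod_cons, Multiset.prod_cons, h3, mul_one, ← pow_add,
        Nat.add_sub_cancel' (by omega), hζ.pow_eq_one]
    · simp only [Multiset.mem_cons]
      rintro a (rfl | rfl | h6)
      · exact ⟨_, rfl, by omega⟩
      · exact ⟨_, rfl, by omega⟩
      · exact (h4 a h6).imp fun e h => ⟨h.1, by omega⟩

theorem ord_eq_two {q r : ℕ} [Fact r.Prime] (hr2 : r ≠ 2) :
    orderOf (q : ZMod r) = 2 ↔ r ∣ q + 1 := by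
  have : Fact (2 < r) := ⟨(Fact.out : r.Prime).two_le.lt_of_ne' hr2⟩
  rw [← ZMod.natCast_eq_zero_iff, Nat.cast_add, Nat.cast_one, add_eq_zero_iff_eq_neg,
    _root_.orderOf_eq_prime_iff, sq_eq_one_iff]
  exact ⟨fun h => h.1.resolve_left h.2, fun h => ⟨Or.inr h, h ▸ ZMod.neg_one_ne_one⟩⟩

variable {F : Type*} [Field F] [Fintype F] {V : Type*} [AddCommGroup V] [Module F V]
  {U : Type*} [AddCommGroup U] [Module F U] {U' : Type*} [AddCommGroup U'] [Module F U']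
  [FiniteDimensional F V] [FiniteDimensional F U] [FiniteDimensional F U']
  {q r i t : ℕ} (hF : Fintype.card F = q ^ 2) {c : F} {Λ : Multiset F}

theorem norm_iff (a : F) : a * (hermKind hF).σ a = 1 ↔ a ^ (q + 1) = 1 := by
  rw [pow_succ']; rfl

include hF
omit [Field F] in
theorem q1_dvd : q + 1 ∣ Nat.card F - 1 := card_sub_one hF ▸ dvd_mul_right _ _

theorem lin_dual (h : ∀ a ∈ Λ, a ^ (q + 1) = 1) : (lin Λ).map (dual (conj hF)) = lin Λ := by
  rw [dual_lin_map fun a ha h0 => by simpa [h0] using h a ha]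
  exact congrArg lin ((Multiset.map_congr rfl fun a ha =>
    inv_eq_of_mul_eq_one_left ((norm_iff hF a).2 (h a ha))).trans (Multiset.map_id _))

variable [Fact r.Prime]

theorem tb_cases (hr : r ∣ q + 1) (h1 : c ^ (q + 1) = 1) (h2 : c ^ ((q + 1) / r) ≠ 1) :
    (r ≠ 2 ∧ ∀ a, a ^ r ≠ c) ∨ (r = 2 ∧ ∃ x, x ^ 2 = c ∧ x ^ (q + 1) = -1) := by
  obtain ⟨s, hs⟩ := hr
  have hp : r.Prime := Fact.out
  have hq := two_le_of_card_sq hF
  rw [hs, Nat.mul_div_cancel_left _ hp.pos] at h2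
  by_cases h : r = 2
  · subst h
    obtain ⟨x, -, h3⟩ := (root_iff (F := F) (r := 2) (c := c) dvd_rfl
      (card_sub_one hF ▸ hs ▸ ⟨s * (q - 1), by ring⟩) (by rw [card_sub_one hF, pow_mul, h1, one_pow])).2
      (by rw [card_sub_one hF, show q - 1 = 2 * (s - 1) by omega, mul_left_comm,
        Nat.mul_div_cancel_left _ two_pos, pow_mul, h1, one_pow])
    refine .inr ⟨rfl, x, h3, (sq_eq_one_iff.1 ?_).resolve_left (by rwa [hs, pow_mul, h3])⟩
    rw [← pow_mul, mul_comm, pow_mul, h3, h1]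
  · refine .inl ⟨h, fun a ha => h2 ?_⟩
    have h3 : a ≠ 0 := by rintro rfl; rw [← ha, zero_pow hp.ne_zero] at h1; simp at h1
    have h4 := pow_card_sub_one h3
    rw [card_sub_one hF, hs, mul_assoc, pow_mul, ha, pow_mul] at h4
    rw [hs, mul_comm, pow_mul] at h1
    have h5 : r.gcd (q - 1) = 1 := (Nat.Prime.coprime_iff_not_dvd hp).2 fun h5 => h
      ((Nat.prime_dvd_prime_iff_eq hp Nat.prime_two).1 (by
        have := Nat.dvd_sub ⟨s, hs⟩ h5; rwa [show q + 1 - (q - 1) = 2 by omega] at this))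
    simpa [h5] using pow_gcd_eq_one.2 ⟨h1, h4⟩

theorem tb_spec (hr : r ∣ q + 1) (h1 : c ^ (q + 1) = 1) (h2 : c ^ ((q + 1) / r) ≠ 1) :
    ∃ m : Multiset F[X], (∀ d ∈ m, IsPrim d ∧ ¬X ∣ d ∧ d ∣ X ^ r - C c) ∧
      m.map (dual (conj hF)) = m ∧ dg m = r ∧ (m.map (coeff · 0)).prod = -c ∧
      (∀ μ : Multiset F[X], (∀ d ∈ μ, Irreducible d ∧ d.Monic ∧ d ∣ X ^ r - C c) →
        μ.map (dual (conj hF)) = μ → ∃ j : ℕ, μ = j • m) ∧
      ∀ j t : ℕ, 2 * t ≤ r * j →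
        ((∃ ν μ, dg ν = t ∧ j • m = ν + ν.map (dual (conj hF)) + μ) ↔ r = 2 ∨ r ∣ t) := by
  have hp : r.Prime := Fact.out
  have h0 : c ≠ 0 := by rintro rfl; simp at h1
  obtain ⟨h3, h4⟩ | ⟨rfl, x, rfl, h3⟩ := tb_cases hF hr h1 h2
  · have h5 := (X_pow_sub_C_irreducible_iff_of_prime hp).2 h4
    have h6 := monic_X_pow_sub_C c hp.ne_zero
    have h7 : dual (conj hF) (X ^ r - C c) = X ^ r - C c := dual_XrC hp.ne_zero ((norm_iff hF c).2 h1)
    refine ⟨{X ^ r - C c}, by simp [X_dvd_iff, coeff_X_pow, hp.ne_zero.symm, h0]; exact ⟨_, 0, h6, h5, by simp⟩,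
      by simp [h7], by simp, by simp [coeff_X_pow, hp.ne_zero.symm], fun μ h _ => ⟨μ.card, ?_⟩,
      fun j t ht => ?_⟩
    · rw [Multiset.nsmul_singleton, Multiset.eq_replicate_card]
      exact fun d hd => eq_of_monic_of_associated (h d hd).2.1 h6
        (((h d hd).1.associated_of_dvd h5 (h d hd).2.2))
    · rw [or_iff_right h3, Multiset.nsmul_singleton]
      refine ⟨fun ⟨ν, μ, h8, h9⟩ => ?_, fun ⟨s, hs⟩ => ⟨Multiset.replicate s (X ^ r - C c),
        Multiset.replicate (j - 2 * s) (X ^ r - C c), by simp [hs, mul_comm], ?_⟩⟩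
      · rw [← h8, dg_const (i := r) fun d hd => by
          rw [Multiset.eq_of_mem_replicate (Multiset.mem_of_le h9.ge (by simp [hd]) : d ∈ _), natDegree_XrC]]
        exact dvd_mul_right _ _
      · have : 2 * s ≤ j := Nat.le_of_mul_le_mul_left (by rw [hs] at ht; linarith) hp.pos
        rw [Multiset.map_replicate, h7, ← Multiset.replicate_add, ← Multiset.replicate_add]
        congr 1; omega
  · have hx : x ≠ 0 := by rintro rfl; simp at h0
    have h4 : dual (conj hF) (X - C x) = X - C (-x) :=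
      dual_lin (by rw [neg_mul, conj_apply, ← pow_succ', h3, neg_neg])
    have h5 : dual (conj hF) (X - C (-x)) = X - C x :=
      dual_lin (by rw [map_neg, mul_neg, conj_apply, ← pow_succ', h3, neg_neg])
    have h6 : (2 : F) ≠ 0 := natCast_ne_zero_of_dvd (r := 2) one_ne_zero
      (by rw [pow_one]; exact hr.trans (q1_dvd hF))
    have h7 := prim_lin (Λ := {x, -x}) (by simp [hx])
    have h8 : ∀ j : ℕ, j • lin {x, -x} = Multiset.replicate j (X - C x) + Multiset.replicate j (X - C (-x)) :=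
      fun j => by rw [← Multiset.nsmul_singleton, ← Multiset.nsmul_singleton, ← nsmul_add]; rfl
    refine ⟨lin {x, -x}, fun d hd => ⟨h7.1 d hd, h7.2 d hd, ?_⟩, 
      by simp [lin, -map_neg, h4, h5]; exact Multiset.pair_comm _ _, dg_lin,
      by simp [lin, sq], fun μ h h' => ?_, fun j t ht => iff_of_true ⟨Multiset.replicate t (X - C x),
        (j - t) • lin {x, -x}, by simp, ?_⟩ (Or.inl rfl)⟩
    · obtain ⟨a, ha, rfl⟩ := Multiset.mem_map.1 hd
      rw [dvd_iff_isRoot]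
      obtain rfl | rfl : a = x ∨ a = -x := by simpa using ha
      all_goals simp
    · obtain ⟨a, b, rfl⟩ := eq_rep_add fun d hd => eq_or_of_dvd (h d hd).1 (h d hd).2.1 (h d hd).2.2
      simp only [Multiset.map_add, Multiset.map_replicate, h4, h5] at h'
      obtain rfl := rep_swap (lin_ne h6 hx) h'
      exact ⟨a, (h8 a).symm⟩
    · rw [Multiset.map_replicate, h4, ← h8, ← add_nsmul, Nat.add_sub_cancel' (by omega)]

variable {f : Form (hermKind hF) V} {p : Form (hermKind hF) U} (hf : f.Nondeg)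
include hf

theorem tb_facts (hr : r ∣ q + 1) (h1 : c ^ (q + 1) = 1) (h2 : c ^ ((q + 1) / r) ≠ 1) :
    (r ∣ finrank F V → ∃ g : f.Isom, (g.1 : End F V) ^ r = c • 1) ∧
    ∀ g : f.Isom, (g.1 : End F V) ^ r = c • 1 → r ∣ finrank F V ∧
      LinearMap.det (g.1 : End F V) = ((-1) ^ (r + 1) * c) ^ (finrank F V / r) ∧
      (p.Nondeg → finrank F U ≤ finrank F V → (Fix g p ↔ r ∣ finrank F U)) ∧
      (2 * t ≤ finrank F V → (FTS g t ↔ r = 2 ∨ r ∣ t)) := by
  have hp : r.Prime := Fact.out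
  have h0 : c ≠ 0 := by rintro rfl; simp at h1
  have hr' : (r : F) ≠ 0 := natCast_ne_zero_of_dvd one_ne_zero
    (by rw [pow_one]; exact hr.trans (q1_dvd hF))
  obtain ⟨m, a1, a2, a3, a4, a5, a6⟩ := tb_spec hF hr h1 h2
  have b1 : ∀ j : ℕ, (∀ d ∈ j • m, IsPrim d) ∧ (∀ d ∈ j • m, ¬X ∣ d) ∧
      (j • m).map (dual (conj hF)) = j • m ∧ ((j • m).map natDegree).sum = r * j := fun j =>
    ⟨fun d hd => (a1 d (Multiset.mem_of_mem_nsmul hd)).1,
      fun d hd => (a1 d (Multiset.mem_of_mem_nsmul hd)).2.1, by rw [Multiset.map_nsmul, a2],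
      (dg_nsmul j m).trans (by rw [a3, mul_comm])⟩
  refine ⟨fun ⟨j, hj⟩ => ?_, fun g hg => ?_⟩
  · obtain ⟨g, hg⟩ := hf.herm_exists_isom (conj_ne_id hF) (b1 j).1 (b1 j).2.1 (b1 j).2.2.1
      ((b1 j).2.2.2.trans hj.symm)
    exact ⟨g, (pow_eq_smul_iff _ _ _).2 fun d hd => (a1 d (Multiset.mem_of_mem_nsmul (hg ▸ hd))).2.2⟩
  have b2 := isSS_of_pow hr' h0 hg
  have b3 := (pow_eq_smul_iff _ _ _).1 hg
  obtain ⟨j, hj⟩ := a5 _ (fun d hd => ⟨b2 d hd, (isPrim_of_mem_edivs hd).monic, b3 d hd⟩)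
    (hf.edivs_dual g)
  have b4 : finrank F V = r * j := by rw [← dg_edivs, hj]; exact (b1 j).2.2.2
  have b5 := tame_herm (hs := conj_conj hF) (conj_ne_id hF) g.1
  refine ⟨⟨j, b4⟩, ?_, fun hp' h => ?_, fun h => ?_⟩
  · rw [det_eq_of_edivs, hj, b4, Multiset.map_nsmul, Multiset.prod_nsmul, a4,
      Nat.mul_div_cancel_left _ hp.pos, pow_mul, ← mul_pow, pow_succ]
    ring_nf
  · rw [fix_tame hf hp' b5]
    refine ⟨fun ⟨u, hu⟩ => ?_, fun ⟨s, hs⟩ => ?_⟩
    · obtain ⟨s, hs⟩ := a5 _ (fun d hd => have := Multiset.mem_of_le hu hd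
        ⟨b2 d this, (isPrim_of_mem_edivs hd).monic, b3 d this⟩) (hp'.edivs_dual u)
      exact ⟨s, by rw [← dg_edivs, hs]; exact (b1 s).2.2.2⟩
    · obtain ⟨u, hu⟩ := hp'.herm_exists_isom (conj_ne_id hF) (b1 s).1 (b1 s).2.1 (b1 s).2.2.1
        ((b1 s).2.2.2.trans hs.symm)
      exact ⟨u, hu ▸ hj ▸ nsmul_le_nsmul_left zero_le
        (Nat.le_of_mul_le_mul_left (hs ▸ b4 ▸ h) hp.pos)⟩
  · rw [fts_tame hf b5 b2, hj]
    exact a6 j t (b4 ▸ h)

theorem herm_master (hr : r ∣ q + 1) (h0 : finrank F V ≠ 0) {P : f.Isom → Prop} {B : Prop}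
    (hP : ∀ a ha g, P (f.scalarIsom a ha * g) ↔ P g)
    (hB : ∀ (g : f.Isom) (c : F), (g.1 : End F V) ^ r = c • 1 → c ^ (q + 1) = 1 → c ^ ((q + 1) / r) ≠ 1 →
      (P g ↔ B)) :
    (∀ g : f.Isom, LinearMap.det (g.1 : End F V) = 1 → PO r (g.1 : End F V) → P g) ↔
      (∀ (u : f.Isom) Λ, edivs (u.1 : End F V) = lin Λ → (∀ a ∈ Λ, a ^ r = 1) →
        PO r (u.1 : End F V) → (∃ a, a ^ (q + 1) = 1 ∧ a ^ finrank F V * Λ.prod = 1) → P u) ∧
      (B ∨ NoB r (finrank F V) (q + 1)) := by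
  have : Nontrivial V := nontrivial_of_finrank_pos (R := F) (by omega)
  have hN := q1_dvd hF
  have h1 := tb_iff hN hr h0
  refine ⟨fun H => ⟨fun u Λ h2 _ h3 ⟨a, h4, h5⟩ => ?_, or_iff_not_imp_right.2 fun h => ?_⟩,
    fun ⟨H, H'⟩ g h2 h3 => ?_⟩
  · have h6 := (norm_iff hF a).2 h4
    refine (hP a h6 u).1 (H _ ?_ ?_) <;> rw [coe_smul_mul]
    · rw [LinearMap.det_smul, det_linear h2, h5]
    · exact h3.smul (left_ne_zero_of_mul_eq_one h6)
  · obtain ⟨h2, c, h3, h4, h5⟩ := h1.2 h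
    obtain ⟨h6, h7⟩ := tb_facts hF (p := f) (t := 0) hf hr h3 h4
    obtain ⟨g, hg⟩ := h6 h2
    refine (hB g c hg h3 h4).1 (H g ((h7 g hg).2.1.trans h5) ⟨⟨c, hg⟩, fun a ha => h4 ?_⟩)
    refine (root_iff hN hr h3).1 ⟨a, (norm_iff hF a).1 (norm_of_pow hf (r := 1) (by rw [pow_one, ha])), ?_⟩
    rw [ha, _root_.smul_pow, one_pow] at hg
    exact smul_left_injective F one_ne_zero hg
  · obtain ⟨c, hc⟩ := h3.1
    have h4 := (norm_iff hF c).1 (norm_of_pow hf hc)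
    by_cases h5 : c ^ ((q + 1) / r) = 1
    · obtain ⟨a, h6, rfl⟩ := (root_iff hN hr h4).2 h5
      obtain ⟨u, h7, h8, rfl⟩ := po_scale h3 ((norm_iff hF a).2 h6) hc
      obtain ⟨Λ, h9, h10⟩ := exists_lin_of_pow (u := u.1) (hr.trans hN) (by simpa using h7)
      rw [coe_smul_mul, LinearMap.det_smul, det_linear h9] at h2
      exact (hP _ _ _).2 (H u Λ h9 h10 h8 ⟨a, h6, h2⟩)
    · obtain ⟨h6, h7, -⟩ := (tb_facts hF (p := f) (t := 0) hf hr h4 h5).2 g hc
      exact (hB g c hc h4 h5).2 (H'.resolve_right (h1.1 ⟨h6, c, h4, h5, h7 ▸ h2⟩))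

theorem forall_po_herm (hr : ¬r ∣ q + 1) {P : f.Isom → Prop}
    (hP : ∀ a ha g, P (f.scalarIsom a ha * g) ↔ P g) :
    (∀ g : f.Isom, LinearMap.det (g.1 : End F V) = 1 → PO r (g.1 : End F V) → P g) ↔
      ∀ u, orderOf u = r → P u := by
  have h1 := (Nat.Prime.coprime_iff_not_dvd Fact.out).2 hr
  have h2 : ∀ c : F, c * (hermKind hF).σ c = 1 → c ^ r = 1 → c = 1 := fun c h2 h3 => by
    simpa [h1.gcd_eq_one] using pow_gcd_eq_one.2 ⟨h3, (norm_iff hF c).1 h2⟩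
  refine ⟨fun H u h => H u (h2 _ (f.coe_detHom u ▸ hf.det_mul_σ_det u) ?_) (po_of_order hf h fun c a b _ => h2 c a b),
    fun H g _ h => ?_⟩
  · rw [← map_pow, ← coe_pow, ← h, pow_orderOf_eq_one]; exact map_one _
  · have := h.nontrivial
    obtain ⟨c, hc⟩ := h.1
    have h3 := (norm_iff hF c).1 (norm_of_pow hf hc)
    obtain ⟨s, hs⟩ := exists_pow_eq_self_of_coprime (h1.of_dvd_right (orderOf_dvd_of_pow_eq_one h3))
    rw [← pow_mul, mul_comm, pow_mul] at hs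
    obtain ⟨u, h4, -, rfl⟩ := po_scale h ((norm_iff hF (c ^ s)).2
      (by rw [← pow_mul, mul_comm, pow_mul, h3, one_pow])) (hs.symm ▸ hc)
    exact (hP _ _ _).2 (H u h4)

omit [Fact r.Prime] in
theorem fts_lin {g : f.Isom} (h : edivs (g.1 : End F V) = lin Λ) (h1 : ∀ a ∈ Λ, a ^ (q + 1) = 1) :
    FTS g t ↔ ∃ Λ₁ Λ₂, Λ = Λ₁ + Λ₁ + Λ₂ ∧ Λ₁.card = t := by
  rw [fts_tame hf (tame_herm (hs := conj_conj hF) (conj_ne_id hF) g.1) fun d hd => by
    obtain ⟨a, -, rfl⟩ := Multiset.mem_map.1 (h ▸ hd : d ∈ lin Λ); exact irreducible_X_sub_C a, h]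
  refine ⟨fun ⟨ν, μ, h2, h3⟩ => ?_, fun ⟨Λ₁, Λ₂, h2, h3⟩ => ⟨lin Λ₁, lin Λ₂, dg_lin.trans h3, ?_⟩⟩
  · obtain ⟨Λ₁, h4, rfl⟩ := exists_of_le_map (h3 ▸ (le_add_right (le_add_right le_rfl)) : ν ≤ lin Λ)
    obtain ⟨Λ₂, -, rfl⟩ := exists_of_le_map (h3 ▸ le_add_self : μ ≤ lin Λ)
    have h5 := lin_dual hF fun a ha => h1 a (Multiset.mem_of_le h4 ha)
    exact ⟨Λ₁, Λ₂, lin_inj (h3.trans (by rw [lin_add, lin_add]; congr 2)), dg_lin.symm.trans h2⟩
  · rw [h2, lin_add, lin_add]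
    congr 2
    exact (lin_dual hF fun a ha => h1 a (by simp [h2, ha])).symm

omit [Fact r.Prime] hf [Fintype F] hF in
theorem root_of_dvd (hr : r ∣ q + 1) (h : ∀ a ∈ Λ, a ^ r = 1) : ∀ a ∈ Λ, a ^ (q + 1) = 1 :=
  fun a ha => by obtain ⟨s, hs⟩ := hr; rw [hs, pow_mul, h a ha, one_pow]

theorem nd_one (hr : r ∣ q + 1) (h0 : finrank F V ≠ 0) (hp : p.Nondeg)
    (h : finrank F U ≤ finrank F V) :
    (∀ g : f.Isom, LinearMap.det (g.1 : End F V) = 1 → PO r (g.1 : End F V) → Fix g p) ↔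
      r ∣ finrank F U ∨ NoB r (finrank F V) (q + 1) := by
  rw [herm_master hF hf hr h0 (fun _ ha _ => fix_smul ha) fun g c h1 h2 h3 =>
    ((tb_facts hF (t := 0) hf hr h2 h3).2 g h1).2.2.1 hp h, and_iff_right]
  intro u Λ h1 h2 _ _
  obtain ⟨Λ', h3, h4⟩ := exists_le_card Λ (s := finrank F U) (by rwa [← dg_lin, ← h1, dg_edivs])
  have h5 := fun a ha => root_of_dvd hr h2 a (Multiset.mem_of_le h3 ha)
  obtain ⟨v, hv⟩ := herm_lin hF hp (fun a ha h0 => by simpa [h0] using h5 a ha) (lin_dual hF h5) h4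
  exact (fix_tame hf hp (tame_herm (hs := conj_conj hF) (conj_ne_id hF) u.1)).2
    ⟨v, hv ▸ h1 ▸ Multiset.map_le_map h3⟩

theorem ts_one (hr : r ∣ q + 1) (h0 : t ≠ 0) (ht : 2 * t ≤ finrank F V) :
    (∀ g : f.Isom, LinearMap.det (g.1 : End F V) = 1 → PO r (g.1 : End F V) → FTS g t) ↔
      (r - 1 + 2 * t ≤ finrank F V ∨ r = 2 ∧ padicValNat 2 (q + 1) ≤ padicValNat 2 (finrank F V)) ∧
      ((r = 2 ∨ r ∣ t) ∨ NoB r (finrank F V) (q + 1)) := by
  classical
  have hp : r.Prime := Fact.out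
  have h2 := hp.two_le
  rw [herm_master hF hf hr (by omega) (fun _ ha _ => fts_smul ha) fun g c h1 h2 h3 =>
    ((tb_facts hF (p := f) hf hr h2 h3).2 g h1).2.2.2 ht]
  refine and_congr_left' ⟨fun H => ?_, fun H u Λ h1 h3 h4 ⟨a, h5, h6⟩ => ?_⟩
  · obtain ⟨ζ, hζ⟩ := exists_prim (hr.trans (q1_dvd hF))
    have key : ∀ S : Multiset F, S.Nodup → S ≠ 0 → (∀ a ∈ S, a ^ r = 1 ∧ a ≠ 1) →
        (∃ x ∈ S, ∃ y ∈ S, x ≠ y) ∨ S.card < finrank F V → S.card ≤ finrank F V →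
        (∃ a, a ^ (q + 1) = 1 ∧ a ^ finrank F V * S.prod = 1) → S.card + 2 * t ≤ finrank F V := by
      intro S a1 a2 a3 a4 a5 a6
      have b1 : ∀ a ∈ S + Multiset.replicate (finrank F V - S.card) 1, a ^ r = 1 := fun a ha =>
        (Multiset.mem_add.1 ha).elim (fun h => (a3 a h).1) fun h => by
          rw [Multiset.eq_of_mem_replicate h, one_pow]
      have b2 := root_of_dvd hr b1
      obtain ⟨u, hu⟩ := herm_lin hF hf (fun a ha h0 => by simpa [h0] using b2 a ha) (lin_dual hF b2)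
        (by simp [a5])
      obtain ⟨Λ₁, Λ₂, b3, rfl⟩ := (fts_lin hF hf hu b2).1 (H u _ hu b1 (by
        obtain ⟨x, hx, y, hy, b3⟩ | b3 := a4
        · exact po_lin hu b1 (by simp [hx]) (by simp [hy]) b3
        · obtain ⟨x, hx⟩ := Multiset.exists_mem_of_ne_zero a2
          exact po_lin hu b1 (by simp [hx]) (by simp [Multiset.mem_replicate]; omega) (a3 x hx).2)
        (by simpa using a6))
      have b4 : Λ₁ = Multiset.replicate Λ₁.card 1 := Multiset.eq_replicate_card.2 fun a ha =>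
        by_contra fun h => by
          have b4 := congrArg (Multiset.count a) b3
          have := Multiset.nodup_iff_count_le_one.1 a1 a
          have := Multiset.count_pos.2 ha
          simp [Multiset.count_replicate, Ne.symm h] at b4
          omega
      have b5 := congrArg (Multiset.count 1) b3
      rw [b4] at b5
      simp [Multiset.count_eq_zero.2 fun h => (a3 1 h).2 rfl] at b5
      omega
    rcases hp.eq_two_or_odd' with rfl | ⟨s, hs⟩
    · by_contra h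
      obtain ⟨a, b1, b2⟩ := (det_root_iff (r := 2) (n := finrank F V) (q1_dvd hF) (by omega)
        hζ.pow_eq_one (hζ.ne_one one_lt_two)).2 (by simp at h; omega)
      have := key {ζ} (by simp) (by simp) (by simp [hζ.pow_eq_one, hζ.ne_one one_lt_two, -sq_eq_one_iff])
        (Or.inr (by simp; omega)) (by simp; omega) ⟨a, b1, by simpa using b2⟩
      simp at this h
      omega
    · obtain ⟨S, b1, b2, b3, b4⟩ := exists_sym hζ (min s (finrank F V / 2)) (by omega)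
      have b5 : 1 < S.card := by omega
      have := key S b1 (by rintro rfl; simp at b5) (fun a ha => by
        obtain ⟨e, rfl, b6, b7, -⟩ := b4 a ha
        exact ⟨by rw [← pow_mul, mul_comm, pow_mul, hζ.pow_eq_one, one_pow],
          hζ.pow_ne_one_of_pos_of_lt b6.ne' b7⟩) (Or.inl (by
        simpa using (Finset.one_lt_card (s := ⟨S, b1⟩)).1 b5)) (by omega) ⟨1, by simp [b3]⟩
      omega
  · have h7 : Λ.card = finrank F V := by rw [← dg_lin, ← h1, dg_edivs]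
    rw [fts_lin hF hf h1 (root_of_dvd hr h3)]
    by_cases h8 : r - 1 + 2 * t ≤ finrank F V
    · have := (show IsPrimitiveRoot _ r from (exists_prim (hr.trans (q1_dvd hF))).choose_spec).card_nthRootsFinset
      exact exists_double (nthRootsFinset r (1 : F)) t Λ
        (fun a ha => (mem_nthRootsFinset hp.pos 1).2 (h3 a ha)) (by omega)
    obtain ⟨rfl, h9⟩ := H.resolve_left h8
    obtain ⟨x, y, rfl⟩ := eq_rep_add fun a ha => sq_eq_one_iff.1 (h3 a ha)
    have h10 : (-1 : F) ≠ 1 := fun h => h4.2 1 ((eq_smul_iff _ _).2 fun d hd => by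
      obtain ⟨b, hb, rfl⟩ := Multiset.mem_map.1 (h1 ▸ hd : d ∈ lin _)
      rw [(sq_eq_one_iff.1 (h3 b hb)).elim id fun e => e.trans h])
    obtain ⟨z, rfl | rfl⟩ := y.even_or_odd'
    · simp at h7
      refine ⟨Multiset.replicate (t - z) 1 + Multiset.replicate z (-1), 0, ?_, by simp; omega⟩
      rw [add_zero, add_add_add_comm, ← Multiset.replicate_add, ← Multiset.replicate_add]
      congr 2 <;> omega
    · have := (det_root_iff (r := 2) (n := finrank F V) (q1_dvd hF) (by omega) (by simp) h10).1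
        ⟨a, h5, by simpa [pow_succ] using h6⟩
      omega

omit hf in
theorem herm_c (hr : (r : F) ≠ 0) {b c : ℕ} (hi : i = orderOf (q : ZMod r))
    (hb : b = if Even i then i / 2 else i)
    (hc : c = if i % 4 = 0 then i else if i % 4 = 2 then i / 2 else 2 * i) :
    0 < i ∧ b = orderOf (Nat.card F : ZMod r) ∧ c = (if i % 4 = 2 then 1 else 2) * b ∧
      (r ≠ 2 → Unif (cycT F r) (dual (hermKind hF).σ) (if i % 4 = 2 then 1 else 2)) := by
  have h1 := herm_ord hF hi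
  have h2 : 0 < orderOf (Nat.card F : ZMod r) := orderOf_card_pos hr
  refine ⟨?_, hb.trans h1.symm, ?_, fun hr2 => unif_cycT hr ?_⟩
  · rw [h1] at h2; split_ifs at h2 <;> omega
  · simp only [Nat.even_iff] at hb; split_ifs at hb hc ⊢ <;> omega
  · split_ifs with h
    · exact Or.inl ⟨rfl, fun d hd => (herm_dual hF hr hr2 hi hd).2 h⟩
    · exact Or.inr ⟨rfl, fun d hd e => h ((herm_dual hF hr hr2 hi hd).1 e)⟩

theorem num_herm (hr : (r : F) ≠ 0) (hr2 : r ≠ 2) {c x y : ℕ} (hi : i = orderOf (q : ZMod r))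
    (hc : c = if i % 4 = 0 then i else if i % 4 = 2 then i / 2 else 2 * i) (hp : p.Nondeg)
    (hd : finrank F U ≤ finrank F V) (hx : r ∣ x) (h : x * y * Nat.card p.Isom = Nat.card f.Isom) :
    ∃ s, 1 ≤ s ∧ c * s ≤ finrank F V ∧ ¬c * s ≤ finrank F U := by
  have hq := two_le_of_card_sq hF
  rw [herm_card_isom hF _ hf rfl, herm_card_isom hF _ hp rfl] at h
  obtain h1 | ⟨j, h1, h2, h3⟩ := dvd_cancel (Hq_fac_ne hq) hd h hx
  · exact absurd (((Fact.out : r.Prime).dvd_of_dvd_pow h1).trans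
      (card_sq hF ▸ by simp [sq] : q ∣ Nat.card F ^ 1)) (not_dvd_card_pow hr 1)
  obtain ⟨s, hs⟩ : c ∣ j + 1 := by
    split_ifs at h3 with h4
    · obtain ⟨h5, h6⟩ := (pm_facts (by omega) hr2).2 h3
      rw [dvd_pow_sub_one_iff (by omega), ← hi] at h5 h6
      obtain ⟨s, hs⟩ := odd_cofactor h5 h6
      obtain ⟨a, rfl | rfl⟩ := i.even_or_odd'
      · have : a * (2 * s + 1) = j + 1 := by linarith
        have h7 : Odd (a * (2 * s + 1)) := this ▸ h4.add_one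
        have h8 := Nat.odd_iff.1 (Nat.odd_mul.1 h7).1
        rw [if_neg (by omega), if_pos (by omega)] at hc
        exact ⟨2 * s + 1, by rw [hc, ← this]; simp⟩
      · have : Odd (2 * (j + 1)) := hs ▸ (odd_two_mul_add_one a).mul (odd_two_mul_add_one s)
        simp [Nat.odd_iff] at this
    · rw [dvd_pow_sub_one_iff (by omega), ← hi] at h3
      split_ifs at hc with h5 h6
      · exact hc ▸ h3
      · exact hc ▸ Dvd.dvd.trans ⟨2, by omega⟩ h3
      · exact hc ▸ (Nat.Coprime.mul_dvd_of_dvd_of_dvd (Nat.coprime_two_left.2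
          (Nat.odd_iff.2 (by omega))) (Nat.not_even_iff_odd.1 h4).add_one.two_dvd h3)
  exact ⟨s, Nat.pos_of_ne_zero (by rintro rfl; omega), by omega, by omega⟩

theorem herm_nd {p' : Form (hermKind hF) U'} (hr : (r : F) ≠ 0) (hr2 : r ≠ 2) {c : ℕ}
    (hi : i = orderOf (q : ZMod r))
    (hc : c = if i % 4 = 0 then i else if i % 4 = 2 then i / 2 else 2 * i)
    (h : (p.prod p').Equivalent f)
    (hx : r ∣ Nat.card {W : Submodule F V // (f.restrict W).Equivalent p}) :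
    (∀ u : f.Isom, orderOf u = r → Fix u p) ↔
      c ≤ finrank F U ∧ finrank F U % c ≤ finrank F V % c := by
  have h1 := nondeg_left (h.symm.nondeg hf)
  have h2 := nondeg_right (h.symm.nondeg hf)
  have h3 := num_herm hF hf hr hr2 hi hc h2 (by rw [finrank_of_equiv h]; omega) hx (card_fix_mul hf h)
  obtain ⟨-, h4, rfl, h5⟩ := herm_c hF hr hi rfl hc
  rw [h4] at h3 ⊢
  exact le_nd hr hr2 rfl (h5 hr2) hf (fun _ hm => hf.herm_cycT_iff hr hm (conj_ne_id hF))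
    (fun _ hm => h2.herm_cycT_iff hr hm (conj_ne_id hF)) h3 h
    fun _ hm => h1.herm_cycT_iff hr hm (conj_ne_id hF)

theorem herm_ts (ht : 2 * t ≤ finrank F V)
    (hx : r ∣ Nat.card {W : Submodule F V // finrank F W = t ∧ f.TS W}) : (r : F) ≠ 0 ∧
    ∀ b c, r ≠ 2 → i = orderOf (q : ZMod r) → b = (if Even i then i / 2 else i) →
      c = (if i % 4 = 0 then i else if i % 4 = 2 then i / 2 else 2 * i) →
    ((∀ u : f.Isom, orderOf u = r → FTS u t) ↔ b ≤ t ∧ 2 * (t % b) ≤ finrank F V % c ∧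
      (i % 4 = 2 → (r - 1) / b + 2 * (t / b) ≤ finrank F V / b)) := by
  have hq := two_le_of_card_sq hF
  obtain ⟨W, h1, h2⟩ := (hf.herm_isIndex (conj_ne_id hF)).exists_ts (j := t) (by omega)
  obtain ⟨N, h3, h4, h5⟩ := exists_ts_compl hf h1 h2
  have h6 := nondeg_right (h3.symm.nondeg hf)
  have hr : (r : F) ≠ 0 := fun h0 => by
    rw [herm_card_isom hF _ hf rfl, herm_card_isom hF _ h6 rfl, card_ker_π_hermKind, card_sq hF, ← h4,
      ← Nat.choose_two_right, ← Nat.choose_two_right] at h5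
    generalize finrank F N = a at h5
    have h7 := hx.trans (dvd_of_pow (c := 1) (q := q) (a := Pq (q ^ 2) t)
      (u := 2 * t.choose 2 + (2 * (t * a + t.choose 2) + t)) (v := a.choose 2) (b := Hq q a)
      (w := (a + 2 * t).choose 2) (y := Hq q (a + 2 * t)) (by rw [one_mul, one_mul, Hq, Hq, ← h5]; ring)
      one_ne_zero (by omega) (by nlinarith [two_choose t, two_choose a, two_choose (a + 2 * t)]))
    obtain ⟨j, -, h8⟩ := (Prime.dvd_finsetProd_iff (Fact.out : r.Prime).prime _).1 h7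
    have h9 : r ∣ Nat.card F ^ (j + 1) - 1 := by
      rw [card_sq hF, ← pow_mul, mul_comm, pow_mul, ← one_pow 2, Nat.sq_sub_sq]
      split_ifs at h8
      exacts [h8.mul_right _, h8.mul_left _]
    exact natCast_ne_zero_of_dvd (by omega) h9 h0
  refine ⟨hr, fun b c hr2 hi hb hc => ?_⟩
  have h7 := num_herm hF hf hr hr2 hi hc h6 (by omega) hx h5
  obtain ⟨-, rfl, rfl, h8⟩ := herm_c hF hr hi hb hc
  rw [le_ts hr hr2 rfl (h8 hr2) hf (fun _ hm => hf.herm_cycT_iff hr hm (conj_ne_id hF))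
    (fun _ hm => h6.herm_cycT_iff hr hm (conj_ne_id hF)) h7 h3]
  split_ifs with h <;> simp [h]

omit [Fact r.Prime] in
theorem herm_unip_nd (l : ℕ) [Fact l.Prime] [CharP F l] (hp : p.Nondeg) :
    (∀ u : f.Isom, orderOf u = l → Fix u p) ↔ ∀ μ : Multiset ℕ, (∀ a ∈ μ, 0 < a ∧ a ≤ l) →
      μ.sum = finrank F V → (¬∀ a ∈ μ, a ≤ 1) → ∃ ν ≤ μ, ν.sum = finrank F U := by
  have h1 := fun g : f.Isom => fix_tame hf hp (tame_herm (hs := conj_conj hF) (conj_ne_id hF) g.1)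
  refine ⟨fun H μ a1 a2 a3 => ?_, fun H g hg => ?_⟩
  · obtain ⟨g, hg⟩ := herm_ut hF hf (fun a ha => (a1 a ha).1) a2
    obtain ⟨u, hu⟩ := (h1 g).1 (H g (order_unip l hg a1 a3))
    obtain ⟨ν, a4, a5⟩ := exists_of_le_map (hg ▸ hu)
    exact ⟨ν, a4, UT.sum ⟨u, a5⟩⟩
  · obtain ⟨μ, a1, a2, a3⟩ := unip_of_order l hg
    obtain ⟨ν, a4, a5⟩ := H μ a2 (UT.sum ⟨g, a1⟩) a3
    obtain ⟨u, hu⟩ := herm_ut hF hp (fun a ha => (a2 a (Multiset.mem_of_le a4 ha)).1) a5
    exact (h1 g).2 ⟨u, hu ▸ a1 ▸ Multiset.map_le_map a4⟩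

end CA.El
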