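import Cfsg.Agent.Lib.Lin.El15

/-! Pairs of complementary totally singular subspaces. -/

namespace CA.El
open Module Polynomial CA.Rcf CA.CForm CA.CForm.Form

theorem dvd_of_free {G X : Type*} [Group G] [MulAction G X] (h : ∀ (g : G) (x : X), g • x = x → g = 1) :
    Nat.card G ∣ Nat.card X := by
  rw [Nat.card_congr (MulAction.selfEquivOrbitsQuotientProd (G := G) fun x =>
    eq_bot_iff.2 fun g hg => h g x hg), Nat.card_prod]
  exact dvd_mul_left _ _

theorem even_of_invol {α : Type*} [Finite α] (s : α → α) (h : ∀ a, s (s a) = a) (h' : ∀ a, s a ≠ a) :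
    2 ∣ Nat.card α := by
  have := Fintype.ofFinite α
  have := Finset.sum_involution (s := Finset.univ) (f := fun _ => (1 : ZMod 2)) (fun a _ => s a)
    (fun _ _ => rfl) (fun a _ _ => h' a) (fun _ _ => Finset.mem_univ _) fun a _ => h a
  rw [← ZMod.natCast_eq_zero_iff, Nat.card_eq_fintype_card]
  simpa using this

theorem one_absurd {r b t : ℕ} [Fact r.Prime] {x : ZMod r} (hb : b = orderOf x) (h0 : 0 < b)
    (h1 : 2 * (t % b) ≤ 2 * t % b) (h2 : (r - 1) / b + 2 * (t / b) ≤ 2 * t / b) : False := by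
  have h3 : x ≠ 0 := by
    rintro rfl
    have := pow_orderOf_eq_one (0 : ZMod r)
    rw [← hb, zero_pow h0.ne'] at this
    exact zero_ne_one this
  have h4 := (le_iff_div h0).1 (Nat.le_of_dvd (by have := (Fact.out : r.Prime).two_le; omega)
    (hb ▸ ZMod.orderOf_dvd_card_sub_one h3))
  have := carry1 h0 t t
  rw [← two_mul] at this
  omega

theorem Sq_eq {q : ℕ} (a : ℕ) : Sq q a = Pq q a * ∏ j ∈ Finset.range a, (q ^ (j + 1) + 1) := by
  rw [Sq, Pq, ← Finset.prod_mul_distrib]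
  exact Finset.prod_congr rfl fun j _ => by
    rw [mul_comm 2, pow_mul, ← one_pow 2, Nat.sq_sub_sq, mul_comm, one_pow]

theorem Hq_two_mul (q : ℕ) : ∀ a, Hq q (2 * a) =
    Pq (q ^ 2) a * ∏ j ∈ Finset.range a, (q ^ (2 * j + 1) + 1)
  | 0 => rfl
  | a + 1 => by
    have := Hq_two_mul q a
    simp only [Hq, Pq, mul_add, mul_one, Finset.prod_range_succ] at this ⊢
    rw [this, if_pos (even_two_mul a), if_neg (by simp), ← pow_mul]
    ring_nf

variable {F : Type*} [Field F] {k : Kind F} {V : Type*} [AddCommGroup V] [Module F V]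
  {U : Type*} [AddCommGroup U] [Module F U] {f : Form k V} {p : Form k U} {g : f.Isom} {t r : ℕ}
  {W W' Y Y' : Submodule F V}

variable (f W W') in
/-- A pair of complementary totally singular subspaces. -/
def TP : Prop := IsCompl W W' ∧ f.TS W ∧ f.TS W'

variable (f) in
/-- `A` fixes or interchanges the members of some such pair. -/
def Pr (A : End F V) : Prop :=
  ∃ W W', TP f W W' ∧ (W.map A = W ∧ W'.map A = W' ∨ W.map A = W' ∧ W'.map A = W)

theorem TP.map (h : TP f W W') {e : V ≃ₗ[F] U} (he : f.Pres p e) :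
    TP p (W.map (e : V →ₗ[F] U)) (W'.map (e : V →ₗ[F] U)) := by
  have : ∀ X, f.TS X → p.TS (X.map (e : V →ₗ[F] U)) := fun X hX =>
    ⟨by rintro _ ⟨x, hx, rfl⟩; exact (he.Q_eq x).trans (hX.Q_eq x hx), by
      rintro _ ⟨x, hx, rfl⟩ _ ⟨y, hy, rfl⟩; exact (he.B_eq x y).trans (hX.B_eq x hx y hy)⟩
  exact ⟨(Submodule.orderIsoMapComap e).isCompl h.1, this _ h.2.1, this _ h.2.2⟩

theorem Pr.isoSim {u : p.Isom} (h : Pr f g.1) (H : IsoSim g u) : Pr p u.1 := by
  obtain ⟨e, h1, h2⟩ := H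
  obtain ⟨W, W', h3, h4⟩ := h
  have : ∀ X : Submodule F V, (X.map (e : V →ₗ[F] U)).map (u.1 : End F U) =
      (X.map (g.1 : End F V)).map (e : V →ₗ[F] U) := fun X => by
    rw [← Submodule.map_comp, ← Submodule.map_comp]
    exact congrArg X.map (LinearMap.ext fun v => (h2 v).symm)
  refine ⟨_, _, h3.map h1, ?_⟩
  rw [this, this]
  exact h4.imp (fun h => by rw [h.1, h.2]; simp) fun h => by rw [h.1, h.2]; simp

theorem pr_smul {a : F} (ha : a * k.σ a = 1) : Pr f (f.scalarIsom a ha * g).1 ↔ Pr f g.1 := by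
  simp only [Pr, coe_smul_mul, Submodule.map_smul _ _ _ (left_ne_zero_of_mul_eq_one ha)]

theorem map_pow_swap {A : End F V} (h : W.map A = W') (h' : W'.map A = W) :
    ∀ n, W.map (A ^ (2 * n + 1)) = W'
  | 0 => by simpa using h
  | n + 1 => by
    rw [show 2 * (n + 1) + 1 = 2 * n + 1 + 1 + 1 by ring, pow_succ', pow_succ', End.mul_eq_comp, End.mul_eq_comp, Submodule.map_comp,
      Submodule.map_comp, map_pow_swap h h' n, h', h]

variable [FiniteDimensional F V] [FiniteDimensional F U]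

theorem TP.dim (h : TP f W W') (hf : f.Nondeg) :
    2 * finrank F W = finrank F V ∧ 2 * finrank F W' = finrank F V := by
  have h1 := hf.two_mul_finrank_le h.2.1
  have h2 := hf.two_mul_finrank_le h.2.2
  have h3 := Submodule.finrank_add_eq_of_isCompl h.1
  omega

theorem pair_map (hf : f.Nondeg) (h : TP f W W') (h' : TP f Y Y') (e : W ≃ₗ[F] Y) :
    ∃ g : f.Isom, (∀ x : W, g.1 x = e x) ∧ f.act g W = Y ∧ f.act g W' = Y' := by
  obtain ⟨g, hg⟩ := hf.witt W (Y.subtype ∘ₗ e.toLinearMap) (Y.injective_subtype.comp e.injective)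
    (fun x y => (h'.2.1.B_eq _ (e x).2 _ (e y).2).trans (h.2.1.B_eq _ x.2 _ y.2).symm)
    fun x => (h'.2.1.Q_eq _ (e x).2).trans (h.2.1.Q_eq _ x.2).symm
  have h1 : f.act g W = Y := map_eq_of_le g.1.injective (fun x hx => hg ⟨x, hx⟩ ▸ (e _).2) e.finrank_eq
  have h2 : TP f Y (f.act g W') := h1 ▸ h.map (mem_Isom_iff_pres.1 g.2)
  let ψ : End F V := Y.projection _ h2.1 + Y'.projection _ h'.1.symm
  have h3 : ∀ a : Y, ψ a = a := fun a => by simp [ψ]
  have h4 : ∀ b : f.act g W', ψ b ∈ Y' ∧ ∃ a ∈ Y, ψ b = b - a := fun b => by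
    have : ψ b = Y'.projection _ h'.1.symm b := by simp [ψ]
    rw [this]
    exact ⟨Submodule.projection_apply_mem _ _, _, Submodule.projection_apply_mem h'.1 b,
      eq_sub_of_add_eq' (Submodule.projection_add_projection_eq_self h'.1 _)⟩
  have h5 : f.Pres f ψ := by
    refine ⟨fun x y => ?_, fun x => ?_⟩
    · obtain ⟨a, b, rfl⟩ := exists_add_of_isCompl h2.1 x
      obtain ⟨c, d, rfl⟩ := exists_add_of_isCompl h2.1 y
      obtain ⟨b1, b', b2, b3⟩ := h4 b
      obtain ⟨d1, d', d2, d3⟩ := h4 d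
      simp only [map_add, h3, B_add_left, h'.2.2.B_eq _ b1 _ d1, h2.2.2.B_eq _ b.2 _ d.2]
      simp [b3, d3, h'.2.1.B_eq _ a.2 _ d2, h'.2.1.B_eq _ b2 _ c.2]
    · obtain ⟨a, b, rfl⟩ := exists_add_of_isCompl h2.1 x
      obtain ⟨b1, b', b2, b3⟩ := h4 b
      rw [map_add, h3, f.Q_add, f.Q_add, h'.2.2.Q_eq _ b1, h2.2.2.Q_eq _ b.2, b3]
      simp [h'.2.1.B_eq _ a.2 _ b2]
  have h6 : Function.Injective ψ := (injective_iff_map_eq_zero _).2 fun x hx => hf x fun y => by
    rw [← h5.B_eq, hx]; simp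
  let u : f.Isom := ⟨LinearEquiv.ofInjectiveEndo ψ h6, h5.1, h5.2⟩
  have h7 := h2.dim hf
  have h8 := h'.dim hf
  refine ⟨u * g, fun x => (congrArg ψ (hg x)).trans (h3 _), ?_, ?_⟩ <;> rw [act_mul]
  · rw [h1]; exact map_eq_of_le h6 (fun x hx => (h3 ⟨x, hx⟩).symm ▸ hx) rfl
  · exact map_eq_of_le h6 (fun x hx => (h4 ⟨x, hx⟩).1) (by omega)

theorem pair_trans (hf : f.Nondeg) (h : TP f W W') (h' : TP f Y Y') :
    ∃ g : f.Isom, f.act g W = Y ∧ f.act g W' = Y' :=
  (pair_map hf h h' (LinearEquiv.ofFinrankEq _ _ (by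
    have := h.dim hf; have := h'.dim hf; omega))).imp fun _ h => h.2

theorem card_gl_dvd (hf : f.Nondeg) (h : TP f W W') :
    Nat.card (W ≃ₗ[F] W) ∣ Nat.card ↥(f.stab W ⊓ f.stab W') :=
  Subgroup.card_dvd_of_surjective ((f.resHom W).comp (Subgroup.inclusion inf_le_left)) fun e => by
    obtain ⟨g, h1, h2, h3⟩ := pair_map hf h h e
    exact ⟨⟨g, f.mem_stab_iff_act.2 h2, f.mem_stab_iff_act.2 h3⟩, LinearEquiv.ext fun x => Subtype.ext (h1 x)⟩

theorem card_tp (hf : f.Nondeg) (h : TP f W W') :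
    Nat.card {P : Submodule F V × Submodule F V // TP f P.1 P.2} *
      Nat.card ↥(f.stab W ⊓ f.stab W') = Nat.card f.Isom := by
  let _ := f.submoduleAction
  rw [← Subgroup.card_top (G := f.Isom)]
  refine (card_eq_card_mul_card_of_orbit ⊤ _ (W, W') _ (fun P => ⟨fun hP => ?_, ?_⟩) fun g => ?_).symm
  · obtain ⟨g, h1, h2⟩ := pair_trans hf h hP
    exact ⟨g, trivial, Prod.ext h1 h2⟩
  · rintro ⟨g, -, rfl⟩
    exact h.map (mem_Isom_iff_pres.1 g.2)
  · rw [Subgroup.mem_inf, mem_stab_iff_act, mem_stab_iff_act]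
    exact ⟨fun h => ⟨trivial, Prod.ext h.1 h.2⟩, fun h => Prod.ext_iff.1 h.2⟩

theorem even_tp (h0 : finrank F V ≠ 0) [Finite F] :
    2 ∣ Nat.card {P : Submodule F V × Submodule F V // TP f P.1 P.2} := by
  have : Finite V := Module.finite_of_finite F
  refine even_of_invol (fun P => ⟨P.1.swap, P.2.1.symm, P.2.2.2, P.2.2.1⟩) (fun _ => rfl) fun P h => h0 ?_
  have h1 : P.1.2 = P.1.1 := congrArg (·.1.1) h
  have h2 := P.2.1
  rw [h1] at h2
  rw [← Submodule.finrank_add_eq_of_isCompl h2, disjoint_self.1 h2.disjoint, finrank_bot]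

variable [Finite F]

theorem Pr.cases (h : Pr f g.1) (hf : f.Nondeg) (ht : finrank F V = 2 * t) :
    (FTS g t ∧ ∃ ν, edivs (g.1 : End F V) = ν + ν.map (dual k.σ)) ∨
    (finrank F (LinearMap.ker ((g.1 : End F V) - 1)) ≤ t ∧
      ∀ r, Odd r → PO r (g.1 : End F V) → False) := by
  obtain ⟨W, W', h1, ⟨h2, h3⟩ | ⟨h2, h3⟩⟩ := h
  · have h4 := f.mem_stab_iff_act.2 h2
    have h5 := f.mem_stab_iff_act.2 h3
    have h6 := h1.dim hf
    refine .inl ⟨⟨W, by omega, h1.2.1, fun x => (h4 x).1⟩, edivs (res h4).1.toLinearMap, ?_⟩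
    rw [← edivs_pair h5 h4 (by omega) fun x hx hx' => Submodule.disjoint_def.1 h1.1.disjoint x
      (hf.perp_eq_of_two_mul h1.2.1 h6.1 ▸ hx') hx]
    exact edivs_of_isCompl h1.1 (fun x => (h4 x).1) fun x => (h5 x).1
  · have h6 := h1.dim hf
    refine .inr ⟨?_, fun r ⟨s, hs⟩ hr => ?_⟩
    · have := Submodule.finrank_add_finrank_le_of_disjoint (s := W)
        (t := LinearMap.ker ((g.1 : End F V) - 1)) (Submodule.disjoint_def.2 fun x hx hx' =>
          Submodule.disjoint_def.1 h1.1.disjoint x hx (h2 ▸ ⟨x, hx, sub_eq_zero.1 (LinearMap.mem_ker.1 hx')⟩))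
      omega
    · have := hr.nontrivial
      obtain ⟨c, hc⟩ := hr.1
      have h7 := map_pow_swap h2 h3 s
      rw [← hs, hc, Submodule.map_smul _ _ _ (ne_zero_of_pow hc), End.one_eq_id, Submodule.map_id] at h7
      have h8 := h1.1.disjoint
      rw [← h7, disjoint_self] at h8
      have := finrank_pos (R := F) (M := V)
      rw [h8, finrank_bot] at h6
      omega

theorem not_pr (hf : f.Nondeg) (ht : finrank F V = 2 * t) {d : F[X]} {j : ℕ}
    (h : edivs (g.1 : End F V) = d ::ₘ Multiset.replicate j (X - 1)) (h1 : d ≠ X - 1)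
    (h2 : t < j + kd d (X - 1)) : ¬Pr f g.1 := fun H => by
  classical
  obtain ⟨-, ν, h3⟩ | ⟨h3, -⟩ := H.cases hf ht
  · have h4 : dual k.σ d = d := by
      simpa using hf.map_dual_of_edivs (m := {d}) (h.trans (by rw [add_comm]; rfl))
    rw [h] at h3
    have h5 : d ∈ ν := (Multiset.mem_add.1 (h3 ▸ Multiset.mem_cons_self _ _)).elim id fun h5 => by
      obtain ⟨e, h5, h6⟩ := Multiset.mem_map.1 h5
      obtain h7 | h7 := Multiset.mem_cons.1 (Multiset.mem_of_le h3.ge (Multiset.mem_add.2 (Or.inl h5)))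
      · exact h7 ▸ h5
      · rw [Multiset.eq_of_mem_replicate h7, dual_X_sub_one] at h6
        exact absurd h6.symm h1
    have h6 := congrArg (Multiset.count d) h3
    have := Multiset.count_pos.2 h5
    have := Multiset.count_pos.2 (h4 ▸ Multiset.mem_map_of_mem (dual k.σ) h5 : d ∈ _)
    simp [Multiset.count_replicate, h1.symm] at h6
    omega
  · have h4 := finrank_ker_aeval (g.1 : End F V) (X - 1)
    have h5 : kd (X - 1 : F[X]) (X - 1) = 1 :=
      (kd_of_dvd (X_sub_C_ne_zero 1) dvd_rfl).trans (natDegree_X_sub_C 1)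
    rw [map_sub, aeval_X, map_one] at h4
    simp [h, h5] at h4
    omega

theorem pr_of_fts (hf : f.Nondeg) (ht : finrank F V = 2 * t) (hs : IsSS (g.1 : End F V))
    (hu : ∀ u : (hypF k t).Isom, Sim (g.1 : End F V) u.1.toLinearMap → IsoSim g u) (h : FTS g t) : Pr f g.1 := by
  obtain ⟨ν, μ, h1, h2⟩ := h.edivs hf hs
  have h3 : ∀ d ∈ ν, d ∈ edivs (g.1 : End F V) := fun d hd => by simp [h2, hd]
  obtain ⟨A, rfl⟩ := exists_equiv_edivs_eq (V := Fin t → F) (fun d hd => isPrim_of_mem_edivs (h3 d hd))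
    (fun d hd => not_X_dvd_of_mem_edivs _ (h3 d hd)) (h1.trans (by simp))
  obtain ⟨A', u, h4, h5⟩ := exists_hypF (k := k) A
  have h6 : μ = 0 := Multiset.eq_zero_of_forall_notMem fun d hd => by
    have h6 := congrArg dg h2
    obtain ⟨μ, rfl⟩ := Multiset.exists_cons_of_mem hd
    have := (isPrim_of_mem_edivs (A := (g.1 : End F V)) (d := d) (by simp [h2])).natDegree_pos
    rw [← h5, dg_add, dg_edivs, dg_edivs, finrank_hyp, dg_cons] at h6
    omega
  refine Pr.isoSim ⟨_, _, ⟨LinearMap.isCompl_range_inl_inr, hypF_ts, hypF_ts'⟩, Or.inl ⟨?_, ?_⟩⟩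
    (hu u (sim_iff_edivs.2 (by rw [h2, h5, h6, add_zero]))).symm
  all_goals
    refine map_eq_of_le u.1.injective ?_ rfl
    rintro _ ⟨x, rfl⟩
    simp [h4]

theorem exists_tp (hf : f.Nondeg) (hW : f.TS W) (h : 2 * finrank F W = finrank F V) :
    ∃ W W', TP f W W' := by
  obtain ⟨e, he⟩ := (equiv_hypF hf hW rfl h.symm).symm
  exact ⟨_, _, TP.map ⟨LinearMap.isCompl_range_inl_inr, hypF_ts, hypF_ts'⟩ he⟩

section Symp
variable {f : Form (Kind.symp F) V} (hf : f.Nondeg)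
include hf

theorem symp_pr_two (h2 : (2 : F) ≠ 0) {g : f.Isom} (hg : PO 2 (g.1 : End F V)) : Pr f g.1 := by
  obtain ⟨t, ht⟩ := hf.symp_even.two_dvd
  obtain h | ⟨W, h1, -, -, h3⟩ := po2_cases (fun _ => rfl) hf h2 hg
  · let J : (hypF (Kind.symp F) t).Isom :=
      ⟨((LinearEquiv.neg F).prodCongr (.refl F _)).trans (LinearEquiv.prodComm F _ _),
        (symp_mem_Isom _).2 fun x y => by
          have := (dot (Kind.symp F) t).smul (-1) x.1
          simp at this
          simp [hypF, this, add_comm]⟩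
    have h1 : Neg J := LinearMap.ext fun x => by simp [J, sq]; rfl
    refine Pr.isoSim ⟨_, _, ⟨LinearMap.isCompl_range_inl_inr, hypF_ts, hypF_ts'⟩, Or.inr ⟨?_, ?_⟩⟩
      (h1.isoSim (fun _ => rfl) h2 h hypF_nondeg hf (finrank_hyp.trans ht.symm))
    all_goals
      refine map_eq_of_le J.1.injective ?_ (by
        rw [LinearMap.finrank_range_of_inj LinearMap.inl_injective,
          LinearMap.finrank_range_of_inj LinearMap.inr_injective])
      rintro _ ⟨x, rfl⟩
      simp [J]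
  · have h4 := hg.isSS (by simpa using h2)
    have h5 := (f.nondeg_restrict_iff W).2 h1
    have h6 := hf.restrict_perp h1
    refine pr_of_fts hf ht h4 (fun u => hf.symp_isoSim_of_ss hypF_nondeg h4)
      ((fts_pm h2 h3 h5.symp_isIndex h6.symp_isIndex).2 ?_)
    have := hf.finrank_perp W
    have := Nat.even_iff.1 h5.symp_even
    omega

theorem symp_pr_odd [Fact r.Prime] (hr : (r : F) ≠ 0) (hr2 : r ≠ 2) (h0 : finrank F V ≠ 0)
    (hx : r ∣ Nat.card {P : Submodule F V × Submodule F V // TP f P.1 P.2} / 2) :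
    ¬∀ g : f.Isom, PO r (g.1 : End F V) → Pr f g.1 := fun H => by
  obtain ⟨t, ht⟩ := hf.symp_even.two_dvd
  have ho := (Fact.out : r.Prime).odd_of_ne_two hr2
  obtain ⟨W, h1, h2⟩ := hf.symp_isIndex.exists_ts (j := t) (by omega)
  obtain ⟨N, h3, h4, -⟩ := exists_ts_compl hf h1 h2
  obtain ⟨W, W', h5⟩ := exists_tp hf h1 (by omega)
  obtain ⟨y, h6⟩ := card_gl_dvd hf h5
  have h7 := card_tp hf h5
  have h8 := h5.dim hf
  rw [h6, card_equiv, show finrank F W = t by omega, hf.card_isom_symp t ht, ← Sq, Sq_eq, mul_assoc,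
    mul_left_comm (Nat.card F ^ _), mul_comm (Pq _ _)] at h7
  obtain ⟨j, h9, h10⟩ := (Prime.dvd_finsetProd_iff (Fact.out : r.Prime).prime _).1
    (num_cancel hr h7 (Nat.dvd_trans hx (Nat.div_dvd_of_dvd (even_tp h0))) (Pq_ne_zero two_le_card _))
  obtain ⟨h11, h12⟩ := (pm_facts Nat.card_pos hr2).2 h10
  rw [dvd_pow_sub_one_iff Nat.card_pos] at h11 h12
  obtain ⟨s, hs⟩ := odd_cofactor h11 h12
  have h13 : Even (orderOf (Nat.card F : ZMod r)) :=
    (Nat.even_mul.1 (hs ▸ even_two_mul _)).resolve_right (by simp)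
  have h14 := nondeg_right (h3.symm.nondeg hf)
  have h15 := unif_id (k := Kind.symp F) hr hr2 rfl
  have h16 := orderOf_card_pos hr
  rw [if_pos h13] at h15
  have := (le_ts hr hr2 rfl h15 hf (fun _ hm => hf.symp_cycT_iff hr hr2 hm)
    (fun _ hm => h14.symp_cycT_iff hr hr2 hm) ⟨1, le_rfl, by
      have := Nat.le_of_dvd (by omega) h11; have := Finset.mem_range.1 h9; omega, by omega⟩ h3).1
    ((forall_po (fun _ => rfl) hf (Or.inl ho) fun a ha g => (fts_smul ha).2).1 fun g hg =>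
      ((H g hg).cases hf ht).elim (·.1) fun h => (h.2 r ho hg).elim)
  rw [ht, one_mul] at this
  exact one_absurd rfl h16 this.2.1 (this.2.2 rfl)

end Symp
end CA.El

namespace CA.El
open Module Polynomial CA.Rcf CA.CForm CA.CForm.Form
variable {F : Type*} [Field F] [Fintype F] {V : Type*} [AddCommGroup V] [Module F V]
  [FiniteDimensional F V] {q r t : ℕ} [Fact r.Prime] (hF : Fintype.card F = q ^ 2)
  {f : Form (hermKind hF) V} (hf : f.Nondeg)
include hf

theorem herm_pr (l : ℕ) [Fact l.Prime] [CharP F l] (ht : finrank F V = 2 * t) (h2 : 2 ≤ t) {x y : ℕ}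
    (hx : r ∣ x) (h : x * (Nat.card F ^ t.choose 2 * Pq (Nat.card F) t * y) = Nat.card f.Isom) :
    (∀ g : f.Isom, LinearMap.det (g.1 : End F V) = 1 → PO r (g.1 : End F V) → Pr f g.1) ↔
      r = 2 ∧ Odd q ∧ padicValNat 2 (q + 1) ≤ padicValNat 2 (finrank F V) := by
  have hq := two_le_of_card_sq hF
  have hp : r.Prime := Fact.out
  by_cases hl : r = l
  · subst hl
    have h1 : ¬r ∣ q + 1 := fun h => not_dvd_char (F := F) r one_ne_zero
      (by rw [pow_one]; exact h.trans (q1_dvd hF))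
    rw [forall_po_herm hF hf h1 fun a ha g => pr_smul ha]
    refine iff_of_false (fun H => ?_) fun ⟨h3, h4, _⟩ => h1 (h3 ▸ h4.add_one.two_dvd)
    obtain ⟨g, hg⟩ := herm_ut hF hf (μ := 2 ::ₘ Multiset.replicate (2 * t - 2) 1)
      (by simp +contextual [Multiset.mem_replicate, or_imp]) (by simp; omega)
    refine not_pr hf ht (d := (X - 1) ^ 2) (j := 2 * t - 2) (by simpa using hg)
      (fun e => by simpa using unip_inj (e.trans (pow_one _).symm)) ?_ (H g (order_unip r hg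
        (by have := hp.two_le; simp +contextual [Multiset.mem_replicate, or_imp]; omega) (by simp)))
    rw [kd_of_dvd' (f := (X - 1) ^ 2) (g := X - 1) (pow_ne_zero _ (X_sub_C_ne_zero (1 : F))) (dvd_pow_self _ two_ne_zero),
      natDegree_X_sub_one]
    omega
  have hr := (cast_ne_zero_iff (F := F) l).2 hl
  have hT := fun g : f.Isom => tame_herm (hs := conj_conj hF) (conj_ne_id hF) g.1
  rcases hp.eq_two_or_odd' with rfl | ho
  · have h3 := card_odd (F := F) (by simpa using hr)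
    rw [card_sq hF, ← Nat.odd_iff, Nat.odd_pow_iff two_ne_zero] at h3
    refine ⟨fun H => ⟨rfl, h3, by_contra fun h4 => ?_⟩, fun ⟨_, _, h4⟩ g h5 h6 =>
      pr_of_fts hf ht (h6.isSS hr) (fun u => hf.isoSim_of_sim hypF_nondeg (hT g))
        ((ts_one hF hf h3.add_one.two_dvd (by omega) ht.ge).2
          ⟨Or.inr ⟨rfl, h4⟩, Or.inl (Or.inl rfl)⟩ g h5 h6)⟩
    have h5 : (-1 : F) ≠ 1 := fun e => hr (by linear_combination -e)
    obtain ⟨a, b1, b2⟩ := (det_root_iff (r := 2) (n := finrank F V) (q1_dvd hF) (by omega)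
      (by simp) h5).2 (by omega)
    have b3 : ∀ a ∈ (-1 : F) ::ₘ Multiset.replicate (2 * t - 1) 1, a ^ 2 = 1 := by
      simp +contextual [Multiset.mem_replicate, or_imp]
    have b4 := root_of_dvd h3.add_one.two_dvd b3
    obtain ⟨u, hu⟩ := herm_lin hF hf (fun a ha h0 => by simpa [h0] using b4 a ha) (lin_dual hF b4)
      (by simp; omega)
    have b5 := (norm_iff hF a).2 b1
    refine not_pr hf ht (d := X - C (-1)) (j := 2 * t - 1) (by simpa [lin] using hu)
      (fun e => h5 (XC_inj e)) (by omega) ((pr_smul b5).1 (H _ ?_ ?_)) <;> rw [coe_smul_mul]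
    · rw [LinearMap.det_smul, det_linear hu]; simpa using b2
    · exact (po_lin hu b3 (by simp) (by simp [Multiset.mem_replicate]; omega) h5).smul
        (left_ne_zero_of_mul_eq_one b5)
  have hr2 : r ≠ 2 := by rintro rfl; exact absurd ho (by decide)
  refine iff_of_false (fun H => ?_) fun h => hr2 h.1
  replace H : ∀ g : f.Isom, _ → _ → FTS g t := fun g h1 h3 =>
    ((H g h1 h3).cases hf ht).elim (·.1) fun h => (h.2 r ho h3).elim
  by_cases h1 : r ∣ q + 1
  · have := ((ts_one hF hf h1 (by omega) ht.ge).1 H).1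
    have := hp.two_le
    omega
  rw [forall_po_herm hF hf h1 fun a ha g => fts_smul ha] at H
  obtain ⟨W, a1, a2⟩ := (hf.herm_isIndex (conj_ne_id hF)).exists_ts (j := t) (by omega)
  obtain ⟨N, a3, a4, -⟩ := exists_ts_compl hf a1 a2
  have a5 := nondeg_right (a3.symm.nondeg hf)
  rw [herm_card_isom hF _ hf ht, ← Hq, Hq_two_mul, ← card_sq hF] at h
  have a6 : r ∣ q ^ (2 * t * (2 * t - 1) / 2) * ∏ j ∈ Finset.range t, (q ^ (2 * j + 1) + 1) :=
    hx.trans ⟨Nat.card F ^ t.choose 2 * y, mul_left_cancel₀ (Pq_ne_zero two_le_card t)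
      (by linear_combination -h)⟩
  obtain ⟨j, a7, a8⟩ := (Prime.dvd_finsetProd_iff hp.prime _).1 ((hp.dvd_mul.1 a6).resolve_left
    fun h => not_dvd_card_pow hr 1 ((hp.dvd_of_dvd_pow h).trans (card_sq hF ▸ by simp [sq])))
  obtain ⟨a9, a10⟩ := (pm_facts (by omega) hr2).2 a8
  rw [dvd_pow_sub_one_iff (by omega)] at a9 a10
  obtain ⟨s, hs⟩ := odd_cofactor a9 a10
  have a11 := Nat.le_of_dvd (by omega) a9
  obtain ⟨b1, b2, -, b3⟩ := herm_c hF hr rfl rfl rfl
  generalize orderOf (q : ZMod r) = i at *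
  have a12 : i % 4 = 2 := by
    obtain ⟨a, rfl | rfl⟩ := i.even_or_odd'
    · have h7 : Odd (a * (2 * s + 1)) := ⟨j, by linarith⟩
      have := Nat.odd_iff.1 (Nat.odd_mul.1 h7).1
      omega
    · have : Odd (2 * (2 * j + 1)) := hs ▸ (odd_two_mul_add_one a).mul (odd_two_mul_add_one s)
      simp [Nat.odd_iff] at this
  rw [if_pos a12] at b3
  rw [if_pos (Nat.even_iff.2 (by omega))] at b2
  have := (le_ts hr hr2 b2 (b3 hr2) hf (fun _ hm => b2 ▸ hf.herm_cycT_iff hr hm (conj_ne_id hF))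
    (fun _ hm => b2 ▸ a5.herm_cycT_iff hr hm (conj_ne_id hF))
    ⟨1, le_rfl, by have := Finset.mem_range.1 a7; omega, by omega⟩ a3).1 H
  rw [ht, one_mul] at this
  exact one_absurd b2 (by omega) this.2.1 (this.2.2 rfl)

omit [Fact r.Prime] in
theorem pr_conj {W W' : Submodule F V} (h : TP f W W') {g : f.Isom} (hs : IsSS (g.1 : End F V))
    (h0 : finrank F V ≠ 0) (H : Pr f g.1) : ∃ c : f.Isom, f.detHom c = 1 ∧
      (f.act (c⁻¹ * g * c) W = W ∧ f.act (c⁻¹ * g * c) W' = W' ∨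
        f.act (c⁻¹ * g * c) W = W' ∧ f.act (c⁻¹ * g * c) W' = W) := by
  obtain ⟨Y, Y', h1, h2⟩ := H
  obtain ⟨u, rfl, rfl⟩ := pair_trans hf h h1
  obtain ⟨b, hb, h3⟩ := exists_div_conj_eq hF ((norm_iff hF _).1 (hf.det_mul_σ_det u⁻¹))
  obtain ⟨c, h4, h5⟩ := hf.herm_ss_commute_det (conj_ne_id hF) hs h0 hb
  have h6 : f.detHom c = f.detHom u⁻¹ :=
    Units.ext (((eq_mul_inv_iff_mul_eq₀ (pow_ne_zero _ hb)).2 h5).trans h3)
  have h7 : (c * u)⁻¹ * g * (c * u) = u⁻¹ * (g * u) := by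
    rw [mul_assoc, ← mul_assoc g, ← h4]; group
  have h8 : ∀ X, f.act u⁻¹ (f.act u X) = X := fun X => by rw [← act_mul, inv_mul_cancel, act_one]
  refine ⟨c * u, by rw [map_mul, h6, ← map_mul, inv_mul_cancel, map_one], ?_⟩
  simp only [h7, act_mul]
  exact h2.imp (fun h => ⟨(congrArg _ h.1).trans (h8 _), (congrArg _ h.2).trans (h8 _)⟩)
    fun h => ⟨(congrArg _ h.1).trans (h8 _), (congrArg _ h.2).trans (h8 _)⟩

end CA.El
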