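import Cfsg.Agent.Lib.Lin.El16

/-! Direct sum decompositions permuted by an element. -/

namespace CA.El
open Module Polynomial CA.Rcf CA.CForm CA.CForm.Form

variable {F : Type*} [Field F] {k : Kind F} {V : Type*} [AddCommGroup V] [Module F V]
  {U : Type*} [AddCommGroup U] [Module F U] {f : Form k V} {p : Form k U} {a r t : ℕ}
  {ι : Type} [Fintype ι] {D D' : ι → Submodule F V} {A : End F V} {σ : Equiv.Perm ι}

/-- An orthogonal decomposition into subspaces of dimension `a`. -/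
structure Dec (f : Form k V) (a : ℕ) (D : ι → Submodule F V) : Prop where
  dim : ∀ j, finrank F (D j) = a
  top : iSup D = ⊤
  card : a * Fintype.card ι = finrank F V
  orth : ∀ j l, j ≠ l → ∀ u ∈ D j, ∀ v ∈ D l, f.B u v = 0

/-- `A` permutes the summands of such a decomposition. -/
def Imp (f : Form k V) (a : ℕ) (A : End F V) : Prop :=
  ∃ (ι : Type) (_ : Fintype ι) (D : ι → Submodule F V) (σ : Equiv.Perm ι),
    Dec f a D ∧ ∀ j, (D j).map A = D (σ j)

theorem Dec.map (h : Dec f a D) {e : V ≃ₗ[F] U} (he : f.Pres p e) :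
    Dec p a fun j => (D j).map (e : V →ₗ[F] U) :=
  ⟨fun j => (e.finrank_map_eq _).trans (h.dim j), by
    rw [← Submodule.map_iSup, h.top, Submodule.map_top, e.range], h.card.trans e.finrank_eq, by
    rintro j l hjl _ ⟨u, hu, rfl⟩ _ ⟨v, hv, rfl⟩
    exact (he.B_eq u v).trans (h.orth j l hjl u hu v hv)⟩

theorem Dec.comp {κ : Type} [Fintype κ] (h : Dec f a D) (e : κ ≃ ι) : Dec f a (D ∘ e) :=
  ⟨fun j => h.dim _, (e.iSup_comp (g := D)).trans h.top, Fintype.card_congr e ▸ h.card,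
    fun j l hjl => h.orth _ _ (e.injective.ne hjl)⟩

theorem Imp.isoSim {g : f.Isom} {u : p.Isom} (h : Imp f a g.1) (H : IsoSim g u) : Imp p a u.1 := by
  obtain ⟨e, h1, h2⟩ := H
  obtain ⟨ι, _, D, σ, h3, h4⟩ := h
  refine ⟨ι, _, _, σ, h3.map h1, fun j => ?_⟩
  rw [← h4, ← Submodule.map_comp, ← Submodule.map_comp]
  exact congrArg (D j).map (LinearMap.ext fun v => (h2 v).symm)

theorem Imp.smul (h : Imp f a A) {c : F} (hc : c ≠ 0) : Imp f a (c • A) := by
  obtain ⟨ι, _, D, σ, h3, h4⟩ := h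
  exact ⟨ι, _, D, σ, h3, fun j => by rw [Submodule.map_smul _ _ _ hc, h4]⟩

theorem imp_one (h : finrank F V = a) (A : V ≃ₗ[F] V) : Imp f a A :=
  ⟨Unit, inferInstance, fun _ => ⊤, 1, ⟨fun _ => by simpa using h, by simp, by simp [h],
    fun _ _ h => (h rfl).elim⟩, fun _ => by simp⟩

theorem imp_zero (h : finrank F V = 0) [FiniteDimensional F V] (A : End F V) : Imp f a A :=
  have := finrank_zero_iff.1 h
  ⟨Empty, inferInstance, Empty.elim, 1, ⟨nofun, Subsingleton.elim _ _, by simp [h], nofun⟩, nofun⟩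

omit [Fintype ι] in
theorem map_pow_eq (h : ∀ j, (D j).map A = D (σ j)) (j : ι) :
    ∀ i, (D j).map (A ^ i) = D ((σ ^ i) j)
  | 0 => Submodule.map_id _
  | i + 1 => by
    rw [pow_succ', End.mul_eq_comp, Submodule.map_comp, map_pow_eq h j i, h, pow_succ']; rfl

variable [FiniteDimensional F V] [FiniteDimensional F U]

theorem Imp.prod {B : End F U} (h : Imp f a A) (h' : Imp p a B) :
    Imp (f.prod p) a (A.prodMap B) := by
  obtain ⟨ι, _, D, σ, h1, h2⟩ := h
  obtain ⟨κ, _, E, τ, h3, h4⟩ := h'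
  refine ⟨ι ⊕ κ, _, Sum.elim (fun j => (D j).map (.inl F V U)) fun j => (E j).map (.inr F V U),
    σ.sumCongr τ, ⟨?_, ?_, by simp [mul_add, h1.card, h3.card], ?_⟩, ?_⟩
  · rintro (j | j)
    · exact (Submodule.equivMapOfInjective _ LinearMap.inl_injective _).finrank_eq.symm.trans (h1.dim j)
    · exact (Submodule.equivMapOfInjective _ LinearMap.inr_injective _).finrank_eq.symm.trans (h3.dim j)
  · simp only [iSup_sum, Sum.elim_inl, Sum.elim_inr, ← Submodule.map_iSup, h1.top, h3.top,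
      Submodule.map_top, LinearMap.sup_range_inl_inr]
  · rintro (j | j) (l | l) hjl _ ⟨u, hu, rfl⟩ _ ⟨v, hv, rfl⟩
    · simpa using h1.orth j l (by simpa using hjl) u hu v hv
    · simp
    · simp
    · simpa using h3.orth j l (by simpa using hjl) u hu v hv
  · rintro (j | j)
    · simp only [Sum.elim_inl, Equiv.sumCongr_apply, Sum.map_inl, ← h2, ← Submodule.map_comp]
      congr 1; exact LinearMap.ext fun x => by simp
    · simp only [Sum.elim_inr, Equiv.sumCongr_apply, Sum.map_inr, ← h4, ← Submodule.map_comp]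
      congr 1; exact LinearMap.ext fun x => by simp

/-- The isometry interchanging the two summands. -/
def sw (p : Form k U) : (p.prod p).Isom :=
  ⟨LinearEquiv.prodComm F U U, fun x y => by simp [add_comm], fun x => by simp [add_comm]⟩

theorem imp_sw : Imp (p.prod p) (finrank F U) (sw p).1 := by
  refine ⟨Bool, _, fun b => cond b (LinearMap.range (.inl F U U)) (LinearMap.range (.inr F U U)),
    Equiv.boolNot, ⟨?_, by simp [iSup_bool_eq, LinearMap.sup_range_inl_inr], by simp [mul_two], ?_⟩, ?_⟩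
  · rintro (_ | _)
    exacts [LinearMap.finrank_range_of_inj LinearMap.inr_injective,
      LinearMap.finrank_range_of_inj LinearMap.inl_injective]
  · rintro (_ | _) (_ | _) h _ ⟨u, rfl⟩ _ ⟨v, rfl⟩ <;> simp at h ⊢
  · rintro (_ | _) <;> exact (LinearMap.range_comp _ _).symm

omit [FiniteDimensional F U] in
theorem rk_sw : finrank F ((p.prod p).commSub (sw p)) = finrank F U := by
  rw [← LinearMap.finrank_range_of_inj (f := LinearMap.prod (-.id) (.id (R := F) (M := U)))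
    fun x y h => congrArg Prod.snd h, show (p.prod p).commSub (sw p) =
      LinearMap.range (LinearMap.prod (-.id) .id) from Submodule.ext fun x =>
      ⟨fun ⟨y, h⟩ => ⟨y.1 - y.2, by simp [← h, sw, Prod.ext_iff]⟩,
        fun ⟨y, h⟩ => ⟨(y, 0), by simp [← h, sw]⟩⟩]

theorem Dec.exists_equiv (h : Dec f a D) : ∃ E : (∀ j, D j) ≃ₗ[F] V, ∀ x, E x = ∑ j, (x j : V) := by
  classical
  let φ : (∀ j, D j) →ₗ[F] V := ∑ j, (D j).subtype ∘ₗ LinearMap.proj j
  have h1 : ∀ x, φ x = ∑ j, (x j : V) := fun x => by simp [φ]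
  have h2 : Function.Surjective φ := LinearMap.range_eq_top.1 (eq_top_iff.2 (h.top ▸ iSup_le
    fun j x hx => ⟨Pi.single j ⟨x, hx⟩, by
      rw [h1, Finset.sum_eq_single j (fun l _ hl => by simp [hl]) (by simp)]; simp⟩))
  exact ⟨.ofBijective φ ⟨(LinearMap.injective_iff_surjective_of_finrank_eq_finrank (by
    simp [finrank_pi_fintype, h.dim, ← h.card, mul_comm])).2 h2, h2⟩, h1⟩

theorem Dec.exists_proj (h : Dec f a D) : ∃ π : ι → End F V, (∀ j, ∀ x ∈ D j, π j x = x) ∧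
    (∀ j l, j ≠ l → ∀ x ∈ D l, π j x = 0) ∧ (∀ j x, π j x ∈ D j) ∧ ∀ x, ∑ j, π j x = x := by
  classical
  obtain ⟨E, hE⟩ := h.exists_equiv
  have h1 : ∀ l, ∀ x, ∀ hx : x ∈ D l, E.symm x = Pi.single l ⟨x, hx⟩ := fun l x hx =>
    E.symm_apply_eq.2 (by rw [hE, Finset.sum_eq_single l (fun l _ hl => by simp [hl]) (by simp)]; simp)
  exact ⟨fun j => (D j).subtype ∘ₗ LinearMap.proj j ∘ₗ E.symm.toLinearMap,
    fun j x hx => by simp [h1 j x hx], fun j l hjl x hx => by simp [h1 l x hx, hjl],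
    fun j x => (E.symm x j).2, fun x => (hE _).symm.trans (E.apply_symm_apply x)⟩

theorem Dec.indep (h : Dec f a D) : iSupIndep D := fun j => by
  obtain ⟨π, h1, h2, -⟩ := h.exists_proj
  exact Submodule.disjoint_def.2 fun x hx hx' => (h1 j x hx).symm.trans
    ((iSup₂_le fun l hl y hy => h2 j l (Ne.symm hl) y hy : _ ≤ LinearMap.ker (π j)) hx')

theorem Dec.inj (h : Dec f a D) (ha : a ≠ 0) : Function.Injective D := fun j l e => by_contra fun hjl =>
  ha (by rw [← h.dim j, disjoint_self.1 ((h.indep.pairwiseDisjoint hjl).mono_right e.le), finrank_bot])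

theorem Dec.nondeg (h : Dec f a D) (hf : f.Nondeg) (j : ι) : (f.restrict (D j)).Nondeg := fun x hx => by
  obtain ⟨π, -, -, h1, h2⟩ := h.exists_proj
  refine Subtype.ext (hf _ fun y => ?_)
  rw [← h2 y, map_sum]
  refine Finset.sum_eq_zero fun l _ => ?_
  by_cases e : j = l
  · exact hx ⟨_, e ▸ h1 l y⟩
  · exact h.orth j l e _ x.2 _ (h1 l y)

theorem Dec.ker_eq (h : Dec f a D) (hA : ∀ j, ∀ x ∈ D j, A x ∈ D j) (g : F[X]) :
    finrank F (LinearMap.ker (aeval A g)) =
      ∑ j, finrank F (LinearMap.ker (aeval (A.restrict (hA j) : End F (D j)) g)) := by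
  obtain ⟨E, hE⟩ := h.exists_equiv
  have : Sim (LinearMap.piMap fun j => (A.restrict (hA j) : End F (D j))) A :=
    ⟨E, fun x => by simp [hE, map_sum]⟩
  rw [← (this.aeval g).finrank_ker, aeval_piMap, finrank_ker_piMap]

theorem Dec.compl (h : Dec f a D) (hA : ∀ j, ∀ x ∈ D j, A x ∈ D j) (j : ι) :
    ∃ ν ≤ edivs A, dg ν = a := by
  refine (compl_iff A a).1 ⟨D j, ⨆ (l) (_ : l ≠ j), D l, ⟨h.indep j, codisjoint_iff.2 ?_⟩, h.dim j,
    map_le_iff.2 (hA j), ?_⟩
  · rw [← h.top, iSup_split_single D j]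
  · simp only [Submodule.map_iSup]
    exact iSup₂_mono fun l _ => map_le_iff.2 (hA l)

theorem dec_iff {κ : Type} [Fintype κ] [DecidableEq κ] {f : Form k (κ → F)}
    {D : Fin t → Submodule F (κ → F)} (h : a * t = finrank F (κ → F)) (ha : 1 ≤ a) (ht : 2 ≤ t) :
    Dec f a D ↔ Cfsg.Geo.IsMDecomposition a D ∧ ∀ j l, j ≠ l → ∀ u ∈ D j, ∀ v ∈ D l, f.B u v = 0 :=
  ⟨fun H => ⟨⟨ht, ha, H.dim, H.indep, H.top⟩, H.orth⟩,
    fun H => ⟨H.1.finrank_eq, H.1.iSup_eq_top, by simpa using h, H.2⟩⟩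

omit [FiniteDimensional F V] in
theorem imp_iff (h : a * t = finrank F V) (ha : 1 ≤ a) : Imp f a A ↔
    ∃ D : Fin t → Submodule F V, Dec f a D ∧ ∃ σ : Equiv.Perm (Fin t), ∀ j, (D j).map A = D (σ j) := by
  refine ⟨fun ⟨ι, _, D, σ, h1, h2⟩ => ?_, fun ⟨D, h1, σ, h2⟩ => ⟨_, _, D, σ, h1, h2⟩⟩
  let e := (Fintype.equivFinOfCardEq (Nat.eq_of_mul_eq_mul_left ha (h1.card.trans h.symm))).symm
  exact ⟨_, h1.comp e, (e.trans σ).trans e.symm, fun j => by simp [h2]⟩

section Orb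
variable [Fact r.Prime] {c : F} (h : Dec f a D) (ha : a ≠ 0) (hσ : ∀ j, (D j).map A = D (σ j))
  (hc : c ≠ 0) (hA : A ^ r = c • 1)
include h ha hσ hc hA

omit [Fact r.Prime] in
theorem Dec.pow_eq : σ ^ r = 1 := Equiv.ext fun j => h.inj ha (by
  rw [← map_pow_eq hσ, hA, Submodule.map_smul _ _ _ hc, End.one_eq_id, Submodule.map_id]; rfl)

theorem Dec.pow_inj {j : ι} (hj : σ j ≠ j) {i l : ℕ} (hi : i < r) (hl : l < r)
    (e : (σ ^ i) j = (σ ^ l) j) : i = l := by
  have h1 : Function.minimalPeriod σ j = r := Function.minimalPeriod_eq_prime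
    (by rw [Function.IsPeriodicPt, Function.IsFixedPt, ← Equiv.Perm.coe_pow, h.pow_eq ha hσ hc hA]; rfl) hj
  exact Function.iterate_injOn_Iio_minimalPeriod (h1 ▸ hi) (h1 ▸ hl) e

theorem Dec.rank_ge {Q : Type} [Fintype Q] (ρ : Q → ι) (hρ : ∀ x y i, (σ ^ i) (ρ x) = ρ y → x = y)
    (hN : ∀ x, σ (ρ x) = ρ x → ∀ v ∈ D (ρ x), (∑ i ∈ Finset.range r, A ^ i) v = 0 → v = 0) :
    a * Fintype.card Q ≤ finrank F (LinearMap.range (∑ i ∈ Finset.range r, A ^ i)) := by
  obtain ⟨π, h1, h2, -⟩ := h.exists_proj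
  have h3 : ∀ j i, ∀ v ∈ D j, (A ^ i) v ∈ D ((σ ^ i) j) := fun j i v hv =>
    map_pow_eq hσ j i ▸ Submodule.mem_map_of_mem hv
  let φ : (∀ x, D (ρ x)) →ₗ[F] V := ∑ x, (D (ρ x)).subtype ∘ₗ LinearMap.proj x
  have h4 : Function.Injective ((∑ i ∈ Finset.range r, A ^ i) ∘ₗ φ) := by
    refine (injective_iff_map_eq_zero _).2 fun v hv => funext fun x => Subtype.ext ?_
    have h5 := congrArg (π (ρ x)) hv
    simp only [φ, LinearMap.comp_apply, LinearMap.sum_apply, map_sum, map_zero, Submodule.subtype_apply,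
      LinearMap.proj_apply] at h5
    rw [Finset.sum_eq_single_of_mem x (Finset.mem_univ _) fun y _ hy => Finset.sum_eq_zero
      fun i _ => h2 _ _ (fun e => hy (hρ y x i e.symm)) _ (h3 _ i _ (v y).2)] at h5
    by_cases e : σ (ρ x) = ρ x
    · refine hN x e _ (v x).2 ?_
      rw [← h5, LinearMap.sum_apply]
      exact Finset.sum_congr rfl fun i _ => (h1 _ _ (by
        simpa [Equiv.Perm.pow_apply_eq_self_of_apply_eq_self e i] using h3 _ i _ (v x).2)).symm
    · rw [Finset.sum_eq_single 0 (fun i hi h0 => h2 (ρ x) _ (fun e' => h0 (h.pow_inj ha hσ hc hA e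
        (Finset.mem_range.1 hi) (Fact.out : r.Prime).pos e'.symm)) _ (h3 _ i _ (v x).2))
        (by simp [(Fact.out : r.Prime).pos])] at h5
      exact (h1 _ _ (v x).2).symm.trans h5
  have := LinearMap.finrank_range_of_inj h4
  rw [finrank_pi_fintype, Finset.sum_congr rfl fun x _ => h.dim (ρ x)] at this
  rw [mul_comm, ← smul_eq_mul, ← Finset.card_univ, ← Finset.sum_const, ← this]
  exact Submodule.finrank_mono (LinearMap.range_comp_le_range _ _)

theorem Dec.rank_ge_one {j : ι} (hj : σ j ≠ j) :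
    a ≤ finrank F (LinearMap.range (∑ i ∈ Finset.range r, A ^ i)) := by
  simpa using h.rank_ge ha hσ hc hA (fun _ : Unit => j) (fun _ _ _ _ => rfl) fun _ e => (hj e).elim

theorem Dec.le_rank (hN : ∀ j, σ j = j → ∀ v ∈ D j, (∑ i ∈ Finset.range r, A ^ i) v = 0 → v = 0) :
    finrank F V ≤ finrank F (LinearMap.range (∑ i ∈ Finset.range r, A ^ i)) * r := by
  classical
  let s : Setoid ι := Equiv.Perm.SameCycle.setoid σ
  have h1 := h.rank_ge ha hσ hc hA (Quotient.out (s := s)) (fun x y i e =>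
    Quotient.out_equiv_out.1 ⟨i, by simpa using e⟩) fun x => hN _
  have h2 : Fintype.card ι ≤ Fintype.card (Quotient s × Fin r) :=
    Fintype.card_le_of_surjective (fun x => (σ ^ (x.2 : ℕ)) x.1.out) fun j => by
      obtain ⟨i, h2, h3⟩ := Equiv.Perm.SameCycle.exists_pow_eq' (Quotient.mk_out (s := s) j)
      exact ⟨(⟦j⟧, ⟨i, h2.trans_le (orderOf_le_of_pow_eq_one (Fact.out : r.Prime).pos
        (h.pow_eq ha hσ hc hA))⟩), h3⟩
  rw [Fintype.card_prod, Fintype.card_fin] at h2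
  rw [← h.card]
  exact (Nat.mul_le_mul_left a h2).trans (mul_assoc a _ r ▸ Nat.mul_le_mul_right r h1)

omit hc hA in
theorem Dec.ker_ge (hA : A ^ r = 1) {j : ι} (hj : σ j ≠ j) :
    (r - 1) * a ≤ finrank F (LinearMap.ker (∑ i ∈ Finset.range r, A ^ i)) := by
  obtain ⟨π, h1, h2, -⟩ := h.exists_proj
  have h0 := fun {i l} => h.pow_inj ha hσ one_ne_zero (hA.trans (one_smul _ _).symm) hj (i := i) (l := l)
  have h3 : ∀ i, ∀ v ∈ D j, (A ^ i) v ∈ D ((σ ^ i) j) := fun i v hv =>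
    map_pow_eq hσ j i ▸ Submodule.mem_map_of_mem hv
  let φ : (Fin (r - 1) → D j) →ₗ[F] V :=
    ∑ i : Fin (r - 1), (A ^ (i + 1 : ℕ) - 1) ∘ₗ (D j).subtype ∘ₗ LinearMap.proj i
  have h4 : Function.Injective φ := by
    refine (injective_iff_map_eq_zero _).2 fun v hv => funext fun i => Subtype.ext ?_
    have h5 := congrArg (π ((σ ^ (i + 1 : ℕ)) j)) hv
    simp only [φ, LinearMap.comp_apply, LinearMap.sum_apply, map_sum, map_zero, LinearMap.sub_apply,
      map_sub, End.one_apply, Finset.sum_sub_distrib, Submodule.subtype_apply, LinearMap.proj_apply] at h5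
    rw [Finset.sum_eq_single i (fun l _ hl => h2 _ _ (fun e => hl (Fin.ext (by
        have := h0 (by omega) (by omega) e; omega))) _ (h3 _ _ (v l).2)) (by simp),
      Finset.sum_eq_zero fun l _ => h2 ((σ ^ (i + 1 : ℕ)) j) j (fun e => by
        have := h0 (l := 0) (by omega) (Fact.out : r.Prime).pos e; omega) _ (v l).2, sub_zero] at h5
    replace h5 := (h1 _ _ (h3 _ _ (v i).2)).symm.trans h5
    have h6 : (A ^ (r - (i + 1)) * A ^ (i + 1 : ℕ)) (v i) = 0 := by rw [End.mul_apply, h5, map_zero]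
    rwa [← pow_add, Nat.sub_add_cancel (by omega), hA] at h6
  have h5 := LinearMap.finrank_range_of_inj h4
  rw [finrank_pi_fintype, Finset.sum_const, Finset.card_fin, h.dim, smul_eq_mul] at h5
  refine h5 ▸ Submodule.finrank_mono ?_
  rintro _ ⟨v, rfl⟩
  rw [LinearMap.mem_ker, LinearMap.sum_apply (t := Finset.univ), map_sum]
  refine Finset.sum_eq_zero fun i _ => ?_
  obtain ⟨B, hB⟩ := (Commute.one_right A).sub_dvd_pow_sub_pow (i + 1)
  rw [one_pow] at hB
  rw [LinearMap.comp_apply, ← End.mul_apply, hB, ← mul_assoc, geom_sum_mul, hA, sub_self, zero_mul]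
  rfl

end Orb
end CA.El
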