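import Cfsg.Agent.Lib.Lin.El17

/-! Elements of prime order of `SL` and `Sp` permuting a direct sum decomposition. -/

namespace CA.El
open Module Polynomial CA.Rcf CA.CForm CA.CForm.Form

theorem split2 {Q : ℕ → ℕ → Prop} {a e : ℕ} (he : e = 1 ∨ e = 2) (ha : e ∣ a) (h0 : Q 0 0)
    (add : ∀ t s t' s', Q t s → Q t' s' → Q (t + t') (s + s')) (h2 : Q 2 a)
    (h1 : ∀ x, e ∣ x → 2 * x ≤ a → Q 1 x) : ∀ t s, e ∣ s → 2 * s ≤ a * t → Q t s
  | 0, s, _, h => (by omega : 0 = s) ▸ h0
  | 1, s, h, h' => h1 s h (by omega)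
  | t + 2, s, h, h' => by
    rw [mul_add] at h'
    by_cases h3 : a ≤ s
    · simpa [h3] using add _ _ _ _ (split2 he ha h0 add h2 h1 t (s - a) (Nat.dvd_sub h ha) (by omega)) h2
    · obtain ⟨x, h4, h5, h6, h7, h8⟩ : ∃ x, x ≤ s ∧ e ∣ x ∧ 2 * x ≤ a ∧ e ∣ s - x ∧ 2 * (s - x) ≤ a := by
        rcases he with rfl | rfl
        · exact ⟨min s (a / 2), by omega⟩
        · exact ⟨min s (2 * (a / 4)), by omega⟩
      simpa [h4] using add _ _ _ _ (add _ _ _ _ (split2 he ha h0 add h2 h1 t 0 (dvd_zero _) (by omega))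
        (h1 _ h5 h6)) (h1 _ h7 h8)

variable {F : Type*} [Field F] {V : Type*} [AddCommGroup V] [Module F V]
  {U : Type*} [AddCommGroup U] [Module F U] {f : Form (Kind.symp F) V} {p : Form (Kind.symp F) U}
  {a r t : ℕ} {z : Prop} {ι : Type} [Fintype ι] {D D' : ι → Submodule F V} {g : f.Isom}
  {μ ν : Multiset F[X]} {A : End F V}

variable (F V) in
/-- The zero form. -/
def zf : Form (Kind.symp F) V :=
  ⟨fun _ => 0, fun _ => 0, by simp, by simp, by simp, by simp, fun _ => ⟨0, rfl⟩⟩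

/-- An automorphism as an isometry of the zero form. -/
def zi (g : V ≃ₗ[F] V) : (zf F V).Isom := ⟨g, fun _ _ => rfl, fun _ => rfl⟩

/-- The form is zero (if `z`) or nondegenerate (if not). -/
def Gd (z : Prop) (f : Form (Kind.symp F) V) : Prop := (z → ∀ x y, f.B x y = 0) ∧ (¬z → f.Nondeg)

theorem gd_zf : Gd True (zf F V) := ⟨fun _ _ _ => rfl, fun h => (h trivial).elim⟩

theorem gd_false (hf : f.Nondeg) : Gd False f := ⟨False.elim, fun _ => hf⟩

theorem symp_pres {φ : V → U} (h : ∀ x y, p.B (φ x) (φ y) = f.B x y) : f.Pres p φ :=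
  ⟨h, fun x => by rw [symp_Q, symp_Q]⟩

theorem Gd.prod (hf : Gd z f) (hp : Gd z p) : Gd z (f.prod p) :=
  ⟨fun h x y => by simp [hf.1 h, hp.1 h], fun h => (hf.2 h).prod (hp.2 h)⟩

theorem Gd.equiv (hf : Gd z f) (h : f.Equivalent p) : Gd z p :=
  ⟨fun H x y => h.symm.elim fun _ he => (he.B_eq x y).symm.trans (hf.1 H _ _), fun H => h.nondeg (hf.2 H)⟩

theorem exists_shift [Fact r.Prime] [FiniteDimensional F U] {c : F} (hc : c ≠ 0) :
    ∃ g : (ZMod r → U) ≃ₗ[F] ZMod r → U, (g : End F (ZMod r → U)) ^ r = c • 1 ∧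
      Imp (zf F _) (finrank F U) (g : End F (ZMod r → U)) ∧ (Nontrivial U → g ≠ 1) := by
  let w : ZMod r → F := fun i => if i = 0 then c else 1
  let S : End F (ZMod r → U) := LinearMap.pi fun i => w i • LinearMap.proj (i - 1)
  have h1 : ∀ m x i, (S ^ m) x i = (∏ l ∈ Finset.range m, w (i - l)) • x (i - m) := fun m => by
    induction m with
    | zero => simp
    | succ m ih => exact fun x i => by simp [pow_succ, ih, S, Finset.prod_range_succ, mul_smul, sub_sub]
  have h2 : S ^ r = c • 1 := LinearMap.ext fun x => funext fun i => by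
    rw [h1, Finset.prod_eq_single_of_mem i.val (Finset.mem_range.2 (ZMod.val_lt i)) fun l hl h =>
      if_neg fun e => h (by rw [sub_eq_zero.1 e, ZMod.val_cast_of_lt (Finset.mem_range.1 hl)])]
    simp [w]
  have h3 : Function.Injective S := (injective_iff_map_eq_zero _).2 fun x hx => by
    have := LinearMap.congr_fun h2 x
    rw [← pow_sub_one_mul (Fact.out : r.Prime).ne_zero S, End.mul_apply, hx, map_zero] at this
    simpa [hc] using this.symm
  have h4 := fun j => LinearMap.finrank_range_of_inj (f := LinearMap.single F (fun _ : ZMod r => U) j)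
    fun x y h => by simpa using congrFun h j
  refine ⟨.ofInjectiveEndo S h3, h2, ⟨ZMod r, inferInstance, fun j => LinearMap.range (.single F _ j),
    Equiv.addRight 1, ⟨h4, LinearMap.iSup_range_single _ _, by simp [finrank_pi_fintype, mul_comm],
    fun _ _ _ _ _ _ _ => rfl⟩, fun j => map_eq_of_le h3 ?_ ((h4 _).trans (h4 _).symm)⟩, fun _ h => ?_⟩
  · rintro _ ⟨x, rfl⟩
    refine ⟨w (j + 1) • x, funext fun i => ?_⟩
    by_cases e : i = j + 1
    · simp [S, e]
    · simp [S, e, sub_eq_iff_eq_add]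
  · obtain ⟨x, hx⟩ := exists_ne (0 : U)
    have : S (Pi.single 0 x) 1 = (Pi.single 0 x : ZMod r → U) 1 := congrFun (LinearEquiv.congr_fun h _) 1
    simp [S, w, hx] at this

variable [FiniteDimensional F V] [FiniteDimensional F U]

theorem Gd.equivalent (hf : Gd z f) (hp : Gd z p) (h : finrank F V = finrank F U) : f.Equivalent p := by
  by_cases H : z
  · exact ⟨.ofFinrankEq _ _ h, symp_pres fun x y => by rw [hf.1 H, hp.1 H]⟩
  · exact (hf.2 H).symp_equivalent (hp.2 H) h

theorem Dec.gd (h : Dec f a D) (hf : Gd z f) (j : ι) : Gd z (f.restrict (D j)) :=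
  ⟨fun H _ _ => hf.1 H _ _, fun H => h.nondeg (hf.2 H) j⟩

theorem dec_trans (hf : Gd z f) (h : Dec f a D) (h' : Dec f a D') :
    ∃ g : f.Isom, ∀ j, f.act g (D j) = D' j := by
  classical
  obtain ⟨E, hE⟩ := h.exists_equiv
  obtain ⟨E', hE'⟩ := h'.exists_equiv
  choose e he using fun j => (h.gd hf j).equivalent (h'.gd hf j) ((h.dim j).trans (h'.dim j).symm)
  let g := (E.symm.trans (LinearEquiv.piCongrRight e)).trans E'
  have h1 : ∀ x, g (E x) = ∑ j, (e j (x j) : V) := fun x => by simp [g, hE']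
  refine ⟨⟨g, (symp_mem_Isom _).2 fun x y => ?_⟩, fun j => map_eq_of_le g.injective (fun x hx => ?_)
    ((h.dim j).trans (h'.dim j).symm)⟩
  · obtain ⟨x, rfl⟩ := E.surjective x
    obtain ⟨y, rfl⟩ := E.surjective y
    rw [h1, h1, hE, hE]
    simp only [B_sum_left, map_sum]
    refine Finset.sum_congr rfl fun l _ => Finset.sum_congr rfl fun j _ => ?_
    by_cases hjl : j = l
    · subst hjl; exact (he j).B_eq _ _
    · rw [h.orth j l hjl _ (x j).2 _ (y l).2, h'.orth j l hjl _ (e j _).2 _ (e l _).2]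
  · have : E (Pi.single j ⟨x, hx⟩) = x := by
      rw [hE, Finset.sum_eq_single j (fun l _ hl => by simp [hl]) (by simp)]; simp
    rw [← this]
    refine (h1 _).symm ▸ ?_
    rw [Finset.sum_eq_single j (fun l _ hl => by simp [hl]) (by simp)]
    exact (e j _).2

theorem dec_num (hf : Gd z f) (ha : a ≠ 0) {D : Fin t → Submodule F V} (h : Dec f a D)
    (hx : r ∣ Nat.card {D : Fin t → Submodule F V // Dec f a D} / t.factorial) :
    r ∣ Nat.card f.Isom := by
  let _ : MulAction (Equiv.Perm (Fin t)) {D : Fin t → Submodule F V // Dec f a D} :=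
    { smul σ D := ⟨D.1 ∘ σ.symm, D.2.comp _⟩, one_smul _ := rfl, mul_smul _ _ _ := rfl }
  have h1 := dvd_of_free (G := Equiv.Perm (Fin t)) (X := {D : Fin t → Submodule F V // Dec f a D})
    fun σ D e => inv_eq_one.1 (Equiv.ext fun j => D.2.inj ha (congrFun (congrArg Subtype.val e) j))
  rw [Nat.card_perm, Nat.card_fin] at h1
  let _ := f.submoduleAction
  rw [← Subgroup.card_top (G := f.Isom), card_eq_card_mul_card_of_orbit ⊤ (MulAction.stabilizer _ D) D
    (Dec f a) (fun D' => ⟨fun h' => (dec_trans hf h h').imp fun g hg => ⟨trivial, funext hg⟩, by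
      rintro ⟨g, -, rfl⟩; exact h.map (mem_Isom_iff_pres.1 g.2)⟩) (by simp)]
  exact (hx.trans (Nat.div_dvd_of_dvd h1)).mul_right _

theorem edivs_inv2 (h2 : (2 : F) = 0) (h : g * g = 1) : ∃ y, edivs (g.1 : End F V) =
    Multiset.replicate (finrank F (f.commSub g)) ((X - 1) ^ 2) + Multiset.replicate y (X - 1) ∧
      2 * finrank F (f.commSub g) + y = finrank F V := by
  classical
  have h1 : ((g.1 : End F V) - algebraMap F _ 1) ^ (1 + 1) = 0 := LinearMap.ext fun x => by
    have : g.1 (g.1 x) = x := congrArg (fun u : f.Isom => u.1 x) h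
    simp [sq, this]
    linear_combination (norm := module) h2 • (x - g.1 x)
  obtain ⟨i, j, h3⟩ := eq_rep_add (m := edivs (g.1 : End F V)) (x := (X - 1) ^ 2) (y := X - 1) fun d hd => by
    obtain ⟨h3, h4, -⟩ := kd_of_sub_pow h1 hd
    have := (isPrim_of_mem_edivs hd).natDegree_pos
    obtain h5 | h5 : d.natDegree = 2 ∨ d.natDegree = 1 := by omega
    all_goals simp [h5] at h3; simp [h3]
  have h4 := finrank_ker_add_count h1
  have h5 := ((g.1 : End F V) - 1).finrank_range_add_finrank_ker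
  have h6 : (X - 1 : F[X]) ≠ (X - 1) ^ 2 := fun e => by simpa using unip_inj ((pow_one _).trans e)
  have h7 := dg_edivs (g.1 : End F V)
  rw [h3, pow_one, map_one, map_one, one_add_one_eq_two, Multiset.count_add, Multiset.count_replicate_self,
    Multiset.count_eq_zero.2 fun h => h6 (Multiset.eq_of_mem_replicate h).symm] at h4
  simp [h3, natDegree_X_sub_one] at h7
  obtain rfl : i = finrank F (f.commSub g) := Nat.add_left_cancel (h4.trans (h5.symm.trans (add_comm _ _)))
  exact ⟨j, h3, by omega⟩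

variable [Finite F]

theorem Gd.isoSim (hf : Gd z f) (hp : Gd z p) {u : p.Isom} (hs : z ∨ IsSS (g.1 : End F V))
    (h : edivs (g.1 : End F V) = edivs (u.1 : End F U)) : IsoSim g u := by
  by_cases H : z
  · exact (sim_iff_edivs.2 h).imp fun e he => ⟨symp_pres fun x y => by rw [hf.1 H, hp.1 H], he⟩
  · exact (hf.2 H).symp_isoSim_of_ss (hp.2 H) (hs.resolve_left H) (sim_iff_edivs.2 h)

/-- `μ` is the list of elementary divisors of an element permuting a decomposition. -/
def IM (z : Prop) (a : ℕ) (μ : Multiset F[X]) : Prop :=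
  ∃ (n : ℕ) (p : Form (Kind.symp F) (Fin n → F)) (u : p.Isom),
    Gd z p ∧ Imp p a u.1 ∧ edivs u.1.toLinearMap = μ

omit [Finite F] in
theorem im_of (hf : Gd z f) (g : f.Isom) (h : Imp f a g.1) : IM z a (edivs (g.1 : End F V)) := by
  obtain ⟨p, hp⟩ := exists_fin f rfl
  obtain ⟨u, hu⟩ := hp.symm.exists_isoSim g
  exact ⟨_, p, u, hf.equiv hp.symm, h.isoSim hu, (sim_iff_edivs.1 hu.sim).symm⟩

omit [Finite F] in
theorem im_one (hf : Gd z f) (g : f.Isom) : IM z (finrank F V) (edivs (g.1 : End F V)) :=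
  im_of hf g (imp_one rfl _)

omit [Finite F] in
theorem IM.zero : IM z a (0 : Multiset F[X]) :=
  ⟨0, zf F _, 1, ⟨fun _ _ _ => rfl, fun _ _ _ => Subsingleton.elim _ _⟩, imp_zero (by simp) _,
    (edivs_eq_zero_iff _).2 (by simp)⟩

omit [Finite F] in
theorem IM.add (h : IM z a μ) (h' : IM z a ν) : IM z a (μ + ν) := by
  obtain ⟨n, p, u, h1, h2, rfl⟩ := h
  obtain ⟨m, p', u', h3, h4, rfl⟩ := h'
  exact edivs_prodHom u u' ▸ im_of (h1.prod h3) (prodHom p p' (u, u')) (h2.prod h4)

omit [Finite F] in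
theorem IM.nsmul (h : IM z a μ) : ∀ j : ℕ, IM z a (j • μ)
  | 0 => (zero_nsmul μ).symm ▸ IM.zero
  | j + 1 => (succ_nsmul μ j).symm ▸ (h.nsmul j).add h

theorem IM.imp (h : IM z a (edivs (g.1 : End F V))) (hf : Gd z f) (hs : z ∨ IsSS (g.1 : End F V)) :
    Imp f a g.1 := by
  obtain ⟨n, p, u, h1, h2, h3⟩ := h
  exact h2.isoSim (hf.isoSim h1 hs h3.symm).symm

omit [Finite F] in
theorem im_units {α : Type*} (w : Multiset α → Multiset F[X]) (hw : ∀ m m', w (m + m') = w m + w m')
    (S : α → Prop) {c : ℕ} (h1 : ∀ m, (∀ x ∈ m, S x) → c * m.card ≤ a →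
      IM z a (Multiset.replicate (a - c * m.card) (X - 1) + w m)) :
    ∀ t m, (∀ x ∈ m, S x) → m.card ≤ t * (a / c) →
      IM z a (Multiset.replicate (a * t - c * m.card) (X - 1) + w m)
  | 0, m, _, h => by
    obtain rfl : m = 0 := by simpa using h
    simpa [left_eq_add.1 (hw 0 0)] using IM.zero
  | t + 1, m, h, h' => by
    obtain ⟨m', h2, h3⟩ := exists_le_card m (min_le_left _ (a / c))
    obtain ⟨m'', rfl⟩ := Multiset.le_iff_exists_add.1 h2
    rw [Multiset.card_add] at h3 h'
    have h4 := Nat.mul_div_le a c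
    have h5 : m''.card ≤ t * (a / c) := by rw [add_one_mul] at h'; omega
    have h6 : c * m'.card ≤ a := (Nat.mul_le_mul_left c (by omega)).trans h4
    have h7 : c * m''.card ≤ a * t := by nlinarith
    have := (h1 m' (fun x hx => h x (by simp [hx])) h6).add
      (im_units w hw S h1 t m'' (fun x hx => h x (by simp [hx])) h5)
    rwa [add_add_add_comm, ← hw, ← Multiset.replicate_add, show a - c * m'.card + (a * t - c * m''.card) =
      a * (t + 1) - c * (m' + m'').card by rw [Multiset.card_add, mul_add, mul_add]; omega] at this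

omit [Finite F] in
theorem im_lin (m : Multiset F[X]) (h1 : ∀ d ∈ m, IsPrim d) (h2 : ∀ d ∈ m, ¬X ∣ d) : IM True (dg m) m := by
  obtain ⟨g, hg⟩ := exists_equiv_edivs_eq (V := Fin (dg m) → F) h1 h2 (by rw [finrank_fin_fun]; rfl)
  simpa [zi, hg] using im_one gd_zf (zi g)

theorem lin_one [Fact r.Prime] (hr : r ∣ Nat.card F - 1) (h : a * t = finrank F V) (ha : a ≠ 0)
    (g : V ≃ₗ[F] V) (h1 : LinearMap.det (g : End F V) = 1) (h2 : PO r (g : End F V)) :
    Imp (zf F V) a (g : End F V) := by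
  have hp : r.Prime := Fact.out
  obtain ⟨c, u, h3, h4, -, h5⟩ | ⟨-, -, c, h3, h4⟩ := po_cases h2 h1
  · obtain ⟨Λ, h6, h7⟩ := exists_lin_of_pow hr h4
    have h8 : Λ.card = a * t := by rw [← dg_lin, ← h6, dg_edivs, h]
    have := im_units (z := True) (a := a) (c := 1) lin lin_add (· ≠ (0 : F)) (fun m h9 h10 => by
      have h11 := prim_lin (Λ := Multiset.replicate (a - 1 * m.card) 1 + m)
        (by simp +contextual [Multiset.mem_replicate, or_imp]; exact h9)
      have := im_lin _ h11.1 h11.2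
      rw [dg_lin, lin_add, Multiset.card_add, Multiset.card_replicate, one_mul,
        Nat.sub_add_cancel (by omega)] at this
      simpa [lin] using this) t Λ (fun a ha h0 => by simpa [h0, hp.ne_zero] using h7 a ha)
      (by simp [h8, mul_comm])
    exact h5 ▸ (IM.imp (g := zi u) (by simpa [h8, zi, h6] using this) gd_zf (Or.inl trivial)).smul h3
  · obtain ⟨h5, h6⟩ := edivs_typeB h4 h3
    refine IM.imp (g := zi g) (h6 ▸ ?_ : IM True a (edivs (g : End F V))) gd_zf (Or.inl trivial)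
    rw [← h] at h5 ⊢
    obtain ⟨s, rfl⟩ | ⟨s, rfl⟩ := hp.dvd_mul.1 h5
    · obtain ⟨u, -, -, h7⟩ := exists_typeB (V := Fin (r * s) → F) h3 (by simp) (by simpa using ha)
      have := (im_one gd_zf (zi u)).nsmul t
      simp only [zi, h7, finrank_fin_fun, Multiset.nsmul_replicate] at this
      rw [Nat.mul_div_cancel_left _ hp.pos] at this
      rwa [mul_assoc, Nat.mul_div_cancel_left _ hp.pos, mul_comm s]
    · obtain ⟨u, h7, h8, -⟩ := exists_shift (r := r) (U := Fin a → F) (c := c)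
        (by rintro rfl; exact h3 0 (zero_pow hp.ne_zero))
      have := (im_of gd_zf (zi u) h8).nsmul s
      simp only [zi, (edivs_typeB h7 h3).2, finrank_fin_fun, Multiset.nsmul_replicate, finrank_pi_fintype,
        Finset.sum_const, Finset.card_univ, ZMod.card, smul_eq_mul, Nat.mul_div_cancel_left _ hp.pos,
        Fintype.card_fin, finrank_self, mul_one] at this
      rwa [mul_left_comm, Nat.mul_div_cancel_left _ hp.pos, mul_comm a]

theorem lin_two (h2 : (2 : F) = 0) (h : a * t = finrank F V) (g : V ≃ₗ[F] V)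
    (h1 : LinearMap.det (g : End F V) = 1) (h3 : PO 2 (g : End F V)) : Imp (zf F V) a (g : End F V) := by
  refine (forall_po_iff (by have := card_even h2; have := two_le_card (F := F); omega)
    fun A c hc H => H.smul hc).2 (fun u hu => ?_) g h1 h3
  obtain ⟨y, h4, h5⟩ := edivs_inv2 (g := zi u) h2 (Subtype.ext (CForm.orderOf_eq_two_iff.1 hu).1)
  obtain ⟨y', h6, h7⟩ := split2 (a := a) (e := 1) (Q := fun t s => ∃ y, 2 * s + y = a * t ∧ IM True a
      (Multiset.replicate s ((X - 1) ^ 2) + Multiset.replicate y (X - 1 : F[X]))) (Or.inl rfl) (one_dvd _)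
    ⟨0, rfl, IM.zero⟩ (fun t s t' s' ⟨y, b1, b2⟩ ⟨y', b3, b4⟩ => ⟨y + y', by linarith, by
      rw [Multiset.replicate_add, Multiset.replicate_add, add_add_add_comm]; exact b2.add b4⟩) (by
      obtain ⟨y, b1, b2⟩ := edivs_inv2 (g := sw (zf F (Fin a → F))) h2 rfl
      have := im_of (gd_zf.prod gd_zf) _ (imp_sw (p := zf F (Fin a → F)))
      simp only [rk_sw, finrank_prod, finrank_fin_fun, b1] at this b1 b2
      exact ⟨y, by omega, this⟩) (fun x _ hx => ⟨a - 2 * x, by omega, by
      have b1 := adm_unip (k := Kind.symp F) (Multiset.replicate x 2 + Multiset.replicate (a - 2 * x) 1)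
        (by simp +contextual [Multiset.mem_replicate, or_imp])
      have := im_lin _ b1.1 b1.2.1
      rw [dg_unip] at this
      simpa [mul_comm x, hx] using this⟩) t _ (one_dvd _) (by omega : 2 * finrank F ((zf F V).commSub (zi u)) ≤ _)
  obtain rfl : y = y' := by omega
  exact IM.imp (g := zi u) (h4 ▸ h7) gd_zf (Or.inl trivial)

omit [Finite F] in
theorem lin_unip (l : ℕ) [Fact l.Prime] [CharP F l] (ha : a ≠ 0) {u : V ≃ₗ[F] V} (hu : orderOf u = l)
    {μ : Multiset ℕ} (h : edivs (u : End F V) = μ.map fun i => (X - 1 : F[X]) ^ i) (h1 : μ.count l < a)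
    (H : Imp (zf F V) a (u : End F V)) : ∃ ν ≤ μ, ν.sum = a := by
  classical
  obtain ⟨ι, _, D, σ, h2, h3⟩ := H
  have hp : l.Prime := Fact.out
  by_cases h4 : ∀ j, σ j = j
  · have h5 := h2.card
    obtain ⟨j⟩ : Nonempty ι := Fintype.card_pos_iff.1 (Nat.pos_of_ne_zero fun h => by
      have := finrank_zero_iff.1 (h5.symm.trans (by simp [h]))
      rw [Subsingleton.elim u 1, orderOf_one] at hu
      exact hp.ne_one hu.symm)
    obtain ⟨ν, h6, h7⟩ := h2.compl (fun j => map_le_iff.1 ((h3 j).trans (congrArg D (h4 j))).le) j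
    obtain ⟨ν, h8, rfl⟩ := exists_of_le_map (h ▸ h6)
    exact ⟨ν, h8, (dg_unip ν).symm.trans h7⟩
  · obtain ⟨j, hj⟩ := not_forall.1 h4
    have h5 : (u : End F V) ^ l = 1 := by
      exact (coe_pow (zi u) l).symm.trans (congrArg (·.toLinearMap) (hu ▸ pow_orderOf_eq_one u))
    have h6 := h2.rank_ge_one ha h3 one_ne_zero (h5.trans (one_smul _ _).symm) hj
    have h7 : (X - 1 : F[X]) ^ l = X ^ l - 1 := by rw [sub_pow_char, one_pow]
    have h8 : ∑ i ∈ Finset.range l, (X : F[X]) ^ i = (X - 1) ^ (l - 1) :=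
      mul_right_cancel₀ (X_sub_C_ne_zero (1 : F)) (by
        rw [map_one, geom_sum_mul, pow_sub_one_mul hp.ne_zero, h7])
    have h9 := congrArg (aeval (u : End F V)) h8
    have h10 := congrArg (aeval (u : End F V)) h7
    simp only [map_sum, map_pow, aeval_X, map_sub, map_one, h5, sub_self] at h9 h10
    have h11 := finrank_ker_add_count (A := (u : End F V)) (a := 1) (e := l - 1)
      (by rwa [Nat.sub_add_cancel hp.pos, map_one])
    have := (∑ i ∈ Finset.range l, (u : End F V) ^ i).finrank_range_add_finrank_ker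
    rw [Nat.sub_add_cancel hp.pos, map_one, map_one, ← h9, h, Multiset.count_map_eq_count' _ _ unip_inj] at h11
    omega

/-- Involutions of symplectic groups permuting a decomposition, by invariants. -/
def I2 (F : Type*) [Field F] (a t s : ℕ) (P : Prop) : Prop :=
  ∃ (p : Form (Kind.symp F) (Fin (a * t) → F)) (u : p.Isom),
    p.Nondeg ∧ Imp p a u.1 ∧ u * u = 1 ∧ finrank F (p.commSub u) = s ∧ (p.AltInv u ↔ P)

omit [Finite F] in
theorem i2_of (hf : f.Nondeg) (h : Imp f a g.1) (hn : finrank F V = a * t) (hg : g * g = 1) {s : ℕ}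
    {P : Prop} (hs : finrank F (f.commSub g) = s) (hP : f.AltInv g ↔ P) : I2 F a t s P := by
  obtain ⟨p, hp⟩ := exists_fin f hn
  obtain ⟨v, hv⟩ := hp.symm.exists_isoSim g
  exact ⟨p, v, hp.symm.nondeg hf, h.isoSim hv, (sq v).symm.trans (orderOf_dvd_iff_pow_eq_one.1
    (isoSim_order hv ▸ orderOf_dvd_of_pow_eq_one ((sq g).trans hg))), (isoSim_rk hv).symm.trans hs,
    (isoSim_alt hv).symm.trans hP⟩

omit [Finite F] in
theorem I2.add {t' s s' : ℕ} {P P' : Prop} (h : I2 F a t s P) (h' : I2 F a t' s' P') :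
    I2 F a (t + t') (s + s') (P ∧ P') := by
  obtain ⟨p, u, h1, h2, h3, rfl, h4⟩ := h
  obtain ⟨p', u', h5, h6, h7, rfl, h8⟩ := h'
  exact i2_of (g := prodHom p p' (u, u')) (h1.prod h5) (h2.prod h6) (by simp [mul_add])
    (by rw [← map_mul, Prod.mk_mul_mk, h3, h7]; exact map_one _)
    (by rw [commSub_prod, finrank_prod_sub]) ((altInv_prod u u').trans (and_congr h4 h8))

omit [Finite F] in
theorem i2_all (h2 : (2 : F) = 0) {b : ℕ} (s : ℕ) (P : Prop) (h : s ≤ b * t) (hP : P → s % 2 = 0)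
    (h0 : s = 0 → P) : I2 F (2 * b) t s P := by
  have hp := sympStd_nondeg F b
  have hb := finrank_plus (F := F) b
  have E : Inv2 (sympStd F b) b b := fun s P => (hp.symp_exists_inv2 h2 hb s P).trans (by tauto)
  have h1 : ∀ x (P : Prop), x ≤ b → (P → x % 2 = 0) → (x = 0 → P) → I2 F (2 * b) 1 x P :=
    fun x P b1 b2 b3 => by
      obtain ⟨u, b4, b5, b6⟩ := (E.iff (fun _ => rfl) h2 x P).2 ⟨b1, fun h => ⟨b2 h, b1⟩, b3⟩
      exact i2_of hp (imp_one hb _) (by omega) b4 b5 b6
  have h3 : I2 F (2 * b) 0 0 True := ⟨zf F _, 1, fun _ _ => funext fun i => i.elim0, imp_zero (by simp) _,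
    mul_one _, by simp [commSub_one], iff_of_true (fun _ => rfl) trivial⟩
  by_cases H : P
  · rw [eq_true H]
    exact split2 (Q := fun t s => I2 F (2 * b) t s True) (Or.inr rfl) (dvd_mul_right 2 b) h3
      (fun _ _ _ _ h h' => by simpa using h.add h')
      (i2_of (hp.prod hp) (hb ▸ imp_sw) (by rw [finrank_prod]; omega) rfl (rk_sw.trans hb)
        (iff_of_true (fun x => by simp [sw, (sympStd F b).symm x.1 x.2]) trivial))
      (fun x b1 b2 => h1 x _ (by omega) (by omega) fun _ => trivial) t s (by have := hP H; omega)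
      (by linarith)
  · have h4 : ∀ t s, s ≤ b * t → ∃ P, I2 F (2 * b) t s P := fun t => by
      induction t with
      | zero => exact fun s h => ⟨True, by rwa [show s = 0 by omega]⟩
      | succ t ih =>
        intro s h
        obtain ⟨P, h5⟩ := ih (s - b) (by rw [mul_add] at h; omega)
        exact ⟨_, (by omega : s - b + min s b = s) ▸ h5.add (h1 (min s b) (min s b = 0) (by omega)
          (by omega) id)⟩
    have h5 : s ≠ 0 := mt h0 H
    obtain ⟨t, rfl⟩ : ∃ t', t = t' + 1 := ⟨t - 1, by rcases t with _ | t <;> simp_all⟩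
    have h6 : b ≠ 0 := by rintro rfl; simp_all
    obtain ⟨P', h7⟩ := h4 t (s - b) (by rw [mul_add] at h; omega)
    simpa [H, show s - b + min s b = s by omega] using
      h7.add (h1 (min s b) False (by omega) False.elim (by omega))

theorem symp_imp_two (hf : f.Nondeg) (h : a * t = finrank F V) (ha : Even a) (hg : PO 2 (g.1 : End F V)) :
    Imp f a g.1 := by
  obtain ⟨b, rfl⟩ := ha.two_dvd
  have hp := sympStd_nondeg F b
  have hb := finrank_plus (F := F) b
  by_cases h2 : (2 : F) = 0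
  · refine (forall_po (fun _ => rfl) hf (Or.inr h2) (P := fun g => Imp f (2 * b) g.1) fun c hc g H =>
      coe_smul_mul hc g ▸ H.smul (left_ne_zero_of_mul_eq_one hc)).2 (fun u hu => ?_) g hg
    obtain ⟨h3, h4, h5⟩ := (hf.symp_exists_inv2 h2 (m := b * t) (by linarith) _ _).1 ⟨u, hu, rfl⟩
    obtain ⟨p, v, h6, h7, h8, h9, h10⟩ := i2_all h2 _ _ h4 (fun h => Nat.even_iff.1 (h5 h)) (by omega)
    obtain ⟨w, hw⟩ := (h6.symp_equivalent hf (by simp [h])).exists_isoSim v
    refine h7.isoSim (hw.trans (isConj_iff_isoSim.1 ((hf.inv2_isConj_iff (fun _ => rfl) h2 ?_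
      (CForm.orderOf_eq_two_iff.1 hu).1).2 ⟨(isoSim_rk hw).symm.trans h9, (isoSim_alt hw).symm.trans h10⟩)))
    exact (sq w).symm.trans (orderOf_dvd_iff_pow_eq_one.1
      (isoSim_order hw ▸ orderOf_dvd_of_pow_eq_one ((sq v).trans h8)))
  refine IM.imp ?_ (gd_false hf) (Or.inr (hg.isSS (by simpa using h2)))
  obtain H | ⟨W, h1, -, -, H⟩ := po2_cases (fun _ => rfl) hf h2 hg
  · obtain ⟨u, hu⟩ := exists_neg_symp h2 hp
    obtain ⟨j, h3, h4⟩ := H.edivs_eq (fun _ => rfl) h2 hf
    obtain ⟨i, h5, h6⟩ := hu.edivs_eq (fun _ => rfl) h2 hp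
    have := (im_one (gd_false hp) u).nsmul t
    rwa [h6, hb, ← mul_nsmul', show t * i = j by nlinarith, ← h4] at this
  · obtain ⟨j, hj⟩ := (hf.restrict_perp h1).symp_even.two_dvd
    have h3 := hf.finrank_perp W
    have := im_units (z := False) (a := 2 * b) (c := 2) (fun m : Multiset Unit =>
      Multiset.replicate (2 * m.card) (X - C (-1 : F))) (by simp [mul_add, Multiset.replicate_add]) (fun _ => True) (fun m _ h4 => by
        obtain ⟨u, hu⟩ := hp.symp_exists_ext (sympStd_nondeg F m.card) ((sympStd F m.card).scalarIsom (-1)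
          (by simp)) (j := 2 * b - 2 * m.card) (by rw [hb, finrank_plus]; omega) (a := 1) (by simp)
        have := im_one (gd_false hp) u
        rwa [hu, hb, edivs_of_smul (scalarIsom_apply _ _ _), finrank_plus] at this)
      t (Multiset.replicate j ()) (by simp) (by simp; nlinarith)
    rw [← sim_iff_edivs.1 H.sim, pm, edivs_prodHom, edivs_of_smul (a := 1) (by simp),
      edivs_of_smul (scalarIsom_apply _ _ _), hj, show finrank F W = 2 * b * t - 2 * j by omega]
    simpa using this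

variable [Fact r.Prime] (hr : (r : F) ≠ 0)
include hr

theorem ker_N {j : ℕ} {m : Multiset F[X]} (hm : ∀ d ∈ m, d ∈ cycT F r)
    (h : edivs A = Multiset.replicate j (X - 1) + m) :
    finrank F (LinearMap.ker (aeval A (cyclotomic r F))) = orderOf (Nat.card F : ZMod r) * m.card := by
  rw [finrank_ker_aeval, h, Multiset.map_add, Multiset.sum_add, Multiset.map_replicate,
    kd_of_isCoprime (f := X - 1) (X_sub_C_ne_zero (1 : F)), ← sum_natDegree_cycT hr hm,
    Multiset.map_congr rfl fun d hd => kd_of_dvd (isPrim_of_mem_cycT (hm d hd)).ne_zero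
      (mem_cycT.1 (hm d hd)).2.2]
  · simp
  · refine (irreducible_X_sub_C (1 : F)).coprime_iff_not_dvd.2 fun h => hr ?_
    simpa using dvd_iff_isRoot.1 h

omit [Finite F] in
theorem exists_cyc {u : f.Isom} (h : u ^ r = 1) : ∃ j m, (∀ d ∈ m, d ∈ cycT F r) ∧
    edivs (u.1 : End F V) = Multiset.replicate j (X - 1) + m := by
  by_cases h1 : u = 1
  · exact ⟨_, 0, by simp, by rw [h1, add_zero]; exact edivs_of_smul (a := 1) (by simp)⟩
  · obtain ⟨j, m, -, h2⟩ := (Rcf.orderOf_eq_prime_iff hr u.1).1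
      (by rw [Subgroup.orderOf_coe]; exact orderOf_eq_prime h h1)
    exact ⟨j, m, h2⟩

theorem imp_odd (hf : Gd z f) (hp : Gd z p) (ha : finrank F U = a) (h0 : a ≠ 0)
    (hn : a * t = finrank F V) {τ : F[X] → F[X]} {e b c : ℕ} (hU : Unif (cycT F r) τ e)
    (hb : b = orderOf (Nat.card F : ZMod r)) (hc : c = e * b) (h1 : 1 < c) (hcn : c ≤ finrank F V)
    (hN : ∀ m, (∀ d ∈ m, d ∈ cycT F r) → (Ok f m ↔ m.map τ = m ∧ b * m.card ≤ finrank F V))
    (hN₁ : ∀ m, (∀ d ∈ m, d ∈ cycT F r) → (Ok p m ↔ m.map τ = m ∧ b * m.card ≤ finrank F U))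
    (ha1 : a = 1 → z ∧ e = 1) :
    (∀ u : f.Isom, orderOf u = r → Imp f a u.1) ↔
      (a = 1 ∧ c = r - 1 ∧ finrank F V ≤ finrank F V % c * r) ∨
        (c ≤ a ∧ finrank F V % c = t * (a % c)) := by
  have hT := natDegree_cycT hr
  have hr' : r.Prime := Fact.out
  have h2 : ∀ m : Multiset F[X], b * (un τ e m).card = c * m.card := fun m => by
    rw [hU.card_un, hc]; ring
  refine ⟨fun H => ?_, fun H u hu => ?_⟩
  · have h3 : c ≤ r - 1 := by
      obtain ⟨d, hd⟩ := hU.ne
      rw [hc, hb, ← hT.2]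
      refine Nat.mul_le_mul_right _ ?_
      obtain ⟨rfl, -⟩ | ⟨rfl, h⟩ := hU.alt
      · exact hU.ne.card_pos
      · exact Finset.one_lt_card.2 ⟨_, hU.mem d hd, d, hd, h d hd⟩
    have key : ∀ s, 1 ≤ s → c * s ≤ finrank F V →
        (s ≤ t * (a / c) ∨ a ≤ finrank F V - c * s ∧ (r - 1) * a ≤ c * s) ∧
        (a = 1 → finrank F V ≤ (finrank F V - c * s) * r) := fun s s1 s2 => by
      obtain ⟨d, hd⟩ := hU.ne
      have b1 : ∀ x ∈ Multiset.replicate s d, x ∈ cycT F r := fun x hx =>
        Multiset.eq_of_mem_replicate hx ▸ hd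
      obtain ⟨u, j, hu⟩ := (hN _ (hU.mem_un b1)).2 ⟨hU.map_un b1, by simpa [h2] using s2⟩
      have b2 : orderOf u = r := by
        rw [← Subgroup.orderOf_coe]
        refine (Rcf.orderOf_eq_prime_iff hr _).2 ⟨j, _, fun h => ?_, hU.mem_un b1, hu⟩
        have := h2 (Multiset.replicate s d)
        simp [h] at this; omega
      obtain ⟨ι, _, D, σ, b3, b4⟩ := H u b2
      have b5 : (u.1 : End F V) ^ r = 1 := by rw [← coe_pow, ← b2, pow_orderOf_eq_one]; rfl
      have b6 := b5.trans (one_smul F _).symm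
      have b7 := ker_N hr (hU.mem_un b1) hu
      have b8 := (aeval (u.1 : End F V) (cyclotomic r F)).finrank_range_add_finrank_ker
      rw [← hb, h2, Multiset.card_replicate] at b7
      have b9 : aeval (u.1 : End F V) (cyclotomic r F) = ∑ i ∈ Finset.range r, (u.1 : End F V) ^ i := by
        simp [cyclotomic_prime, map_sum]
      refine ⟨?_, fun a1 => ?_⟩
      · by_cases h4 : ∀ j, σ j = j
        · have b10 := fun j => f.mem_stab_iff_act.2 ((b4 j).trans (congrArg D (h4 j)))
          have b11 := b3.ker_eq (fun j x => (b10 j x).1) (cyclotomic r F)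
          refine Or.inl (Nat.le_of_mul_le_mul_left (?_ : c * s ≤ _) (by omega))
          rw [← b7, b11, mul_left_comm, ← Nat.eq_of_mul_eq_mul_left (by omega) (b3.card.trans hn.symm),
            ← smul_eq_mul, ← Finset.card_univ, ← Finset.sum_const]
          refine Finset.sum_le_sum fun j _ => ?_
          obtain ⟨i, m, c1, c2⟩ := exists_cyc hr (u := res (b10 j)) ((map_pow (f.resIsom _) _ r).symm.trans
            (by rw [show (⟨u, b10 j⟩ : f.stab _) ^ r = 1 from Subtype.ext (b2 ▸ pow_orderOf_eq_one u), map_one]))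
          obtain ⟨v, hv⟩ := ((b3.gd hf j).equivalent hp ((b3.dim j).trans ha.symm)).exists_isoSim (res (b10 j))
          obtain ⟨c3, c4⟩ := (hN₁ m c1).1 ⟨v, i, (sim_iff_edivs.1 hv.sim).symm.trans c2⟩
          obtain ⟨m, -, rfl⟩ := hU.exists_un c1 c3
          refine (ker_N hr c1 c2).trans_le ?_
          rw [← hb, h2]
          rw [h2, ha, mul_comm] at c4
          exact Nat.mul_le_mul_left c ((Nat.le_div_iff_mul_le (by omega)).2 c4)
        · obtain ⟨j, hj⟩ := not_forall.1 h4
          have := b3.rank_ge_one h0 b4 one_ne_zero b6 hj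
          have := b3.ker_ge h0 b4 b5 hj
          rw [b9] at b7 b8
          omega
      · have := b3.le_rank h0 b4 one_ne_zero b6 fun j hj v hv h4 => by_contra fun h5 => by
          obtain ⟨l, hl⟩ := (finrank_eq_one_iff_of_nonzero' (⟨v, hv⟩ : D j) (by simpa using h5)).1
            ((b3.dim j).trans a1) ⟨u.1 v, hj ▸ b4 j ▸ Submodule.mem_map_of_mem hv⟩
          have h6 : End.HasEigenvector (u.1 : End F V) l v :=
            ⟨End.mem_eigenspace_iff.2 (congrArg Subtype.val hl).symm, h5⟩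
          have h7 : l = 1 := eq_one_of_pow (r := r) (mt ord_eq_one_iff.2 (by
            rw [← hb]; rw [(ha1 a1).2] at hc; omega)) (smul_left_injective F h5 (by
              simp [← h6.pow_apply, b5]))
          simp [LinearMap.sum_apply, h6.pow_apply, h7, ← Nat.cast_smul_eq_nsmul F, hr, h5] at h4
        rw [b9] at b7 b8
        rwa [← b7, Nat.sub_eq_of_eq_add b8.symm]
    have h4 := Nat.div_add_mod (finrank F V) c
    have h5 := Nat.mod_lt (finrank F V) (by omega : 0 < c)
    obtain ⟨h6, h7⟩ := key _ ((le_iff_div (by omega)).1 hcn) (by omega)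
    rw [show finrank F V - c * (finrank F V / c) = finrank F V % c by omega] at h6 h7
    by_cases h8 : c ≤ a
    · have h9 := Nat.div_add_mod a c
      have h10 : finrank F V = t * (a % c) + c * (t * (a / c)) := by rw [← hn]; nth_rw 1 [← h9]; ring
      have h11 := h6.resolve_right (by omega)
      have h12 := Nat.mul_le_mul_left c h11
      exact Or.inr ⟨h8, by rw [h10, Nat.add_mul_mod_self_left, Nat.mod_eq_of_lt (by omega)]⟩
    · have h9 := ((key 1 le_rfl (by omega)).1.resolve_left (by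
        rw [Nat.div_eq_of_lt (by omega)]; omega)).2
      obtain rfl : a = 1 := by
        by_contra h; have := Nat.mul_le_mul_left (r - 1) (by omega : 2 ≤ a); omega
      exact Or.inl ⟨rfl, by omega, h7 rfl⟩
  · obtain ⟨j, m, -, a1, a2⟩ := (Rcf.orderOf_eq_prime_iff hr u.1).1 (by rwa [Subgroup.orderOf_coe])
    obtain ⟨a3, a4⟩ := (hN m a1).1 ⟨u, j, a2⟩
    obtain ⟨m, a5, rfl⟩ := hU.exists_un a1 a3
    have a6 := finrank_eq_of_edivs hr a1 a2
    rw [h2, mul_comm] at a4
    rw [← hb, h2] at a6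
    have a7 := (Nat.le_div_iff_mul_le (by omega)).2 a4
    refine IM.imp (a2 ▸ ?_) hf (Or.inr (isSS_of_order hr (by rwa [Subgroup.orderOf_coe])))
    have h4 := Nat.div_add_mod (finrank F V) c
    obtain ⟨rfl, h5, h6⟩ | ⟨h5, h6⟩ := H
    · obtain ⟨hz, rfl⟩ := ha1 rfl
      rw [eq_true hz]
      obtain ⟨d, hd⟩ := Finset.card_eq_one.1 (Nat.eq_of_mul_eq_mul_right (by omega : 0 < b)
        (by rw [hb, hT.2]; omega) : (cycT F r).card = 1)
      obtain ⟨v, b1, b2, b3⟩ := exists_shift (r := r) (U := F) (one_ne_zero (α := F))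
      obtain ⟨i, m', b4, b5, b6⟩ := (Rcf.orderOf_eq_prime_iff hr v).1 (orderOf_eq_prime
        (LinearEquiv.toLinearMap_injective ((coe_pow (zi v) r).trans (b1.trans (one_smul _ _))))
        (b3 inferInstance))
      have b7 := finrank_eq_of_edivs hr b5 b6
      have b8 := Multiset.card_pos.2 b4
      rw [finrank_pi, ZMod.card, ← hb] at b7
      have b9 : m'.card = 1 := by
        by_contra h; have := Nat.mul_le_mul_left b (by omega : 2 ≤ m'.card); omega
      have b10 : ∀ m : Multiset F[X], (∀ x ∈ m, x ∈ cycT F r) → m = Multiset.replicate m.card d :=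
        fun m h => Multiset.eq_replicate_card.2 fun x hx => by simpa [hd] using h x hx
      have b11 := ((im_of gd_zf (zi v) b2).nsmul m.card).add ((im_one gd_zf (zi (1 : F ≃ₗ[F] F))).nsmul
        (j - m.card))
      have b12 : m.card ≤ j := by
        have : c * (finrank F V / c) ≤ c * (finrank F V % c) := by
          rw [show r = c + 1 by omega] at h6; linarith
        have := Nat.le_of_mul_le_mul_left this (by omega)
        have := Nat.mul_le_mul_left c a7
        omega
      rw [zi, zi, b6, b10 m' b5, b9, edivs_of_smul (a := 1) (by simp), show i = 1 by rw [b9] at b7; omega,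
        finrank_self, nsmul_add, add_right_comm] at b11
      rw [un, if_pos rfl, b10 m a5]
      simpa [Multiset.nsmul_singleton, ← Multiset.replicate_add, b12] using b11
    · have h9 := Nat.div_add_mod a c
      have h10 : finrank F V = c * (t * (a / c)) + t * (a % c) := by rw [← hn]; nth_rw 1 [← h9]; ring
      have := im_units (z := z) (a := a) (c := c) (un τ e) un_add (· ∈ cycT F r) (fun m b1 b2 => by
        obtain ⟨v, i, hv⟩ := (hN₁ _ (hU.mem_un b1)).2 ⟨hU.map_un b1, by rwa [h2, ha]⟩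
        have b3 := finrank_eq_of_edivs hr (hU.mem_un b1) hv
        have := im_one hp v
        rwa [hv, ha, show i = a - c * m.card by rw [← hb, h2] at b3; omega] at this) t m a5
        (a7.trans (Nat.le_of_mul_le_mul_left (by omega : c * _ ≤ c * _) (by omega)))
      rwa [show a * t - c * m.card = j by omega] at this

omit [Fact r.Prime] in
theorem exists_dec (hf : Gd z f) (hp : Gd z p) (ha : finrank F U = a) (h0 : a ≠ 0)
    (hn : a * t = finrank F V) : ∃ D : Fin t → Submodule F V, Dec f a D := by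
  have := (im_one hp 1).nsmul t
  rw [edivs_of_smul (a := 1) (by simp), ha, Multiset.nsmul_replicate, mul_comm, hn,
    ← edivs_of_smul (A := ((1 : f.Isom).1 : End F V)) (by simp)] at this
  exact ((imp_iff hn (by omega)).1 (this.imp hf (Or.inr (isSS_of_pow hr one_ne_zero
    ((one_pow r).trans (one_smul _ _).symm))))).imp fun _ h => h.1

theorem ok_zf (m : Multiset F[X]) (hm : ∀ d ∈ m, d ∈ cycT F r) :
    Ok (zf F V) m ↔ m.map id = m ∧ orderOf (Nat.card F : ZMod r) * m.card ≤ finrank F V :=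
  ⟨fun ⟨g, j, h⟩ => ⟨Multiset.map_id _, by rw [finrank_eq_of_edivs hr hm h]; omega⟩, fun h =>
    (exists_equiv_cycT hr hm (Nat.sub_add_cancel h.2).symm).elim fun g hg => ⟨zi g, _, hg⟩⟩

theorem lin_odd (ha : a ≠ 0) (hn : a * t = finrank F V) (h0 : finrank F V ≠ 0) {c : ℕ}
    (hc : c = orderOf (Nat.card F : ZMod r))
    (hx : r ∣ Nat.card {D : Fin t → Submodule F V // Dec (zf F V) a D} / t.factorial) :
    (∀ g : V ≃ₗ[F] V, LinearMap.det (g : End F V) = 1 → PO r (g : End F V) → Imp (zf F V) a (g : End F V)) ↔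
      (a = 1 ∧ 1 < c ∧ c = r - 1 ∧ finrank F V ≤ finrank F V % c * r) ∨
        (c ≤ a ∧ finrank F V % c = t * (a % c)) := by
  by_cases h1 : c = 1
  · exact iff_of_true (lin_one (ord_eq_one_iff.1 (hc ▸ h1)) hn ha) (Or.inr (by simp [h1, Nat.mod_one]; omega))
  have h2 : 1 < c := by have := orderOf_card_pos hr; omega
  have hW := finrank_fin_fun F (n := a)
  obtain ⟨D, h3⟩ := exists_dec hr gd_zf gd_zf hW ha hn
  have h4 := (dec_num gd_zf ha h3 hx).trans (Subgroup.card_subgroup_dvd_card _)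
  rw [card_equiv] at h4
  obtain ⟨j, h5, h6⟩ := (Prime.dvd_finsetProd_iff (Fact.out : r.Prime).prime _).1
    (((Fact.out : r.Prime).dvd_mul.1 h4).resolve_left (not_dvd_card_pow hr _))
  rw [dvd_pow_sub_one_iff Nat.card_pos, ← hc] at h6
  rw [forall_po_iff (mt ord_eq_one_iff.2 (hc ▸ h1)) fun A c hc H => H.smul hc, and_comm (a := a = 1),
    and_assoc, and_iff_right h2, and_comm, ← imp_odd hr gd_zf gd_zf hW ha hn ⟨exists_mem_cycT hr,
      fun _ h => h, fun _ _ => rfl, Or.inl ⟨rfl, fun _ _ => rfl⟩⟩ hc (one_mul _).symm h2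
      ((Nat.le_of_dvd j.succ_pos h6).trans (Finset.mem_range.1 h5)) (hc ▸ ok_zf hr) (hc ▸ ok_zf hr) fun _ => ⟨trivial, rfl⟩]
  exact ⟨fun H u hu => H u.1 (by rwa [Subgroup.orderOf_coe]), fun H u hu =>
    H (zi u) (by rwa [← Subgroup.orderOf_coe])⟩

theorem symp_imp_odd (hr2 : r ≠ 2) (hf : f.Nondeg) (ha : a ≠ 0) (hn : a * t = finrank F V) (he : Even a)
    {i c : ℕ} (hi : i = orderOf (Nat.card F : ZMod r)) (hc : c = if Even i then i else 2 * i)
    (hx : r ∣ Nat.card {D : Fin t → Submodule F V // Dec f a D} / t.factorial) :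
    (∀ g : f.Isom, PO r (g.1 : End F V) → Imp f a g.1) ↔ c ≤ a ∧ finrank F V % c = t * (a % c) := by
  obtain ⟨b, rfl⟩ := he.two_dvd
  have hp := sympStd_nondeg F b
  have hb := finrank_plus (F := F) b
  obtain ⟨D, h3⟩ := exists_dec hr (gd_false hf) (gd_false hp) hb ha hn
  obtain ⟨y, h4⟩ := dec_num (gd_false hf) ha h3 hx
  obtain ⟨s, h5, h6, -⟩ := num_symp hr hi hc (dvd_refl r) hf (sympStd_nondeg F 0) (by simp) (y := y)
    (by rw [h4, (sympStd_nondeg F 0).card_isom_symp 0 (by simp)]; simp)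
  obtain ⟨h7, h8, -⟩ := c_facts (hi ▸ orderOf_card_pos hr) hc
  subst hi
  rw [forall_po (fun _ => rfl) hf (Or.inl ((Fact.out : r.Prime).odd_of_ne_two hr2))
    (P := fun g => Imp f (2 * b) g.1) fun c hc g H =>
      coe_smul_mul hc g ▸ H.smul (left_ne_zero_of_mul_eq_one hc),
    imp_odd hr (gd_false hf) (gd_false hp) hb ha hn (unif_id (k := Kind.symp F) hr hr2 rfl) rfl
      (unit_mul hc).symm (by have := Nat.even_iff.1 h8; omega) (by nlinarith)
      (fun _ hm => hf.symp_cycT_iff hr hr2 hm) (fun _ hm => hp.symp_cycT_iff hr hr2 hm) (by omega)]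
  exact or_iff_right (by omega)

end CA.El
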