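/-
Elements of prime order of `PSL_n(q)` conjugate into subfield subgroups.
-/
import Cfsg.Agent.Lib.Lin.El15
import Cfsg.Agent.Lib.Lin.AschField
import Cfsg.Agent.Lib.Lin.AschFF

set_option linter.unusedSectionVars false

namespace CA.El
open Module Polynomial CA.Rcf CA.CForm

theorem val_pow_eq {r a k : ℕ} [Fact r.Prime] (ha : 2 ≤ a) (hk : ¬r ∣ k) (h : r ∣ a ^ k - 1 → r ∣ a - 1) :
    padicValNat r (a ^ k - 1) = padicValNat r (a - 1) := by
  have hk0 : k ≠ 0 := by rintro rfl; simp at hk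
  by_cases h1 : r ∣ a - 1
  · obtain ⟨b, rfl⟩ : ∃ b, a = b + 1 := ⟨a - 1, by omega⟩
    have e := Nat.geomSum_eq ha k
    have e2 : (b + 1) ^ k - 1 = b * ∑ i ∈ Finset.range k, (b + 1) ^ i := by
      rw [e]; exact (Nat.mul_div_cancel' (by simpa using Nat.sub_dvd_pow_sub_pow (b + 1) 1 k)).symm
    have e3 : ¬r ∣ ∑ i ∈ Finset.range k, (b + 1) ^ i := by
      rw [← ZMod.natCast_eq_zero_iff] at h1 hk ⊢
      simp only [Nat.add_sub_cancel] at h1
      simpa [h1] using hk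
    rw [e2, padicValNat.mul (by omega) (by rintro e; simp [e] at e3), padicValNat.eq_zero_of_not_dvd e3]
    simp
  · rw [padicValNat.eq_zero_of_not_dvd h1, padicValNat.eq_zero_of_not_dvd (mt h h1)]

theorem val_Pq {r q q' : ℕ} [Fact r.Prime] (hq : 2 ≤ q) (hq' : 2 ≤ q')
    (h : ∀ j, j ≠ 0 → padicValNat r (q ^ j - 1) = padicValNat r (q' ^ j - 1)) :
    ∀ n, padicValNat r (Pq q n) = padicValNat r (Pq q' n)
  | 0 => rfl
  | n + 1 => by
    have e : ∀ q, Pq q (n + 1) = Pq q n * (q ^ (n + 1) - 1) := fun q => Finset.prod_range_succ _ _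
    rw [e, e, padicValNat.mul (Pq_ne_zero hq n) (pow_sub_one_ne_zero hq n.succ_ne_zero),
      padicValNat.mul (Pq_ne_zero hq' n) (pow_sub_one_ne_zero hq' n.succ_ne_zero), val_Pq hq hq' h n,
      h _ n.succ_ne_zero]

theorem sub_num {r q k y s s₀ n : ℕ} [Fact r.Prime] (hq : 2 ≤ q) (hk : k.Prime) (hr : ¬r ∣ q) (hy : r ∣ y)
    (h1 : y * s₀ = s) (h2 : (q ^ k - 1) * s = (q ^ k) ^ n.choose 2 * Pq (q ^ k) n)
    (h3 : (q - 1) * s₀ = q ^ n.choose 2 * Pq q n) (hrk : r ≠ k) : k ∣ orderOf (q : ZMod r) := by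
  by_contra h
  have hp : r.Prime := Fact.out
  have hq' : 2 ≤ q ^ k := hq.trans (Nat.le_self_pow hk.ne_zero q)
  have a1 : ∀ j, j ≠ 0 → padicValNat r ((q ^ k) ^ j - 1) = padicValNat r (q ^ j - 1) := fun j hj => by
    rw [pow_right_comm]
    refine val_pow_eq (hq.trans (Nat.le_self_pow hj q)) (mt (Nat.prime_dvd_prime_iff_eq hp hk).1 hrk) fun e => ?_
    rw [← pow_mul] at e
    rw [dvd_pow_sub_one_iff (by omega)] at e ⊢
    exact ((Nat.coprime_comm.1 (hk.coprime_iff_not_dvd.2 h))).dvd_of_dvd_mul_right e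
  have a2 := val_Pq hq' hq a1 n
  have a3 := a1 1 one_ne_zero
  have n1 := mul_ne_zero (pow_ne_zero (n.choose 2) (by omega : q ^ k ≠ 0)) (Pq_ne_zero hq' n)
  have n2 := mul_ne_zero (pow_ne_zero (n.choose 2) (by omega : q ≠ 0)) (Pq_ne_zero hq n)
  have b2 := congrArg (padicValNat r) h2
  have b3 := congrArg (padicValNat r) h3
  rw [← h2] at n1
  rw [← h3] at n2
  have n3 := right_ne_zero_of_mul n1
  rw [← h1] at n3 b2
  rw [padicValNat.mul (by omega) n3, padicValNat.mul (left_ne_zero_of_mul n3) (right_ne_zero_of_mul n3),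
    padicValNat.mul (by positivity) (Pq_ne_zero hq' n), padicValNat.eq_zero_of_not_dvd
      (fun e => hr (hp.dvd_of_dvd_pow (hp.dvd_of_dvd_pow e)))] at b2
  rw [padicValNat.mul (by omega) (right_ne_zero_of_mul n2), padicValNat.mul (by positivity) (Pq_ne_zero hq n),
    padicValNat.eq_zero_of_not_dvd (n := q ^ _) (fun e => hr (hp.dvd_of_dvd_pow e))] at b3
  have := one_le_padicValNat_of_dvd (left_ne_zero_of_mul n3) hy
  simp only [pow_one] at a3
  omega

theorem cnt1 {α : Type*} [DecidableEq α] {x o : α} {n : ℕ} {f : α → α} (hf : Function.Injective f) (z : x ≠ o)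
    (hn : 2 ≤ n) (h : ∀ a, ({x} + Multiset.replicate (n - 1) o : Multiset α).count (f a) =
      ({x} + Multiset.replicate (n - 1) o : Multiset α).count a) : (f x = x ∧ f o = o) ∨ (f o = x ∧ f x = o ∧ n = 2) := by
  have c5 := h o
  have c6 := h x
  have c7 : f x ≠ f o := fun e => z (hf e)
  simp only [Multiset.count_add, Multiset.count_singleton, Multiset.count_replicate, if_neg z, if_neg z.symm,
    if_true] at c5 c6
  split_ifs at c5 c6 <;> first | omega | grind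

theorem cnt2 {α : Type*} [DecidableEq α] {x y o : α} {n : ℕ} {f : α → α} (z1 : x ≠ o) (z2 : y ≠ o)
    (hn : 6 ≤ n) (z3 : n = 6 → y ≠ x) (h : ∀ a, ({x, x, y} + Multiset.replicate (n - 3) o : Multiset α).count (f a) =
      ({x, x, y} + Multiset.replicate (n - 3) o : Multiset α).count a) : f x = x ∧ f o = o := by
  have c5 := h o
  have c6 := h x
  simp only [Multiset.insert_eq_cons, Multiset.count_add, Multiset.count_cons, Multiset.count_singleton,
    Multiset.count_replicate, if_neg z1.symm, if_neg z2.symm, if_true] at c5 c6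
  split_ifs at c5 c6 <;> first | omega | grind

theorem sq_det {F V : Type*} [Field F] [AddCommGroup V] [Module F V] [FiniteDimensional F V] {N T : End F V}
    (h : LinearMap.range N = LinearMap.ker N) (hT : ∀ v, T (N v) = N (T v)) : IsSquare (LinearMap.det T) := by
  have he : LinearMap.ker N ≤ (LinearMap.ker N).comap T := fun v hv => by
    rw [Submodule.mem_comap, LinearMap.mem_ker, ← hT, LinearMap.mem_ker.1 hv, map_zero]
  refine ⟨_, (LinearMap.det_eq_det_mul_det _ T he).trans (congrArg _ (Sim.det_eq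
    ⟨N.quotKerEquivRange.trans (LinearEquiv.ofEq _ _ h), fun v => ?_⟩))⟩
  obtain ⟨v, rfl⟩ := Submodule.Quotient.mk_surjective _ v
  exact Subtype.ext (hT v).symm

variable {F : Type*} [Field F] {ι : Type} [Fintype ι] [DecidableEq ι] (F₀ : Subfield F)
  {A : End F (ι → F)} {y y' : Matrix ι ι F₀} {r : ℕ} {c : F}

/-- extension of scalars of a matrix over the subfield -/
noncomputable def bc : Matrix ι ι F₀ →+* End F (ι → F) :=
  (Matrix.toLinAlgEquiv' : Matrix ι ι F ≃ₐ[F] _).toRingEquiv.toRingHom.comp F₀.subtype.mapMatrix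

/-- a multiple is similar to a matrix over the subfield -/
def SF (A : End F (ι → F)) : Prop := ∃ (c : F) (y : Matrix ι ι F₀), c ≠ 0 ∧ Sim (c • A) (bc F₀ y)

/-- the same by a map of determinant one -/
def SF1 (A : End F (ι → F)) : Prop := ∃ (c : F) (y : Matrix ι ι F₀) (e : (ι → F) ≃ₗ[F] (ι → F)),
  c ≠ 0 ∧ LinearMap.det (e : End F (ι → F)) = 1 ∧ ∀ v, e ((c • A) v) = bc F₀ y (e v)

variable {F₀}

theorem bc_eq (y : Matrix ι ι F₀) : bc F₀ y = Matrix.toLin' (y.map F₀.subtype) := rfl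

theorem bc_smul (b : F₀) (y : Matrix ι ι F₀) : bc F₀ (b • y) = (b : F) • bc F₀ y := by
  rw [bc_eq, bc_eq, ← map_smul]; rfl

theorem bc_det (y : Matrix ι ι F₀) : LinearMap.det (bc F₀ y) = y.det := by
  rw [bc_eq, LinearMap.det_toLin']; exact (F₀.subtype.map_det y).symm

theorem bc_charpoly (y : Matrix ι ι F₀) : (bc F₀ y).charpoly = y.charpoly.map F₀.subtype := by
  rw [bc_eq, charpoly_toLin'', Matrix.charpoly_map]

theorem bc_inj : Function.Injective (bc F₀ (ι := ι)) := fun _ _ h =>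
  Matrix.map_injective F₀.subtype.injective (Matrix.toLin'.injective h)

theorem bc_pow_eq [Nonempty ι] (h : bc F₀ y ^ r = c • 1) : ∃ b : F₀, b = c ∧ y ^ r = b • 1 := by
  obtain ⟨i⟩ := ‹Nonempty ι›
  rw [← map_pow] at h
  have h1 := congrFun (congrFun (toLin'_eq_smul_iff.1 h) i) i
  refine ⟨(y ^ r) i i, by simpa using h1, bc_inj ?_⟩
  rw [bc_smul, map_one, h]; congr 1; simpa using h1.symm

theorem exists_bc (R : GL ι F₀) : ∃ e : (ι → F) ≃ₗ[F] (ι → F), (e : End F (ι → F)) = bc F₀ R :=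
  ⟨glEquiv (Matrix.GeneralLinearGroup.map F₀.subtype R), rfl⟩

theorem sim_bc (h : Sim (Matrix.toLin' y) (Matrix.toLin' y')) : ∃ e : (ι → F) ≃ₗ[F] (ι → F),
    LinearMap.det (e : End F (ι → F)) ∈ F₀ ∧ ∀ v, e (bc F₀ y v) = bc F₀ y' (e v) := by
  obtain ⟨R, hR⟩ := isConj_matrix_iff.2 h
  obtain ⟨e, he⟩ := exists_bc R
  refine ⟨e, by rw [he, bc_det]; exact Subtype.property _, fun v => ?_⟩
  have := LinearMap.congr_fun (congrArg (bc F₀) hR.eq) v
  rwa [map_mul, map_mul, ← he] at this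

theorem SF1.sf (h : SF1 F₀ A) : SF F₀ A := let ⟨c, y, e, h1, _, h2⟩ := h; ⟨c, y, h1, e, h2⟩

theorem SF.smul (h : SF F₀ A) (hc : c ≠ 0) : SF F₀ (c • A) :=
  let ⟨a, y, h1, h2⟩ := h
  ⟨a * c⁻¹, y, by simp [h1, hc], by rwa [smul_smul, inv_mul_cancel_right₀ hc]⟩

theorem SF.of_smul (h : SF F₀ (c • A)) (hc : c ≠ 0) : SF F₀ A := by
  simpa [smul_smul, hc] using h.smul (inv_ne_zero hc)

theorem SF1.smul (h : SF1 F₀ A) (hc : c ≠ 0) : SF1 F₀ (c • A) :=
  let ⟨a, y, e, h1, h2⟩ := h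
  ⟨a * c⁻¹, y, e, by simp [h1, hc], by rwa [smul_smul, inv_mul_cancel_right₀ hc]⟩

theorem sf1_of [Nonempty ι] (h : SF F₀ A) (hd : ∀ a : F, a ≠ 0 → ∃ (T : (ι → F) ≃ₗ[F] (ι → F)) (b : F₀),
    (∀ v, T (A v) = A (T v)) ∧ LinearMap.det (T : End F (ι → F)) * b = a) : SF1 F₀ A := by
  obtain ⟨c, y, hc, e, he⟩ := h
  obtain ⟨i⟩ := ‹Nonempty ι›
  have h0 : LinearMap.det (e : End F (ι → F)) ≠ 0 := e.isUnit_det'.ne_zero
  obtain ⟨T, b, h1, h2⟩ := hd _ (inv_ne_zero h0)
  have h3 : (Matrix.diagonal (Function.update 1 i b)).det = b := by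
    simp [Finset.prod_update_of_mem]
  have hb : b ≠ 0 := by rintro rfl; exact inv_ne_zero h0 (by simpa using h2.symm)
  let R := Matrix.GeneralLinearGroup.mkOfDetNeZero _ (h3 ▸ hb)
  obtain ⟨D, hD⟩ := exists_bc R
  refine ⟨c, R.1 * y * R⁻¹.1, (T.trans e).trans D, hc, ?_, fun v => ?_⟩
  · rw [LinearEquiv.coe_trans, LinearEquiv.coe_trans, LinearMap.det_comp, LinearMap.det_comp, hD, bc_det]
    change ((Matrix.diagonal _).det : F₀) * _ = (1 : F)
    rw [h3, mul_left_comm, mul_comm (b : F), h2, mul_inv_cancel₀ h0]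
  · have : bc F₀ (R.1 * y * R⁻¹.1) * bc F₀ R = bc F₀ R * bc F₀ y := by
      rw [← map_mul, ← map_mul, mul_assoc, Units.inv_mul, mul_one]
    have := LinearMap.congr_fun this (e (T v))
    rw [← hD] at this
    refine Eq.trans ?_ this.symm
    simp only [LinearEquiv.trans_apply, End.mul_apply, LinearEquiv.coe_coe, ← he, LinearMap.smul_apply, map_smul, h1]

theorem sub_bridge (x : Matrix.SpecialLinearGroup ι F) : (∃ P : Matrix.SpecialLinearGroup ι F, P⁻¹ * x * P ∈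
    (Cfsg.Geo.subfieldSubgroup F₀ 1).comap Matrix.SpecialLinearGroup.toGL) ↔ SF1 F₀ (Matrix.toLin' x.1) := by
  simp only [Subgroup.mem_comap, CA.AschField.mem_subfieldSubgroup_iff, inv_one, CA.AschBase.cj_one]
  constructor
  · rintro ⟨P, c, hc, h⟩
    refine ⟨c, Matrix.of fun i j => ⟨_, h i j⟩, Matrix.SpecialLinearGroup.toLin' P⁻¹, hc, ?_, fun v => ?_⟩
    · exact (LinearMap.det_toLin' _).trans P⁻¹.2
    · change (P⁻¹).1.mulVec (c • x.1.mulVec v) = (c • (P⁻¹ * x * P).1).mulVec ((P⁻¹).1.mulVec v)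
      rw [Matrix.mulVec_smul, Matrix.smul_mulVec, Matrix.mulVec_mulVec, Matrix.mulVec_mulVec,
        ← Matrix.SpecialLinearGroup.coe_mul, ← Matrix.SpecialLinearGroup.coe_mul, mul_inv_cancel_right]
  · rintro ⟨c, y, e, hc, h1, h2⟩
    let Q : Matrix.SpecialLinearGroup ι F := ⟨LinearMap.toMatrix' e.1, (LinearMap.det_toMatrix' _).trans h1⟩
    refine ⟨Q⁻¹, c, hc, ?_⟩
    have h3 : c • (Q * x).1 = y.map F₀.subtype * Q.1 := Matrix.toLin'.injective (LinearMap.ext fun v => by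
      rw [Matrix.SpecialLinearGroup.coe_mul]
      simpa [Q, bc_eq, ← Matrix.mulVec_mulVec] using h2 v)
    have h4 : c • (Q⁻¹⁻¹ * x * Q⁻¹).1 = y.map F₀.subtype := by
      rw [inv_inv, Matrix.SpecialLinearGroup.coe_mul, ← Matrix.smul_mul, h3, mul_assoc,
        ← Matrix.SpecialLinearGroup.coe_mul, mul_inv_cancel, Matrix.SpecialLinearGroup.coe_one, mul_one]
    intro i j
    exact (congrFun (congrFun h4 i) j).symm ▸ (y i j).2

theorem sub_forall (r : ℕ) : (∀ x : Matrix.SpecialLinearGroup ι F,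
    (∃ z : F, (x ^ r).1 = z • 1) → (∀ z : F, x.1 ≠ z • 1) → ∃ P : Matrix.SpecialLinearGroup ι F,
      P⁻¹ * x * P ∈ (Cfsg.Geo.subfieldSubgroup F₀ 1).comap Matrix.SpecialLinearGroup.toGL) ↔
    ∀ g : (ι → F) ≃ₗ[F] (ι → F), LinearMap.det (g : End F (ι → F)) = 1 → PO r (g : End F (ι → F)) → SF1 F₀ g.1 := by
  simp only [sub_bridge]
  exact forall_SL r (SF1 F₀)

theorem card_SL' [Finite F] {n : ℕ} (hn : 1 ≤ n) : (Nat.card F - 1) * Nat.card (Matrix.SpecialLinearGroup (Fin n) F) =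
    Nat.card F ^ n.choose 2 * Pq (Nat.card F) n := by
  rw [CA.SLnCard.card_SL n hn, ← prod_sub_eq _ le_rfl]; simp [Pq]

theorem sub_index [Finite F] (h : r ∣ ((Cfsg.Geo.subfieldSubgroup F₀ 1).comap
    (Matrix.SpecialLinearGroup.toGL : Matrix.SpecialLinearGroup ι F →* GL ι F)).index) :
    ∃ y, r ∣ y ∧ y * Nat.card (Matrix.SpecialLinearGroup ι F₀) = Nat.card (Matrix.SpecialLinearGroup ι F) := by
  refine ⟨_, h.trans (Subgroup.index_dvd_of_le (H := (Matrix.SpecialLinearGroup.map F₀.subtype).range) ?_), ?_⟩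
  · rintro _ ⟨x, rfl⟩
    rw [Subgroup.mem_comap, CA.AschField.mem_subfieldSubgroup_iff]
    exact ⟨1, one_ne_zero, fun i j => by simp⟩
  · rw [Nat.card_congr (MonoidHom.ofInjective (f := Matrix.SpecialLinearGroup.map F₀.subtype) fun a b e =>
      Subtype.ext (Matrix.map_injective F₀.subtype.injective (congrArg Subtype.val e))).toEquiv,
      Subgroup.index_mul_card]

theorem exists_jordan {μ : Multiset ℕ} (h0 : ∀ a ∈ μ, 0 < a) (hs : μ.sum = Fintype.card ι) :
    ∃ J : Matrix ι ι F₀, edivs (Matrix.toLin' J) = μ.map (fun i => (X - 1) ^ i) ∧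
      edivs (bc F₀ J) = μ.map fun i => (X - 1) ^ i := by
  obtain ⟨t, d, rfl⟩ : ∃ (t : ℕ) (d : Fin t → ℕ), Finset.univ.val.map d = μ :=
    ⟨_, μ.toList.get, by rw [Fin.univ_val_map, List.ofFn_get, Multiset.coe_toList]⟩
  have h2 : ∀ k, 1 ≤ d k := fun k => h0 _ (Multiset.mem_map_of_mem _ (Finset.mem_univ_val k))
  let e : ((k : Fin t) × Fin (d k)) ≃ ι := Fintype.equivOfCardEq (by
    rw [← hs, Fintype.card_sigma]; simp only [Fintype.card_fin]; rfl)
  refine ⟨Matrix.reindex e e (Cfsg.jordanTypeMatrix d F₀), ?_, ?_⟩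
  · rw [sim_iff_edivs.1 (sim_reindex e _), edivs_jordanType d h2, Multiset.map_map]; rfl
  · have : (Matrix.reindex e e (Cfsg.jordanTypeMatrix d F₀)).map F₀.subtype =
        Matrix.reindex e e (Cfsg.jordanTypeMatrix d F) := by
      ext i j
      simp only [Cfsg.jordanTypeMatrix, Cfsg.jordanBlock, Matrix.map_apply, Matrix.reindex_apply,
        Matrix.submatrix_apply, Matrix.blockDiagonal'_apply, Matrix.of_apply]
      split_ifs <;> rfl
    rw [bc_eq, this, sim_iff_edivs.1 (sim_reindex e _), edivs_jordanType d h2, Multiset.map_map]; rfl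

theorem sf_unip (h : IsNilpotent (A - 1)) : SF F₀ A := by
  obtain ⟨J, -, hJ⟩ := exists_jordan (F₀ := F₀) (ι := ι) (fun a => pos_of_mem_jt (A := A)) (by simp [sum_jt])
  exact ⟨1, J, one_ne_zero, sim_iff_edivs.2 (by rw [one_smul, hJ, edivs_eq_map_jt h])⟩

theorem jt_bc (h : IsNilpotent (Matrix.toLin' y - 1)) : jt (bc F₀ y) = jt (Matrix.toLin' y) := by
  obtain ⟨J, h1, h2⟩ := exists_jordan (F₀ := F₀) (ι := ι) (fun a => pos_of_mem_jt (A := Matrix.toLin' y))
    (by simp [sum_jt])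
  obtain ⟨e, -, he⟩ := sim_bc (sim_iff_edivs.2 ((edivs_eq_map_jt h).trans h1.symm))
  exact (Sim.jt_eq ⟨e, he⟩).trans (jt_eq_of_edivs h2)

theorem sf_of_lifts (hr : (r : F) ≠ 0) (hA : A ^ r = 1) (h : A.charpoly ∈ lifts F₀.subtype) : SF F₀ A := by
  obtain ⟨χ, h1, h2, h3⟩ := lifts_and_natDegree_eq_and_monic h A.charpoly_monic
  obtain ⟨B, h4, h5⟩ := exists_semisimple_charpoly (V := ι → F₀) h3 (by simpa [LinearMap.charpoly_natDegree] using h2)
  have h6 : A ^ r = (1 : F) • 1 := by rw [hA, one_smul]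
  have h7 : B ^ r = (1 : F₀) • 1 := (pow_eq_smul_iff _ _ _).2 fun d hd => by
    refine (h4 d hd).prime.dvd_of_dvd_pow (n := (edivs A).card) ((map_dvd_map' F₀.subtype).1 ?_)
    refine (Polynomial.map_dvd _ (Multiset.dvd_prod hd)).trans ?_
    have := Multiset.prod_dvd_prod_of_dvd id (fun _ => X ^ r - C (1 : F)) ((pow_eq_smul_iff _ _ _).1 h6)
    rw [← charpoly_eq_prod, h5, h1, charpoly_eq_prod]
    simpa using this
  obtain ⟨y, rfl⟩ := Matrix.toLin'.surjective B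
  refine ⟨1, y, one_ne_zero, ?_⟩
  rw [one_smul]
  refine sim_of_charpoly_eq (isSS_of_pow hr one_ne_zero h6) (isSS_of_pow hr one_ne_zero (r := r) ?_) ?_
  · rw [← map_pow, toLin'_eq_smul_iff.1 ((Matrix.toLin'_pow y r).trans h7), one_smul, map_one, one_smul]
  · rw [bc_charpoly, ← h1, ← h5, charpoly_toLin'']

theorem not_sf_B [Nonempty ι] (hc : ∀ a : F, a ^ r ≠ c) (hA : A ^ r = c • 1) (h : ∀ b : F₀, ∃ a : F, a ^ r = b) :
    ¬SF F₀ A := fun ⟨a, y, h1, h2⟩ => by
  obtain ⟨b, h3, -⟩ := bc_pow_eq (sim_pow (r := r) (c := a ^ r * c) h2 (by rw [_root_.smul_pow, hA, smul_smul]))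
  obtain ⟨d, hd⟩ := h b
  exact hc (d / a) (by rw [div_pow, hd, h3, mul_div_cancel_left₀ _ (pow_ne_zero r h1)])

theorem comm_det {d : F[X]} (hd : d ∈ edivs A) (h : ∀ a : F, ∃ (s : F) (b : F₀), s ^ d.natDegree * b = a) (a : F)
    (ha : a ≠ 0) : ∃ (T : (ι → F) ≃ₗ[F] (ι → F)) (b : F₀),
    (∀ v, T (A v) = A (T v)) ∧ LinearMap.det (T : End F (ι → F)) * b = a := by
  obtain ⟨s, b, h1⟩ := h a
  obtain ⟨T, h2, h3⟩ := exists_commute_det_pow hd (a := s) (by
    rintro rfl; exact ha (by rw [← h1, zero_pow (isPrim_of_mem_edivs hd).natDegree_pos.ne', zero_mul]))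
  exact ⟨T, b, h2, h3 ▸ h1⟩

variable [Finite F] [Nonempty ι] {k : ℕ}

theorem sf1_ss (h : SF F₀ A) (hA : IsSS A) : SF1 F₀ A := sf1_of h fun a ha =>
  let ⟨T, h1, h2⟩ := hA.exists_commute_det (by simp) ha
  ⟨T, 1, h1, by simpa using h2⟩

theorem sq_of_two (hq : Nat.card F = Nat.card F₀ ^ 2) (h2 : (2 : F) ≠ 0) (b : F₀) : ∃ a : F, a ^ 2 = b := by
  cases nonempty_fintype F
  rcases eq_or_ne b 0 with rfl | hb
  · exact ⟨0, by simp⟩
  have h1 := card_odd (F := F) h2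
  have h3 : Nat.card F₀ % 2 = 1 := by
    rw [hq, ← Nat.odd_iff, Nat.odd_pow_iff two_ne_zero, Nat.odd_iff] at h1; exact h1
  have h4 : Nat.card F / 2 = (Nat.card F₀ - 1) * ((Nat.card F₀ + 1) / 2) := by
    obtain ⟨t, ht⟩ : ∃ t, Nat.card F₀ = 2 * t + 1 := ⟨Nat.card F₀ / 2, by omega⟩
    rw [hq, ht, show (2 * t + 1) ^ 2 = 2 * (2 * t * (t + 1)) + 1 by ring, show (2 * t + 1 + 1) / 2 = t + 1 by omega]
    simp; omega
  refine isSquare_iff.1 ((FiniteField.isSquare_iff (mt ringChar.eq_iff.1 fun h => h2 (CharP.cast_eq_zero F 2))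
    (by simpa using hb)).2 ?_)
  rw [← Nat.card_eq_fintype_card, h4, pow_mul, ← SubmonoidClass.coe_pow, pow_card_sub_one hb]
  simp

theorem exists_nonsq (hq : Nat.card F = Nat.card F₀ ^ k) (hk : Odd k) (h2 : (2 : F) ≠ 0) :
    ∃ b : F₀, ¬IsSquare (b : F) := by
  cases nonempty_fintype F
  cases nonempty_fintype F₀
  have h3 : (2 : F₀) ≠ 0 := fun h => h2 (congrArg Subtype.val h)
  obtain ⟨b, hb⟩ := FiniteField.exists_nonsquare (F := F₀)
    (mt ringChar.eq_iff.1 fun h => h3 (CharP.cast_eq_zero F₀ 2))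
  refine ⟨b, fun ⟨s, hs⟩ => ?_⟩
  have h4 : s ^ Nat.card F₀ = -s := by
    refine (sq_eq_sq_iff_eq_or_eq_neg.1 ?_).resolve_left fun h => hb ⟨⟨s, (CA.AschFF.subfield_mem_iff F₀ s).2 h⟩,
      Subtype.ext hs⟩
    rw [pow_right_comm, sq, ← hs]; exact (CA.AschFF.subfield_mem_iff F₀ _).1 b.2
  have h5 : ∀ j, s ^ Nat.card F₀ ^ j = (-1) ^ j * s := fun j => by
    induction j with
    | zero => simp
    | succ j ih =>
      rw [pow_succ, pow_mul, ih, mul_pow, h4, pow_right_comm, (Nat.odd_iff.2 (card_odd h3)).neg_one_pow]; ring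
  have h6 := h5 k
  rw [← hq, Nat.card_eq_fintype_card, FiniteField.pow_card, hk.neg_one_pow] at h6
  have h7 : s = 0 := (mul_eq_zero.1 (by linear_combination h6 : 2 * s = 0)).resolve_left h2
  exact hb ⟨0, Subtype.ext (by simpa [h7] using hs)⟩

theorem sub_three [CharP F 3] (hk : k.Prime) (hq : Nat.card F = Nat.card F₀ ^ k) :
    (∀ g : (ι → F) ≃ₗ[F] (ι → F), LinearMap.det (g : End F (ι → F)) = 1 → PO 3 (g : End F (ι → F)) → SF1 F₀ g.1) ↔
      Odd (Fintype.card ι) ∨ (Even (Fintype.card ι) ∧ 2 < k) := by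
  have : Fact (Nat.Prime 3) := ⟨Nat.prime_three⟩
  have h1 := not_dvd_char (F := F) 3 one_ne_zero
  have h1' := not_dvd_char (F := F₀) 3 one_ne_zero
  rw [pow_one] at h1 h1'
  have h2 : (2 : F) ≠ 0 := fun h => by
    have := (CharP.cast_eq_zero_iff F 3 2).1 (by exact_mod_cast h); omega
  have hn := Fintype.card_pos (α := ι)
  rw [forall_po_iff h1 fun A a ha h => h.smul ha]
  constructor
  · intro H
    by_contra h
    obtain ⟨⟨m, hm⟩, rfl⟩ : Even (Fintype.card ι) ∧ k = 2 := by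
      have := hk.two_le
      rw [not_or, Nat.not_odd_iff_even] at h
      exact ⟨h.1, by have := mt (And.intro h.1) h.2; omega⟩
    obtain ⟨J, h3, h4⟩ := exists_jordan (F₀ := F₀) (ι := ι) (μ := Multiset.replicate m 2)
      (by simp [Multiset.mem_replicate]) (by simp; omega)
    cases nonempty_fintype F
    obtain ⟨δ, hδ⟩ := FiniteField.exists_nonsquare (F := F)
      (mt ringChar.eq_iff.1 fun h => h2 (CharP.cast_eq_zero F 2))
    have h0 : δ ≠ 0 := by rintro rfl; exact hδ IsSquare.zero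
    obtain ⟨D, -, hD⟩ := IsSS.exists_commute_det (A := (1 : End F (ι → F)))
      (isSS_of_pow (r := 1) (by simp) one_ne_zero (by simp)) (by simp) h0
    obtain ⟨u, h5, h6⟩ := exists_unip (F := F) (V := ι → F) (μ := Multiset.replicate m 2)
      (by simp [Multiset.mem_replicate]) (by simp; omega)
    obtain ⟨E, hE⟩ : Sim (u : End F (ι → F)) (bc F₀ J) := sim_iff_edivs.2 (by rw [h4, edivs_eq_map_jt h5, h6])
    let w := D⁻¹ * E * u * E⁻¹ * D
    have h7 : ∀ v, D (w v) = bc F₀ J (D v) := fun v => by simpa [w] using hE (E.symm (D v))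
    have h8 : Sim (w : End F (ι → F)) (bc F₀ J) := ⟨D, h7⟩
    have h9 := isNilpotent_of_edivs h4
    have h10 : orderOf w = 3 := (orderOf_eq_char_iff 3 w).2 ⟨h8.symm.isNilpotent h9, by
      rw [h8.jt_eq, jt_eq_of_edivs h4]; simp [Multiset.mem_replicate]; omega⟩
    obtain ⟨c, y, e, hc, a1, a2⟩ := H w h10
    obtain ⟨b, a3, -⟩ := bc_pow_eq (r := 3) (sim_pow (c := c ^ 3) ⟨e, a2⟩ (by
      rw [_root_.smul_pow, ← coe_pow', ← h10, pow_orderOf_eq_one]; rfl))
    obtain ⟨d, rfl⟩ := exists_root h1' b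
    obtain rfl : (d : F) = c := frobenius_inj F 3 (by simpa [frobenius_def] using a3)
    have hd : d ≠ 0 := by simpa using hc
    have a4 : ∀ v, e (w v) = bc F₀ (d⁻¹ • y) (e v) := fun v => by
      rw [bc_smul, LinearMap.smul_apply, ← a2]; simp [smul_smul, hc]
    have a5 : Sim (bc F₀ (d⁻¹ • y)) (bc F₀ J) := (Sim.symm ⟨e, a4⟩).trans h8
    have a6 : IsNilpotent (Matrix.toLin' (d⁻¹ • y) - 1) := by
      obtain ⟨j, hj⟩ := a5.symm.isNilpotent h9
      exact ⟨j, (toLin'_sub_one_pow _ j).2 (bc_inj (by rw [map_pow, map_sub, map_one, hj, map_zero]))⟩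
    obtain ⟨R, a7, a8⟩ := sim_bc ((sim_iff_jt a6 (isNilpotent_of_edivs h3)).2
      (by rw [← jt_bc a6, a5.jt_eq, jt_eq_of_edivs h4, jt_eq_of_edivs h3]))
    have a9 : LinearMap.range (bc F₀ J - 1) = LinearMap.ker (bc F₀ J - 1) := by
      refine Submodule.eq_of_le_of_finrank_le (LinearMap.range_le_ker_iff.2 ((sq _).symm.trans
        (sub_one_pow_eq_zero_of_edivs h4 (by simp [Multiset.mem_replicate])))) ?_
      have := (bc F₀ J - 1).finrank_range_add_finrank_ker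
      rw [finrank_ker_sub_one h9, jt_eq_of_edivs h4] at this ⊢
      simp only [Multiset.card_replicate, finrank_fintype_fun_eq_card] at this ⊢
      omega
    have a10 := sq_det (T := (R * e * D⁻¹ : (ι → F) ≃ₗ[F] (ι → F))) a9 fun v => by
      obtain ⟨v, rfl⟩ := D.surjective v
      simp [← h7, a4, a8]
    obtain ⟨s, hs⟩ := sq_of_two hq h2 ⟨_, a7⟩
    have a11 : LinearMap.det (R * e * D⁻¹ : (ι → F) ≃ₗ[F] (ι → F)).1 * δ = s ^ 2 := by
      rw [← hD, ← map_mul, ← LinearEquiv.coe_toLinearMap_mul, inv_mul_cancel_right,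
        LinearEquiv.coe_toLinearMap_mul, map_mul, a1, mul_one, hs]
    obtain ⟨t, ht⟩ := a10
    have ht0 : t ≠ 0 := by rintro rfl; exact (LinearEquiv.isUnit_det' _).ne_zero (ht.trans (mul_zero 0))
    exact hδ ⟨s / t, by rw [ht] at a11; field_simp; linear_combination a11⟩
  · intro H u hu
    obtain ⟨h3, h4, -⟩ := (orderOf_eq_char_iff 3 u).1 hu
    refine sf1_of (sf_unip h3) ?_
    by_cases h5 : ∀ a ∈ jt (u : End F (ι → F)), a = 2
    · obtain ⟨d, hd⟩ := Multiset.exists_mem_of_ne_zero (mt (edivs_eq_zero_iff (u : End F (ι → F))).1 (by simp))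
      have h6 : Fintype.card ι = 2 * (jt (u : End F (ι → F))).card := by
        rw [← finrank_fintype_fun_eq_card F, ← sum_jt (u : End F (ι → F)), Multiset.eq_replicate_card.2 h5]
        simp [mul_comm]
      obtain ⟨b, hb⟩ := exists_nonsq hq (hk.odd_of_ne_two (by
        rcases H with ⟨j, hj⟩ | h <;> omega)) h2
      refine comm_det hd fun a => ?_
      rw [h5 _ (Multiset.mem_map_of_mem _ hd)]
      by_cases h7 : IsSquare a
      · obtain ⟨s, hs⟩ := isSquare_iff.1 h7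
        exact ⟨s, 1, by simpa using hs⟩
      · obtain ⟨s, hs⟩ := isSquare_iff.1 (isSquare_mul_of_not h7 hb)
        have : (b : F) ≠ 0 := fun h => hb (h ▸ IsSquare.zero)
        exact ⟨s / b, b, by field_simp; linear_combination hs⟩
    · push Not at h5
      obtain ⟨_, h6, h7⟩ := h5
      have h8 := h4 _ h6
      have h9 := pos_of_mem_jt h6
      obtain ⟨d, hd, rfl⟩ := Multiset.mem_map.1 h6
      refine comm_det hd fun a => ?_
      rcases (by omega : d.natDegree = 1 ∨ d.natDegree = 3) with h | h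
      · exact ⟨a, 1, by simp [h]⟩
      · obtain ⟨s, hs⟩ := exists_root h1 a
        exact ⟨s, 1, by simp [h, hs]⟩

variable [Fact r.Prime]

theorem SF.norm (h : SF F₀ A) (hA : A ^ r = 1) (hr : ¬r ∣ Nat.card F₀ - 1) :
    ∃ γ : F, γ ^ r = 1 ∧ (γ • A).charpoly ∈ lifts F₀.subtype := by
  obtain ⟨c, y, hc, h⟩ := h
  obtain ⟨b, h1, -⟩ := bc_pow_eq (sim_pow (r := r) (c := c ^ r) h (by rw [_root_.smul_pow, hA]))
  obtain ⟨d, rfl⟩ := exists_root hr b
  have h2 : (d : F) ^ r = c ^ r := by simpa using h1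
  have hd : (d : F) ≠ 0 := fun e => pow_ne_zero r hc (by rw [← h2, e, zero_pow (Fact.out : r.Prime).ne_zero])
  refine ⟨(d⁻¹ : F₀) * c, by simp [mul_pow, h2, hc], (d⁻¹ • y).charpoly, ?_⟩
  rw [← smul_smul, (sim_smul h _).charpoly_eq, ← bc_smul, bc_charpoly]; rfl

theorem sf_of_ord (hr : (r : F) ≠ 0) (h : orderOf (Nat.card F : ZMod r) = orderOf (Nat.card F₀ : ZMod r))
    (hA : A ^ r = 1) : SF F₀ A := by
  classical
  have hr' : (r : F₀) ≠ 0 := fun e => hr (by simpa using congrArg F₀.subtype e)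
  refine sf_of_lifts hr hA (charpoly_eq_prod A ▸ Subsemiring.multiset_prod_mem _ _ fun d hd => ?_)
  have h6 : A ^ r = (1 : F) • 1 := by rw [hA, one_smul]
  have h1 := isSS_of_pow hr one_ne_zero h6 d hd
  have h2 := (isPrim_of_mem_edivs hd).monic
  rcases eq_or_mem_cycT h1 h2 ((pow_eq_smul_iff _ _ _).1 h6 d hd) with rfl | h3
  · exact ⟨X - 1, by simp⟩
  · have h4 := (mem_cycT.1 h3).2.2
    rw [← map_cyclotomic r F₀.subtype] at h4
    have h5 := Polynomial.map_dvd F₀.subtype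
      (UniqueFactorizationMonoid.prod_normalizedFactors (cyclotomic_ne_zero r F₀)).symm.dvd
    rw [Polynomial.map_multiset_prod] at h5
    obtain ⟨_, h7, h8⟩ := h1.prime.exists_mem_multiset_dvd (h4.trans h5)
    obtain ⟨e, he, rfl⟩ := Multiset.mem_map.1 h7
    have h9 : e ∈ cycT F₀ r := mem_cycT.2 ((Polynomial.mem_normalizedFactors_iff (cyclotomic_ne_zero r F₀)).1 he)
    refine ⟨e, eq_of_monic_of_dvd_of_natDegree_le h2 ((mem_cycT.1 h9).2.1.map _) h8 ?_⟩
    rw [coe_mapRingHom, natDegree_map, (natDegree_cycT hr').1 e h9, (natDegree_cycT hr).1 d h3, h]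

theorem all_sf (hr : (r : F) ≠ 0) (h : orderOf (Nat.card F : ZMod r) = orderOf (Nat.card F₀ : ZMod r))
    (h' : r ∣ Nat.card F - 1 → NoB r (Fintype.card ι) (Nat.card F - 1)) (g : (ι → F) ≃ₗ[F] (ι → F))
    (h1 : LinearMap.det (g : End F (ι → F)) = 1) (h2 : PO r (g : End F (ι → F))) : SF1 F₀ g.1 := by
  rcases po_cases h2 h1 with ⟨a, u, ha, hu, -, hg⟩ | ⟨h3, h4, -⟩
  · refine sf1_ss ?_ (h2.isSS hr)
    rw [hg]
    exact (sf_of_ord hr h (by rw [← coe_pow', ← hu, pow_orderOf_eq_one]; rfl)).smul ha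
  · exact absurd (by simpa using h' h3) h4

theorem noB_of_all (hr : r ∣ Nat.card F - 1) (h : ∀ b : F₀, ∃ a : F, a ^ r = b)
    (H : ∀ g : (ι → F) ≃ₗ[F] (ι → F), LinearMap.det (g : End F (ι → F)) = 1 → PO r (g : End F (ι → F)) →
      SF1 F₀ g.1) : NoB r (Fintype.card ι) (Nat.card F - 1) := by_contra fun h' => by
  obtain ⟨g, c, h1, h2, h3, h4⟩ := exists_B (V := ι → F) hr (by simpa using h') (by simp)
  exact not_sf_B h3 h4 h (H g h1 h2).sf

omit [Fact r.Prime] in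
theorem sub_two (hq : Nat.card F = Nat.card F₀ ^ k) (hk : (2 : F) ≠ 0 → k = 2) :
    (∀ g : (ι → F) ≃ₗ[F] (ι → F), LinearMap.det (g : End F (ι → F)) = 1 → PO 2 (g : End F (ι → F)) → SF1 F₀ g.1) ↔
      (Odd (Nat.card F) → k = 2 ∧ padicValNat 2 (Fintype.card ι) ≤ padicValNat 2 (Nat.card F - 1)) := by
  by_cases h2 : (2 : F) = 0
  · have := (CharP.charP_iff_prime_eq_zero (R := F) Nat.prime_two).2 (by exact_mod_cast h2)
    have h1 := not_dvd_char (F := F) 2 one_ne_zero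
    rw [pow_one] at h1
    rw [forall_po_iff h1 fun A a ha h => h.smul ha]
    refine iff_of_true (fun u hu => ?_) fun h => absurd (card_even h2) (by rw [Nat.odd_iff.1 h]; simp)
    obtain ⟨h3, h4, -⟩ := (orderOf_eq_char_iff 2 u).1 hu
    obtain ⟨d, hd⟩ := Multiset.exists_mem_of_ne_zero (mt (edivs_eq_zero_iff (u : End F (ι → F))).1 (by simp))
    have h8 := h4 _ (Multiset.mem_map_of_mem _ hd)
    have h9 := (isPrim_of_mem_edivs hd).natDegree_pos
    refine sf1_of (sf_unip h3) (comm_det hd fun a => ?_)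
    rcases (by omega : d.natDegree = 1 ∨ d.natDegree = 2) with h | h
    · exact ⟨a, 1, by simp [h]⟩
    · obtain ⟨s, hs⟩ := exists_root h1 a
      exact ⟨s, 1, by simp [h, hs]⟩
  · obtain rfl := hk h2
    have h3 := card_odd h2
    refine ⟨fun H _ => ⟨rfl, (noB_of_all (two_dvd h2) (sq_of_two hq h2) H).1⟩, fun H => all_sf h2 ?_ fun _ =>
      ⟨(H (Nat.odd_iff.2 h3)).2, fun _ _ => (four_dvd_iff two_le_card).2 ?_⟩⟩
    · rw [ord_eq_one_iff.2 (two_dvd h2), ord_eq_one_iff.2 (two_dvd fun h => h2 (congrArg Subtype.val h))]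
    · rw [hq] at h3 ⊢
      rw [← Nat.odd_iff, Nat.odd_pow_iff two_ne_zero] at h3
      obtain ⟨t, ht⟩ := h3
      rw [ht, show (2 * t + 1) ^ 2 = 4 * (t * (t + 1)) + 1 by ring]; omega

omit [Nonempty ι] [Fact r.Prime] in
theorem lifts_lin {Λ : Multiset F} : (lin Λ).prod ∈ lifts F₀.subtype ↔ Λ.map (· ^ Nat.card F₀) = Λ := by
  obtain ⟨p, _, _⟩ : ∃ (p : ℕ) (_ : Fact p.Prime), CharP F p :=
    let ⟨p, h⟩ := CharP.exists F; ⟨p, ⟨CharP.char_is_prime F p⟩, h⟩
  cases nonempty_fintype F₀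
  obtain ⟨f, -, hf⟩ := FiniteField.card F₀ p
  let σ := iterateFrobenius F p f
  have h1 : ∀ a, σ a = a ^ Nat.card F₀ := fun a => by rw [Nat.card_eq_fintype_card, hf]; rfl
  have h2 : ((lin Λ).prod).map σ = (lin (Λ.map (· ^ Nat.card F₀))).prod := by
    simp [lin, Polynomial.map_multiset_prod, h1]
  have h3 : (lin Λ).prod ∈ lifts F₀.subtype ↔ ((lin Λ).prod).map σ = (lin Λ).prod := by
    rw [lifts_iff_coeff_lifts, Polynomial.ext_iff]
    refine forall_congr' fun n => ?_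
    rw [coeff_map, h1, ← CA.AschFF.subfield_mem_iff]
    simp
  rw [h3, h2]
  refine ⟨fun h => ?_, fun h => by rw [h]⟩
  simpa [lin, roots_multiset_prod_X_sub_C, -Multiset.map_map] using congrArg roots h

theorem exists_tw {Λ : Multiset F} [DecidableEq F] (h : SF F₀ A) (hr : ¬r ∣ Nat.card F₀ - 1) (h1 : edivs A = lin Λ)
    (h2 : ∀ a ∈ Λ, a ^ r = 1) : ∃ (γ : F) (f : F → F), γ ^ r = 1 ∧ (∀ a, γ * f a = (γ * a) ^ Nat.card F₀) ∧
      (∀ a, Λ.count (f a) = Λ.count a) ∧ (∀ a b, a ^ r = 1 → b ^ r = 1 → f a = a → f b = b → a = b) ∧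
      Function.Injective f := by
  have hp : r.Prime := Fact.out
  obtain ⟨γ, h3, h4⟩ := h.norm (by simpa using (pow_lin h1).2 h2) hr
  have h0 : ∀ a : F, a ^ r = 1 → a ≠ 0 := fun a h => ne_zero_pow hp.ne_zero (h ▸ one_ne_zero)
  rw [charpoly_eq_prod, edivs_smul_lin h1 (h0 _ h3), lifts_lin] at h4
  have h5 : ∀ a, γ * (γ⁻¹ * (γ * a) ^ Nat.card F₀) = (γ * a) ^ Nat.card F₀ := fun a => mul_inv_cancel_left₀ (h0 _ h3) _
  have h6 : ∀ a, a ^ r = 1 → γ⁻¹ * (γ * a) ^ Nat.card F₀ = a → γ * a = 1 := fun a ha e => by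
    have e1 := h5 a
    rw [e] at e1
    have := eq_one_of_pow hr (a := (⟨γ * a, (CA.AschFF.subfield_mem_iff F₀ _).2 e1.symm⟩ : F₀))
      (Subtype.ext (by simp [mul_pow, h3, ha]))
    exact congrArg Subtype.val this
  obtain ⟨p, _, _⟩ : ∃ (p : ℕ) (_ : Fact p.Prime), CharP F p :=
    let ⟨p, h⟩ := CharP.exists F; ⟨p, ⟨CharP.char_is_prime F p⟩, h⟩
  cases nonempty_fintype F₀
  obtain ⟨f, -, hf⟩ := FiniteField.card F₀ p
  have h7 : Function.Injective fun a : F => a ^ Nat.card F₀ := by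
    rw [Nat.card_eq_fintype_card, hf]; exact (iterateFrobenius F p f).injective
  refine ⟨γ, fun a => γ⁻¹ * (γ * a) ^ Nat.card F₀, h3, h5, fun a => ?_, fun a b ha hb e1 e2 =>
    mul_left_cancel₀ (h0 _ h3) ((h6 a ha e1).trans (h6 b hb e2).symm), fun a b e =>
    mul_left_cancel₀ (h0 _ h3) (h7 (mul_left_cancel₀ (inv_ne_zero (h0 _ h3)) e))⟩
  rw [← Multiset.count_map_eq_count' _ _ (mul_right_injective₀ (h0 _ h3)), h5, ← h4,
    Multiset.count_map_eq_count' _ _ h7, Multiset.count_map_eq_count' _ _ (mul_right_injective₀ (h0 _ h3))]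

theorem sub_odd (hk : k.Prime) (hq : Nat.card F = Nat.card F₀ ^ k) (hr : (r : F) ≠ 0) (hr2 : r ≠ 2)
    (hn : 2 ≤ Fintype.card ι) (h6 : ¬(Fintype.card ι = 6 ∧ r = 3))
    (hg : r = k → r ∣ Nat.card F₀ - 1 → padicValNat r (Fintype.card ι) ≤ padicValNat r (Nat.card F - 1))
    (h1 : r ≠ k → k ∣ orderOf (Nat.card F₀ : ZMod r)) (h2 : orderOf (Nat.card F : ZMod r) ≤ Fintype.card ι)
    (h3 : ¬(Fintype.card ι = 2 ∧ k = 2 ∧ r ∣ Nat.card F - 1)) :
    (∀ g : (ι → F) ≃ₗ[F] (ι → F), LinearMap.det (g : End F (ι → F)) = 1 → PO r (g : End F (ι → F)) → SF1 F₀ g.1) ↔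
      (r = k ∨ (k = 2 ∧ r = Fintype.card ι ∧ (Fintype.card ι = 3 ∨ Fintype.card ι = 5) ∧
        padicValNat r (Nat.card F₀ + 1) = 1)) := by
  classical
  have hp : r.Prime := Fact.out
  have hr' : (r : F₀) ≠ 0 := fun e => hr (by simpa using congrArg F₀.subtype e)
  have q0 := two_le_card (F := F₀)
  by_cases hrk : r = k
  · subst hrk
    have e : orderOf (Nat.card F : ZMod r) = orderOf (Nat.card F₀ : ZMod r) := by
      rw [hq, Nat.cast_pow, ZMod.pow_card]
    exact iff_of_true (all_sf hr e fun h => ⟨hg rfl (ord_eq_one_iff.1 (e ▸ ord_eq_one_iff.2 h)),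
      fun h => absurd h hr2⟩) (Or.inl rfl)
  rw [or_iff_right hrk]
  have h4 := h1 hrk
  have h5 : orderOf (Nat.card F₀ : ZMod r) ∣ r - 1 := Dvd.intro_left _ (natDegree_cycT hr').2
  have h7 : orderOf (Nat.card F₀ : ZMod r) ≠ 0 := by
    intro e; rw [e, zero_dvd_iff] at h5; have := hp.two_le; omega
  have h8 : orderOf (Nat.card F : ZMod r) * k = orderOf (Nat.card F₀ : ZMod r) := by
    rw [hq, Nat.cast_pow, orderOf_pow' _ hk.ne_zero, Nat.gcd_eq_right h4, Nat.div_mul_cancel h4]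
  have h9 : ¬r ∣ Nat.card F₀ - 1 := fun h => by
    rw [ord_eq_one_iff.2 h, Nat.dvd_one] at h4; exact hk.ne_one h4
  have hv : k = 2 → padicValNat r (Nat.card F - 1) = padicValNat r (Nat.card F₀ + 1) := by
    rintro rfl
    rw [hq, ← Nat.one_pow 2, Nat.sq_sub_sq, padicValNat.mul (by omega) (by omega),
      padicValNat.eq_zero_of_not_dvd h9, add_zero]
  by_cases hi : r ∣ Nat.card F - 1
  swap
  · refine iff_of_false ?_ fun h => hi (dvd_of_one_le_padicValNat ((hv h.1).trans h.2.2.2).ge)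
    rw [forall_po_iff hi fun A a ha h => h.smul ha]
    intro H
    obtain ⟨φ, hφ⟩ := exists_mem_cycT (r := r) hr
    refine (forall_order_iff (V := ι → F) hr fun m => m.prod ∈ lifts F₀.subtype).1 (fun u hu => ?_)
      (Fintype.card ι - orderOf (Nat.card F : ZMod r)) {φ} (by simp) (by simpa) (by simp; omega) |>.elim fun χ hχ => ?_
    · obtain ⟨γ, a1, a2⟩ := (H u hu).sf.norm (by rw [← coe_pow', ← hu, pow_orderOf_eq_one]; rfl) h9
      rwa [eq_one_of_pow hi a1, one_smul, charpoly_eq_prod] at a2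
    · rw [Multiset.prod_add, Multiset.prod_replicate, Multiset.prod_singleton, coe_mapRingHom] at hχ
      obtain ⟨ψ, rfl⟩ : (X - 1) ^ (Fintype.card ι - orderOf (Nat.card F : ZMod r)) ∣ χ :=
        (map_dvd_map' F₀.subtype).1 (by rw [hχ]; simp)
      have a1 : ψ.map F₀.subtype = φ := mul_left_cancel₀ (pow_ne_zero _ (X_sub_C_ne_zero (1 : F))) (by
        simpa using hχ)
      subst a1
      obtain ⟨a2, a3, a4⟩ := mem_cycT.1 hφ
      have a5 := monic_of_injective F₀.subtype.injective a3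
      have a6 := (natDegree_cycT hr').1 ψ (mem_cycT.2 ⟨a5.irreducible_of_irreducible_map _ _ a2, a5,
        (map_dvd_map' F₀.subtype).1 (by rwa [map_cyclotomic])⟩)
      rw [← natDegree_map F₀.subtype, (natDegree_cycT hr).1 _ hφ, ← h8] at a6
      have := hk.two_le
      rw [← h8] at h7
      nlinarith [Nat.pos_of_ne_zero (left_ne_zero_of_mul h7)]
  rw [ord_eq_one_iff.2 hi, one_mul] at h8
  obtain ⟨ζ, hζ⟩ := exists_prim hi
  have h0 : ∀ a : F, a ^ r = 1 → a ≠ 0 := fun a h => ne_zero_pow hp.ne_zero (h ▸ one_ne_zero)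
  have z1 := hζ.ne_one hp.one_lt
  have hd : ∀ ξ : F, ξ ^ r = 1 → ξ ≠ 1 → _ := fun ξ =>
    det_root_iff (dvd_refl (Nat.card F - 1)) (by omega : Fintype.card ι ≠ 0)
  constructor
  · intro H
    have b1 := (noB_of_all hi (fun b => let ⟨a, h⟩ := exists_root h9 b; ⟨a, by simp [← h]⟩) H).1
    have key : ∀ (Λ : Multiset F) (a : F), a ≠ 0 → a ^ Fintype.card ι * Λ.prod = 1 → Λ.card = Fintype.card ι →
        (∀ x ∈ Λ, x ^ r = 1) → ζ ∈ Λ → 1 ∈ Λ → ∃ (γ : F) (f : F → F), γ ^ r = 1 ∧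
          (∀ a, γ * f a = (γ * a) ^ Nat.card F₀) ∧ (∀ a, Λ.count (f a) = Λ.count a) ∧
          (∀ a b, a ^ r = 1 → b ^ r = 1 → f a = a → f b = b → a = b) ∧ Function.Injective f :=
        fun Λ a ha e1 e2 e3 e4 e5 => by
      obtain ⟨u, hu⟩ := exists_lin (V := ι → F) (fun x hx => h0 x (e3 x hx)) (by simpa using e2)
      obtain ⟨g, hg⟩ := exists_smul u ha
      exact exists_tw ((hg ▸ H g (by rw [hg, LinearMap.det_smul, det_linear hu]; simpa using e1)
        (hg ▸ (po_lin hu e3 e4 e5 z1).smul ha)).sf.of_smul ha) h9 hu e3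
    have b2 : ¬padicValNat r (Fintype.card ι) < padicValNat r (Nat.card F - 1) := fun h => by
      obtain ⟨a, a1, a2⟩ := (hd ζ hζ.pow_eq_one z1).2 h
      obtain ⟨γ, f, c1, c2, c3, c4, cf⟩ := key ({ζ} + Multiset.replicate (Fintype.card ι - 1) 1) a
        (ne_zero_pow (ne_zero_of_dvd (F := F) dvd_rfl) (a1 ▸ one_ne_zero)) (by simpa using a2) (by simp; omega)
        (by simp +contextual [Multiset.mem_replicate, or_imp, hζ.pow_eq_one]) (by simp)
        (by simp [Multiset.mem_replicate]; omega)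
      rcases cnt1 cf z1 hn c3 with c | ⟨c8, c9, c7⟩
      · exact z1 (c4 _ _ hζ.pow_eq_one (one_pow r) c.1 c.2)
      · have c10 := c2 1
        have c11 := c2 ζ
        rw [c8, mul_one] at c10
        rw [c9, mul_one, c10, ← pow_mul] at c11
        obtain ⟨j, rfl⟩ := hk.odd_of_ne_two fun e => h3 ⟨c7, e, hi⟩
        have c12 : ∀ j, γ ^ Nat.card F₀ ^ (2 * j) = γ := fun j => by
          induction j with
          | zero => simp
          | succ j ih => rw [mul_add, pow_add, pow_mul γ, ih, mul_one, sq, ← c11]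
        cases nonempty_fintype F
        have c13 := FiniteField.pow_card γ
        rw [← Nat.card_eq_fintype_card, hq, pow_succ, pow_mul γ, c12, ← c10] at c13
        exact z1 (mul_left_cancel₀ (h0 _ c1) (c13.trans (mul_one γ).symm))
    have b3 := one_le_padicValNat_of_dvd (ne_zero_of_dvd (F := F) dvd_rfl) hi
    have b4 : r ∣ Fintype.card ι := dvd_of_one_le_padicValNat (by omega)
    have b5 : Fintype.card ι = 3 ∨ Fintype.card ι = 5 := by
      by_contra h
      have b6 : 6 ≤ Fintype.card ι := by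
        by_contra h'
        have : Fintype.card ι = 2 ^ 1 ∨ Fintype.card ι = 2 ^ 2 := by omega
        rcases this with e | e <;>
          exact hr2 ((Nat.prime_dvd_prime_iff_eq hp Nat.prime_two).1 (hp.dvd_of_dvd_pow (e ▸ b4)))
      obtain ⟨γ, f, -, -, c3, c4, -⟩ := key ({ζ, ζ, ζ⁻¹ ^ 2} + Multiset.replicate (Fintype.card ι - 3) 1) 1
        one_ne_zero (by have := h0 _ hζ.pow_eq_one; simp; field_simp) (by simp; omega)
        (by simp +contextual [Multiset.mem_replicate, or_imp, hζ.pow_eq_one, pow_right_comm ζ 2 r]) (by simp)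
        (by simp [Multiset.mem_replicate]; omega)
      have z2 : ζ⁻¹ ^ 2 ≠ 1 := fun e => hr2 ((Nat.prime_dvd_prime_iff_eq hp Nat.prime_two).1
        (hζ.dvd_of_pow_eq_one _ (by simpa using e)))
      have z3 : Fintype.card ι = 6 → ζ⁻¹ ^ 2 ≠ ζ := fun e e' => h6 ⟨e,
        (Nat.prime_dvd_prime_iff_eq hp Nat.prime_three).1 (hζ.dvd_of_pow_eq_one _ (by
          have := h0 _ hζ.pow_eq_one; field_simp at e'; exact e'.symm))⟩
      have c := cnt2 z1 z2 b6 z3 c3
      exact z1 (c4 _ _ hζ.pow_eq_one (one_pow r) c.1 c.2)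
    have b6 : r = Fintype.card ι := (Nat.prime_dvd_prime_iff_eq hp (by
      rcases b5 with h | h <;> rw [h] <;> norm_num)).1 b4
    have b7 : k = 2 := (Nat.prime_dvd_prime_iff_eq hk Nat.prime_two).1 (hk.dvd_of_dvd_pow (n := 2) ((h4.trans h5).trans
      (by rcases b5 with h | h <;> rw [b6, h] <;> norm_num)))
    rw [← b6, padicValNat_self] at b1 b2
    exact ⟨b7, b6, b5, by rw [← hv b7]; omega⟩
  · rintro ⟨rfl, b1, b2, b3⟩ g b4 b5
    rw [← hv rfl] at b3
    rcases po_cases b5 b4 with ⟨a, u, ha, hu, -, hg⟩ | ⟨-, h, -⟩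
    swap
    · exact absurd ⟨by simp [← b1, b3], fun h => absurd h hr2⟩ h
    refine sf1_ss ?_ (b5.isSS hr)
    obtain ⟨Λ, h10, h11⟩ := exists_lin_of_pow hi hu
    rw [hg, LinearMap.det_smul, det_linear h10, finrank_fintype_fun_eq_card] at b4
    have h12 : Λ.prod = 1 := by_contra fun h => by
      have := (hd _ (by
        rw [← Multiset.map_id Λ, ← Multiset.prod_map_pow]
        exact Multiset.prod_eq_one (by simpa using h11)) h).1 ⟨a, pow_card_sub_one ha, b4⟩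
      rw [← b1, padicValNat_self] at this; omega
    have := NeZero.mk hp.ne_zero
    let φ : ZMod r → F := fun j => ζ ^ j.val
    have a1 : ∀ x y, φ (x + y) = φ x * φ y := fun x y => by
      simp only [φ, ZMod.val_add, ← pow_eq_pow_mod _ hζ.pow_eq_one, pow_add]
    have a2 : ∀ x, φ x ^ r = 1 := fun x => by
      rw [← pow_mul, mul_comm, pow_mul, hζ.pow_eq_one, one_pow]
    have a3 : ∀ x, φ (-x) = φ x ^ Nat.card F₀ := fun x => by
      obtain ⟨t, ht⟩ := (ord_eq_two hr2).1 h8.symm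
      refine mul_right_cancel₀ (h0 _ (a2 x)) ?_
      rw [← a1, ← pow_succ, ht, pow_mul, a2]; simp [φ]
    obtain ⟨M, rfl⟩ : ∃ M : Multiset (ZMod r), M.map φ = Λ := by
      choose! ψ hψ using fun a (h : a ^ r = 1) => hζ.eq_pow_of_pow_eq_one h
      exact ⟨Λ.map fun a => ψ a, by
        rw [Multiset.map_map]
        refine (Multiset.map_congr rfl fun a ha => ?_).trans (Multiset.map_id _)
        simp only [φ, Function.comp, ZMod.val_cast_of_lt (hψ a (h11 a ha)).1, (hψ a (h11 a ha)).2, id]⟩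
    have a4 : ∀ M : Multiset (ZMod r), (M.map φ).prod = φ M.sum := fun M => by
      induction M using Multiset.induction <;> simp_all [φ]
    have a5 := dg_lin.symm.trans (h10 ▸ dg_edivs _)
    obtain ⟨j, hj⟩ := sym_zmod (b1 ▸ b2) M (by simpa [b1] using a5) ((ZMod.val_eq_zero _).1
      (Nat.eq_zero_of_dvd_of_lt (hζ.dvd_of_pow_eq_one _ ((a4 M).symm.trans h12)) (ZMod.val_lt _)))
    rw [hg]
    refine (SF.of_smul (sf_of_lifts hr ?_ ?_) (h0 _ (a2 j))).smul ha
    · rw [_root_.smul_pow, a2, one_smul, ← coe_pow', ← hu, pow_orderOf_eq_one]; rfl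
    · rw [charpoly_eq_prod, edivs_smul_lin h10 (h0 _ (a2 j)), lifts_lin]
      simpa [← a1, ← a3] using congrArg (Multiset.map φ) hj

end CA.El
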