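/-
Elements of prime order of classical groups and tensor decompositions.
-/
import Cfsg.Agent.Lib.Lin.El18

set_option linter.unusedSectionVars false

namespace CA.El
open Module Polynomial CA.Rcf CA.CForm CA.CForm.Form
open scoped Kronecker

variable {F : Type*} [Field F] {κ ν : Type} [Fintype κ] [DecidableEq κ] [Fintype ν] [DecidableEq ν]
  {V : Type*} [AddCommGroup V] [Module F V] {A : Matrix κ κ F} {B : Matrix ν ν F} {x : End F V} {r : ℕ}

theorem exists_vec (h : ∀ c : F, x ≠ c • 1) : ∃ (v : V) (φ : V →ₗ[F] F), φ v = 0 ∧ φ (x v) = 1 := by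
  obtain ⟨v, hv⟩ := not_forall_not.1 (mt LinearMap.exists_eq_smul_id_of_forall_notLinearIndependent
    (not_exists.2 h))
  obtain ⟨φ, h1, h2⟩ := Submodule.exists_le_ker_of_notMem (p := F ∙ v) (v := x v) fun e => by
    obtain ⟨a, ha⟩ := Submodule.mem_span_singleton.1 e
    simpa using (LinearIndependent.pair_iff.1 hv a (-1) (by simp [ha])).2
  exact ⟨v, (φ (x v))⁻¹ • φ, by simp [LinearMap.mem_ker.1 (h2 (Submodule.mem_span_singleton_self v))],
    by simp [h1]⟩

/-- pure tensors -/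
def tv : (κ → F) →ₗ[F] (ν → F) →ₗ[F] (κ × ν → F) :=
  LinearMap.mk₂ F (fun u w p => u p.1 * w p.2) (fun _ _ _ => by ext; simp [add_mul])
    (fun _ _ _ => by ext; simp [mul_assoc]) (fun _ _ _ => by ext; simp [mul_add])
    (fun _ _ _ => by ext; simp [mul_left_comm])

theorem kron_tv (u : κ → F) (w : ν → F) :
    Matrix.toLin' (A ⊗ₖ B) (tv u w) = tv (Matrix.toLin' A u) (Matrix.toLin' B w) := by
  ext p
  simp [tv, Matrix.mulVec, dotProduct, Fintype.sum_prod_type, Finset.sum_mul_sum, mul_mul_mul_comm]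

theorem rank_kron (hA : A.det ≠ 0) (hB : B.det ≠ 0) (h1 : ∀ c : F, Matrix.toLin' A ≠ c • 1)
    (h2 : ∀ c : F, Matrix.toLin' B ≠ c • 1) (c : F) : Fintype.card κ + Fintype.card ν ≤
      finrank F (LinearMap.range (Matrix.toLin' (A ⊗ₖ B) - c • 1)) + 2 := by
  obtain ⟨u, ψ, a1, a2⟩ := exists_vec h1
  obtain ⟨v, φ, b1, b2⟩ := exists_vec h2
  let Φ : ((κ → F) × (ν → F)) →ₗ[F] (κ × ν → F) := (tv.flip v).coprod (tv u)
  have := LinearMap.finrank_le_finrank_of_injective (f := ((Matrix.toLin' (A ⊗ₖ B) - c • 1).rangeRestrict ∘ₗ Φ).prod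
    ((ψ ∘ₗ Matrix.toLin' A ∘ₗ LinearMap.fst F _ _).prod (ψ ∘ₗ LinearMap.fst F _ _)))
    ((injective_iff_map_eq_zero _).2 fun ⟨s, w⟩ h => ?_)
  · simpa using this
  have e1 : tv (A.mulVec s) (B.mulVec v) + tv (A.mulVec u) (B.mulVec w) - c • (tv s v + tv u w) = 0 := by
    have : Matrix.toLin' (A ⊗ₖ B) (tv s v + tv u w) - c • (tv s v + tv u w) = 0 := congrArg (fun z => z.1.1) h
    rwa [map_add, kron_tv, kron_tv] at this
  have e2 : ψ (A.mulVec s) = 0 := congrArg (fun z => z.2.1) h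
  have e3 : ψ s = 0 := congrArg (fun z => z.2.2) h
  have k1 : ∀ (s : κ → F) (w : ν → F) (j : ν), ψ (fun i => tv s w (i, j)) = ψ s * w j := fun s w j => by
    rw [mul_comm, ← smul_eq_mul, ← map_smul]; congr 1; ext i; exact mul_comm _ _
  have k2 : ∀ (s : κ → F) (w : ν → F) (i : κ), φ (fun j => tv s w (i, j)) = s i * φ w := fun s w i => by
    rw [← smul_eq_mul, ← map_smul]; rfl
  have e4 : w = 0 := Matrix.eq_zero_of_mulVec_eq_zero hB (funext fun j => by
    have := congrArg (fun z : κ × ν → F => ψ fun i => z (i, j)) e1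
    change ψ ((fun i => _) + (fun i => _) - c • ((fun i => _) + fun i => _)) = ψ 0 at this
    simpa [k1, e2, e3, a1, show ψ (A.mulVec u) = 1 from a2] using this)
  subst e4
  have e5 : s = 0 := Matrix.eq_zero_of_mulVec_eq_zero hA (funext fun i => by
    have := congrArg (fun z : κ × ν → F => φ fun j => z (i, j)) e1
    change φ ((fun j => _) + (fun j => _) - c • ((fun j => _) + fun j => _)) = φ 0 at this
    simpa [k2, b1, show φ (B.mulVec v) = 1 from b2, show φ (fun _ => 0) = 0 from map_zero φ] using this)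
  rw [e5]; rfl

theorem sim_kron_swap : Sim (Matrix.toLin' (A ⊗ₖ B)) (Matrix.toLin' (B ⊗ₖ A)) := by
  have := sim_reindex (Equiv.prodComm ν κ) (B ⊗ₖ A)
  rwa [show Matrix.reindex _ _ (B ⊗ₖ A) = A ⊗ₖ B from Matrix.ext fun _ _ => mul_comm _ _] at this

theorem edivs_one_kron : edivs (Matrix.toLin' ((1 : Matrix κ κ F) ⊗ₖ B)) = Fintype.card κ • edivs (Matrix.toLin' B) := by
  have h : Sim (Matrix.toLin' ((1 : Matrix κ κ F) ⊗ₖ B)) (LinearMap.piMap fun _ : κ => Matrix.toLin' B) :=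
    ⟨LinearEquiv.curry F F κ ν, fun v => by
      ext i j
      simp [Matrix.mulVec, dotProduct, Fintype.sum_prod_type, Matrix.one_apply]⟩
  refine eq_of_sum_kd (fun _ => isPrim_of_mem_edivs) (fun _ h => isPrim_of_mem_edivs (Multiset.mem_of_mem_nsmul h))
    fun p _ _ k => ?_
  rw [← finrank_ker_aeval, (h.aeval _).finrank_ker, aeval_piMap, finrank_ker_piMap, finrank_ker_aeval,
    Multiset.map_nsmul, Multiset.sum_nsmul]
  simp

theorem edivs_kron_one : edivs (Matrix.toLin' (A ⊗ₖ (1 : Matrix ν ν F))) = Fintype.card ν • edivs (Matrix.toLin' A) := by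
  rw [sim_iff_edivs.1 sim_kron_swap, edivs_one_kron]

theorem kron_pow (n : ℕ) : (A ⊗ₖ B) ^ n = (A ^ n) ⊗ₖ (B ^ n) := by
  induction n with
  | zero => simp
  | succ n ih => rw [pow_succ, ih, pow_succ, pow_succ, Matrix.mul_kronecker_mul]

theorem scalar_of_kron [Nonempty κ] [Nonempty ν] (h : A ⊗ₖ B = 1) : ∃ c : F, c ≠ 0 ∧ A = c • 1 := by
  obtain ⟨i⟩ := ‹Nonempty κ›
  obtain ⟨j⟩ := ‹Nonempty ν›
  have h1 : ∀ k l, A k l * B j j = (1 : Matrix κ κ F) k l := fun k l => by
    simpa [Matrix.one_apply] using congrFun (congrFun h (k, j)) (l, j)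
  have h2 : B j j ≠ 0 := fun e => by simpa [e] using h1 i i
  exact ⟨(B j j)⁻¹, inv_ne_zero h2, Matrix.ext fun k l => by
    rw [Matrix.smul_apply, ← h1, smul_eq_mul]; field_simp⟩

variable [FiniteDimensional F V]

theorem count_le_ker [DecidableEq F[X]] (c : F) :
    (edivs x).count (X - C c) ≤ finrank F (LinearMap.ker (x - c • 1)) := by
  obtain ⟨m, hm⟩ := Multiset.le_iff_exists_add.1 (Multiset.le_count_iff_replicate_le.1
    (le_refl ((edivs x).count (X - C c))))
  have := finrank_ker_aeval x (X - C c)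
  rw [hm, map_sub, aeval_X, aeval_C, Algebra.algebraMap_eq_smul_one] at this
  rw [this]
  simp [kd_of_dvd (X_sub_C_ne_zero c) dvd_rfl]

variable (κ ν) in
/-- similar to a Kronecker product -/
def TN (x : End F V) : Prop := ∃ (A : Matrix κ κ F) (B : Matrix ν ν F), A.det ≠ 0 ∧ B.det ≠ 0 ∧
  Sim x (Matrix.toLin' (A ⊗ₖ B))

theorem TN.smul (h : TN κ ν x) {c : F} (hc : c ≠ 0) : TN κ ν (c • x) :=
  let ⟨A, B, h1, h2, h3⟩ := h
  ⟨c • A, B, by simp [h1, hc], h2, by rw [Matrix.smul_kronecker, map_smul]; exact sim_smul h3 c⟩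

theorem kron_cases [DecidableEq F[X]] (hA : A.det ≠ 0) (hB : B.det ≠ 0) (h : Sim x (Matrix.toLin' (A ⊗ₖ B)))
    {d : F[X]} (h1 : ¬Fintype.card κ ∣ (edivs x).count d) (h2 : ¬Fintype.card ν ∣ (edivs x).count d) :
    (∀ c : F, Matrix.toLin' A ≠ c • 1) ∧
      ∀ c : F, Fintype.card κ + Fintype.card ν + (edivs x).count (X - C c) ≤ finrank F V + 2 := by
  have h3 : ∀ c : F, Matrix.toLin' A ≠ c • 1 := fun c e => h1 (by
    rw [sim_iff_edivs.1 h, toLin'_eq_smul_iff.1 e, Matrix.smul_kronecker, ← Matrix.kronecker_smul, edivs_one_kron,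
      Multiset.count_nsmul]
    exact dvd_mul_right _ _)
  have h4 : ∀ c : F, Matrix.toLin' B ≠ c • 1 := fun c e => h2 (by
    rw [sim_iff_edivs.1 h, toLin'_eq_smul_iff.1 e, Matrix.kronecker_smul, ← Matrix.smul_kronecker, edivs_kron_one,
      Multiset.count_nsmul]
    exact dvd_mul_right _ _)
  refine ⟨h3, fun c => ?_⟩
  have h5 := rank_kron hA hB h3 h4 c
  have h6 := (Matrix.toLin' (A ⊗ₖ B) - c • 1).finrank_range_add_finrank_ker
  have h7 := count_le_ker (x := Matrix.toLin' (A ⊗ₖ B)) c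
  rw [sim_iff_edivs.1 h, h.finrank_eq]
  omega

theorem TN.dvd [DecidableEq F[X]] (h : TN κ ν x) (ha : 2 ≤ Fintype.card κ) (hb : 3 ≤ Fintype.card ν) {c : F}
    (h1 : finrank F V ≤ (edivs x).count (X - C c) + 2) (d : F[X]) :
    Fintype.card κ ∣ (edivs x).count d ∨ Fintype.card ν ∣ (edivs x).count d := by
  obtain ⟨A, B, h2, h3, h4⟩ := h
  by_contra h5
  have := (kron_cases h2 h3 h4 (not_or.1 h5).1 (not_or.1 h5).2).2 c
  omega

theorem TN.not_unip (h : TN κ ν x) (ha : 2 ≤ Fintype.card κ) (hb : 3 ≤ Fintype.card ν) :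
    edivs x ≠ (2 ::ₘ Multiset.replicate (finrank F V - 2) 1).map fun i => (X - 1 : F[X]) ^ i := fun e => by
  classical
  have h1 := fun i => e ▸ Multiset.count_map_eq_count' _ (2 ::ₘ Multiset.replicate (finrank F V - 2) 1) unip_inj i
  have h2 := h1 1
  have := h.dvd ha hb (c := 1) (by simp at h2; simp [h2]; omega) ((X - 1) ^ 2)
  rw [h1 2] at this
  simp [Multiset.count_replicate] at this
  omega

theorem TN.two [DecidableEq F] (h : TN κ ν x) (ha : 2 ≤ Fintype.card κ) (hb : 3 ≤ Fintype.card ν) {ζ : F} (h1 : ζ ≠ 1)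
    (e : edivs x = lin ({ζ, ζ⁻¹} + Multiset.replicate (finrank F V - 2) 1)) : Fintype.card κ = 2 ∧ ζ = ζ⁻¹ := by
  classical
  have := h.dvd ha hb (c := 1) (by
    rw [e, count_lin, Multiset.count_add, Multiset.count_replicate_self]; omega) (X - C ζ)
  rw [e, count_lin] at this
  simp only [Multiset.insert_eq_cons, Multiset.count_add, Multiset.count_cons_self, Multiset.count_singleton,
    Multiset.count_replicate, if_neg h1.symm] at this
  split_ifs at this with h2
  · exact ⟨by rcases this with h | h <;> have := Nat.le_of_dvd two_pos h <;> omega, h2⟩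
  · simp at this; omega

theorem conj_SL {ι : Type} [Fintype ι] [DecidableEq ι] [Finite F] [Nonempty ι] {x y : GL ι F}
    (hs : IsSS (Matrix.toLin' x.1)) (h : Sim (Matrix.toLin' x.1) (Matrix.toLin' y.1)) :
    ∃ g ∈ Cfsg.Geo.specialLinear ι F, g⁻¹ * x * g = y := by
  obtain ⟨c, rfl⟩ := isConj_iff.1 (isConj_GL_iff.2 h)
  obtain ⟨T, h1, h2⟩ := hs.exists_commute_det (by simp) (glEquiv c).isUnit_det'.ne_zero
  obtain ⟨T, rfl⟩ := glEquiv.surjective T
  have h3 : T * x = x * T := glEquiv.injective (by rw [map_mul, map_mul]; exact LinearEquiv.ext h1)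
  refine ⟨T * c⁻¹, mem_SL.2 ?_, by rw [mul_inv_rev, inv_inv, mul_assoc c, mul_assoc c, ← mul_assoc _ T,
    mul_assoc T⁻¹, ← h3, inv_mul_cancel_left, mul_assoc]⟩
  rw [map_mul, LinearEquiv.coe_toLinearMap_mul, map_mul, h2, ← map_mul, ← LinearEquiv.coe_toLinearMap_mul, ← map_mul,
    mul_inv_cancel, map_one]
  exact map_one _

theorem sim_tr {ι : Type} [Fintype ι] [DecidableEq ι] (e : ι ≃ κ) (P : GL ι F) (M : Matrix κ κ F) :
    Sim (Matrix.toLin' M) (Matrix.toLin' (CA.AschKron.tr e P M)) :=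
  ⟨CA.AschKron.trv e P, fun v => (CA.AschKron.tr_mulVec e P M v).symm⟩

variable [Finite F] [Fact r.Prime]

theorem ord_le (hr : (r : F) ≠ 0) {u : V ≃ₗ[F] V} (hu : orderOf u = r) :
    orderOf (Nat.card F : ZMod r) ≤ finrank F V := by
  obtain ⟨j, m, h1, h2, h3⟩ := (orderOf_eq_prime_iff hr u).1 hu
  rw [finrank_eq_of_edivs hr h2 h3]
  exact le_add_left (Nat.le_mul_of_pos_right _ (Multiset.card_pos.2 h1))

theorem tens_iff {ι : Type} [Fintype ι] [DecidableEq ι] [Nonempty ι] {a b : ℕ} (e : ι ≃ Fin a × Fin b) (P : GL ι F)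
    {X : Prop} (h1 : (∀ g : (ι → F) ≃ₗ[F] (ι → F), LinearMap.det g.1 = 1 → PO r g.1 → TN (Fin a) (Fin b) g.1) ↔ X)
    (h2 : X → (r : F) ≠ 0) :
    (∀ x ∈ Cfsg.Geo.specialLinear ι F, (∃ z : F, (x ^ r).1 = z • 1) → (∀ z : F, x.1 ≠ z • 1) →
      ∃ g ∈ Cfsg.Geo.specialLinear ι F, g⁻¹ * x * g ∈ Cfsg.Geo.tensorProductSubgroup a b e P) ↔ X := by
  refine ⟨fun H => h1.1 fun g h3 h4 => ?_, fun hX x h3 h4 h5 => ?_⟩
  · obtain ⟨x, rfl⟩ := glEquiv.surjective g
    have h5 := po_toLin'.1 h4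
    obtain ⟨y, -, h6⟩ := H x (mem_SL.2 h3) (by simpa using h5.1) h5.2
    obtain ⟨A, B, h7⟩ := (CA.AschKron.mem_tensorProductSubgroup_iff _ _ _).1 h6
    exact ⟨A, B, A.det_ne_zero, B.det_ne_zero, (isConj_GL_iff.1 (isConj_iff.2 ⟨y⁻¹, by simp⟩)).trans
      (h7 ▸ (sim_tr e P _).symm)⟩
  · have h6 : PO r (glEquiv x).1 := po_toLin'.2 ⟨by simpa using h4, h5⟩
    obtain ⟨A, B, h7, h8, h9⟩ := h1.2 hX _ (mem_SL.1 h3) h6
    obtain ⟨g, h10, h11⟩ := conj_SL (y := CA.AschKron.trGL e P (Matrix.GeneralLinearGroup.mkOfDetNeZero (A ⊗ₖ B)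
      (by simp [Matrix.det_kronecker, h7, h8]))) (h6.isSS (h2 hX)) (h9.trans (sim_tr e P _))
    exact ⟨g, h10, h11 ▸ (CA.AschKron.mem_tensorProductSubgroup_iff _ _ _).2
      ⟨.mkOfDetNeZero A h7, .mkOfDetNeZero B h8, rfl⟩⟩

omit [Fact r.Prime] in
theorem exists_half {s t : ℕ} (h : s + t = 2 * Fintype.card ν) (ht : Even t) : ∃ s' t', s' + t' = Fintype.card ν ∧
    lin (Multiset.replicate s (1 : F) + Multiset.replicate t (-1)) =
      2 • lin (Multiset.replicate s' (1 : F) + Multiset.replicate t' (-1)) := by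
  obtain ⟨t, rfl⟩ := ht
  obtain ⟨s, rfl⟩ : ∃ s', s = s' + s' := ⟨s / 2, by omega⟩
  exact ⟨s, t, by omega, by
    rw [two_smul, ← lin_add, Multiset.replicate_add, Multiset.replicate_add, add_add_add_comm]⟩

theorem tens_main (ha : 2 ≤ Fintype.card κ) (hb : Fintype.card κ < Fintype.card ν)
    (hn : finrank F V = Fintype.card κ * Fintype.card ν)
    (hΩ : (r : F) ≠ 0 → orderOf (Nat.card F : ZMod r) ≤ finrank F V) :
    (∀ g : V ≃ₗ[F] V, LinearMap.det g.1 = 1 → PO r g.1 → TN κ ν g.1) ↔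
      (r = 2 ∧ Fintype.card κ = 2 ∧ Odd (Nat.card F) ∧
        padicValNat 2 (Nat.card F - 1) ≤ padicValNat 2 (finrank F V)) := by
  classical
  have hp : r.Prime := Fact.out
  have h6 : 2 * 3 ≤ finrank F V := hn ▸ Nat.mul_le_mul ha (by omega)
  have : Nonempty κ := Fintype.card_pos_iff.1 (by omega)
  have : Nonempty ν := Fintype.card_pos_iff.1 (by omega)
  by_cases hi : r ∣ Nat.card F - 1
  swap
  · refine iff_of_false (fun H => ?_) fun h => hi (by
      obtain ⟨t, ht⟩ := h.2.2.1; rw [h.1, ht]; simp)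
    by_cases hr : (r : F) = 0
    · have := (CharP.charP_iff_prime_eq_zero (R := F) hp).2 hr
      obtain ⟨u, h1, h2⟩ := exists_unip (F := F) (V := V) (μ := 2 ::ₘ Multiset.replicate (finrank F V - 2) 1)
        (by simp [Multiset.mem_replicate]) (by simp; omega)
      have h3 := det_po_of_order hi ((orderOf_eq_char_iff r u).2 ⟨h1, by
        have := hp.two_le
        rw [h2]; simp [Multiset.mem_replicate]; omega⟩)
      exact (H u h3.1 h3.2).not_unip ha (by omega) (h2 ▸ edivs_eq_map_jt h1)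
    obtain ⟨φ, hφ⟩ := exists_mem_cycT (r := r) hr
    obtain ⟨u, hu⟩ := exists_equiv_cycT (V := V) hr (m := {φ}) (by simpa)
      (k := finrank F V - orderOf (Nat.card F : ZMod r)) (by have := hΩ hr; simp; omega)
    have h1 := (orderOf_eq_prime_iff hr u).2 ⟨_, _, by simp, by simpa, hu⟩
    have h2 := det_po_of_order hi h1
    obtain ⟨A, B, h3, h4, h5⟩ := H u h2.1 h2.2
    have h7 : (edivs u.1).count φ = 1 := by
      rw [hu, Multiset.count_add, Multiset.count_replicate,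
        if_neg fun e : X - 1 = φ => X_sub_one_notMem_cycT hr (e ▸ hφ)]; simp
    obtain ⟨h8, h9⟩ := kron_cases h3 h4 h5 (d := φ) (by rw [h7, Nat.dvd_one]; omega) (by rw [h7, Nat.dvd_one]; omega)
    have h10 := h9 1
    rw [hu, Multiset.count_add, C_1, Multiset.count_replicate_self] at h10
    obtain ⟨c, -, h11⟩ := scalar_of_kron ((kron_pow r).symm.trans ((toLin'_eq_smul_iff.1 ((Matrix.toLin'_pow _ _).trans
      (sim_pow (c := 1) h5 (by rw [← coe_pow', ← h1, pow_orderOf_eq_one, one_smul]; rfl)))).trans (one_smul _ _)))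
    obtain ⟨s, rfl⟩ := exists_root hi c
    obtain ⟨-, w, h12, -⟩ := PO.typeA (g := glEquiv (.mkOfDetNeZero A h3)) (po_toLin'.2
      ⟨⟨_, h11⟩, fun c e => h8 c (toLin'_eq_smul_iff.2 e)⟩) (a := s)
      ((Matrix.toLin'_pow _ _).symm.trans (toLin'_eq_smul_iff.2 h11))
    have := ord_le hr h12
    have := hΩ hr
    simp only [finrank_fintype_fun_eq_card] at *
    omega
  obtain ⟨ζ, hζ⟩ := exists_prim hi
  have h0 := hζ.ne_zero hp.ne_zero
  have z1 := hζ.ne_one hp.one_lt
  have hd := det_root_iff (dvd_refl (Nat.card F - 1)) (by omega : finrank F V ≠ 0) hζ.pow_eq_one z1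
  have hr := natCast_ne_zero_of_dvd (F := F) one_ne_zero (by simpa using hi)
  constructor
  · intro H
    have b1 : ¬padicValNat r (finrank F V) < padicValNat r (Nat.card F - 1) := fun h => by
      obtain ⟨a, a1, a2⟩ := hd.2 h
      have a3 := ne_zero_pow (ne_zero_of_dvd (F := F) dvd_rfl) (a1 ▸ one_ne_zero)
      have a4 : a * ζ ≠ a := by simpa [a3] using z1
      obtain ⟨u, hu⟩ := exists_lin (V := V) (Λ := {a * ζ} + Multiset.replicate (finrank F V - 1) a)
        (by simp +contextual [Multiset.mem_replicate, or_imp, a3, h0]) (by simp; omega)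
      have := (H u (by
        rw [det_linear hu, ← a2, show finrank F V = finrank F V - 1 + 1 by omega]; simp; ring)
        (po_lin hu (c := a ^ r) (by simp +contextual [Multiset.mem_replicate, or_imp, mul_pow, hζ.pow_eq_one])
          (by simp) (by simp [Multiset.mem_replicate]; omega) a4)).dvd ha (by omega) (c := a)
        (by rw [hu, count_lin, Multiset.count_add, Multiset.count_replicate_self]; omega) (X - C (a * ζ))
      rw [hu, count_lin] at this
      simp [Multiset.count_replicate, a4.symm] at this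
      omega
    obtain ⟨u, hu⟩ := exists_lin (V := V) (Λ := {ζ, ζ⁻¹} + Multiset.replicate (finrank F V - 2) 1)
      (by simp +contextual [Multiset.mem_replicate, or_imp, h0]) (by simp; omega)
    obtain ⟨b2, b3⟩ := (H u (by rw [det_linear hu]; simp [h0]) (po_lin hu (c := 1)
      (by simp +contextual [Multiset.mem_replicate, or_imp, hζ.pow_eq_one]) (by simp)
      (by simp [Multiset.mem_replicate]; omega) z1)).two ha (by omega) z1 hu
    obtain rfl := (Nat.prime_dvd_prime_iff_eq hp Nat.prime_two).1 (hζ.dvd_of_pow_eq_one 2 (by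
      rw [sq]; exact (mul_eq_one_iff_eq_inv₀ h0).2 b3))
    exact ⟨rfl, b2, Nat.odd_iff.2 (card_odd hr), not_lt.1 b1⟩
  · rintro ⟨rfl, b1, -, b2⟩ g b3 b4
    rcases po_cases b4 b3 with ⟨a, u, ha, hu, -, hg⟩ | ⟨-, -, c, h1, h2⟩
    · obtain ⟨s, t, h1⟩ := edivs_sq hr (T := u.1) one_ne_zero
        (by rw [← coe_pow', ← hu, pow_orderOf_eq_one, one_pow, one_smul]; rfl)
      have h2 : edivs u.1 = lin (Multiset.replicate s 1 + Multiset.replicate t (-1)) := by simp [h1, lin]
      have h3 := dg_lin.symm.trans (h2 ▸ dg_edivs _)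
      rw [hg, LinearMap.det_smul, det_linear h2] at b3
      obtain ⟨s', t', h4, h5⟩ := exists_half (F := F) (ν := ν) (s := s) (t := t) (by simpa [hn, b1] using h3)
        (by_contra fun h => not_lt.2 b2 (hd.1 ⟨a, pow_card_sub_one ha, by
          simpa [(Nat.not_even_iff_odd.1 h).neg_one_pow, hζ.eq_neg_one_of_two_right] using b3⟩))
      obtain ⟨w, hw⟩ := exists_lin (V := ν → F) (Λ := Multiset.replicate s' (1 : F) + Multiset.replicate t' (-1))
        (by simp +contextual [Multiset.mem_replicate, or_imp]) (by simpa)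
      obtain ⟨w, rfl⟩ := glEquiv.surjective w
      rw [hg]
      exact TN.smul ⟨1, w, by simp, w.det_ne_zero, sim_iff_edivs.2 (by rw [edivs_one_kron, h2, h5, b1, ← hw]; rfl)⟩ ha
    · obtain ⟨w, -, h3, -⟩ := exists_typeB (V := κ → F) h1 (by simp [b1]) (by simp [b1])
      obtain ⟨w, rfl⟩ := glEquiv.surjective w
      refine ⟨w, 1, w.det_ne_zero, by simp, sim_iff_edivs.2 ?_⟩
      rw [(edivs_typeB h2 h1).2, (edivs_typeB (A := Matrix.toLin' (w.1 ⊗ₖ (1 : Matrix ν ν F))) (r := 2) (by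
        rw [← Matrix.toLin'_pow, kron_pow, toLin'_eq_smul_iff.1 ((Matrix.toLin'_pow _ _).trans h3), one_pow,
          Matrix.smul_kronecker, Matrix.one_kronecker_one, toLin'_eq_smul_iff]) h1).2, hn]
      simp

section Symp
variable {f : Form (Kind.symp F) V} {p : Form (Kind.symp F) (κ → F)}

theorem unit_le (hr : (r : F) ≠ 0) (hr2 : r ≠ 2) (hf : f.Nondeg) {u : f.Isom} (hu : orderOf u = r) :
    orderOf (Nat.card F : ZMod r) * (if Even (orderOf (Nat.card F : ZMod r)) then 1 else 2) ≤ finrank F V := by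
  obtain ⟨j, m, h1, h2, h3⟩ := (orderOf_eq_prime_iff hr u.1).1 (by rwa [Subgroup.orderOf_coe])
  obtain ⟨h4, h5⟩ := (hf.symp_cycT_iff hr hr2 h2).1 ⟨u, j, h3⟩
  have hU := unif_id (k := Kind.symp F) hr hr2 rfl
  obtain ⟨m₀, -, rfl⟩ := hU.exists_un h2 h4
  rw [hU.card_un] at h5
  refine (Nat.mul_le_mul_left _ (Nat.le_mul_of_pos_right _ (Multiset.card_pos.2 ?_))).trans h5
  rintro rfl
  exact h1 (Multiset.card_eq_zero.1 (by rw [hU.card_un]; rfl))

theorem symp_tens_neg (hf : f.Nondeg) (hp : p.Nondeg) (h2 : (2 : F) ≠ 0) (ha : 2 ≤ Fintype.card κ)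
    (hb : 3 ≤ Fintype.card ν) (hn : finrank F V = Fintype.card κ * Fintype.card ν) (hΩ : r ∣ Nat.card f.Isom)
    (H : ∀ u : f.Isom, PO r u.1.1 → ∃ (A : Matrix κ κ F) (B : Matrix ν ν F) (μ : F), A.det ≠ 0 ∧ B.det ≠ 0 ∧
      Sim u.1.1 (Matrix.toLin' (A ⊗ₖ B)) ∧ SimB p (Matrix.toLin' A) μ) : r = 2 ∧ Fintype.card κ = 2 := by
  classical
  have hr' : r.Prime := Fact.out
  have h6 : 2 * 3 ≤ finrank F V := hn ▸ Nat.mul_le_mul ha hb
  have : Nonempty κ := Fintype.card_pos_iff.1 (by omega)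
  have : Nonempty ν := Fintype.card_pos_iff.1 (by omega)
  have H' : ∀ u : f.Isom, PO r u.1.1 → TN κ ν u.1.1 := fun u hu =>
    let ⟨A, B, _, h1, h2, h3, _⟩ := H u hu; ⟨A, B, h1, h2, h3⟩
  have he := Nat.even_iff.1 hf.symp_even
  by_cases hr2 : r = 2
  · subst hr2
    obtain ⟨p', hp'⟩ := exists_symp_compl hf (sympStd_nondeg F 1) (n := finrank F V - 2) (by simp; omega)
    obtain ⟨g, hg⟩ := exists_pm ((Equivalent.prod_comm _ _).trans hp')
    have h3 : (-1 : F) ≠ 1 := fun e => h2 (by linear_combination -e)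
    refine ⟨rfl, ((H' g (po_lin hg (c := 1) (x := -1) (y := 1) (by simp +contextual [Multiset.mem_replicate, or_imp])
      (by simp) (by simp [Multiset.mem_replicate]; omega) h3)).two ha hb h3 ?_).1⟩
    rw [hg, add_comm]; simp [inv_neg]
  exfalso
  obtain ⟨s, hs⟩ := hr'.odd_of_ne_two hr2
  have po : ∀ u : f.Isom, orderOf u = r → PO r u.1.1 := fun u hu => po_of_order hf hu fun c h3 h4 _ => by
    rw [hs, pow_succ, pow_mul, sq, show c * c = 1 from h3] at h4; simpa using h4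
  by_cases hr : (r : F) = 0
  · have := (CharP.charP_iff_prime_eq_zero (R := F) hr').2 hr
    obtain ⟨g, hg⟩ := hf.symp_exists_iff.2 ⟨adm_unip (2 ::ₘ Multiset.replicate (finrank F V - 2) 1)
      (by simp [Multiset.mem_replicate]), (par_unip_iff _ _).2 fun j hj => by
        rw [Nat.even_iff] at hj ⊢
        simp only [Multiset.count_cons, Multiset.count_replicate]; split_ifs <;> omega,
      (dg_unip _).trans (by simp; omega)⟩
    exact (H' g (po g (order_unip r hg (by have := hr'.two_le; simp [Multiset.mem_replicate]; omega)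
      (by simp)))).not_unip ha hb hg
  obtain ⟨w, hw⟩ := exists_prime_orderOf_dvd_card' r hΩ
  have h1 := unit_le hr hr2 hf hw
  have hU := unif_id (k := Kind.symp F) hr hr2 rfl
  obtain ⟨φ, hφ⟩ := exists_mem_cycT (r := r) hr
  have h3 := hU.mem_un (m := {φ}) (by simpa)
  have h4 := hU.card_un {φ}
  rw [Multiset.card_singleton, mul_one] at h4
  obtain ⟨u, j, hu⟩ := (hf.symp_cycT_iff hr hr2 h3).2 ⟨hU.map_un (by simpa), by rwa [h4]⟩
  have h5 : orderOf u = r := by
    rw [← Subgroup.orderOf_coe]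
    exact (orderOf_eq_prime_iff hr _).2 ⟨j, _, fun e => by rw [e] at h4; exact hU.pos.ne h4, h3, hu⟩
  obtain ⟨A, B, μ, a1, a2, a3, a4⟩ := H u (po u h5)
  have h7 : (edivs u.1.1).count φ = 1 := by
    rw [hu, Multiset.count_add, Multiset.count_replicate, if_neg fun e : X - 1 = φ => X_sub_one_notMem_cycT hr (e ▸ hφ), un]
    rcases hU.alt with h | h
    · simp [h.1]
    · simp [h.1, (h.2 φ hφ).symm]
  obtain ⟨h8, h9⟩ := kron_cases a1 a2 a3 (d := φ) (by rw [h7, Nat.dvd_one]; omega) (by rw [h7, Nat.dvd_one]; omega)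
  have h10 := h9 1
  rw [hu, Multiset.count_add, C_1, Multiset.count_replicate_self, finrank_eq_of_edivs hr h3 hu, h4] at h10
  obtain ⟨c, hc, h11⟩ := scalar_of_kron ((kron_pow r).symm.trans ((toLin'_eq_smul_iff.1 ((Matrix.toLin'_pow _ _).trans
    (sim_pow (c := 1) a3 (by rw [← coe_pow, ← h5, pow_orderOf_eq_one, one_smul]; rfl)))).trans (one_smul _ _)))
  have h12 : Matrix.toLin' A ^ r = c • 1 := (Matrix.toLin'_pow _ _).symm.trans (toLin'_eq_smul_iff.2 h11)
  have h13 : μ ^ r = c * c := by simpa using SimB.unique hp (h12 ▸ a4.pow r) (simB_one.smul c)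
  have h14 : μ ≠ 0 := by rintro rfl; simp [hr'.ne_zero, hc] at h13
  obtain ⟨h15, w, h16, -, h17⟩ := PO.typeA (g := glEquiv (.mkOfDetNeZero A a1)) ⟨⟨_, h12⟩, h8⟩ (a := c / μ ^ s)
    (h12.trans (by rw [div_pow, pow_right_comm, h13, hs]; congr 1; field_simp; ring))
  have h18 : w ∈ p.Isom := (symp_mem_Isom _).2 fun y z => by
    have := a4 y z
    rw [show Matrix.toLin' A = _ from h17] at this
    refine mul_left_cancel₀ h14 (Eq.trans ?_ this)
    have e : μ = c / μ ^ s * (c / μ ^ s) := by rw [div_mul_div_comm, ← h13, hs]; field_simp; ring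
    simpa [mul_assoc] using congrArg (· * p.B (w y) (w z)) e
  have := unit_le hr hr2 hp (u := ⟨w, h18⟩) (by rwa [← Subgroup.orderOf_coe])
  simp only [finrank_fintype_fun_eq_card] at this
  omega

omit [Fact r.Prime] in
theorem symp_tens_pos (hf : f.Nondeg) (hp : p.Nondeg) {s : Form (Kind.orth F) (ν → F)} (hs : s.Nondeg)
    (h2 : (2 : F) ≠ 0) (ha : Fintype.card κ = 2) (hn : finrank F V = Fintype.card κ * Fintype.card ν) (u : f.Isom)
    (hu : PO 2 u.1.1) : ∃ (A : GL κ F) (B : GL ν F), glEquiv A ∈ p.Isom ∧ glEquiv B ∈ s.Isom ∧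
      edivs u.1.1 = edivs (Matrix.toLin' (A.1 ⊗ₖ B.1)) := by
  classical
  rcases po2_cases (fun _ => rfl) hf h2 hu with h | ⟨W, h1, h3, h4, h5⟩
  · obtain ⟨⟨w, hw⟩, h1⟩ := exists_neg_symp h2 hp
    obtain ⟨w, rfl⟩ := glEquiv.surjective w
    obtain ⟨j, h3, h4⟩ := h.edivs_eq (fun _ => rfl) h2 hf
    obtain ⟨i, h5, h6⟩ := h1.edivs_eq (fun _ => rfl) h2 hp
    refine ⟨w, 1, hw, by simp, ?_⟩
    rw [Units.val_one, edivs_kron_one, h4, show edivs (Matrix.toLin' w.1) = _ from h6, smul_smul]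
    simp only [finrank_fintype_fun_eq_card] at h5
    congr 1
    rw [ha] at hn h5
    obtain rfl : i = 1 := by omega
    omega
  · have h6 := hf.finrank_perp W
    obtain ⟨s', t', h7, h8⟩ := exists_half (F := F) (ν := ν) (h6.trans (ha ▸ hn)) (hf.restrict_perp h1).symp_even
    have h9 := congrArg (fun m => (Multiset.count (X - C 1) m, Multiset.count (X - C (-1)) m)) h8
    have hm : (-1 : F) ≠ 1 := fun e => h2 (by linear_combination -e)
    simp only [Multiset.count_nsmul, count_lin, Multiset.count_add, Multiset.count_replicate, if_neg hm, if_neg hm.symm,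
      if_true, Prod.mk.injEq] at h9
    obtain ⟨q, h10, -⟩ := exists_disc_form h2 (n := s') (by omega) one_ne_zero
    obtain ⟨q', h11⟩ := exists_orth_compl hs h10 (n := t') (by omega) (by simp [h7])
    obtain ⟨⟨w, hw⟩, h12⟩ := exists_pm h11
    obtain ⟨w, rfl⟩ := glEquiv.surjective w
    refine ⟨1, w, by simp, hw, ?_⟩
    rw [Units.val_one, edivs_one_kron, show edivs (Matrix.toLin' w.1) = _ from h12, ha, finrank_fin_fun,
      finrank_fin_fun, ← h8, ← sim_iff_edivs.1 h5.sim, pm, edivs_prodHom, edivs_of_smul (a := 1) (by simp),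
      edivs_of_smul (scalarIsom_apply _ _ _)]
    simp [lin]

end Symp

end CA.El
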