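import Cfsg.Agent.Lib.Lin.El3
import Cfsg.Agent.Lib.Lin.AschField

/-! Linear maps normalising an embedded extension field. -/

set_option autoImplicit false

namespace CA.ElF
open Module Polynomial CA.Rcf CA.CForm CA.El

universe u

variable {F : Type u} [Field F] {V W : Type*} [AddCommGroup V] [Module F V] [AddCommGroup W] [Module F W]
  (L : Type*) [Field L] [Algebra F L] {A : End F V}

/-- `A` normalises an embedded copy of `L` -/
def NF (A : End F V) : Prop := ∃ ι : L →ₐ[F] End F V, ∀ a, ∃ b, A * ι a = ι b * A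

variable {L}

theorem NF.smul (h : NF L A) (c : F) : NF L (c • A) :=
  h.imp fun _ h a => (h a).imp fun _ hb => by rw [smul_mul_assoc, hb, mul_smul_comm]

theorem NF.sim {B : End F W} (h : NF L A) (s : Sim A B) : NF L B := by
  obtain ⟨e, rfl⟩ := s.eq_conj
  obtain ⟨ι, h⟩ := h
  exact ⟨(e.conjAlgEquiv F).toAlgHom.comp ι, fun a => (h a).imp fun b hb =>
    (map_mul (e.conjAlgEquiv F) _ _).symm.trans ((congrArg _ hb).trans (map_mul _ _ _))⟩

theorem eq_zero_of_apply (ι : L →ₐ[F] End F V) {a : L} {v : V} (h : ι a v = 0) (hv : v ≠ 0) : a = 0 := by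
  by_contra ha
  exact hv (by rw [← End.one_apply (R := F) v, ← map_one ι, ← inv_mul_cancel₀ ha, map_mul, End.mul_apply, h,
    map_zero])

variable [FiniteDimensional F V] [FiniteDimensional F W]

theorem edivs_irr {φ : F[X]} (h1 : Irreducible φ) (h2 : φ.Monic) (h : aeval A φ = 0) :
    edivs A = Multiset.replicate (edivs A).card φ ∧ finrank F V = φ.natDegree * (edivs A).card := by
  have h3 : ∀ d ∈ edivs A, d = φ := fun d hd => eq_of_monic_of_associated (isPrim_of_mem_edivs hd).monic h2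
    (((h1.dvd_iff.1 ((aeval_eq_zero_iff A φ).1 h d hd)).resolve_left fun h =>
      (isPrim_of_mem_edivs hd).natDegree_pos.ne' (natDegree_eq_zero_of_isUnit h)).symm)
  exact ⟨Multiset.eq_replicate_card.2 h3, (dg_edivs A).symm.trans (dg_const fun d hd => h3 d hd ▸ rfl)⟩

theorem sim_irr {B : End F W} {φ : F[X]} (h1 : Irreducible φ) (h2 : φ.Monic) (h : aeval A φ = 0)
    (h' : aeval B φ = 0) (hd : finrank F V = finrank F W) : Sim A B := by
  obtain ⟨a1, a2⟩ := edivs_irr h1 h2 h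
  obtain ⟨b1, b2⟩ := edivs_irr h1 h2 h'
  rw [sim_iff_edivs, a1, b1, Nat.eq_of_mul_eq_mul_left h1.natDegree_pos (a2.symm.trans (hd.trans b2))]

theorem exists_irr {φ : F[X]} (h1 : Irreducible φ) (h2 : φ.Monic) (h : φ.natDegree ∣ finrank F V) :
    ∃ A : End F V, aeval A φ = 0 := by
  obtain ⟨k, hk⟩ := h
  obtain ⟨A, hA⟩ := exists_edivs_eq (V := V) (m := Multiset.replicate k φ)
    (fun d hd => Multiset.eq_of_mem_replicate hd ▸ isPrim_of_irreducible h2 h1) (by simp [hk, mul_comm])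
  exact ⟨A, (aeval_eq_zero_iff A φ).2 fun d hd => dvd_of_eq (Multiset.eq_of_mem_replicate (hA ▸ hd))⟩

variable [FiniteDimensional F L]

omit [FiniteDimensional F V] [FiniteDimensional F L] in
theorem aeval_hom (ι : L →ₐ[F] End F V) (a : L) : aeval (ι a) (minpoly F a) = 0 := by
  rw [aeval_algHom_apply, minpoly.aeval, map_zero]

theorem dvd_of_inv (ι : L →ₐ[F] End F V) (a : L) {E : Submodule F V} (h : ∀ v ∈ E, ι a v ∈ E) :
    (minpoly F a).natDegree ∣ finrank F E :=
  Dvd.intro _ (edivs_irr (A := (ι a).restrict h) (minpoly.irreducible (Algebra.IsIntegral.isIntegral a))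
    (minpoly.monic (Algebra.IsIntegral.isIntegral a)) (LinearMap.ext fun v => Subtype.ext
      ((aeval_apply_of_comm E.subtype (fun _ => rfl) _ v).trans (by simp)))).2.symm

theorem key {ι : L →ₐ[F] End F V} (h : ∀ a, ∃ b, A * ι a = ι b * A) {w : F} (hw : w ≠ 0) {a : L} {v : V}
    (h0 : v ≠ 0) (h1 : v ∈ A.eigenspace w) (h2 : ι a v ∈ A.eigenspace w) :
    (minpoly F a).natDegree ∣ finrank F (A.eigenspace w) := by
  obtain ⟨b, hb⟩ := h a
  rw [End.mem_eigenspace_iff] at h1 h2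
  have h3 := LinearMap.congr_fun hb v
  rw [End.mul_apply, End.mul_apply, h1, h2, map_smul, smul_right_inj hw] at h3
  obtain rfl : a = b := sub_eq_zero.1 (eq_zero_of_apply ι (by simp [h3]) h0)
  refine dvd_of_inv ι a fun u hu => End.mem_eigenspace_iff.2 ?_
  rw [← End.mul_apply, hb, End.mul_apply, End.mem_eigenspace_iff.1 hu, map_smul]

theorem NF.eq_smul (h : NF L A) (hd : finrank F L = finrank F V) (hp : (finrank F V).Prime) {w : F} (hw : w ≠ 0)
    (h2 : 2 ≤ finrank F (A.eigenspace w)) : A = w • 1 := by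
  obtain ⟨ι, h⟩ := h
  have : Nontrivial (A.eigenspace w) := Module.nontrivial_of_finrank_pos (R := F) (by omega)
  obtain ⟨v, hv⟩ := exists_ne (0 : A.eigenspace w)
  obtain ⟨u, hu⟩ := exists_linearIndependent_pair_of_one_lt_finrank h2 hv
  have hv' : v.1 ≠ 0 := fun e => hv (Subtype.ext e)
  obtain ⟨a, ha⟩ := (LinearMap.injective_iff_surjective_of_finrank_eq_finrank hd
    (f := (LinearMap.applyₗ v.1).comp ι.toLinearMap)).1
    ((injective_iff_map_eq_zero _).2 fun a ha => eq_zero_of_apply ι ha hv') u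
  have ha' : ι a v = u := ha
  have h3 := key h hw hv' v.2 (ha' ▸ u.2)
  rcases (Nat.dvd_prime hp).1 (hd ▸ minpoly.degree_dvd (Algebra.IsIntegral.isIntegral a)) with h4 | h4
  · obtain ⟨c, rfl⟩ := minpoly.natDegree_eq_one_iff.1 h4
    exact absurd (Subtype.ext (by simpa [Algebra.algebraMap_eq_smul_one] using ha'))
      ((LinearIndependent.pair_iff' hv).1 hu c)
  · have h5 := Submodule.eq_top_of_finrank_eq (le_antisymm (Submodule.finrank_le _)
      (Nat.le_of_dvd (by omega) (h4 ▸ h3)))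
    exact LinearMap.ext fun x => End.mem_eigenspace_iff.1 (h5 ▸ Submodule.mem_top)

variable [Finite F]

theorem not_NF (h2 : 2 ≤ finrank F L) (h3 : 3 ≤ finrank F V) {w : F} (hw : w ≠ 0)
    (h1 : finrank F (A.eigenspace w) + 1 = finrank F V) : ¬NF L A := by
  rintro ⟨ι, h⟩
  let pb := Field.powerBasisOfFiniteOfSeparable F L
  obtain ⟨v, hv, h0⟩ := Submodule.exists_mem_ne_zero_of_ne_bot (LinearMap.ker_ne_bot_of_finrank_lt
    (f := (A.eigenspace w).mkQ ∘ₗ ι pb.gen ∘ₗ (A.eigenspace w).subtype)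
    (by have := (A.eigenspace w).finrank_quotient_add_finrank; omega))
  have h4 := key h hw (fun e => h0 (Subtype.ext e)) v.2 ((Submodule.Quotient.mk_eq_zero _).1 hv)
  have h5 := dvd_of_inv ι pb.gen (E := ⊤) fun _ _ => trivial
  rw [finrank_top, ← h1, Nat.dvd_add_right h4, pb.natDegree_minpoly, ← pb.finrank] at h5
  have := Nat.le_of_dvd one_pos h5
  omega

omit [FiniteDimensional F V] [FiniteDimensional F L] in
theorem of_comm {θ : End F V} {φ : F[X]} (h1 : Irreducible φ) (h2 : φ.Monic) (hd : finrank F L ∣ φ.natDegree)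
    (h : aeval θ φ = 0) (hc : Commute A θ) : NF L A := by
  have := Fact.mk h1
  have := finite_adjoinRoot h1.ne_zero
  have := Module.finite_of_finite F (M := AdjoinRoot φ)
  obtain ⟨j⟩ := FiniteField.nonempty_algHom_of_finrank_dvd (F := F) (K := L) (L := AdjoinRoot φ)
    (by rwa [finrank_adjoinRoot])
  refine ⟨((AdjoinRoot.powerBasis h1.ne_zero).lift θ (by
    rwa [AdjoinRoot.minpoly_powerBasis_gen_of_monic h2])).comp j, fun a => ⟨a, ?_⟩⟩
  obtain ⟨g, hg⟩ := (AdjoinRoot.powerBasis h1.ne_zero).exists_eq_aeval' (j a)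
  rw [AlgHom.comp_apply, hg, PowerBasis.lift_aeval]
  exact LinearMap.ext fun v => aeval_apply_of_comm A (LinearMap.congr_fun hc) g v

variable (F L) in
theorem exists_poly : ∃ φ : F[X], Irreducible φ ∧ φ.Monic ∧ φ.natDegree = finrank F L :=
  let pb := Field.powerBasisOfFiniteOfSeparable F L
  ⟨_, minpoly.irreducible pb.isIntegral_gen, minpoly.monic pb.isIntegral_gen,
    pb.natDegree_minpoly.trans pb.finrank.symm⟩

/-- diagonalisable with two eigenvalues whose multiplicities are divisible by the degree -/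
theorem of_two {a b : F} {s t : ℕ} (hs : finrank F L ∣ s) (ht : finrank F L ∣ t)
    (h : edivs A = Multiset.replicate s (X - C a) + Multiset.replicate t (X - C b)) : NF L A := by
  obtain ⟨φ, h1, h2, h3⟩ := exists_poly F L
  obtain ⟨P, Q, hPQ, hP, hQ, e1, e2⟩ := exists_isCompl_of_edivs h
  obtain ⟨θ, hθ⟩ := exists_irr (V := P) h1 h2 (by simpa [← dg_edivs (A.restrict hP), e1, h3, dg] using hs)
  obtain ⟨η, hη⟩ := exists_irr (V := Q) h1 h2 (by simpa [← dg_edivs (A.restrict hQ), e2, h3, dg] using ht)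
  refine NF.sim (of_comm (θ := θ.prodMap η) h1 h2 (dvd_of_eq h3.symm) (by rw [aeval_prodMap, hθ, hη]; simp) ?_)
    (sim_prodMap_restrict hPQ hP hQ)
  rw [(eq_smul_iff (A.restrict hP) a).2 fun d hd => Multiset.eq_of_mem_replicate (e1 ▸ hd),
    (eq_smul_iff (A.restrict hQ) b).2 fun d hd => Multiset.eq_of_mem_replicate (e2 ▸ hd)]
  exact LinearMap.ext fun v => by simp

/-- the Frobenius map -/
theorem exists_frob (hd : finrank F L = finrank F V) : ∃ u : V ≃ₗ[F] V, NF L (u : End F V) ∧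
    minpoly F (u : End F V) = X ^ finrank F V - 1 := by
  have := Fintype.ofFinite F
  have := Module.finite_of_finite F (M := L)
  let σ := (FiniteField.frobeniusAlgEquivOfAlgebraic F L).toLinearEquiv
  let e := LinearEquiv.ofFinrankEq _ _ hd
  refine ⟨e.symm.trans (σ.trans e), NF.sim (A := (σ : End F L)) ⟨Algebra.lmul F L, fun a => ⟨σ a,
    LinearMap.ext fun v => map_mul (FiniteField.frobeniusAlgEquivOfAlgebraic F L) a v⟩⟩ (sim_conj e _), ?_⟩
  rw [← hd, ← FiniteField.minpoly_frobeniusAlgHom]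
  exact minpoly.algEquiv_eq (e.conjAlgEquiv F) (σ : End F L)

theorem skolem (ι κ : L →ₐ[F] End F V) (h0 : finrank F V ≠ 0) :
    ∃ e : V ≃ₗ[F] V, LinearMap.det (e : End F V) = 1 ∧ ∀ a v, e (ι a v) = κ a (e v) := by
  let pb := Field.powerBasisOfFiniteOfSeparable F L
  have h1 := minpoly.irreducible pb.isIntegral_gen
  have h2 := minpoly.monic pb.isIntegral_gen
  obtain ⟨e, he⟩ := sim_irr h1 h2 (aeval_hom ι _) (aeval_hom κ _) rfl
  obtain ⟨c, hc, hd⟩ := IsSS.exists_commute_det (A := ι pb.gen) (fun d hd => Multiset.eq_of_mem_replicate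
    ((edivs_irr h1 h2 (aeval_hom ι _)).1 ▸ hd) ▸ h1) h0 (inv_ne_zero e.isUnit_det'.ne_zero)
  refine ⟨c.trans e, by rw [LinearEquiv.coe_trans, LinearMap.det_comp, hd, mul_inv_cancel₀ e.isUnit_det'.ne_zero],
    fun a v => ?_⟩
  obtain ⟨g, rfl⟩ := pb.exists_eq_aeval' a
  rw [← aeval_algHom_apply, ← aeval_algHom_apply]
  exact aeval_apply_of_comm (c.trans e).toLinearMap (fun v => (congrArg e (hc v)).trans (he _)) g v

open Cfsg.Geo in
theorem bridge {n k : ℕ} (hn : n ≠ 0) {K : Subalgebra F (Matrix (Fin n) (Fin n) F)} (hK : IsFieldSubalgebra k K) :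
    ∃ (L : Type u) (_ : Field L) (_ : Algebra F L) (_ : FiniteDimensional F L), finrank F L = k ∧
      ∀ x : Matrix.SpecialLinearGroup (Fin n) F, (∃ P : Matrix.SpecialLinearGroup (Fin n) F,
        P⁻¹ * x * P ∈ (subalgebraNormalizer K).comap Matrix.SpecialLinearGroup.toGL) ↔
        NF L (Matrix.toLin' x.1) := by
  have : Nonempty (Fin n) := ⟨⟨0, by omega⟩⟩
  let : Field K := (CA.AschField.isField_of hK).toField
  refine ⟨K, inferInstance, inferInstance, inferInstance, hK.finrank_eq, fun x => ⟨?_, ?_⟩⟩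
  · rintro ⟨P, hP⟩
    refine NF.sim (A := Matrix.toLin' (P⁻¹ * x * P).1) ⟨Matrix.toLinAlgEquiv'.toAlgHom.comp K.val, fun a =>
      ⟨⟨_, (hP a).1 a.2⟩, ?_⟩⟩ ((isConj_GL_iff (g := Matrix.SpecialLinearGroup.toGL (P⁻¹ * x * P))
        (h := Matrix.SpecialLinearGroup.toGL x)).1 (MonoidHom.map_isConj _ (isConj_iff.2 ⟨P, by group⟩)))
    exact (map_mul Matrix.toLinAlgEquiv' _ _).symm.trans ((congrArg _ (Units.inv_mul_cancel_right _
      (Matrix.SpecialLinearGroup.toGL (P⁻¹ * x * P))).symm).trans (map_mul _ _ _))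
  · rintro ⟨κ, h⟩
    obtain ⟨e, he, h1⟩ := skolem (Matrix.toLinAlgEquiv'.toAlgHom.comp K.val) κ (by simpa)
    obtain ⟨P, rfl⟩ := glEquiv.surjective e
    obtain ⟨P, rfl⟩ := exists_toGL_eq (g := P) (by simpa [coe_glEquiv] using he)
    have h2 : ∀ a : K, κ a = Matrix.toLinAlgEquiv' (P.1 * a.1 * (P⁻¹).1) := fun a => by
      have : Matrix.toLinAlgEquiv' P.1 * Matrix.toLinAlgEquiv' a.1 = κ a * Matrix.toLinAlgEquiv' P.1 :=
        LinearMap.ext (h1 a)
      rw [map_mul, map_mul, this, mul_assoc, ← map_mul, ← Matrix.SpecialLinearGroup.coe_mul]; simp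
    set y := Matrix.SpecialLinearGroup.toGL (P⁻¹ * x * P) with hy
    have h3 : ∀ a ∈ K, y.1 * a * (y⁻¹).1 ∈ K := fun a ha => by
      obtain ⟨b, hb⟩ := h ⟨a, ha⟩
      rw [h2, h2] at hb
      have h4 := Matrix.toLinAlgEquiv'.injective ((map_mul _ _ _).trans (hb.trans (map_mul _ _ _).symm))
      have h5 : y.1 * a = b.1 * y.1 := by
        have := congrArg (fun M => (P⁻¹).1 * M * P.1) h4
        simpa [hy, Matrix.mul_assoc, Matrix.adjugate_mul, ← Matrix.mul_assoc P.1.adjugate P.1, Matrix.inv_def] using this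
      rw [h5, Units.mul_inv_cancel_right]
      exact b.2
    refine ⟨P, fun a => ⟨h3 a, fun ha => ?_⟩⟩
    let f : K →ₗ[F] K := ((LinearMap.mulRight F (y⁻¹).1 ∘ₗ LinearMap.mulLeft F y.1).restrict (p := K.toSubmodule) (q := K.toSubmodule) h3 :)
    have h4 : ∀ a b : Matrix (Fin n) (Fin n) F, y.1 * a * (y⁻¹).1 = y.1 * b * (y⁻¹).1 → a = b := fun a b h =>
      (Units.mul_right_inj _).1 ((Units.mul_left_inj _).1 h)
    obtain ⟨b, hb⟩ := LinearMap.injective_iff_surjective.1
      (show Function.Injective f from fun a b h => Subtype.ext (h4 _ _ (congrArg Subtype.val h))) ⟨_, ha⟩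
    exact h4 _ _ (congrArg Subtype.val hb) ▸ b.2

omit [Finite F] in
theorem finrank_eigenspace (A : End F V) (w : F) :
    finrank F (A.eigenspace w) = ((edivs A).map (kd · (X - C w))).sum := by
  rw [← finrank_ker_aeval, End.eigenspace_def, map_sub, aeval_X, aeval_C, Algebra.algebraMap_eq_smul_one]

section Diag
omit [Finite F] [FiniteDimensional F L]
variable {Λ : Multiset F} {r : ℕ}

theorem exists_diag (h0 : 0 ∉ Λ) (hc : Λ.card = finrank F V) :
    ∃ g : V ≃ₗ[F] V, edivs (g : End F V) = Λ.map fun a => X - C a := by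
  refine exists_equiv_edivs_eq (fun d hd => ?_) (fun d hd => ?_) (by simp [hc])
  all_goals obtain ⟨a, ha, rfl⟩ := Multiset.mem_map.1 hd
  · exact isPrim_of_irreducible (monic_X_sub_C a) (irreducible_X_sub_C a)
  · rw [X_dvd_iff]
    simpa using fun e : a = 0 => h0 (e ▸ ha)

theorem eig_diag [DecidableEq F] (h : edivs A = Λ.map fun a => X - C a) (w : F) :
    finrank F (A.eigenspace w) = Λ.count w := by
  rw [finrank_eigenspace, h, Multiset.map_map]
  clear h
  induction Λ using Multiset.induction_on with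
  | empty => simp
  | cons a Λ ih =>
    rw [Multiset.map_cons, Multiset.sum_cons, ih, Multiset.count_cons, add_comm, Function.comp]
    split_ifs with h
    · rw [h, kd_of_dvd (X_sub_C_ne_zero a) dvd_rfl, natDegree_X_sub_C]
    · rw [kd_of_isCoprime (X_sub_C_ne_zero a) (isCoprime_X_sub_C_of_isUnit_sub (sub_ne_zero.2 (Ne.symm h)).isUnit)]

theorem pow_diag (h : edivs A = Λ.map fun a => X - C a) {c : F} : A ^ r = c • 1 ↔ ∀ a ∈ Λ, a ^ r = c := by
  simp [pow_eq_smul_iff, h, dvd_iff_isRoot, sub_eq_zero]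

theorem po_diag (h : edivs A = Λ.map fun a => X - C a) {c : F} (h1 : ∀ a ∈ Λ, a ^ r = c) {a b : F}
    (ha : a ∈ Λ) (hb : b ∈ Λ) (hab : a ≠ b) : PO r A :=
  ⟨⟨c, (pow_diag h).2 h1⟩, fun c hc => by
    have := (pow_diag (r := 1) h).1 ((pow_one A).trans hc)
    exact hab (by simpa using (this a ha).trans (this b hb).symm)⟩

theorem exists_lam (h : ∀ d ∈ edivs A, d.natDegree = 1) :
    ∃ Λ : Multiset F, edivs A = Λ.map (fun a => X - C a) ∧ Λ.card = finrank F V := by
  refine ⟨(edivs A).map (-coeff · 0), ?_, by rw [← dg_edivs A, dg_const h]; simp⟩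
  rw [Multiset.map_map]
  conv_lhs => rw [← Multiset.map_id (edivs A)]
  exact Multiset.map_congr rfl fun d hd => by
    simpa using (isPrim_of_mem_edivs hd).monic.eq_X_add_C (h d hd)

theorem exists_tv (p : ℕ) [Fact p.Prime] [CharP F p] (h : 2 ≤ finrank F V) : ∃ g : V ≃ₗ[F] V,
    orderOf g = p ∧ finrank F (End.eigenspace (g : End F V) 1) + 1 = finrank F V := by
  obtain ⟨g, h1, h2⟩ := exists_unip (F := F) (V := V) (μ := 2 ::ₘ Multiset.replicate (finrank F V - 2) 1)
    (by simp [Multiset.mem_replicate]) (by simp; omega)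
  have := (Fact.out : p.Prime).two_le
  refine ⟨g, (orderOf_eq_char_iff p g).2 ⟨h1, ?_, by simp [h2]⟩, ?_⟩
  · simp [h2, Multiset.mem_replicate]; omega
  · rw [End.eigenspace_def, one_smul, finrank_ker_sub_one h1, h2]; simp; omega

end Diag

omit [FiniteDimensional F L] in
theorem exists_lam' {r : ℕ} [Fact r.Prime] (hr : r ∣ Nat.card F - 1) {u : V ≃ₗ[F] V} (h : orderOf u = r) :
    ∃ Λ : Multiset F, edivs (u : End F V) = Λ.map (fun a => X - C a) ∧ Λ.card = finrank F V ∧
      ∀ a ∈ Λ, a ^ r = 1 := by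
  have h0 : (r : F) ≠ 0 := natCast_ne_zero_of_dvd one_ne_zero (by rwa [pow_one])
  obtain ⟨k, m, -, h1, h2⟩ := (orderOf_eq_prime_iff h0 u).1 h
  obtain ⟨Λ, h3, h4⟩ := exists_lam (A := (u : End F V)) fun d hd => by
    rcases Multiset.mem_add.1 (h2 ▸ hd) with hd | hd
    · rw [Multiset.eq_of_mem_replicate hd, natDegree_X_sub_one]
    · rw [(natDegree_cycT h0).1 d (h1 d hd), ord_eq_one_iff.2 hr]
  exact ⟨Λ, h3, h4, (pow_diag h3).1 (by rw [← coe_pow', ← h, pow_orderOf_eq_one, one_smul]; rfl)⟩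

theorem of_charpoly (hd : finrank F L = finrank F V) (h0 : (finrank F V : F) ≠ 0) (h : IsSS A)
    (h1 : A.charpoly = X ^ finrank F V - 1) : NF L A := by
  obtain ⟨u, h2, h3⟩ := exists_frob hd
  have h4 : finrank F V ≠ 0 := fun e => h0 (by simp [e])
  refine h2.sim (sim_of_charpoly_eq (isSS_of_pow h0 one_ne_zero ?_) h (h1 ▸ ?_))
  · simpa [h3, sub_eq_zero] using minpoly.aeval F (u : End F V)
  · exact eq_of_monic_of_dvd_of_natDegree_le (monic_X_pow_sub_C 1 h4) (LinearMap.charpoly_monic _)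
      (h3 ▸ LinearMap.minpoly_dvd_charpoly _) (by rw [LinearMap.charpoly_natDegree, ← C_1, natDegree_X_pow_sub_C])

omit [FiniteDimensional F V] [FiniteDimensional F L] in
/-- type B elements -/
theorem of_typeB {r : ℕ} [hr : Fact r.Prime] (hd : finrank F L = r) {c : F} (hc : ∀ a : F, a ^ r ≠ c)
    (h : A ^ r = c • 1) : NF L A :=
  of_comm (X_pow_sub_C_irreducible_of_prime hr.out hc) (monic_X_pow_sub_C c hr.out.ne_zero)
    (by simp [hd]) (by simp [h, Algebra.algebraMap_eq_smul_one]) (Commute.refl A)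

end CA.ElF
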