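import Cfsg.Agent.Lib.Lin.El20
import Cfsg.Agent.Lib.Lin.ElF
import Cfsg.Agent.Lib.Lin.MaxGL5

/-! Elements of prime order and field-extension subgroups of classical groups: obstructions. -/

set_option autoImplicit false
set_option linter.unusedSectionVars false

namespace CA.El

open Module Polynomial CA.Rcf CA.CForm CA.CForm.Form

variable {F : Type*} [Field F] {k : Kind F} {V : Type*} [AddCommGroup V] [Module F V]
  {L : Type*} [Field L] [Algebra F L] [Module L V] [IsScalarTower F L V] {f : Form k V}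
  {r : ℕ} {y : f.Isom} {A : End F V}

variable (L f) in
/-- The `L`-semilinear isometries. -/
def smL : Subgroup f.Isom where
  carrier := {g | ∃ σ : L ≃ₐ[F] L, ∀ a v, g.1 (a • v) = σ a • g.1 v}
  mul_mem' := fun ⟨σ, h⟩ ⟨τ, h'⟩ => ⟨σ * τ, fun a v => by simp [h, h']⟩
  one_mem' := ⟨1, fun _ _ => rfl⟩
  inv_mem' := fun {g} ⟨σ, h⟩ => ⟨σ⁻¹, fun a v => g.1.injective (by
    rw [h, isom_apply_inv_apply, isom_apply_inv_apply]; simp)⟩

variable (L) in
/-- `L`-linear maps. -/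
def LinL (A : End F V) : Prop := ∀ (a : L) v, A (a • v) = a • A v

theorem LinL.mem (h : LinL L y.1.1) : y ∈ smL L f := ⟨1, h⟩

theorem LinL.aeval (h : LinL L A) (g : F[X]) : LinL L (aeval A g) := by
  induction g using Polynomial.induction_on with
  | C c => intro a v; simp [smul_comm c a]
  | add p q hp hq => intro a v; simp [hp a v, hq a v]
  | monomial n c ih => intro a v; simp only [pow_succ, ← mul_assoc, map_mul _ _ X, aeval_X, End.mul_apply, h a v, ih a]

section Bridge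
open Cfsg.Geo CA.AschFG Matrix
variable {ι : Type} [Fintype ι] [DecidableEq ι]

theorem forall_ext (φ : Form k (ι → F)) (G : Subgroup φ.Isom) (H : Subgroup (GL ι F)) (r : ℕ) :
    (∀ x ∈ G.map (toGL φ), (∃ z : F, (x ^ r).1 = z • 1) → (∀ z : F, x.1 ≠ z • 1) →
      ∃ g ∈ G.map (toGL φ), g⁻¹ * x * g ∈ H) ↔
    ∀ u ∈ G, PO r u.1.1 → ∃ h ∈ G, h⁻¹ * u * h ∈ H.comap (toGL φ) := by
  have e : ∀ u : φ.Isom, u.1.1 = Matrix.toLin' (toGL φ u).1 := fun u => LinearMap.ext fun v =>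
    (toGL_mulVec φ u v).symm
  simp only [Subgroup.mem_map, forall_exists_index, and_imp, forall_apply_eq_imp_iff₂,
    exists_exists_and_eq_and, Subgroup.mem_comap, map_mul, map_inv, e, po_toLin', Units.val_pow_eq_pow_val]

theorem ext_bridge.{u} {F : Type u} [Field F] [Finite F] [Nonempty ι] {k : Kind F} (φ : Form k (ι → F)) {d : ℕ}
    {K : Subalgebra F (Matrix ι ι F)} (hK : IsFieldSubalgebra d K) :
    ∃ (L : Type u) (_ : Field L) (_ : Finite L) (_ : Algebra F L) (_ : Module L (ι → F))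
      (_ : IsScalarTower F L (ι → F)), finrank F L = d ∧
      (∀ a : L, ∃ x ∈ K, ∀ v : ι → F, x *ᵥ v = a • v) ∧
      (∀ x ∈ K, ∃ a : L, ∀ v : ι → F, x *ᵥ v = a • v) ∧
      (subalgebraNormalizer K).comap (toGL φ) = smL L φ := by
  obtain ⟨L, _, _, _, _, _, h0, h1, h2, h3⟩ := AschO2.exists_ext hK
  refine ⟨L, _, ‹_›, _, _, ‹_›, h0, h1, h2, le_antisymm (fun g hg => ?_) fun g hg => ?_⟩
  · obtain ⟨σ, h⟩ := h3 _ hg
    exact ⟨σ, by simpa only [toGL_mulVec] using h⟩
  have k1 : ∀ g ∈ smL L φ, ∀ x ∈ K, (toGL φ g).1 * x * (toGL φ g)⁻¹.1 ∈ K := fun g ⟨σ, hg⟩ x hx => by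
    obtain ⟨a, ha⟩ := h2 x hx
    obtain ⟨y, hy, e⟩ := h1 (σ a)
    convert hy
    refine Matrix.ext_of_mulVec_single fun i => ?_
    rw [e, ← mulVec_mulVec, ← mulVec_mulVec, ha, ← map_inv, toGL_mulVec, toGL_mulVec, hg, isom_apply_inv_apply]
  refine fun x => ⟨k1 g hg x, fun hx => ?_⟩
  simpa [mul_assoc] using k1 _ (inv_mem hg) _ hx

end Bridge

variable [FiniteDimensional F V]

theorem LinL.dvd (h : LinL L A) (g : F[X]) : finrank F L ∣ finrank F (LinearMap.ker (Polynomial.aeval A g)) :=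
  let W : Submodule L V := ⟨(LinearMap.ker (Polynomial.aeval A g)).toAddSubmonoid, fun a v hv =>
    (h.aeval g a v).trans (by rw [show Polynomial.aeval A g v = 0 from hv, smul_zero])⟩
  ⟨_, finrank_res (F := F) W⟩

theorem lin_or (h : y ∈ smL L f) {c : F} (hc : c ≠ 0) :
    LinL L y.1.1 ∨ 2 * finrank F (LinearMap.ker (y.1.1 - c • 1)) ≤ finrank F V := by
  obtain ⟨σ, h⟩ := h
  refine or_iff_not_imp_left.2 fun H => ?_
  obtain ⟨a, ha⟩ : ∃ a, σ a ≠ a := by
    by_contra! H'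
    exact H fun a v => by simpa [H'] using h a v
  have a0 : a ≠ 0 := by rintro rfl; simp at ha
  let T : End F V := Algebra.lsmul F F V a
  have h1 := Submodule.finrank_add_finrank_le_of_disjoint (s := LinearMap.ker (y.1.1 - c • 1))
    (t := (LinearMap.ker (y.1.1 - c • 1)).map T) (Submodule.disjoint_def.2 ?_)
  · rwa [← (Submodule.equivMapOfInjective T (smul_right_injective V a0) _).finrank_eq, ← two_mul] at h1
  rintro _ h1 ⟨v, h2, rfl⟩
  simp only [SetLike.mem_coe, LinearMap.mem_ker, LinearMap.sub_apply, sub_eq_zero, T, Algebra.lsmul_coe,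
    LinearMap.smul_apply, End.one_apply, LinearEquiv.coe_coe] at h1 h2 ⊢
  rw [h, h2, smul_comm c, ← sub_eq_zero, ← sub_smul, smul_eq_zero, smul_eq_zero] at h1
  rw [(h1.resolve_left (sub_ne_zero.2 ha)).resolve_left hc, smul_zero]

variable [Finite L]

theorem lin_of_pow (h : y ∈ smL L f) (h1 : y ^ r = 1) (h2 : r.Coprime (finrank F L)) : LinL L y.1.1 := by
  obtain ⟨σ, h⟩ := h
  have : ∀ n a v, (y ^ n).1 (a • v) = (σ ^ n) a • (y ^ n).1 v := fun n => by
    induction n with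
    | zero => intros; rfl
    | succ n ih => intro a v; rw [pow_succ, pow_succ]; exact (congrArg (y ^ n).1 (h a v)).trans (ih _ _)
  intro a v
  by_cases hv : v = 0
  · simp [hv]
  have h3 : σ ^ r = 1 := AlgEquiv.ext fun a => smul_left_injective L hv (by simpa [h1] using (this r a v).symm)
  have h4 : σ ^ finrank F L = 1 := IsGalois.card_aut_eq_finrank F L ▸ pow_card_eq_one'
  simpa [pow_eq_one_iff_of_coprime h2 |>.1 ⟨h3, h4⟩] using h a v

variable [Finite F]

theorem aeval_frob {R : Type*} [Ring R] [Algebra F R] (x : R) (g : F[X]) :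
    ∀ j : ℕ, aeval (x ^ Nat.card F ^ j) g = aeval x g ^ Nat.card F ^ j
  | 0 => by simp
  | j + 1 => by
    have := Fintype.ofFinite F
    rw [pow_succ, pow_mul, pow_mul, ← expand_aeval, ← aeval_frob x g j, Nat.card_eq_fintype_card,
      FiniteField.expand_card, map_pow]

theorem dvd_of_frob {j : ℕ} (h : ∀ a : L, a = a ^ Nat.card F ^ j) : finrank F L ∣ j := by
  have := Fintype.ofFinite F
  rw [← FiniteField.orderOf_frobeniusAlgHom F L, orderOf_dvd_iff_pow_eq_one]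
  ext a
  rw [AlgHom.coe_pow, FiniteField.coe_frobeniusAlgHom, pow_iterate, ← Nat.card_eq_fintype_card]
  exact (h a).symm

variable [Fact r.Prime] (hr : (r : F) ≠ 0) (hr2 : r ≠ 2)
include hr

theorem ker_unit {φ : F[X]} (hφ : φ ∈ cycT F r) {j e : ℕ} {τ : F[X] → F[X]} (hU : Unif (cycT F r) τ e)
    (h : edivs A = Multiset.replicate j (X - 1) + un τ e {φ}) :
    finrank F (LinearMap.ker (aeval A φ)) = orderOf (Nat.card F : ZMod r) := by
  have h1 := mem_cycT.1 hφ
  have h2 : kd (X - 1) φ = 0 := kd_of_isCoprime (X_sub_C_ne_zero 1)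
    ((irreducible_X_sub_C 1).coprime_iff_not_dvd.2 (not_X_sub_one_dvd hr hφ))
  have h3 : kd φ φ = _ := (kd_of_dvd h1.1.ne_zero dvd_rfl).trans ((natDegree_cycT hr).1 φ hφ)
  rw [finrank_ker_aeval, h, un]
  rcases hU.alt with H | H
  · simp [H.1, h2, h3]
  have h4 := mem_cycT.1 (hU.mem φ hφ)
  have h5 : kd (τ φ) φ = 0 := kd_of_isCoprime h4.1.ne_zero (h4.1.coprime_iff_not_dvd.2 fun e => H.2 φ hφ
    (eq_of_monic_of_associated h4.2.1 h1.2.1 (h4.1.associated_of_dvd h1.1 e)))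
  simp [H.1, h2, h3, h5]

include hr2

theorem exists_min {e : ℕ} {N : ℕ → Prop} (hU : Unif (cycT F r) (dual k.σ) e)
    (hN : ∀ m, (∀ d ∈ m, d ∈ cycT F r) → (Ok f m ↔ m.map (dual k.σ) = m ∧ N m.card))
    (hm : ∀ x y, y ≤ x → N x → N y) (h : r ∣ Nat.card f.Isom) : ∃ (x : f.Isom) (φ : F[X]) (j : ℕ),
      φ ∈ cycT F r ∧ orderOf x = r ∧ edivs x.1.1 = Multiset.replicate j (X - 1) + un (dual k.σ) e {φ} := by
  have : Finite V := Module.finite_of_finite F
  obtain ⟨u, hu⟩ := exists_prime_orderOf_dvd_card' r h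
  obtain ⟨j, m, h1, h2, h3⟩ := (orderOf_eq_prime_iff hr u.1).1 (by rwa [Subgroup.orderOf_coe])
  obtain ⟨h4, h5⟩ := (hN m h2).1 ⟨u, j, h3⟩
  obtain ⟨m₀, -, rfl⟩ := hU.exists_un h2 h4
  obtain ⟨φ, hφ⟩ := hU.ne
  have h6 := hU.mem_un (m := {φ}) (by simpa)
  have h7 := hU.card_un {φ}
  obtain ⟨x, i, hx⟩ := (hN _ h6).2 ⟨hU.map_un (by simpa), hm _ _ (by
    rw [h7, hU.card_un]
    refine Nat.mul_le_mul_left _ (Multiset.card_pos.2 ?_)
    rintro rfl
    exact h1 (Multiset.card_eq_zero.1 (by rw [hU.card_un]; rfl))) h5⟩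
  refine ⟨x, φ, i, hφ, ?_, hx⟩
  rw [← Subgroup.orderOf_coe]
  exact (orderOf_eq_prime_iff hr _).2 ⟨i, _, fun e => by rw [e] at h7; simp [hU.pos.ne] at h7, h6, hx⟩

theorem lin_cyc (hσ : k.σ = RingHom.id F) (hf : f.Nondeg) (hy : LinL L y.1.1) {s : L → L}
    (hs : ∀ a u v, f.B (a • u) v = f.B u (s a • v)) {φ : F[X]} (hφ : φ ∈ cycT F r) {j i : ℕ}
    (hi : i = orderOf (Nat.card F : ZMod r))
    (h : edivs y.1.1 = Multiset.replicate j (X - 1) + un (dual k.σ) (if Even i then 1 else 2) {φ}) :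
    finrank F L ∣ i ∧ (Even i → ∀ a, s a = a ^ Nat.card F ^ (i / 2)) := by
  have hU := hi ▸ unif_id hr hr2 hσ
  have h1 := (ker_unit hr hφ hU h).trans hi.symm
  refine ⟨h1 ▸ hy.dvd φ, fun ⟨n, hn⟩ a => ?_⟩
  have h2 := mem_cycT.1 hφ
  have h3 := (natDegree_cycT hr).1 φ hφ
  have h4 := h2.1.natDegree_pos
  have q2 := two_le_card (F := F)
  have h5 : r ∣ Nat.card F ^ n + 1 := ((Fact.out : r.Prime).dvd_mul.1 (by
    rw [sq_sub_one_eq, dvd_pow_sub_one_iff (by omega), ← hi, hn, two_mul])).resolve_left fun e =>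
      absurd (Nat.le_of_dvd (by omega) ((dvd_pow_sub_one_iff (by omega)).1 e)) (by omega)
  have h6 : y ^ (Nat.card F ^ n + 1) = 1 := orderOf_dvd_iff_pow_eq_one.1 ((orderOf_dvd_of_pow_eq_one
    (Subtype.ext (pow_eq_one_of_edivs (hU.mem_un (by simpa)) h))).trans h5)
  set N := Nat.card F ^ n
  have h7 : ∀ u v, f.B (y.1.1 u) v = f.B u ((y.1.1 ^ N) v) := fun u v => by
    rw [← f.B_coe_map y u, ← coe_pow]
    exact congrArg _ (congrArg (fun g : f.Isom => g.1 v) ((pow_succ' y N).symm.trans h6)).symm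
  have h8 : ∀ (g : F[X]) u v, f.B (aeval y.1.1 g u) v = f.B u (aeval (y.1.1 ^ N) g v) := fun g => by
    induction g using Polynomial.induction_on with
    | C c => simp [hσ]
    | add p q hp hq => simp [hp, hq]
    | monomial n c ih =>
      intro u v
      rw [pow_succ, ← mul_assoc, map_mul _ _ X, mul_comm _ X, map_mul _ X, aeval_X, aeval_X, End.mul_apply, ih, h7]; rfl
  set W := LinearMap.ker (aeval y.1.1 φ)
  have hW : ∀ x ∈ W, y.1.1 x ∈ W := fun x hx => by
    have := aeval_apply_of_comm (A := y.1.1) (B := y.1.1) y.1.1 (fun _ => rfl) φ x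
    rw [show aeval y.1.1 φ x = 0 from hx, map_zero] at this
    exact this.symm
  have hL : ∀ (a : L), ∀ x ∈ W, a • x ∈ W := fun a x hx =>
    (hy.aeval φ a x).trans (by rw [show aeval y.1.1 φ x = 0 from hx, smul_zero])
  have e1 := aeval_apply_of_comm (A := y.1.1.restrict hW) (B := y.1.1) W.subtype fun _ => rfl
  have := finite_adjoinRoot h2.1.ne_zero
  obtain ⟨g, hg⟩ := exists_aeval_eq_of_commute (ElF.sim_irr (B := cyc φ) h2.1 h2.2.1
    (LinearMap.ext fun x => Subtype.ext ((e1 φ x).trans x.2)) (by rw [aeval_cyc]; simp)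
    (by rw [h1, finrank_adjoinRoot, h3, hi])) (B := (Algebra.lsmul F F V a).restrict (hL a))
    fun v => Subtype.ext (hy a v).symm
  have h9 : ∀ x ∈ W, aeval y.1.1 g x = a • x := fun x hx => by
    rw [← show _ = aeval y.1.1 g x from e1 g ⟨x, hx⟩, ← hg]; rfl
  have h10 : ∀ n, ∀ x ∈ W, (aeval y.1.1 g ^ n) x = a ^ n • x := fun n => by
    induction n with
    | zero => simp
    | succ n ih => intro x hx; rw [pow_succ, End.mul_apply, h9 x hx, ih _ (hL a x hx), smul_smul, pow_succ]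
  by_contra H
  rw [hn, show (n + n) / 2 = n by omega, ← sub_eq_zero] at H
  have h11 : W ≤ f.perp W := fun v hv u hu => by
    have := h8 g u ((s a - a ^ N)⁻¹ • v)
    rw [h9 u hu, hs, aeval_frob, h10 _ _ (hL _ v hv), ← sub_eq_zero, ← map_sub, ← sub_smul,
      smul_smul, mul_inv_cancel₀ H, one_smul] at this
    exact this
  rw [if_pos ⟨n, hn⟩, un, if_pos rfl] at h
  have h12 : f.commSub y ≤ W := by
    rintro _ ⟨v, rfl⟩
    have := (aeval_eq_zero_iff y.1.1 (φ * (X - 1))).2 (by simp +contextual [h, Multiset.mem_replicate, or_imp])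
    rw [map_mul, map_sub, aeval_X, map_one] at this
    exact LinearMap.congr_fun this v
  have h13 := (h12.trans h11).trans ((f.perp_anti h12).trans_eq (hf.perp_commSub y))
  have h14 := (aeval_eq_zero_iff y.1.1 ((X - 1) ^ 2)).1 (LinearMap.ext fun v => by
    rw [aeval_X_sub_one_pow, sq]; exact h13 ⟨v, rfl⟩) φ (by simp [h])
  exact X_sub_one_notMem_cycT hr (eq_of_monic_of_associated h2.2.1 (monic_X_sub_C 1) (h2.1.associated_of_dvd
    (irreducible_X_sub_C 1) (h2.1.prime.dvd_of_dvd_pow h14)) ▸ hφ)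

end CA.El
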