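import Cfsg.Agent.Lib.Lin.El21

/-! Elements of prime order and field-extension subgroups of classical groups: restriction of scalars. -/

set_option autoImplicit false
set_option linter.unusedSectionVars false

namespace CA.El

open Module Polynomial CA.Rcf CA.CForm CA.CForm.Form

variable {F : Type*} [Field F] {k : Kind F} {V : Type*} [AddCommGroup V] [Module F V]
  {L : Type*} [Field L] [Algebra F L] [Module L V] [IsScalarTower F L V]
  {U : Type*} [AddCommGroup U] [Module F U] [Module L U] [IsScalarTower F L U]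
  {U' : Type*} [AddCommGroup U'] [Module F U'] [Module L U'] [IsScalarTower F L U']
  {A : Type*} [AddCommGroup A] [Module F A] {B : Type*} [AddCommGroup B] [Module F B]
  {f : Form k V} {p : Form k U} {p' : Form k U'} {kL : Kind L} {ψ : Form kL V} {χ : Form kL U} {χ' : Form kL U'}
  {θ : L →ₗ[F] F} {r : ℕ}

/-- `f` is obtained from `ψ` by restriction of scalars. -/
def Res (f : Form k V) (ψ : Form kL V) (θ : L →ₗ[F] F) : Prop := ∀ u v, f.B u v = θ (ψ.B u v)

/-- The quadratic datum is determined by the polar form. -/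
def QB (k : Kind F) : Prop := k.δ ≠ 0 ∨ ∀ a, k.π a = 0

theorem qb_symp : QB (Kind.symp F) := .inr fun _ => rfl

theorem QB.eq (hk : QB k) {a : Form k A} {b : Form k B} {x : A} {y : B} (h : a.B x x = b.B y y) : a.Q x = b.Q y := by
  rcases hk with hk | hk
  · exact mul_left_cancel₀ hk (by rwa [← a.B_self, ← b.B_self])
  · obtain ⟨s, hs⟩ := a.Q_mem x
    obtain ⟨t, ht⟩ := b.Q_mem y
    rw [← hs, ← ht, hk, hk]

theorem Res.prod (h : Res f ψ θ) (h' : Res p χ θ) : Res (f.prod p) (ψ.prod χ) θ := fun u v => by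
  simp [h u.1, h' u.2]

theorem Res.nondeg (h : Res f ψ θ) (hθ : θ ≠ 0) : f.Nondeg ↔ ψ.Nondeg := by
  refine ⟨fun hf u hu => hf u fun v => by rw [h, hu, map_zero], fun hψ u hu => hψ u fun v => ?_⟩
  by_contra H
  exact hθ (LinearMap.ext fun a => by simpa [H] using (h u ((a / ψ.B u v) • v)).symm.trans (hu _))

theorem Res.tr (hk : QB k) (h : Res f ψ θ) (h' : Res p χ θ) (e : ψ.Equivalent χ) :
    ∃ e : V ≃ₗ[F] U, f.Pres p e ∧ ∀ (a : L) v, e (a • v) = a • e v := by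
  obtain ⟨e, he⟩ := e
  have : ∀ x y, p.B (e x) (e y) = f.B x y := fun x y => by rw [h', h, he.B_eq]
  exact ⟨e.restrictScalars F, ⟨this, fun x => hk.eq (this x x)⟩, e.map_smul⟩

theorem Res.sm (hk : QB k) (h : Res f ψ θ) (h' : Res p χ θ) (e : ψ.Equivalent χ) {u : p.Isom} {σ : L ≃ₐ[F] L}
    (hu : ∀ a v, u.1 (a • v) = σ a • u.1 v) : ∃ y : f.Isom, IsoSim y u ∧ (∀ a v, y.1 (a • v) = σ a • y.1 v) ∧
      ∀ (β : L) w, p.Q w ≠ 0 → u.1 w = β • w → ∃ v, f.Q v ≠ 0 ∧ y.1 v = β • v := by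
  obtain ⟨e, h1, h2⟩ := h.tr hk h' e
  have h3 : ∀ v, e (((isomCongr e h1).symm u).1 v) = u.1 (e v) := fun v => by simp [isomCongr_symm_apply]
  exact ⟨_, ⟨e, h1, h3⟩, fun a v => e.injective (by rw [h3, h2, h2, h3, hu]), fun β w h4 h5 =>
    ⟨e.symm w, by rwa [h1.symm.Q_eq], e.injective (by simp [h3, h2, h5])⟩⟩

theorem pm_congr {a : Form k A} {b : Form k B} (ha : a.Equivalent p) (hb : b.Equivalent p') :
    IsoSim (pm a b) (pm p p') :=
  (isoSim_of_smul ha (a := 1) (by simp) (by simp)).prod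
    (isoSim_of_smul hb (a := -1) (b.scalarIsom_apply _ _) (p'.scalarIsom_apply _ _))

theorem Res.pm (hk : QB k) (h : Res f ψ θ) (h1 : Res p χ θ) (h2 : Res p' χ' θ) (e : ψ.Equivalent (χ.prod χ'))
    {a : Form k A} {b : Form k B} (ha : a.Equivalent p) (hb : b.Equivalent p') :
    ∃ y : f.Isom, LinL L y.1.1 ∧ IsoSim (pm a b) y :=
  let ⟨y, h3, h4, _⟩ := h.sm hk (h1.prod h2) e (u := El.pm p p') (σ := 1) fun a v => by simp [pm_apply]
  ⟨y, h4, (pm_congr ha hb).trans h3.symm⟩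

theorem cs_of {x y : f.Isom} (h : IsoSim x y) (hy : y ∈ smL L f) : ∃ g ∈ (⊤ : Subgroup f.Isom), g⁻¹ * x * g ∈ smL L f :=
  let ⟨c, hc⟩ := isConj_iff.1 (isConj_iff_isoSim.2 h)
  ⟨c⁻¹, trivial, by rwa [inv_inv, hc]⟩

theorem isoSim_conj (x g : f.Isom) : IsoSim x (g⁻¹ * x * g) :=
  isConj_iff_isoSim.1 (isConj_iff.2 ⟨g⁻¹, by rw [inv_inv]⟩)

/-- Restriction of scalars of an orthogonal form. -/
def trO (θ : L →ₗ[F] F) (ψ : Form (Kind.orth L) V) : Form (Kind.orth F) V where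
  B x := θ ∘ₗ (ψ.B x).restrictScalars F
  Q x := θ (ψ.Q x)
  symm x y := by simp [ψ.orth_symm x y]
  Q_add x y := by simp [ψ.Q_add]
  Q_smul a x := by rw [← algebraMap_smul L, ψ.Q_smul]; simp [← map_mul, ← Algebra.smul_def]
  B_self x := by simp [ψ.B_self, two_mul]
  Q_mem x := ⟨_, rfl⟩

variable (F) in
/-- A symplectic form obtained by restriction of scalars. -/
def trS (θ : L →ₗ[F] F) (ψ : Form kL V) (h : ∀ y, θ (kL.ε * kL.σ y) = -θ y) (h' : ∀ x, θ (ψ.B x x) = 0) :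
    Form (Kind.symp F) V where
  B x := θ ∘ₗ (ψ.B x).restrictScalars F
  Q _ := 0
  symm x y := by simp [ψ.symm x y, h]
  Q_add _ _ := by simp
  Q_smul _ _ := by simp
  B_self x := by simp [h']
  Q_mem _ := ⟨0, rfl⟩

/-- A coordinatewise semilinear map. -/
def frobPi (ι : Type) (σ : L ≃ₐ[F] L) {β : L} (h : β ≠ 0) : (ι → L) ≃ₗ[F] (ι → L) :=
  LinearEquiv.piCongrRight fun _ => σ.toLinearEquiv ≪≫ₗ (LinearEquiv.smulOfNeZero L L β h).restrictScalars F

theorem frobPi_apply {ι : Type} (σ : L ≃ₐ[F] L) {β : L} (h : β ≠ 0) (v : ι → L) (i : ι) :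
    frobPi ι σ h v i = β * σ (v i) := rfl

theorem frobPi_smul {ι : Type} (σ : L ≃ₐ[F] L) {β : L} (h : β ≠ 0) (a : L) (v : ι → L) :
    frobPi ι σ h (a • v) = σ a • frobPi ι σ h v := funext fun i => by simp [frobPi_apply, mul_left_comm]

theorem rk_pm [FiniteDimensional F B] (h2 : (2 : F) ≠ 0) (a : Form k A) (b : Form k B) :
    finrank F ((a.prod b).commSub (pm a b)) = finrank F B := by
  rw [← LinearMap.finrank_range_of_inj (LinearMap.inr_injective (R := F) (M := A) (M₂ := B))]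
  refine congrArg (fun W : Submodule F (A × B) => finrank F W) (Submodule.ext fun x => ?_)
  rw [mem_commSub]
  refine ⟨fun ⟨u, hu⟩ => ⟨x.2, by ext <;> simp [← hu, pm_apply]⟩, fun ⟨u, hu⟩ => ⟨(0, (-2⁻¹ : F) • u), ?_⟩⟩
  simp [← hu, pm_apply, ← two_smul F, smul_smul, h2]

theorem num_ext {q k n x u v : ℕ} [Fact r.Prime] (hq : 2 ≤ q) (hk : 0 < k) (hx : r ∣ x)
    (h : x * (u * Sq (q ^ k) (n / k)) = v * Sq q n) : r ∣ v ∨ ∃ i, ¬k ∣ i ∧ r ∣ q ^ (2 * i) - 1 := by
  have hp := (Fact.out : r.Prime).prime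
  have e : Sq (q ^ k) (n / k) = ∏ j ∈ (Finset.range n).filter (fun j => k ∣ j + 1), (q ^ (2 * (j + 1)) - 1) := by
    refine Finset.prod_bij (fun j _ => k * j + (k - 1)) (fun j hj => ?_) (fun i _ j _ e => ?_) (fun j hj => ?_)
      fun j _ => ?_
    · have := (Nat.le_div_iff_mul_le hk).1 (Finset.mem_range.1 hj)
      rw [Nat.succ_mul, mul_comm] at this
      exact Finset.mem_filter.2 ⟨Finset.mem_range.2 (by omega), j + 1, by rw [mul_add]; omega⟩
    · exact Nat.eq_of_mul_eq_mul_left hk (by omega)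
    · obtain ⟨h1, _ | t, h2⟩ := Finset.mem_filter.1 hj
      · omega
      rw [Finset.mem_range] at h1
      exact ⟨t, Finset.mem_range.2 ((Nat.le_div_iff_mul_le hk).2 (by rw [mul_comm, Nat.succ_eq_add_one]; omega)), by
        rw [mul_add] at h2; omega⟩
    · rw [← pow_mul, show k * j + (k - 1) + 1 = k * (j + 1) by rw [mul_add]; omega, mul_left_comm]
  rw [Sq.eq_1 q n, ← Finset.prod_filter_mul_prod_filter_not _ fun j => k ∣ j + 1, ← e, ← mul_assoc, mul_comm (Sq _ _),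
    ← mul_assoc] at h
  have h1 := Nat.eq_of_mul_eq_mul_right (Nat.pos_of_ne_zero (Finset.prod_ne_zero_iff.2 fun j _ =>
    pow_sub_one_ne_zero (hq.trans (Nat.le_self_pow hk.ne' q)) (by omega))) h
  refine (hp.dvd_or_dvd (h1 ▸ hx.mul_right u)).imp_right fun h => ?_
  obtain ⟨j, h1, h2⟩ := (hp.dvd_finsetProd_iff _).1 h
  exact ⟨_, (Finset.mem_filter.1 h1).2, h2⟩

variable [Finite L] [Finite F] [FiniteDimensional F V] [FiniteDimensional L V] [FiniteDimensional F U]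
  [FiniteDimensional L U]

theorem Res.card (hk : QB k) (h : Res f ψ θ) {C : Subgroup f.Isom} [C.Normal] (hr : r ∣ (smL L f).relIndex C) :
    ∃ x, r ∣ x ∧ x * Nat.card ψ.Isom = Nat.card f.Isom := by
  have : Finite V := Module.finite_of_finite F
  let ρ := resI h fun u v e => hk.eq (by rw [h, h, ψ.B_self_eq_of_Q e])
  refine ⟨ρ.range.index, (hr.trans (relIndex_dvd _ _)).trans (Subgroup.index_dvd_of_le ?_), ?_⟩
  · rintro _ ⟨g, rfl⟩
    exact ⟨1, g.1.map_smul⟩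
  · rw [Nat.card_congr (MonoidHom.ofInjective (f := ρ) fun a b e => ψ.isom_ext fun v =>
      congrArg (fun g : f.Isom => g.1 v) e).toEquiv, Subgroup.index_mul_card]

theorem exists_frob (h : finrank F L = 2) : ∃ σ : L ≃ₐ[F] L, (∀ a, σ a = a ^ Nat.card F) ∧ (∀ a, σ (σ a) = a) ∧
    (σ : L →+* L) ≠ RingHom.id L ∧ ∀ τ : L ≃ₐ[F] L, τ = 1 ∨ τ = σ := by
  have := Fintype.ofFinite F
  let σ := FiniteField.frobeniusAlgEquivOfAlgebraic F L
  have h1 : orderOf σ = 2 := h ▸ FiniteField.orderOf_frobeniusAlgEquivOfAlgebraic F L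
  have h2 : σ ≠ 1 := fun e => by simp [e] at h1
  obtain ⟨y, -, hy⟩ := (Nat.card_eq_two_iff' 1).1 ((IsGalois.card_aut_eq_finrank F L).trans h)
  refine ⟨σ, fun a => by simp [σ], fun a => ?_, fun e => h2 (AlgEquiv.ext (RingHom.congr_fun e)),
    fun τ => or_iff_not_imp_left.2 fun H => (hy τ H).trans (hy σ h2).symm⟩
  rw [← AlgEquiv.mul_apply, ← sq, ← h1, pow_orderOf_eq_one]; rfl

section Orth
variable {f f' : Form (Kind.orth F) V} {p : Form (Kind.orth F) U} {ψ ψ' : Form (Kind.orth L) V}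
  {χ : Form (Kind.orth L) U}

theorem disc_rel (h : Res f ψ θ) (h' : Res f' ψ' θ) (hψ : ψ.Nondeg) :
    ∃ t : L, ψ'.disc = ψ.disc * t ∧ f'.disc = f.disc * Algebra.norm F t := by
  choose T hT using fun v => hψ.exists_B_eq (ψ'.B v)
  replace hT : ∀ u v, ψ.B u (T v) = ψ'.B u v := fun u v => by rw [ψ.orth_symm, hT, ψ'.orth_symm]
  let T' : End L V := ⟨⟨T, fun x y => hψ.eq_of_B_eq_right fun u => by simp [hT]⟩, fun a x =>
    hψ.eq_of_B_eq_right fun u => by simp [hT]⟩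
  refine ⟨LinearMap.det T', ?_, ?_⟩
  · rw [disc, disc, ← det_B_apply]
    exact congrArg _ (Matrix.ext fun i j => (hT _ _).symm)
  · rw [disc, disc, ← LinearMap.det_restrictScalars, ← det_B_apply]
    exact congrArg _ (Matrix.ext fun i j => (h' _ _).trans ((congrArg θ (hT _ _).symm).trans (h _ _).symm))

theorem sq_norm (h2 : (2 : F) ≠ 0) {t : L} (ht : t ≠ 0) : sqSign (Algebra.norm F t) = sqSign t := by
  have h1 : ∀ s : L, sqSign s = 1 → sqSign (Algebra.norm F s) = 1 := fun s h =>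
    sqSign_eq_one.2 ((sqSign_eq_one.1 h).map _)
  rcases Int.units_eq_one_or (sqSign t) with h | h
  · rw [h, h1 t h]
  obtain ⟨a, ha⟩ := FiniteField.exists_nonsquare (F := F) (fun e => h2 ((ringChar.spec F 2).2 e.dvd))
  obtain ⟨s, rfl⟩ := FiniteField.norm_surjective F L a
  have h3 : s ≠ 0 := by rintro rfl; simp at ha
  have h4 := (Int.units_eq_one_or (sqSign s)).resolve_left fun e => ha (sqSign_eq_one.1 (h1 s e))
  have h5 := h1 (t * s) (by rw [sqSign_mul ht h3, h, h4]; rfl)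
  rw [map_mul, sqSign_mul (by simpa) (by simpa), sqSign_eq_neg_one.2 ha] at h5
  simpa [h, neg_eq_iff_eq_neg] using h5

variable (h2 : (2 : F) ≠ 0) (hθ : θ ≠ 0)
include h2

theorem two_ne : (2 : L) ≠ 0 := by rwa [← map_ofNat (algebraMap F L), _root_.map_ne_zero]

include hθ

theorem disc_sign (h : Res f ψ θ) (h' : Res f' ψ' θ) (hψ : ψ.Nondeg) (hψ' : ψ'.Nondeg) :
    IsSquare (f.disc * f'.disc) ↔ IsSquare (ψ.disc * ψ'.disc) := by
  obtain ⟨t, h1, h3⟩ := disc_rel h h' hψ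
  have h4 : t ≠ 0 := by rintro rfl; exact hψ'.disc_ne_zero (by simp [h1])
  have h5 := ((h.nondeg hθ).2 hψ).disc_ne_zero
  have h6 := hψ.disc_ne_zero
  rw [← sqSign_eq_one, ← sqSign_eq_one, h1, h3, ← mul_assoc, ← mul_assoc, sqSign_mul (by simpa) (by simpa),
    sqSign_mul (by simpa) h4, sq_norm h2 h4, sqSign_eq_one.2 ⟨_, rfl⟩, sqSign_eq_one.2 ⟨_, rfl⟩]

theorem Res.equiv (h : Res f ψ θ) (h' : Res p χ θ) (hf : f.Nondeg) (e : f.Equivalent p) : ψ.Equivalent χ := by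
  have h1 := e.finrank_eq
  rw [← finrank_mul_finrank F L V, ← finrank_mul_finrank F L U] at h1
  let E := LinearEquiv.ofFinrankEq V U (Nat.eq_of_mul_eq_mul_left finrank_pos h1)
  have h3 := (h.nondeg hθ).1 hf
  have h4 := ((h'.nondeg hθ).1 (e.nondeg hf)).comap_equiv E
  have h5 := e.trans (equivalent_comap p (E.restrictScalars F)).symm
  exact ((h3.equivalent_iff_isSquare (two_ne h2) h4 rfl).2 ((disc_sign h2 hθ h (fun u v => h' _ _) h3 h4).1
    ((hf.equivalent_iff_isSquare h2 (h5.nondeg hf) rfl).1 h5))).trans (equivalent_comap χ E)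

theorem exists_trO [FiniteDimensional F A] {a : Form (Kind.orth F) A} (ha : a.Nondeg) {m : ℕ} (hm : m ≠ 0)
    (h : finrank F A = finrank F L * m) : ∃ χ : Form (Kind.orth L) (Fin m → L), a.Equivalent (trO θ χ) := by
  have h2' := two_ne (L := L) h2
  obtain ⟨δ, hδ⟩ := FiniteField.exists_nonsquare (F := L) (fun e => h2' ((ringChar.spec L 2).2 e.dvd))
  have δ0 : δ ≠ 0 := by rintro rfl; simp at hδ
  obtain ⟨χ, h1, h3⟩ := exists_disc_form h2' hm one_ne_zero
  obtain ⟨χ', h4, h5⟩ := exists_disc_form h2' hm δ0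
  have n : ∀ χ : Form (Kind.orth L) (Fin m → L), χ.Nondeg → (trO θ χ).Nondeg := fun χ =>
    (Res.nondeg (fun _ _ => rfl) hθ).2
  have d : finrank F A = finrank F (Fin m → L) := by rw [h, ← finrank_mul_finrank F L (Fin m → L), finrank_fin_fun]
  have h6 := (disc_sign h2 hθ (f := trO θ χ) (f' := trO θ χ') (fun _ _ => rfl) (fun _ _ => rfl) h1 h4).not.2 (by
    rw [← sqSign_eq_iff δ0 h4.disc_ne_zero, sqSign_eq_neg_one.2 hδ] at h5
    rw [← sqSign_eq_iff h1.disc_ne_zero h4.disc_ne_zero, ← h5, sqSign_eq_one.2 (by simpa using h3)]; decide)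
  by_contra! H
  have h7 := (ha.equivalent_iff_isSquare h2 (n χ h1) d).not.1 (H χ)
  have h8 := (ha.equivalent_iff_isSquare h2 (n χ' h4) d).not.1 (H χ')
  rw [← sqSign_eq_iff ha.disc_ne_zero (n _ ‹_›).disc_ne_zero, ← Ne, Int.units_ne_iff_eq_neg] at h7 h8
  exact h6 ((sqSign_eq_iff (n χ h1).disc_ne_zero (n χ' h4).disc_ne_zero).1 (neg_injective (h7.symm.trans h8)))

end Orth

end CA.El
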