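import Cfsg.Agent.Lib.Lin.El22

/-! Elements of prime order and field-extension subgroups of symplectic groups. -/

set_option autoImplicit false
set_option linter.unusedSectionVars false

namespace CA.El

open Module Polynomial CA.Rcf CA.CForm CA.CForm.Form

variable {F : Type*} [Field F] {k : Kind F} {V : Type*} [AddCommGroup V] [Module F V]
  {L : Type*} [Field L] [Algebra F L] [Module L V] [IsScalarTower F L V]
  {U : Type*} [AddCommGroup U] [Module F U]
  {f : Form k V} {kL : Kind L} {ψ : Form kL V} {θ : L →ₗ[F] F} {r d : ℕ} {G : Subgroup f.Isom}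

variable (L) in
/-- Every element of projective order `r` is conjugate to a semilinear one. -/
def AllS (G : Subgroup f.Isom) (r : ℕ) : Prop := ∀ u ∈ G, PO r u.1.1 → ∃ h ∈ G, h⁻¹ * u * h ∈ smL L f

theorem Res.lift (hk : QB k) (h : Res f ψ θ) (w : ψ.Isom) : ∃ y : f.Isom, ∀ v, y.1 v = w.1 v :=
  ⟨resI h (fun u v e => hk.eq (by rw [h, h, ψ.B_self_eq_of_Q e])) w, fun _ => rfl⟩

variable [FiniteDimensional F V] [FiniteDimensional F U]

theorem AllS.ex (H : AllS L G r) {u : f.Isom} (hu : u ∈ G) (h : PO r u.1.1) :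
    ∃ y ∈ smL L f, orderOf y = orderOf u ∧ edivs y.1.1 = edivs u.1.1 :=
  let ⟨g, _, hg⟩ := H u hu h
  ⟨_, hg, (isoSim_order (isoSim_conj u g)).symm, (sim_iff_edivs.1 (isoSim_conj u g).sim).symm⟩

theorem ker_unip {A : End F V} {μ : Multiset ℕ} (h : edivs A = μ.map fun i => (X - 1 : F[X]) ^ i) (j : ℕ) :
    finrank F (LinearMap.ker (aeval A ((X - 1 : F[X]) ^ j))) = (μ.map (min · j)).sum := by
  rw [finrank_ker_aeval, h, Multiset.map_map]
  exact congrArg _ (Multiset.map_congr rfl fun i _ => by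
    simpa [natDegree_X_sub_one] using kd_pow_pow (X_sub_C_ne_zero (1 : F)) i j)

theorem symp4 {f : Form (Kind.symp F) V} {p : Form (Kind.symp F) U} (hf : f.Nondeg) (hp : p.Nondeg)
    (h2 : (2 : F) ≠ 0) (h : finrank F V = 4) (h' : finrank F U = 4) {x : f.Isom} {u : p.Isom} (hx : PO 2 x.1.1)
    (hu : PO 2 u.1.1) (hx' : ¬Neg x) (hu' : ¬Neg u) : IsoSim x u := by
  obtain ⟨W, a1, a2, a3, a4⟩ := (po2_cases (fun _ => rfl) hf h2 hx).resolve_left hx'
  obtain ⟨W', b1, b2, b3, b4⟩ := (po2_cases (fun _ => rfl) hp h2 hu).resolve_left hu'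
  have a5 := (f.nondeg_restrict_iff W).2 a1
  have b5 := (p.nondeg_restrict_iff W').2 b1
  have a6 := Nat.even_iff.1 a5.symp_even
  have b6 := Nat.even_iff.1 b5.symp_even
  have a7 := Nat.even_iff.1 (hf.restrict_perp a1).symp_even
  have b7 := Nat.even_iff.1 (hp.restrict_perp b1).symp_even
  have a8 := hf.finrank_perp W
  have b8 := hp.finrank_perp W'
  exact (a4.symm.trans (pm_congr (a5.symp_equivalent b5 (by omega))
    ((hf.restrict_perp a1).symp_equivalent (hp.restrict_perp b1) (by omega)))).trans b4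

variable [Finite L] [Finite F] [FiniteDimensional L V] [Fact r.Prime]

theorem AllS.unip [CharP F r] (H : AllS L G r) (hf : f.Nondeg) (hL : 2 ≤ finrank F L) {u : f.Isom} (hu : u ∈ G)
    {j : ℕ} (h1 : 1 ≤ j) (h2 : j < r) (h3 : 2 * j < finrank F V) (h : edivs u.1.1 =
      ((j + 1) ::ₘ Multiset.replicate (finrank F V - (j + 1)) 1).map fun i => (X - 1 : F[X]) ^ i) : False := by
  obtain ⟨y, h4, -, h5⟩ := H.ex hu (po_of_order hf (order_unip r h (by simp [Multiset.mem_replicate]; omega)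
    (by simp; omega)) fun c _ h4 _ => eq_one_of_pow (by simpa using not_dvd_char (F := F) r one_ne_zero) h4)
  rw [h] at h5
  rcases lin_or h4 one_ne_zero with h6 | h6
  · have h7 := ker_unip h5 j ▸ h6.dvd ((X - 1) ^ j)
    simp only [Multiset.map_cons, Multiset.map_replicate, Multiset.sum_cons, Multiset.sum_replicate] at h7
    rw [min_eq_right j.le_succ, min_eq_left h1, smul_eq_mul, mul_one] at h7
    have := Nat.le_of_dvd (by omega) (Nat.dvd_sub (Dvd.intro _ (finrank_mul_finrank F L V)) h7)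
    omega
  · have h7 := ker_unip h5 1
    rw [aeval_X_sub_one_pow, pow_one, ← one_smul F (1 : End F V)] at h7
    simp only [h7, Multiset.map_cons, Multiset.map_replicate, Multiset.sum_cons, Multiset.sum_replicate] at h6
    simp at h6
    omega

theorem AllS.cyc (H : AllS L G r) (hG : ∀ u : f.Isom, orderOf u = r → u ∈ G) (hσ : k.σ = RingHom.id F)
    (hf : f.Nondeg) (hr : (r : F) ≠ 0) (hr2 : r ≠ 2) {N : ℕ → Prop}
    (hN : ∀ m, (∀ d ∈ m, d ∈ cycT F r) → (Ok f m ↔ m.map (dual k.σ) = m ∧ N m.card))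
    (hm : ∀ x y, y ≤ x → N x → N y) (h : r ∣ Nat.card f.Isom) {s : L → L}
    (hs : ∀ a u v, f.B (a • u) v = f.B u (s a • v)) {i : ℕ} (hi : i = orderOf (Nat.card F : ZMod r)) :
    (finrank F L ∣ i ∧ (Even i → ∀ a, s a = a ^ Nat.card F ^ (i / 2))) ∨
      (r ∣ finrank F L ∧ finrank F V + 2 ≤ 2 * r) := by
  classical
  have hr' : r.Prime := Fact.out
  have hU := hi ▸ unif_id hr hr2 hσ
  obtain ⟨x, φ, j, h1, h2, h3⟩ := exists_min hr hr2 hU hN hm h
  obtain ⟨t, ht⟩ := hr'.odd_of_ne_two hr2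
  obtain ⟨y, h4, h5, h6⟩ := H.ex (hG x h2) (po_of_order hf h2 fun c h3 h4 _ => by
    rw [hσ] at h3
    rw [ht, pow_succ, pow_mul, sq, show c * c = 1 from h3] at h4; simpa using h4)
  rw [h3] at h6
  by_cases h7 : LinL L y.1.1
  · exact .inl (lin_cyc hr hr2 hσ hf h7 hs h1 hi h6)
  refine .inr ⟨by_contra fun e => h7 (lin_of_pow h4 (by rw [← h2, ← h5, pow_orderOf_eq_one])
    (hr'.coprime_iff_not_dvd.2 e)), ?_⟩
  have h8 := (lin_or h4 one_ne_zero).resolve_left h7
  have h9 := count_le_ker (x := y.1.1) 1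
  rw [h6, Multiset.count_add, C_1, Multiset.count_replicate_self] at h9
  have h10 := finrank_eq_of_edivs hr (hU.mem_un (by simpa)) h6
  rw [hU.card_un, ← hi, Multiset.card_singleton, mul_one] at h10
  have h11 : i ∣ 2 * t := Dvd.intro_left _ (by rw [hi, (natDegree_cycT hr).2, ht]; rfl)
  have h12 := hr'.two_le
  split_ifs at h10 with e
  · have := Nat.le_of_dvd (by omega) h11
    omega
  · have := Nat.le_of_dvd (by omega) ((Nat.not_even_iff_odd.1 e).coprime_two_right.dvd_of_dvd_mul_left h11)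
    omega

variable {f : Form (Kind.symp F) V}

theorem symp_neg (hf : f.Nondeg) (hL : 2 ≤ finrank F L) (hd : finrank F V = 2 * d) (h2 : 2 ≤ d)
    (H : AllS L (⊤ : Subgroup f.Isom) r) : (r : F) ≠ 0 ∧ (r ≠ 2 → r ∣ Nat.card f.Isom → ∀ s : L → L,
      (∀ a u v, f.B (a • u) v = f.B u (s a • v)) → ∀ i, i = orderOf (Nat.card F : ZMod r) →
      (finrank F L ∣ i ∧ (Even i → ∀ a, s a = a ^ Nat.card F ^ (i / 2))) ∨
        (r ∣ finrank F L ∧ finrank F V + 2 ≤ 2 * r)) := by
  have hr' : r.Prime := Fact.out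
  have hr : (r : F) ≠ 0 := fun hr => by
    have := (CharP.charP_iff_prime_eq_zero (R := F) hr').2 hr
    obtain ⟨g, hg⟩ := hf.symp_exists_iff.2 ⟨adm_unip (2 ::ₘ Multiset.replicate (finrank F V - 2) 1)
      (by simp [Multiset.mem_replicate]), (par_unip_iff _ _).2 fun j hj => by
        rw [Nat.even_iff] at hj ⊢
        simp only [Multiset.count_cons, Multiset.count_replicate]; split_ifs <;> omega,
      (dg_unip _).trans (by simp; omega)⟩
    exact H.unip hf hL trivial le_rfl hr'.one_lt (by omega) hg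
  exact ⟨hr, fun hr2 h s hs i hi => H.cyc (fun _ _ => trivial) rfl hf hr hr2
    (N := (orderOf (Nat.card F : ZMod r) * · ≤ finrank F V)) (fun m hm => hf.symp_cycT_iff hr hr2 hm)
    (fun x y h h' => (Nat.mul_le_mul_left _ h).trans h') h hs hi⟩

theorem symp_main (hf : f.Nondeg) (hsa : ∀ (a : L) u v, f.B (a • u) v = f.B u (a • v))
    (ha : ∀ (a : L) v, f.B v (a • v) = 0) (hk : (finrank F L).Prime) (hd : finrank F V = 2 * d) (h2 : 2 ≤ d)
    (hΩ : r ∣ (smL L f).relIndex ⊤) :
    AllS L (⊤ : Subgroup f.Isom) r ↔ r = 2 ∧ d = 2 ∧ finrank F L = 2 ∧ Odd (Nat.card F) := by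
  have hr' : r.Prime := Fact.out
  have hθ := Algebra.trace_ne_zero F L
  obtain ⟨Φ, hΦ⟩ := f.exists_sesq hθ
  let ψ : Form (Kind.symp L) V := ⟨Φ, fun _ => 0, fun x y => θ_ext hθ fun a => by
    rw [hΦ, f.symp_symm, hsa, ← hΦ]; simp, by simp, by simp, fun x => θ_ext hθ fun a => by
      simp [hΦ, ha], fun _ => ⟨0, rfl⟩⟩
  have hB : Res f ψ (Algebra.trace F L) := fun u v => by simpa using (hΦ u v 1).symm
  have hψ := (hB.nondeg hθ).1 hf
  obtain ⟨m, hm⟩ := hψ.symp_even
  have h3 : d = finrank F L * m := by have := finrank_mul_finrank F L V; rw [hm, hd, mul_add] at this; omega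
  have q2 := two_le_card (F := F)
  refine ⟨fun H => ?_, ?_⟩
  · obtain ⟨hr, H'⟩ := symp_neg hf hk.two_le hd h2 H
    by_cases hr2 : r = 2
    · subst hr2
      have h4 : (2 : F) ≠ 0 := by simpa using hr
      suffices d = 2 from ⟨rfl, this, (Nat.prime_dvd_prime_iff_eq hk Nat.prime_two).1 ⟨m, this ▸ h3⟩,
        Nat.odd_iff.2 (card_odd h4)⟩
      classical
      obtain ⟨p', hp'⟩ := exists_symp_compl hf (sympStd_nondeg F 1) (n := finrank F V - 2) (by simp; omega)
      obtain ⟨g, hg⟩ := exists_pm ((Equivalent.prod_comm _ _).trans hp')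
      have h5 : (-1 : F) ≠ 1 := fun e => h4 (by linear_combination -e)
      have h6 : ∀ a ∈ Multiset.replicate (finrank F (Fin (finrank F V - 2) → F)) (1 : F) +
          Multiset.replicate (finrank F (Fin 1 ⊕ Fin 1 → F)) (-1), a ^ 2 = 1 := by
        simp +contextual [Multiset.mem_replicate, or_imp]
      obtain ⟨y, h7, -, h8⟩ := H.ex trivial (po_lin hg (x := -1) (y := 1) h6 (by simp)
        (by simp [Multiset.mem_replicate]; omega) h5)
      rw [hg] at h8
      have h9 : ∀ c : F, _ = finrank F (LinearMap.ker (y.1.1 - c • 1)) := fun c =>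
        (ElF.eig_diag h8 c).symm.trans (by rw [End.eigenspace_def])
      simp only [Multiset.count_add, Multiset.count_replicate] at h9
      rcases lin_or h7 one_ne_zero with h10 | h10
      swap
      · rw [← h9 1] at h10
        simp [h5] at h10
        omega
      have h11 := h9 (-1)
      set W := LinearMap.ker (y.1.1 - (-1 : F) • 1)
      simp only [h5.symm, if_false, if_true, finrank_fintype_fun_eq_card, Fintype.card_sum, Fintype.card_fin] at h11
      have h12 : ∀ v, v ∈ W ↔ y.1 v = -v := fun v => by simp [W, add_eq_zero_iff_eq_neg]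
      have h13 : ∀ v, y.1 (y.1 v) = v := fun v => by simpa [sq] using LinearMap.congr_fun ((pow_lin h8).2 h6) v
      obtain ⟨w, hw, w0⟩ := W.exists_mem_ne_zero_of_ne_bot (fun e => by rw [e, finrank_bot] at h11; omega)
      have h14 : lpt F L w = W := Submodule.eq_of_le_of_finrank_le (fun v hv => by
        obtain ⟨a, rfl⟩ := mem_lpt.1 hv
        rw [h12] at hw ⊢
        rw [show y.1 (a • w) = _ from h10 a w, ← smul_neg, ← hw]; rfl) (by
          rw [finrank_lpt w0, ← h11]; exact hk.two_le)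
      refine (w0 (hf w fun v => mul_left_cancel₀ h4 ?_)).elim
      obtain ⟨a, e⟩ := mem_lpt.1 (h14 ▸ (h12 (v - y.1 v)).2 (by simp [h13]))
      have e1 := ha a w
      have e2 := f.B_coe_map y w (y.1 v)
      rw [h13, (h12 w).1 hw, B_neg_left] at e2
      rw [e, map_sub] at e1
      linear_combination e1 - e2
    obtain ⟨x, h4, h5⟩ := hB.card qb_symp hΩ
    have h6 := H' hr2 (h5 ▸ h4.mul_right _) id hsa _ rfl
    have m0 : 0 < m := by by_contra e; rw [show m = 0 by omega] at h3; omega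
    rw [hf.card_isom_symp d hd, hψ.card_isom_symp m (by omega), Module.natCard_eq_pow_finrank (K := F) (V := L),
      show m = d / finrank F L by rw [h3, Nat.mul_div_cancel_left _ hk.pos]] at h5
    rcases h6 with ⟨h6, h7⟩ | ⟨h6, h7⟩
    swap
    · have := Nat.le_of_dvd hk.pos h6
      have := Nat.le_mul_of_pos_right (finrank F L) m0
      omega
    obtain ⟨i, h8, h9⟩ := (num_ext q2 hk.pos h4 h5).resolve_left (not_dvd_card_pow hr _)
    rw [dvd_pow_sub_one_iff (by omega)] at h9
    refine (h8 ?_).elim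
    rcases Nat.even_or_odd (orderOf (Nat.card F : ZMod r)) with e | e
    · refine (dvd_of_frob (h7 e)).trans (Nat.dvd_of_mul_dvd_mul_left two_pos ?_)
      rwa [Nat.two_mul_div_two_of_even e]
    · exact h6.trans (e.coprime_two_right.dvd_of_dvd_mul_left h9)
  rintro ⟨rfl, rfl, h4, h5⟩ x - hx
  have h6 : (2 : F) ≠ 0 := fun e => by have := card_even e; rw [Nat.odd_iff] at h5; omega
  by_cases h7 : Neg x
  · obtain ⟨w, hw⟩ := exists_neg_symp (two_ne h6) hψ
    obtain ⟨y, hy⟩ := hB.lift qb_symp w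
    exact cs_of (h7.isoSim (fun _ => rfl) h6 (u := y) (LinearMap.ext fun v => by simp [sq, hy, hw.apply]) hf hf rfl)
      ⟨1, fun a v => by simp [hy]⟩
  obtain ⟨σ, -, h8, h9, -⟩ := exists_frob h4
  let p := trS F (Algebra.trace F L) (sympStd L 1) (by simp) fun x => by simp [B_self]
  have hp : Res p (sympStd L 1) (Algebra.trace F L) := fun _ _ => rfl
  let u : p.Isom := ⟨frobPi _ σ one_ne_zero, (symp_mem_Isom _).2 fun x y => by
    rw [hp, hp, ← Algebra.trace_eq_of_algEquiv σ ((sympStd L 1).B x y)]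
    simp [sympStd_B, sympForm_eq, frobPi_apply]⟩
  obtain ⟨y, h10, h11, -⟩ := hB.sm qb_symp hp (hψ.symp_equivalent (sympStd_nondeg L 1) (by rw [h4] at h3; simp; omega)) (u := u)
    (frobPi_smul σ one_ne_zero)
  have h12 : u.1.1 ^ 2 = (1 : F) • 1 := LinearMap.ext fun v => funext fun i => by simp [sq, u, frobPi_apply, h8]
  refine cs_of ((symp4 hf ((hp.nondeg hθ).2 (sympStd_nondeg L 1)) h6 hd (by
    rw [← finrank_mul_finrank F L (_ → L), h4]; simp) hx ⟨⟨1, h12⟩, fun c e => h9 (RingHom.ext fun a => ?_)⟩ h7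
    fun e => ?_).trans h10.symm) ⟨σ, h11⟩
  · have e1 := fun a : L => congrFun (LinearMap.congr_fun e fun _ => a) (.inl 0)
    replace e1 : ∀ a, σ a = algebraMap F L c * a := fun a => by
      rw [← Algebra.smul_def]; exact (one_mul _).symm.trans (e1 a)
    have e2 := e1 1
    rw [map_one, mul_one] at e2
    exact (e1 a).trans (by rw [← e2, one_mul]; rfl)
  · have e1 := congrFun (LinearMap.congr_fun (h12.symm.trans e) fun _ => 1) (.inl 0)
    exact two_ne (L := L) h6 (by simp at e1; linear_combination e1)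

theorem herm_main (hf : f.Nondeg) (hac : ∀ a : L, ∃ a' : L, ∀ u v, f.B (a • u) v = f.B u (a' • v))
    (hns : ¬∀ (a : L) u v, f.B (a • u) v = f.B u (a • v)) (h2 : (2 : F) ≠ 0) (hL : finrank F L = 2)
    (hd : finrank F V = 2 * d) (h3 : 2 ≤ d) (hΩ : r ∣ (smL L f).relIndex ⊤) :
    AllS L (⊤ : Subgroup f.Isom) r ↔ r = 2 := by
  have hr' : r.Prime := Fact.out
  have : Nontrivial V := Module.finrank_pos_iff.1 (by omega : 0 < finrank F V)
  have := Fintype.ofFinite L
  have hF : Fintype.card L = Nat.card F ^ 2 := by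
    rw [← Nat.card_eq_fintype_card, Module.natCard_eq_pow_finrank (K := F), hL]
  obtain ⟨σ, s1, s2, s3, s4⟩ := exists_frob hL
  have s5 : ∀ a, conj hF a = σ a := fun a => (s1 a).symm
  have hsa : ∀ a u v, f.B (a • u) v = f.B u (conj hF a • v) := by
    obtain ⟨s, hs, hsa⟩ := hf.exists_inv hac
    obtain ⟨v, v0⟩ := exists_ne (0 : V)
    rcases s4 (AlgEquiv.ofBijective ⟨s, fun c => smul_left_injective L v0 (hf.eq_of_B_eq_right fun u => by
      simp [← hsa])⟩ (Function.Involutive.bijective hs)) with e | e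
    · exact (hns fun a u v => by rw [hsa, show s a = a from DFunLike.congr_fun e a]).elim
    · exact fun a u v => by rw [hsa, s5, show s a = σ a from DFunLike.congr_fun e a]
  obtain ⟨a, ha⟩ := not_forall.1 fun H => s3 (RingHom.ext H)
  obtain ⟨l, hl⟩ := Module.Projective.exists_dual_ne_zero F (sub_ne_zero.2 (Ne.symm ha))
  let θ : L →ₗ[F] F := l ∘ₗ (LinearMap.id - σ.toLinearMap)
  have hθ : θ ≠ 0 := fun e => hl (LinearMap.congr_fun e a)
  have h4 : ∀ y, θ (σ y) = -θ y := fun y => by simp [θ, s2]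
  obtain ⟨ψ, hB⟩ := hf.exists_herm (fun _ => rfl) (conj_conj hF) (conj_ne_id hF) hsa hθ fun y => by simp [s5, h4]
  replace hB : Res f ψ θ := hB
  have hψ := (hB.nondeg hθ).1 hf
  have h5 : finrank L V = d := by have := finrank_mul_finrank F L V; rw [hL, hd] at this; omega
  have q2 := two_le_card (F := F)
  refine ⟨fun H => by_contra fun hr2 => ?_, ?_⟩
  · obtain ⟨hr, H'⟩ := symp_neg hf hL.ge hd h3 H
    obtain ⟨x, h6, h7⟩ := hB.card qb_symp hΩ
    obtain ⟨h8, h9⟩ := (H' hr2 (h7 ▸ h6.mul_right _) _ hsa _ rfl).resolve_right fun e =>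
      hr2 ((Nat.prime_dvd_prime_iff_eq hr' Nat.prime_two).1 (hL ▸ e.1))
    obtain ⟨t, ht⟩ := hL ▸ h8
    have h10 : Odd t := Nat.not_even_iff_odd.1 fun ⟨j, hj⟩ => conj_ne_id hF (RingHom.ext fun a => by
      rw [h9 ⟨t, by omega⟩, ht, Nat.mul_div_cancel_left _ two_pos, hj, ← two_mul, pow_mul, ← hF,
        FiniteField.pow_card_pow]; rfl)
    set q := Nat.card F
    have e : ∀ i, q ^ (2 * (i + 1)) - 1 = (if Even i then q ^ (i + 1) - 1 else q ^ (i + 1) + 1) *
        if Even i then q ^ (i + 1) + 1 else q ^ (i + 1) - 1 := fun i => by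
      rw [← sq_sub_one_eq]; split_ifs <;> simp [mul_comm]
    rw [hf.card_isom_symp d hd, herm_card_isom hF d hψ h5, Finset.prod_congr rfl fun i _ => e i,
      Finset.prod_mul_distrib, ← mul_assoc, ← mul_assoc] at h7
    have h11 := Nat.eq_of_mul_eq_mul_right (Finset.prod_pos fun i _ => by
      have := pow_sub_one_ne_zero q2 (j := i + 1) i.succ_ne_zero
      split_ifs <;> omega) h7
    obtain ⟨i, -, hi⟩ := (hr'.prime.dvd_finsetProd_iff _).1
      ((hr'.dvd_mul.1 (h11 ▸ h6.mul_right _)).resolve_left (not_dvd_card_pow hr _))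
    split_ifs at hi with e
    · rw [dvd_pow_sub_one_iff (by omega), ht] at hi
      have := (Dvd.intro _ rfl).trans hi
      rw [Nat.even_iff] at e; omega
    · obtain ⟨e1, e2⟩ := (pm_facts (by omega) hr2).2 hi
      rw [dvd_pow_sub_one_iff (by omega), ht] at e1 e2
      exact e2 (h10.coprime_two_left.mul_dvd_of_dvd_of_dvd (by rw [Nat.even_iff] at e; omega)
        (Nat.dvd_of_mul_dvd_mul_left two_pos e1))
  rintro rfl x - hx
  let p := fun n => trS F θ (hermStd hF n) (by simp [s5, h4]) fun x => mul_left_cancel₀ h2 (by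
    have := (hermStd hF n).symm x x
    simp only [Kind.herm_ε, Kind.herm_σ, one_mul, s5] at this
    have e := congrArg θ this
    rw [h4] at e
    linear_combination e)
  have hp : ∀ n, Res (p n) (hermStd hF n) θ := fun _ _ _ => rfl
  have h6 : ∀ n, (p n).Nondeg := fun n => ((hp n).nondeg hθ).2 (hermStd_nondeg hF n)
  have h7 : ∀ n, finrank F (Fin n → L) = n + n := fun n => by
    rw [← finrank_mul_finrank F L (_ → L), hL, finrank_fin_fun, two_mul]
  rcases po2_cases (fun _ => rfl) hf h2 hx with h | ⟨W, a1, -, -, a2⟩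
  · obtain ⟨β, hβ⟩ := exists_norm_eq (σ : L →+* L) s2 s3 (-1) (by simp)
    have β0 : β ≠ 0 := by rintro rfl; simp at hβ
    replace hβ : β * σ β = -1 := hβ
    let u : (p d).Isom := ⟨frobPi _ σ β0, (symp_mem_Isom _).2 fun x y => by
      rw [hp, hp, ← neg_neg (θ ((hermStd hF d).B x y)), ← h4, ← map_neg]
      simp only [hermStd_B, Cfsg.hermForm, frobPi_apply, ← s1, map_mul, map_sum, ← Finset.sum_neg_distrib]
      exact Finset.sum_congr rfl fun i _ => congrArg θ (by linear_combination σ (y i) * σ (σ (x i)) * hβ)⟩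
    obtain ⟨y, h8, h9, -⟩ := hB.sm qb_symp (hp d) (hψ.herm_equivalent (conj_ne_id hF) (hermStd_nondeg hF d)
      (by simpa)) (u := u) (frobPi_smul σ β0)
    exact cs_of ((h.isoSim (fun _ => rfl) h2 (u := u) (LinearMap.ext fun v => funext fun i => by
      simp [sq, u, frobPi_apply, s2, ← mul_assoc, hβ]) hf (h6 d) (by rw [h7]; omega)).trans h8.symm) ⟨σ, h9⟩
  · have a3 := (f.nondeg_restrict_iff W).2 a1
    obtain ⟨s, hs⟩ := a3.symp_even
    obtain ⟨t, ht⟩ := (hf.restrict_perp a1).symp_even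
    have := hf.finrank_perp W
    obtain ⟨y, h8, h9⟩ := hB.pm qb_symp (hp s) (hp t) (hψ.herm_equivalent (conj_ne_id hF)
      ((hermStd_nondeg hF s).prod (hermStd_nondeg hF t)) (by simp; omega)) (a3.symp_equivalent (h6 s) (by rwa [h7]))
      ((hf.restrict_perp a1).symp_equivalent (h6 t) (by rwa [h7]))
    exact cs_of (a2.symm.trans h9) h8.mem

omit [Finite F] in
theorem spGL_map (d : ℕ) : Cfsg.spGL d F = (⊤ : Subgroup (sympStd F d).Isom).map (CA.AschFG.toGL _) :=
  Subgroup.ext fun x => ⟨fun h => ⟨spGLEquiv F d ⟨x, h⟩, trivial, glEquiv.symm_apply_apply x⟩, by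
    rintro ⟨g, -, rfl⟩
    exact ((spGLEquiv F d).symm g).2⟩

end CA.El
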