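import Cfsg.Agent.Lib.Lin.El23

/-! Elements of prime order and field-extension subgroups of orthogonal groups. -/

set_option autoImplicit false
set_option linter.unusedSectionVars false

namespace CA.El

open Module Polynomial CA.Rcf CA.CForm CA.CForm.Form

variable {F : Type*} [Field F] {V : Type*} [AddCommGroup V] [Module F V]
  {L : Type*} [Field L] [Algebra F L] [Module L V] [IsScalarTower F L V]
  {A : Type*} [AddCommGroup A] [Module F A] {B : Type*} [AddCommGroup B] [Module F B]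
  {f : Form (Kind.orth F) V} {ψ : Form (Kind.orth L) V} {θ : L →ₗ[F] F} {r d : ℕ}
  [FiniteDimensional F V] [FiniteDimensional F A] [FiniteDimensional F B] [Finite L] [Finite F]
  [FiniteDimensional L V]

theorem om_asm (hf : f.Nondeg) (hg : f.Good) {x y s c : f.Isom} (hy : y ∈ smL L f) (h : IsoSim x y)
    (hs : s⁻¹ * y * s ∈ smL L f) (hs' : hf.dick hg s = -1) (hc : c ∈ smL L f) (hc1 : hf.dick hg c = 1)
    (hc2 : hf.spin hg c = -1) : ∃ g ∈ commutator f.Isom, g⁻¹ * x * g ∈ smL L f := by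
  obtain ⟨g, h1, h2⟩ : ∃ g, hf.dick hg g = 1 ∧ g⁻¹ * x * g ∈ smL L f := by
    obtain ⟨g, rfl⟩ := isConj_iff.1 (isConj_iff_isoSim.2 h)
    rcases Int.units_eq_one_or (hf.dick hg g) with e | e
    · exact ⟨g⁻¹, by simp [e], by rwa [inv_inv]⟩
    · exact ⟨g⁻¹ * s, by simp [e, hs'], by simpa [mul_assoc] using hs⟩
  rcases Int.units_eq_one_or (hf.spin hg g) with e | e
  · exact ⟨g, (hf.mem_commutator_iff hg g).2 ⟨h1, e⟩, h2⟩
  · exact ⟨g * c, (hf.mem_commutator_iff hg _).2 ⟨by simp [h1, hc1], by simp [e, hc2]⟩, by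
      simpa [mul_assoc] using mul_mem (mul_mem (inv_mem hc) h2) hc⟩

theorem card_even_orth (hf : f.Nondeg) {m : ℕ} (h : finrank F V = 2 * (m + 1)) :
    (Pl f ∧ Nat.card f.Isom = 2 * Nat.card F ^ ((m + 1) * m) * (Nat.card F ^ (m + 1) - 1) * Sq (Nat.card F) m) ∨
    (¬Pl f ∧ Nat.card f.Isom = 2 * Nat.card F ^ ((m + 1) * m) * (Nat.card F ^ (m + 1) + 1) * Sq (Nat.card F) m) := by
  by_cases H : Pl f
  · exact .inl ⟨H, ((pl_iff h).1 H).card_isom_plus hf h⟩
  · obtain ⟨j, h1, h2⟩ := isIndex_of_not_pl hf h H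
    obtain rfl : m = j := by omega
    exact .inr ⟨H, h2.card_isom_minus hf h⟩

variable (h2 : (2 : F) ≠ 0)
include h2

theorem qb_orth : QB (Kind.orth F) := .inl h2

theorem refl_conj (hL : finrank F L = 2) (hsa : ∀ (a : L) u v, f.B (a • u) v = f.B u (a • v)) {y : f.Isom}
    (hy : Neg y) (h : y ∈ smL L f) {v : V} (hv : f.Q v ≠ 0) {β : L} (hβ : y.1 v = β • v) :
    (f.refl v)⁻¹ * y * f.refl v ∈ smL L f := by
  have e : (f.refl v)⁻¹ * y * f.refl v = f.refl v * f.refl (y.1 v) * y := by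
    rw [refl_inv, ← conj_refl]; group
  refine e ▸ mul_mem (LinL.mem fun a z => ?_) h
  have h1 : f.B v (y.1 v) = 0 := mul_left_cancel₀ h2 (by
    have := f.B_coe_map y v (y.1 v)
    rw [hy.apply, map_neg, f.orth_symm] at this
    linear_combination -this)
  have h3 := f.Q_coe_map y v
  set w := y.1 v
  have h4 := f.eq_zero_symm h1
  have v0 : v ≠ 0 := by rintro rfl; simp at hv
  have h5 : Submodule.span F {v, w} = lpt F L v := Submodule.eq_of_le_of_finrank_le
    (Submodule.span_le.2 (Set.pair_subset (self_mem_lpt v) (hβ ▸ smul_mem_lpt β v))) (by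
      have := finrank_span_eq_card (LinearIndependent.pair_iff.2 fun s t (e : s • v + t • w = 0) => by
        have e1 := congrArg (f.B v) e
        have e2 := congrArg (f.B w) e
        rw [map_add, B_smul_right, B_smul_right, map_zero] at e1 e2
        simpa [h1, h4, h3, orth_B_self, h2, hv] using And.intro e1 e2)
      rw [Matrix.range_cons_cons_empty] at this
      rw [finrank_lpt v0, hL, this]; rfl)
  have h6 : ∀ z ∈ Submodule.span F {v, w}, a • z ∈ Submodule.span F {v, w} := fun z hz => by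
    rw [h5] at hz ⊢
    obtain ⟨b, rfl⟩ := mem_lpt.1 hz
    exact smul_smul a b v ▸ smul_mem_lpt _ v
  have h7 : ∀ z ∈ Submodule.span F {v, w}, (f.refl v * f.refl w).1 z = -z := fun z hz => by
    obtain ⟨s, t, rfl⟩ := Submodule.mem_span_pair.1 hz
    simp [refl_apply_self _ hv, refl_apply_self _ (h3 ▸ hv : f.Q w ≠ 0), refl_apply_of_B _ h1, refl_apply_of_B _ h4,
      add_comm]
  have h8 : ∀ z ∈ f.perp (Submodule.span F {v, w}), (f.refl v * f.refl w).1 z = z := fun z hz => by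
    rw [mem_perp_span_pair] at hz
    simp [refl_apply_of_B _ hz.1, refl_apply_of_B _ hz.2]
  let π := ((2 * f.Q v)⁻¹ * f.B v z) • v + ((2 * f.Q v)⁻¹ * f.B w z) • w
  have h9 : π ∈ Submodule.span F {v, w} := Submodule.mem_span_pair.2 ⟨_, _, rfl⟩
  have h10 : z - π ∈ f.perp (Submodule.span F {v, w}) := by
    rw [mem_perp_span_pair]
    simp only [π, map_sub, map_add, map_smul, h1, h4, h3, orth_B_self, smul_eq_mul]
    constructor <;> field_simp <;> ring
  have h11 : a • (z - π) ∈ f.perp (Submodule.span F {v, w}) := fun u hu => by rw [← hsa]; exact h10 _ (h6 u hu)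
  rw [← add_sub_cancel π z, smul_add, map_add, map_add]
  simp only [LinearEquiv.coe_coe, h7 _ h9, h7 _ (h6 _ h9), h8 _ h10, h8 _ h11, smul_add, smul_neg]

variable (hθ : θ ≠ 0) (h : Res f ψ θ) (hf : f.Nondeg)
include hθ h hf

omit hθ hf in
theorem Res.ts {W : Submodule L V} (hW : ψ.TS W) : f.TS (W.restrictScalars F) :=
  ⟨fun w hw => mul_left_cancel₀ h2 (by rw [← orth_B_self, h, hW.B_eq w hw w hw]; simp),
    fun u hu w hw => by rw [h, hW.B_eq u hu w hw, map_zero]⟩

theorem Res.pl (he : Even (finrank L V)) (H : Pl ψ) : Pl f := by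
  obtain ⟨W, h1, h3⟩ := (pl_iff_ts ((h.nondeg hθ).1 hf) he).1 H
  rw [pl_iff_ts hf (finrank_mul_finrank F L V ▸ he.mul_left _)]
  exact ⟨_, h.ts h2 h1, by rw [finrank_res, mul_left_comm, h3, finrank_mul_finrank]⟩

theorem Res.pl_iff (he : Even (finrank L V)) : Pl f ↔ Pl ψ := by
  refine ⟨fun H => ?_, h.pl h2 hθ hf he⟩
  obtain ⟨t, ht⟩ := he
  have h1 : Res (trO θ (plusForm L t)) (plusForm L t) θ := fun _ _ => rfl
  have h3 := (h1.nondeg hθ).2 (plusForm_nondeg L t)
  have h4 := (El.pl_iff (finrank_plus t)).2 (plusForm_isIndex L t)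
  refine (pl_congr (h.equiv h2 hθ h1 hf (equiv_of_pl hf h3 ?_ ?_ (iff_of_true H
    (h1.pl h2 hθ h3 (by simp) h4))))).2 h4
  · rw [← finrank_mul_finrank F L V, ← finrank_mul_finrank F L (_ → L), ht, finrank_plus, two_mul]
  · exact finrank_mul_finrank F L V ▸ Even.mul_left ⟨t, ht⟩ _

theorem orth_pm (hL : finrank F L = 2) {a : Form (Kind.orth F) A} {b : Form (Kind.orth F) B}
    (e : (a.prod b).Equivalent f) (ha : Even (finrank F A)) (hb : Even (finrank F B)) (ha0 : finrank F A ≠ 0)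
    (hb0 : finrank F B ≠ 0) : ∃ y : f.Isom, LinL L y.1.1 ∧ IsoSim (pm a b) y := by
  obtain ⟨s, hs⟩ := ha
  obtain ⟨t, ht⟩ := hb
  have h1 := e.symm.nondeg hf
  obtain ⟨χ, h3⟩ := exists_trO h2 hθ (nondeg_left h1) (m := s) (by omega) (by rw [hL]; omega)
  obtain ⟨χ', h4⟩ := exists_trO h2 hθ (nondeg_right h1) (m := t) (by omega) (by rw [hL]; omega)
  have h5 : Res (trO θ χ) χ θ := fun _ _ => rfl
  have h6 : Res (trO θ χ') χ' θ := fun _ _ => rfl
  exact h.pm (qb_orth h2) h5 h6 (h.equiv h2 hθ (h5.prod h6) hf (e.symm.trans (pm_congr h3 h4).equivalent)) h3 h4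

omit hθ h
variable [Fact r.Prime]

theorem orth_main (hsa : ∀ (a : L) u v, f.B (a • u) v = f.B u (a • v)) (hL : finrank F L = 2)
    (hd : finrank F V = 2 * d) (h3 : 3 ≤ d) (hΩ : r ∣ (smL L f).relIndex (commutator f.Isom)) :
    AllS L (commutator f.Isom) r ↔ r = 2 := by
  have hr' : r.Prime := Fact.out
  have hg := f.good_of_two_ne_zero h2
  have hθ := Algebra.trace_ne_zero F L
  obtain ⟨ψ, hB, -⟩ := AschO2.exists_kform f hsa
  replace hB : Res f ψ (Algebra.trace F L) := fun u v => by simpa using (hB 1 u v).symm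
  have hψ := (hB.nondeg hθ).1 hf
  have h4 : finrank L V = d := by have := finrank_mul_finrank F L V; rw [hL, hd] at this; omega
  have q2 := two_le_card (F := F)
  refine ⟨fun H => by_contra fun hr2 => ?_, ?_⟩
  · have hG : ∀ u : f.Isom, orderOf u = r → u ∈ commutator f.Isom := fun u hu =>
      mem_of_odd hf hg (hu ▸ hr'.odd_of_ne_two hr2)
    have r2 := hr'.two_le
    have hr : (r : F) ≠ 0 := fun hr => by
      have := (CharP.charP_iff_prime_eq_zero (R := F) hr').2 hr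
      obtain ⟨g, hg⟩ := hf.orth_exists_of_rel h2 (adm_unip (3 ::ₘ Multiset.replicate (finrank F V - 3) 1)
        (by simp [Multiset.mem_replicate])) ((par_unip_iff _ _).2 fun j hj => by
          rw [Nat.odd_iff] at hj
          rw [Nat.even_iff]
          simp only [Multiset.count_cons, Multiset.count_replicate]; split_ifs <;> omega)
        ((dg_unip _).trans (by simp; omega)) (a := 1) (j := 2) (by simp) (by simp) (by simp)
      exact H.unip hf hL.ge (hG g (order_unip r hg (by simp [Multiset.mem_replicate]; omega) (by simp))) one_le_two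
        (by omega) (by omega) hg
    obtain ⟨x, h5, h6⟩ := hB.card (qb_orth h2) hΩ
    obtain ⟨h7, h8⟩ := (H.cyc hG rfl hf hr hr2 (ok_orth hr hr2 hf) (NC.mono (by
      obtain ⟨φ, hφ⟩ := exists_mem_cycT (r := r) hr
      exact (natDegree_cycT hr).1 φ hφ ▸ (mem_cycT.1 hφ).1.natDegree_pos)) (h6 ▸ h5.mul_right _) (s := id) hsa
      rfl).resolve_right fun e => hr2 ((Nat.prime_dvd_prime_iff_eq hr' Nat.prime_two).1 (hL ▸ e.1))
    obtain ⟨t, ht⟩ := hL ▸ h7
    have h9 := hL ▸ dvd_of_frob (h8 ⟨t, by omega⟩)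
    rw [ht, Nat.mul_div_cancel_left _ two_pos] at h9
    set q := Nat.card F
    have h10 : ∀ i, r ∣ q ^ (2 * i) - 1 → 2 ∣ i := fun i hi => by
      rw [dvd_pow_sub_one_iff (by omega), ht] at hi
      exact h9.trans (Nat.dvd_of_mul_dvd_mul_left two_pos hi)
    have h11 : ∀ j, ¬r ∣ 2 * q ^ j := fun j e => (hr'.dvd_mul.1 e).elim
      (fun e => hr2 ((Nat.prime_dvd_prime_iff_eq hr' Nat.prime_two).1 e)) (not_dvd_card_pow hr j)
    have hq : Nat.card L = q ^ 2 := by rw [Module.natCard_eq_pow_finrank (K := F), hL]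
    obtain ⟨m, rfl⟩ : ∃ m, d = m + 1 := ⟨d - 1, by omega⟩
    have key : ∀ u v, x * (u * Sq (q ^ 2) (m / 2)) = v * Sq q m → r ∣ v := fun u v e =>
      (num_ext q2 two_pos h5 e).resolve_right fun ⟨i, h1, h2⟩ => h1 (h10 i h2)
    obtain ⟨j, rfl | rfl⟩ := m.even_or_odd'
    · rw [hψ.card_isom_odd h4, hq] at h6
      rw [Nat.mul_div_cancel_left _ two_pos] at key
      have := pm_facts (q := q) (a := 2 * j + 1) (by omega) hr2
      rcases card_even_orth hf hd with ⟨-, e⟩ | ⟨-, e⟩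
      · have := h10 _ (this.1 ((hr'.dvd_mul.1 (key _ _ (h6.trans e))).resolve_left (h11 _)))
        omega
      · have := h10 _ (this.2 ((hr'.dvd_mul.1 (key _ _ (h6.trans e))).resolve_left (h11 _))).1
        omega
    rw [show (2 * j + 1) / 2 = j by omega] at key
    have h12 := hB.pl_iff h2 hθ hf ⟨j + 1, by omega⟩
    have h13 := pow_sub_one_ne_zero q2 (j := 2 * j + 1 + 1) (by omega)
    have key' : ∀ u v z, z ≠ 0 → x * (u * z * Sq (q ^ 2) j) = v * z * Sq q (2 * j + 1) → r ∣ v := fun u v z h0 e =>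
      key u v (Nat.eq_of_mul_eq_mul_left (Nat.pos_of_ne_zero h0) (by linear_combination e))
    rcases card_even_orth hf hd with ⟨a1, a2⟩ | ⟨a1, a2⟩ <;>
      rcases card_even_orth hψ (m := j) h4 with ⟨b1, b2⟩ | ⟨b1, b2⟩
    · rw [a2, b2, hq, ← pow_mul _ 2 (j + 1)] at h6
      exact h11 _ (key' _ _ _ h13 h6)
    · exact b1 (h12.1 a1)
    · exact a1 (h12.2 b1)
    · rw [a2, b2, hq, ← pow_mul _ 2 (j + 1)] at h6
      exact h11 _ (key' _ _ _ (by omega) h6)
  rintro rfl x h5 hx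
  obtain ⟨δ, hδ⟩ := FiniteField.exists_nonsquare (F := F) (fun e => h2 ((ringChar.spec F 2).2 e.dvd))
  have δ0 : δ ≠ 0 := by rintro rfl; simp at hδ
  obtain ⟨b, b1, b2⟩ := exists_disc_form h2 two_ne_zero δ0
  obtain ⟨a, a1⟩ := exists_orth_compl hf b1 (n := 2 * (d - 1)) (by omega) (by simp; omega)
  obtain ⟨c, c1, c2⟩ := orth_pm h2 hθ hB hf hL ((Equivalent.prod_comm _ _).trans a1) (by simp) (by simp)
    (by simp; omega) (by simp)
  have c3 : hf.dick hg c = 1 := by rw [hf.dick_eq_one_iff, ← isoSim_rk c2, rk_pm h2]; simp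
  have c4 : hf.spin hg c = -1 := (Int.units_eq_one_or _).resolve_left fun e => hδ (by
    have := ((ng_iff h2 b1).1 ((pm_mem h2 hf c2).1 ((hf.mem_commutator_iff hg c).2 ⟨c3, e⟩))).2
    rwa [← sqSign_eq_iff δ0 b1.disc_ne_zero, sqSign_eq_one.2 this, sqSign_eq_one] at b2)
  rcases po2_cases (fun _ => rfl) hf h2 hx with h6 | ⟨W, w1, w2, w3, w4⟩
  swap
  · have w5 := Nat.even_iff.2 ((pm_mem h2 hf w4).1 h5).1
    have w6 := hf.finrank_perp W
    obtain ⟨y, y1, y2⟩ := orth_pm h2 hθ hB hf hL w4.equivalent (by rw [Nat.even_iff] at w5 ⊢; omega) w5 w2 w3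
    obtain ⟨v, hv, v1⟩ := f.exists_nonsingular w1 (by rintro rfl; simp at w2)
    have y3 := y2
    obtain ⟨e, e1, e2⟩ := y3
    have v2 : f.Q (e (⟨v, hv⟩, 0)) ≠ 0 := by simpa [e1.Q_eq] using v1
    refine om_asm hf hg y1.mem (w4.symm.trans y2) ?_ (hf.dick_refl hg v2) c1.mem c3 c4
    have := f.conj_refl y (e (⟨v, hv⟩, 0))
    rw [← e2, pm_apply, neg_zero, mul_inv_eq_iff_eq_mul] at this
    rw [mul_assoc, this, inv_mul_cancel_left]
    exact y1.mem
  obtain ⟨σ, -, s2, s3, -⟩ := exists_frob hL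
  obtain ⟨β, hβ⟩ := exists_norm_eq (σ : L →+* L) s2 s3 (-1) (by simp)
  have β0 : β ≠ 0 := by rintro rfl; simp at hβ
  replace hβ : β * σ β = -1 := hβ
  have h7 := two_ne (L := L) h2
  obtain ⟨γ, γ0, hγ⟩ : ∃ γ : L, γ ≠ 0 ∧ σ γ = γ * β ^ 2 := by
    obtain ⟨a, ha⟩ := not_forall.1 fun H => s3 (RingHom.ext H)
    have : ∀ a, σ (a + σ β ^ 2 * σ a) = (a + σ β ^ 2 * σ a) * β ^ 2 := fun a => by
      simp only [map_add, map_mul, map_pow, s2]
      linear_combination (-(σ a) * (β * σ β - 1)) * hβ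
    by_contra! H
    have e1 := by_contra fun e => H _ e (this 1)
    have e2 := by_contra fun e => H _ e (this a)
    rw [map_one] at e1
    exact ha (show σ a = a by linear_combination σ a * e1 - e2)
  let χ : Form (Kind.orth L) (Fin d → L) := ofFun (fun v => γ * ∑ i, v i ^ 2)
    (fun u => ∑ i, (2 * γ * u i) • LinearMap.proj i) (fun x y => by
      simp only [Pi.add_apply, LinearMap.sum_apply, LinearMap.smul_apply, LinearMap.proj_apply, smul_eq_mul,
        Finset.mul_sum, ← Finset.sum_add_distrib]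
      exact Finset.sum_congr rfl fun i _ => by ring) fun a x => by
      simp only [Pi.smul_apply, smul_eq_mul, Finset.mul_sum]
      exact Finset.sum_congr rfl fun i _ => by ring
  have hχ : χ.Nondeg := fun u hu => funext fun i => by
    simpa [χ, ofFun, Pi.single_apply, h7, γ0] using hu (Pi.single i 1)
  have hp : Res (trO (Algebra.trace F L) χ) χ (Algebra.trace F L) := fun _ _ => rfl
  let u : (trO (Algebra.trace F L) χ).Isom := ⟨frobPi _ σ β0, (orth_mem_Isom _).2 fun x => by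
    change Algebra.trace F L _ = Algebra.trace F L _
    rw [← Algebra.trace_eq_of_algEquiv σ (χ.Q x)]
    simp [χ, ofFun, frobPi_apply, hγ, mul_pow, Finset.mul_sum, mul_assoc]⟩
  have h8 := h6.isoSim (fun _ => rfl) h2 (u := u) (LinearMap.ext fun v => funext fun i => by
      simp [sq, u, frobPi_apply, s2, ← mul_assoc, hβ]) hf ((hp.nondeg hθ).2 hχ) (by
      rw [← finrank_mul_finrank F L (_ → L), hL, finrank_fin_fun, hd])
  obtain ⟨y, y1, y2, y3⟩ := hB.sm (qb_orth h2) hp (hB.equiv h2 hθ hp hf h8.equivalent) (u := u) (frobPi_smul σ β0)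
  obtain ⟨t, ht⟩ : ∃ t, Algebra.trace F L (γ * t ^ 2) ≠ 0 := by
    by_contra! H
    refine hθ (LinearMap.ext fun a => ?_)
    have := H (a / (2 * γ) + 1)
    rwa [show γ * (a / (2 * γ) + 1) ^ 2 = γ * (a / (2 * γ)) ^ 2 + γ * 1 ^ 2 + a by field_simp; ring, map_add, map_add,
      H, H, zero_add, zero_add] at this
  have t0 : t ≠ 0 := by rintro rfl; simp at ht
  obtain ⟨v, v1, v2⟩ := y3 (β * σ t / t) (Pi.single ⟨0, by omega⟩ t) (by
    simpa [trO, χ, ofFun, Pi.single_apply] using ht) (funext fun i => by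
      simp only [u, frobPi_apply, Pi.single_apply, Pi.smul_apply]; split_ifs <;> simp [t0])
  have y4 := h8.trans y1.symm
  refine om_asm hf hg ⟨σ, y2⟩ y4 (refl_conj h2 hL hsa ?_ ⟨σ, y2⟩ v1 v2) (hf.dick_refl hg v1) c1.mem c3 c4
  obtain ⟨e, -, he⟩ := y4
  exact LinearMap.ext fun v => by obtain ⟨v, rfl⟩ := e.surjective v; simp [sq, ← he, h6.apply]

omit hf [Fact r.Prime] in
theorem omega_map {ι : Type} [Fintype ι] [DecidableEq ι] {φ : Form (Kind.orth F) (ι → F)} (hφ : φ.Nondeg)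
    (h5 : 5 ≤ Fintype.card ι) : Cfsg.Geo.omegaGL φ.Q = (commutator φ.Isom).map (CA.AschFG.toGL φ) := by
  rw [CA.AschO1.omega_eq hφ h5, CA.AschFG.EG, hφ.commutator_eq_Eich (φ.good_of_two_ne_zero h2) (by simp; omega)]

end CA.El
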