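import Cfsg.Agent.Lib.Lin.El23
import Cfsg.Agent.Lib.Lin.AschU

/-! Elements of prime order and normalisers of small symplectic-type groups: general tools, dimension three. -/

namespace CA.El

open Module Polynomial CA.Rcf CA.CForm CA.CForm.Form Cfsg.Geo CA.AschFG Matrix

theorem card_modEq {G : Type*} [Group G] {r : ℕ} [Fact r.Prime] {K : Subgroup G} [Finite K] {x : G}
    (h : ∀ a ∈ K, x * a * x⁻¹ ∈ K) (h' : ∀ a ∈ K, x ^ r * a = a * x ^ r) :
    Nat.card K ≡ Nat.card ↥(K ⊓ Subgroup.centralizer {x}) [MOD r] := by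
  classical
  cases nonempty_fintype K
  let f : Function.End K := fun a => ⟨_, h a a.2⟩
  have h1 : ∀ n (a : K), ((f ^ n) a : G) = x ^ n * a * (x ^ n)⁻¹ := fun n a => by
    induction n with
    | zero => simp [Function.End.one_def]
    | succ n ih =>
      rw [pow_succ' f]
      change x * ((f ^ n) a : G) * x⁻¹ = _
      rw [ih, pow_succ']; group
  have := Equiv.Perm.card_fixedPoints_modEq (f := f) (p := r) (n := 1)
    (funext fun a => Subtype.ext (by rw [pow_one, h1, h' a a.2, mul_inv_cancel_right]; rfl))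
  rw [← Nat.card_eq_fintype_card, ← Nat.card_eq_fintype_card] at this
  refine this.trans (congrArg (· % r) (Nat.card_congr ⟨fun a => ⟨a.1, a.1.2, Subgroup.mem_centralizer_singleton_iff.2
    (eq_mul_of_mul_inv_eq (congrArg Subtype.val a.2)).symm⟩, fun a => ⟨⟨a, a.2.1⟩, Subtype.ext (mul_inv_eq_of_eq_mul
    (Subgroup.mem_centralizer_singleton_iff.1 a.2.2).symm)⟩, fun _ => rfl, fun _ => rfl⟩))

theorem comm_of_card {G : Type*} [Group G] {p : ℕ} [Fact p.Prime] (h : Nat.card G ∣ p ^ 2) (a b : G) :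
    a * b = b * a := by
  obtain ⟨j, h1, h2⟩ := (Nat.dvd_prime_pow Fact.out).1 h
  interval_cases j
  · exact (Nat.card_eq_one_iff_unique.1 h2).1.elim _ _
  · have := isCyclic_of_prime_card (h2.trans (pow_one p))
    exact IsCyclic.commutative.is_comm.comm a b
  · exact (IsPGroup.isMulCommutative_of_card_eq_prime_sq h2).is_comm.comm a b

variable {F : Type*} [Field F] {ι : Type} [Fintype ι] [DecidableEq ι] {k : Kind F} {r q : ℕ}
  {G Γ R : Subgroup (GL ι F)} {x y : GL ι F} {φ : Form k (ι → F)} {A B : Matrix ι ι F} {Λ : Multiset F}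

/-- Every element of prime order modulo scalars is conjugate into `H`. -/
def AllN (G H : Subgroup (GL ι F)) (r : ℕ) : Prop :=
  ∀ x ∈ G, (∃ z : F, (x ^ r).1 = z • 1) → (∀ z : F, x.1 ≠ z • 1) → ∃ g ∈ G, g⁻¹ * x * g ∈ H

def Cj (Γ G : Subgroup (GL ι F)) : Prop :=
  ∀ x ∈ Γ, ∀ y ∈ Γ, IsSS (toLin' x.1) → Sim (toLin' x.1) (toLin' y.1) → ∃ g ∈ G, g⁻¹ * x * g = y

def TA (G Γ : Subgroup (GL ι F)) (r : ℕ) : Prop :=
  ∀ x ∈ G, PO r (toLin' x.1) → ∃ a : F, ∃ u ∈ Γ, x.1 = a • u.1 ∧ orderOf u = r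

theorem toGL_eq (u : φ.Isom) : toLin' (toGL φ u).1 = u.1.1 := LinearMap.ext (toGL_mulVec φ u)

theorem norm_smul {a : F} (h : x.1 = a • y.1) (hy : y ∈ subgroupNormalizer R) : x ∈ subgroupNormalizer R := by
  have h1 : ∀ g : GL ι F, x * y⁻¹ * g = g * (x * y⁻¹) := fun g => Units.ext (by simp [h])
  rw [← inv_mul_cancel_right x y]
  exact mul_mem (Subgroup.mem_normalizer_iff.2 fun g => by rw [h1, mul_inv_cancel_right]) hy

theorem ss_of_pow (hr : (r : F) ≠ 0) (h : A ^ r = 1) : IsSS (toLin' A) :=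
  isSS_of_pow hr one_ne_zero (by rw [← toLin'_pow, h, toLin'_one, one_smul]; rfl)

theorem allN_of (hr : (r : F) ≠ 0) (h1 : Cj Γ G) (h2 : TA G Γ r)
    (h3 : ∀ u ∈ Γ, orderOf u = r → (∀ z : F, u.1 ≠ z • 1) →
      ∃ y ∈ Γ, y ∈ subgroupNormalizer R ∧ Sim (toLin' u.1) (toLin' y.1)) : AllN G (subgroupNormalizer R) r := by
  intro x hx h4 h5
  obtain ⟨a, u, hu, e, h6⟩ := h2 x hx (po_toLin'.2 ⟨by simpa using h4, h5⟩)
  obtain ⟨y, hy, h7, h8⟩ := h3 u hu h6 fun z hz => h5 (a * z) (by rw [e, hz, smul_smul])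
  obtain ⟨g, hg, rfl⟩ := h1 u hu y hy (ss_of_pow hr (by
    rw [← Units.val_pow_eq_pow_val, ← h6, pow_orderOf_eq_one, Units.val_one])) h8
  exact ⟨g, hg, norm_smul (a := a) (by simp [e]) h7⟩

theorem trace_lin (h : edivs (toLin' A) = lin Λ) : A.trace = Λ.sum := by
  rw [trace_eq_neg_charpoly_nextCoeff, ← charpoly_toLin'', charpoly_eq_prod, h, lin,
    multiset_prod_X_sub_C_nextCoeff, neg_neg]

theorem edivs_diag (d : ι → F) : edivs (toLin' (diagonal d)) = lin (Finset.univ.val.map d) := by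
  obtain ⟨u, hu⟩ := exists_edivs_eq (V := ι → F) (m := lin (Finset.univ.val.map d)) (fun e he => by
    obtain ⟨a, -, rfl⟩ := Multiset.mem_map.1 he
    exact isPrim_of_irreducible (monic_X_sub_C a) (irreducible_X_sub_C a)) (dg_lin.trans (by simp))
  classical
  rw [← hu]
  refine sim_iff_edivs.1 (sim_of_charpoly_eq (fun e => irreducible_of_mem_edivs
    (s := ∏ a ∈ Finset.univ.image d, (X - C a)) (separable_prod_X_sub_C_iff'.2 fun _ _ _ _ => id).squarefree ?_)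
    (fun e he => ?_) ?_)
  · rw [aeval_toLin', map_eq_zero_iff _ toLin'.injective, ← diagonalAlgHom_apply F, aeval_algHom_apply,
      map_eq_zero_iff _ (diagonal_injective)]
    ext i
    simp only [map_prod, Finset.prod_apply]
    exact Finset.prod_eq_zero (Finset.mem_image_of_mem d (Finset.mem_univ i)) (by simp)
  · obtain ⟨a, -, rfl⟩ := Multiset.mem_map.1 (hu ▸ he)
    exact irreducible_X_sub_C a
  · rw [charpoly_toLin'', charpoly_diagonal, charpoly_eq_prod, hu, lin, Multiset.map_map]; rfl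

theorem inv_type (h2 : (2 : F) ≠ 0) (h : A ^ 2 = 1) (h' : ∀ z : F, A ≠ z • 1) : ∃ i j : ℕ, i ≠ 0 ∧ j ≠ 0 ∧
    i + j = Fintype.card ι ∧ A.trace = i - j ∧
      edivs (toLin' A) = lin (Multiset.replicate i 1 + Multiset.replicate j (-1)) := by
  obtain ⟨i, j, e⟩ := edivs_sq h2 (T := toLin' A) one_ne_zero (by rw [← toLin'_pow, h, toLin'_one]; simp; rfl)
  have e' : edivs (toLin' A) = lin (Multiset.replicate i 1 + Multiset.replicate j (-1)) := by simp [e, lin]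
  refine ⟨i, j, ?_, ?_, by simpa [e', dg_lin] using dg_edivs (toLin' A), by simp [trace_lin e', sub_eq_add_neg], e'⟩ <;>
    rintro rfl
  · exact h' (-1) (toLin'_eq_smul_iff.1 ((eq_smul_iff _ _).2 fun d hd => by
      rw [e, Multiset.replicate_zero, zero_add] at hd; exact Multiset.eq_of_mem_replicate hd))
  · exact h' 1 (toLin'_eq_smul_iff.1 ((eq_smul_iff _ _).2 fun d hd => by
      rw [e, Multiset.replicate_zero, add_zero] at hd; exact Multiset.eq_of_mem_replicate hd))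

variable [Finite F]

theorem cj_SL [Nonempty ι] : Cj ⊤ (specialLinear ι F) := fun _ _ _ _ => conj_SL

theorem cj_Sp {φ : Form (Kind.symp F) (ι → F)} (hφ : φ.Nondeg) : Cj (IG φ) (IG φ) := by
  rintro _ ⟨x, rfl⟩ _ ⟨y, rfl⟩ h1 h2
  rw [toGL_eq] at h1
  rw [toGL_eq, toGL_eq] at h2
  obtain ⟨c, rfl⟩ := isConj_iff.1 (isConj_iff_isoSim.2 (hφ.symp_isoSim_of_ss hφ h1 h2))
  exact ⟨toGL φ c⁻¹, ⟨_, rfl⟩, by simp⟩

theorem mem_norm (h : ∀ a ∈ R, y * a * y⁻¹ ∈ R) : y ∈ subgroupNormalizer R :=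
  Subgroup.mem_normalizer_fintype h

variable [Fact r.Prime]

theorem ta_SL (h : r ∣ Nat.card F - 1 → NoB r (Fintype.card ι) (Nat.card F - 1)) : TA (specialLinear ι F) ⊤ r := by
  intro x hx h1
  rcases po_cases (g := glEquiv x) h1 (mem_SL.1 hx) with ⟨a, u, -, h2, -, h3⟩ | ⟨h2, h3, -⟩
  · obtain ⟨u, rfl⟩ := glEquiv.surjective u
    exact ⟨a, u, trivial, toLin'.injective (by rw [map_smul]; exact h3), by simpa using h2⟩
  · exact absurd (h h2) (by simpa using h3)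

omit [Finite F] in
theorem ta_of (h : ∀ g : φ.Isom, toGL φ g ∈ G → PO r g.1.1 → ∃ a : F, a * k.σ a = 1 ∧ g.1.1 ^ r = a ^ r • 1)
    (hG : G ≤ IG φ) : TA G (IG φ) r := by
  intro x hx h1
  obtain ⟨g, rfl⟩ := hG hx
  rw [toGL_eq] at h1
  obtain ⟨a, ha, h2⟩ := h g hx h1
  obtain ⟨u, h3, -, rfl⟩ := po_scale h1 ha h2
  exact ⟨a, toGL φ u, ⟨u, rfl⟩, toLin'.injective (by rw [map_smul, toGL_eq, toGL_eq, coe_smul_mul]),
    (orderOf_injective _ (toGL_injective φ) u).trans h3⟩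

omit [Finite F] in
theorem ta_Sp {φ : Form (Kind.symp F) (ι → F)} (hφ : φ.Nondeg) (ho : Odd r) : TA (IG φ) (IG φ) r := by
  refine ta_of (fun g _ h => ?_) le_rfl
  have := h.nontrivial
  obtain ⟨c, hc⟩ := h.1
  have h1 := norm_of_pow hφ hc
  refine ⟨c, h1, ?_⟩
  rcases mul_self_eq_one_iff.1 h1 with rfl | rfl
  · rw [hc, one_pow]
  · rw [hc, ho.neg_one_pow]

theorem exists_po [Nonempty ι] {H : Subgroup (GL ι F)} (hG : G ≤ specialLinear ι F) (h : r ∣ H.relIndex G)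
    (hn : ¬r ∣ Fintype.card ι) : ∃ x ∈ G, x ^ r = 1 ∧ ∀ z : F, x.1 ≠ z • 1 := by
  obtain ⟨x, hx⟩ := exists_prime_orderOf_dvd_card' (G := G) r (h.trans (Subgroup.index_dvd_card _))
  rw [Subgroup.orderOf_mk] at hx
  have h1 : x.1 ^ r = 1 := hx ▸ pow_orderOf_eq_one _
  refine ⟨x, x.2, h1, fun z hz => (Fact.out : r.Prime).ne_one ?_⟩
  have h2 := CA.AschDesc.mem_SL.1 (hG x.2)
  have h3 := congrArg Units.val h1
  rw [hz, det_smul, det_one, mul_one] at h2
  rw [Units.val_pow_eq_pow_val, hz, _root_.smul_pow, one_pow, Units.val_one, ← one_smul F (1 : Matrix ι ι F),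
    smul_smul, mul_one] at h3
  have h4 : z = 1 := by
    simpa [((Nat.Prime.coprime_iff_not_dvd Fact.out).2 hn).gcd_eq_one] using
      pow_gcd_eq_one.2 ⟨smul_left_injective F one_ne_zero h3, h2⟩
  rw [← hx, orderOf_eq_one_iff]
  exact Units.ext (by rw [hz, h4, one_smul, Units.val_one])

end CA.El

namespace CA.El

open Module Polynomial CA.Rcf CA.CForm CA.CForm.Form Cfsg.Geo CA.AschFG Matrix

variable {F : Type*} [Field F] [Fintype F] {ι : Type} [Fintype ι] [DecidableEq ι] [Nonempty ι] {q r : ℕ}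
  {hF : Fintype.card F = q ^ 2} {φ : Form (hermKind hF) (ι → F)} (hφ : φ.Nondeg)
include hφ

theorem cj_SU : Cj (IG φ) (IG φ ⊓ specialLinear ι F) := by
  rintro _ ⟨x, rfl⟩ _ ⟨y, rfl⟩ h1 h2
  rw [toGL_eq] at h1
  rw [toGL_eq, toGL_eq] at h2
  obtain ⟨u, rfl⟩ := isConj_iff.1 (isConj_iff_isoSim.2 (hφ.isoSim_of_sim hφ (tame_herm (conj_ne_id hF) _) h2))
  obtain ⟨b, hb, h3⟩ := exists_div_conj_eq hF ((norm_iff hF _).1 (hφ.det_mul_σ_det u))
  obtain ⟨c, h4, h5⟩ := hφ.herm_ss_commute_det (conj_ne_id hF) h1 (by simp) hb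
  have h6 : φ.detHom c = φ.detHom u := Units.ext (((eq_mul_inv_iff_mul_eq₀ (pow_ne_zero _ hb)).2 h5).trans h3)
  refine ⟨toGL φ (c * u⁻¹), ⟨⟨_, rfl⟩, CA.AschDesc.mem_SL.2 (by rw [det_toGL, map_mul, h6]; simp)⟩, ?_⟩
  rw [← map_inv, ← map_mul, ← map_mul, mul_assoc, ← mul_assoc x, ← h4]; group

theorem ta_SU [Fact r.Prime] (h : r ∣ q + 1 → NoB r (Fintype.card ι) (q + 1)) :
    TA (IG φ ⊓ specialLinear ι F) (IG φ) r := by
  refine ta_of (fun g hg h1 => ?_) inf_le_left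
  obtain ⟨c, hc⟩ := h1.1
  have h4 := (norm_iff hF c).1 (norm_of_pow hφ hc)
  by_cases hr : r ∣ q + 1
  · by_cases h5 : c ^ ((q + 1) / r) = 1
    · obtain ⟨a, h6, rfl⟩ := (root_iff (q1_dvd hF) hr h4).2 h5
      exact ⟨a, (norm_iff hF a).2 h6, hc⟩
    · obtain ⟨h6, h7, -⟩ := (tb_facts hF (p := φ) (t := 0) hφ hr h4 h5).2 g hc
      rw [← coe_detHom, ← det_toGL, CA.AschDesc.mem_SL.1 hg.2] at h7
      exact absurd (h hr) (by simpa using (tb_iff (q1_dvd hF) hr (by simp)).1 ⟨h6, c, h4, h5, h7.symm⟩)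
  · obtain ⟨s, hs⟩ := exists_pow_eq_self_of_coprime (((Nat.Prime.coprime_iff_not_dvd Fact.out).2 hr).of_dvd_right
      (orderOf_dvd_of_pow_eq_one h4))
    rw [← pow_mul, mul_comm, pow_mul] at hs
    exact ⟨c ^ s, (norm_iff hF _).2 (by rw [← pow_mul, mul_comm, pow_mul, h4, one_pow]), hs.symm ▸ hc⟩

end CA.El
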