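import Cfsg.Agent.Lib.Lin.El25

/-! Elements of prime order and the normaliser of an extraspecial group of order 27. -/

namespace CA.El

open Module Polynomial CA.Rcf CA.CForm CA.CForm.Form Cfsg.Geo CA.AschFG Matrix

variable {F : Type*} [Field F] {ω l : F} {r : ℕ}

theorem eig3 {V : Type*} [AddCommGroup V] [Module F V] (hω : ω ^ 2 + ω + 1 = 0) {A : End F V}
    (hA : ∀ v, A (A (A v)) = v) {W : Submodule F V} (hW : ∀ v ∈ W, A v ∈ W) {v : V} (hv : v ∈ W) (h0 : v ≠ 0) :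
    ∃ w ∈ W, w ≠ 0 ∧ ∃ l : F, l ^ 3 = 1 ∧ A w = l • w := by
  by_cases h1 : A v - v = 0
  · exact ⟨v, hv, h0, 1, one_pow 3, by rw [one_smul, ← sub_eq_zero, h1]⟩
  have h2 := W.sub_mem (hW v hv) hv
  by_cases h3 : A (A v - v) - ω • (A v - v) = 0
  · exact ⟨_, h2, h1, ω, by grind, sub_eq_zero.1 h3⟩
  refine ⟨_, W.sub_mem (hW _ h2) (W.smul_mem ω h2), h3, ω ^ 2, by grind, ?_⟩
  simp only [map_sub, map_smul, hA]
  match_scalars <;> grind

theorem cube_cases (hω : ω ^ 2 + ω + 1 = 0) (h : l ^ 3 = 1) : ∃ i : ℕ, l = ω ^ i := by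
  have : (l - ω ^ 0) * (l - ω ^ 1) * (l - ω ^ 2) = 0 := by grind
  simp only [mul_eq_zero, sub_eq_zero] at this
  rcases this with (h | h) | h <;> exact ⟨_, h⟩

theorem comm3 (hω : ω ^ 2 + ω + 1 = 0) (h3 : (3 : F) ≠ 0) (hl : l ^ 3 = 1) {M : Matrix (Fin 3) (Fin 3) F}
    (h1 : M * diagonal ![l, l * ω, l * ω ^ 2] = diagonal ![l, l * ω, l * ω ^ 2] * M)
    (h2 : M * !![0, 0, 1; 1, 0, 0; 0, 1, 0] = !![0, 0, 1; 1, 0, 0; 0, 1, 0] * M) : ∃ c : F, M = c • 1 := by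
  have a := fun i j => congrFun (congrFun h1 i) j
  have b := fun i j => congrFun (congrFun h2 i) j
  have a1 := a 0 1; have a2 := a 0 2; have a3 := a 1 2; have a4 := a 1 0; have a5 := a 2 0; have a6 := a 2 1
  have b1 := b 0 2; have b2 := b 1 0
  simp [mul_apply, Fin.sum_univ_three] at a1 a2 a3 a4 a5 a6 b1 b2
  refine ⟨M 0 0, ?_⟩
  ext i j
  fin_cases i <;> fin_cases j <;> simp <;> grind

section
variable {ι : Type} [Fintype ι] [DecidableEq ι] {A B : Matrix ι ι F} {x g : GL ι F}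

theorem scal_conj {c : F} (h : (g⁻¹ * x * g).1 = c • 1) : x.1 = c • 1 := by
  rw [show x = g * (g⁻¹ * x * g) * g⁻¹ by group, Units.val_mul, Units.val_mul, h]; simp

theorem uni_conj {σ : F →+* F} {c : F} (h : g.1ᵀ * g.1.map σ = c • 1) (hx : x.1ᵀ * x.1.map σ = 1) :
    (g * x * g⁻¹).1ᵀ * (g * x * g⁻¹).1.map σ = 1 := by
  refine ((isUnit_transpose _).2 g.isUnit).mul_left_cancel ((g.isUnit.map σ.mapMatrix).mul_right_cancel ?_)
  rw [RingHom.mapMatrix_apply, ← mul_assoc, ← transpose_mul, mul_assoc, ← Matrix.map_mul, ← Units.val_mul,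
    inv_mul_cancel_right, Units.val_mul, transpose_mul, Matrix.map_mul, mul_assoc, ← mul_assoc _ (g.1.map σ), h,
    mul_one, h, smul_mul_assoc, one_mul, mul_smul_comm, hx]

theorem sim_inv (h2 : (2 : F) ≠ 0) (hn : Fintype.card ι ≤ 4) (hA : A ^ 2 = 1) (hA' : ∀ z : F, A ≠ z • 1)
    (hB : B ^ 2 = 1) (hB' : ∀ z : F, B ≠ z • 1) (h : A.trace = B.trace) : Sim (toLin' A) (toLin' B) := by
  obtain ⟨i, j, a1, a2, a3, a4, a5⟩ := inv_type h2 hA hA'
  obtain ⟨i', j', b1, b2, b3, b4, b5⟩ := inv_type h2 hB hB'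
  have e : (i : F) + j = i' + j' := by exact_mod_cast congrArg Nat.cast (a3.trans b3.symm)
  have e' : (i : F) = i' := mul_left_cancel₀ h2 (by linear_combination e + h - a4 + b4)
  obtain rfl : i = i' := by
    have : i < 4 := by omega
    have : i' < 4 := by omega
    interval_cases i <;> interval_cases i' <;> first | rfl | omega | (norm_num at e'; done) | grind
  rw [sim_iff_edivs, a5, b5, show j = j' by omega]

end

variable [Finite F] {R G Γ : Subgroup (GL (Fin 3) F)}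

theorem heis (hω : ω ^ 2 + ω + 1 = 0) (h3 : (3 : F) ≠ 0) (hR : Nat.card R = 27) (hRe : Monoid.exponent R = 3)
    (hna : ¬IsMulCommutative R) : ∃ (P a b z : GL (Fin 3) F) (l ζ : F), ζ ^ 2 + ζ + 1 = 0 ∧ l ^ 3 = 1 ∧
      R = Subgroup.closure {a, b} ∧ z ∈ R ∧ z.1 = ζ • 1 ∧ a.1 * P.1 = P.1 * diagonal ![l, l * ζ, l * ζ ^ 2] ∧
      b.1 * P.1 = P.1 * !![0, 0, 1; 1, 0, 0; 0, 1, 0] := by
  have : Fact (Nat.Prime 3) := ⟨Nat.prime_three⟩
  obtain ⟨a, b, hab⟩ : ∃ a b : R, a * b ≠ b * a := by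
    by_contra! H
    exact hna ⟨⟨H⟩⟩
  have p3 : ∀ y : R, ∀ v, toLin' y.1.1 (toLin' y.1.1 (toLin' y.1.1 v)) = v := fun y v => by
    have := congrArg (fun t : R => t.1.1 *ᵥ v) (Monoid.pow_exponent_eq_one y)
    simpa [hRe, pow_three] using this
  have d9 : ∀ m n, m * n = 27 → n ≠ 1 → m ∣ 3 ^ 2 := fun m n h h' => by
    have : n ≤ 27 := Nat.le_of_dvd (by norm_num) (Dvd.intro_left _ h)
    have : m ≤ 27 := Nat.le_of_dvd (by norm_num) (Dvd.intro _ h)
    interval_cases n <;> first | omega | (interval_cases m <;> first | omega | norm_num)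
  have hK : Subgroup.closure {a.1, b.1} ≤ R := (Subgroup.closure_le _).2 (by simp [Set.insert_subset_iff])
  have ha : a.1 ∈ Subgroup.closure {a.1, b.1} := Subgroup.subset_closure (by simp)
  have hb : b.1 ∈ Subgroup.closure {a.1, b.1} := Subgroup.subset_closure (by simp)
  have hz : a * b * a⁻¹ * b⁻¹ ∈ Subgroup.center R := by
    have : Nontrivial R := Finite.one_lt_card_iff_nontrivial.1 (by omega)
    have h1 := (IsPGroup.of_card (p := 3) (n := 3) hR).center_nontrivial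
    rw [← QuotientGroup.eq_one_iff]
    simp only [QuotientGroup.mk_mul, QuotientGroup.mk_inv]
    rw [comm_of_card (d9 _ _ ((Subgroup.card_eq_card_quotient_mul_card_subgroup _).symm.trans hR)
      (Finite.one_lt_card_iff_nontrivial.2 h1).ne') (a : R ⧸ _)]
    simp
  generalize hzd : a * b * a⁻¹ * b⁻¹ = z at hz
  have e0 : a * b = z * (b * a) := by rw [← hzd]; group
  have zc : ∀ y : R, ∀ v, z.1.1 *ᵥ (y.1.1 *ᵥ v) = y.1.1 *ᵥ (z.1.1 *ᵥ v) := fun y v => by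
    simpa using congrArg (fun t : R => t.1.1 *ᵥ v) (Subgroup.mem_center_iff.1 hz y).symm
  have e1 : ∀ v, a.1.1 *ᵥ (b.1.1 *ᵥ v) = b.1.1 *ᵥ (a.1.1 *ᵥ (z.1.1 *ᵥ v)) := fun v => by
    rw [← zc, ← zc]; simpa using congrArg (fun t : R => t.1.1 *ᵥ v) e0
  obtain ⟨u, hu⟩ : ∃ u, (toLin' z.1.1 - 1) u ≠ 0 := by
    by_contra! H
    exact hab (by rw [e0, show z = 1 from Subtype.ext (Units.ext (toLin'.injective
      ((sub_eq_zero.1 (LinearMap.ext H)).trans toLin'_one.symm))), one_mul])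
  obtain ⟨_, ⟨u, rfl⟩, h0, ζ, -, h1⟩ := eig3 hω (p3 z) (W := LinearMap.range (toLin' z.1.1 - 1))
    (by rintro _ ⟨v, rfl⟩; exact ⟨toLin' z.1.1 v, by simp [mulVec_sub]⟩) ⟨u, rfl⟩ hu
  have hζ : ζ ^ 2 + ζ + 1 = 0 := by
    refine smul_left_injective F h0 ?_
    have h2 := congrArg (toLin' z.1.1) h1
    rw [map_smul, h1] at h2
    simp only [add_smul, sq, mul_smul, one_smul, zero_smul]
    rw [← h2, ← h1]
    simp only [LinearMap.sub_apply, map_sub, p3, End.one_apply]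
    abel
  obtain ⟨v, h2, h4, l, hl, h5⟩ := eig3 hω (p3 a) (W := End.eigenspace (toLin' z.1.1) ζ) (fun v hv => by
    rw [End.mem_eigenspace_iff, toLin'_apply] at *
    rw [toLin'_apply, zc, hv, mulVec_smul]) (End.mem_eigenspace_iff.2 h1) h0
  rw [End.mem_eigenspace_iff, toLin'_apply] at h2
  rw [toLin'_apply] at h5
  let c : Fin 3 → Fin 3 → F := ![v, b.1.1 *ᵥ v, b.1.1 *ᵥ (b.1.1 *ᵥ v)]
  have h6 : ∀ j, a.1.1 *ᵥ c j = ![l, l * ζ, l * ζ ^ 2] j • c j := fun j => by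
    fin_cases j <;> simp only [c, Fin.reduceFinMk, cons_val, e1, zc, h2, h5, mulVec_smul, smul_smul] <;>
      congr 1 <;> ring
  have h7 : LinearIndependent F c := End.eigenvectors_linearIndependent' (toLin' a.1.1) _ (fun i j => by
    fin_cases i <;> fin_cases j <;> simp <;> grind) c fun j => ⟨End.mem_eigenspace_iff.2 (h6 j), fun h => h4 (by
      have := p3 b v
      simp only [toLin'_apply] at this
      fin_cases j <;> simp only [c, Fin.reduceFinMk, cons_val] at h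
      exacts [h, by rw [← this, h, mulVec_zero, mulVec_zero], by rw [← this, h, mulVec_zero]])⟩
  obtain ⟨P, hP⟩ := linearIndependent_cols_iff_isUnit.1 (show LinearIndependent F (of c)ᵀ.col from h7)
  have h8 : ∀ (M : Matrix (Fin 3) (Fin 3) F) i j, (M * P.1) i j = (M *ᵥ c j) i := fun M i j => by rw [hP]; rfl
  refine ⟨P, a, b, z, l, ζ, hζ, hl, ?_, z.2, ?_, ?_, ?_⟩
  · by_contra H
    refine hab (congrArg Subtype.val (comm_of_card (d9 _ _ ((Subgroup.card_mul_index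
      ((Subgroup.closure {a.1, b.1}).subgroupOf R)).trans hR) fun h => H ?_) (p := 3)
      (⟨a, ha⟩ : (Subgroup.closure {a.1, b.1}).subgroupOf R) ⟨b, hb⟩))
    exact (le_antisymm hK (Subgroup.subgroupOf_eq_top.1 (Subgroup.index_eq_one.1 h))).symm
  · refine P.mul_left_inj.1 ?_
    ext i j
    rw [h8, h8]
    fin_cases j <;> simp only [c, Fin.reduceFinMk, cons_val, zc, h2, mulVec_smul, smul_mulVec, one_mulVec]
  · ext i j
    rw [h8, h6, mul_diagonal, hP]; exact mul_comm _ _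
  · ext i j
    have := p3 b v
    simp only [toLin'_apply] at this
    rw [h8, hP]
    fin_cases j <;> simp [c, mul_apply, Fin.sum_univ_three, this, -mulVec_mulVec]

omit [Finite F] in
theorem mat3 {a b c : F} (ha : a ^ 3 = 1) (hb : b ^ 3 = 1) (hc : c ^ 3 = 1) :
    (a * c ^ 2) ^ 3 = 1 ∧ (b * a ^ 2 * (a * c ^ 2) ^ 2) ^ 3 = 1 ∧ IsUnit (diagonal ![a, b, c]) ∧
    diagonal ![a, b, c] * !![0, 0, 1; 1, 0, 0; 0, 1, 0] = diagonal ![a * c ^ 2, a * c ^ 2 * (b * a ^ 2 * (a * c ^ 2) ^ 2),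
      a * c ^ 2 * (b * a ^ 2 * (a * c ^ 2) ^ 2) ^ 2] * (!![0, 0, 1; 1, 0, 0; 0, 1, 0] * diagonal ![a, b, c]) ∧
    (b ^ 2) ^ 3 = 1 ∧ !![1, 0, 0; 0, 0, 1; 0, 1, 0] * diagonal ![a, a * b, a * b ^ 2] * !![1, 0, 0; 0, 0, 1; 0, 1, 0] =
      diagonal ![a, a * b ^ 2, a * (b ^ 2) ^ 2] ∧ (diagonal ![a, a * b, a * b ^ 2]).det = 1 ∧
    ∀ σ : F →+* F, (∀ c : F, c ^ 3 = 1 → c * σ c = 1) → (diagonal ![a, b, c])ᵀ * (diagonal ![a, b, c]).map σ = 1 := by
  refine ⟨by grind, by grind, (isUnit_iff_isUnit_det _).2 (by simp [Fin.prod_univ_three]; grind), ?_, by grind, ?_,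
    by simp [Fin.prod_univ_three]; grind, fun σ h => ?_⟩
  all_goals
    ext i j
    fin_cases i <;> fin_cases j <;> simp [mul_apply, Fin.sum_univ_three, vecMul_diagonal] <;> grind

section
variable {P a b z : GL (Fin 3) F} {ζ : F} (hζ : ζ ^ 2 + ζ + 1 = 0) (hl : l ^ 3 = 1) (e : R = Subgroup.closure {a, b})
  (hz : z ∈ R) (z1 : z.1 = ζ • 1) (a1 : (P⁻¹ * a * P).1 = diagonal ![l, l * ζ, l * ζ ^ 2])
  (b1 : (P⁻¹ * b * P).1 = !![0, 0, 1; 1, 0, 0; 0, 1, 0]) (aR : a ∈ R) (bR : b ∈ R)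
include hζ hl a1

omit [Finite F] in
include hz z1 aR in
theorem heis_key (g : GL (Fin 3) F) {c μ : F} (hc : c ^ 3 = 1) (hμ : μ ^ 3 = 1)
    (h : g.1 = diagonal ![c, c * μ, c * μ ^ 2]) : P * g * P⁻¹ ∈ R := by
  obtain ⟨j, rfl⟩ := cube_cases hζ hμ
  have l3 : (l ^ j) ^ 3 = 1 := by rw [← pow_mul, mul_comm, pow_mul, hl, one_pow]
  obtain ⟨i, hi⟩ := cube_cases hζ (l := c * (l ^ j) ^ 2) (by grind)
  rw [show g = z ^ i * (P⁻¹ * a * P) ^ j from Units.ext ?_, ← mul_assoc,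
    show P * z ^ i = z ^ i * P from Units.ext (by simp [z1, _root_.smul_pow]), mul_assoc (z ^ i), mul_assoc (z ^ i),
    ← conj_pow]
  · exact mul_mem (pow_mem hz i) (pow_mem (by simpa [mul_assoc] using aR) j)
  · rw [Units.val_mul, Units.val_pow_eq_pow_val, Units.val_pow_eq_pow_val, a1, z1, h, diagonal_pow, _root_.smul_pow,
      one_pow, smul_mul_assoc, one_mul, ← diagonal_smul, ← hi]
    congr 1
    ext t
    fin_cases t <;> simp [mul_pow, ← pow_mul ζ, mul_comm j] <;> grind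

omit hζ hl a1 in
include e in
theorem heis_nrm (U : GL (Fin 3) F) (h : P * (U * (P⁻¹ * a * P) * U⁻¹) * P⁻¹ ∈ R)
    (h' : P * (U * (P⁻¹ * b * P) * U⁻¹) * P⁻¹ ∈ R) : P * U * P⁻¹ ∈ subgroupNormalizer R := mem_norm fun _ hρ =>
  (show R ≤ R.comap (MulAut.conj (P * U * P⁻¹)).toMonoidHom from e.le.trans ((Subgroup.closure_le _).2 (by
    rintro _ (rfl | rfl)
    · simpa [mul_assoc] using h
    · simpa [mul_assoc] using h'))) hρ

omit [Finite F] in
include b1 aR bR in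
theorem heis_uni (h3 : (3 : F) ≠ 0) {σ : F →+* F} (hσ : ∀ c : F, c ^ 3 = 1 → c * σ c = 1)
    (h : ∀ g ∈ R, g.1ᵀ * g.1.map σ = 1) : ∃ c : F, P.1ᵀ * P.1.map σ = c • 1 := by
  have k : ∀ g ∈ R, ∀ M, (P⁻¹ * g * P).1 = M → Mᵀ * M.map σ = 1 → P.1ᵀ * P.1.map σ * Mᵀ =
      Mᵀ * (P.1ᵀ * P.1.map σ) := fun g hg M h1 h' => by
    have h2 : g.1 * P.1 = P.1 * M := by simp [← h1, mul_assoc]
    calc _ = (g.1 * P.1)ᵀ * (g.1 * P.1).map σ * Mᵀ := by
          rw [transpose_mul, Matrix.map_mul, mul_assoc _ g.1ᵀ, ← mul_assoc g.1ᵀ, h g hg, one_mul]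
      _ = _ := by simp only [h2, transpose_mul, Matrix.map_mul, mul_assoc, mul_eq_one_comm.1 h', mul_one]
  have ζ3 : ζ ^ 3 = 1 := by grind
  have k1 := k a aR _ a1 ((mat3 hl (by grind) (by grind)).2.2.2.2.2.2.2 σ hσ)
  have k2 := k (b * b) (mul_mem bR bR) (!![0, 0, 1; 1, 0, 0; 0, 1, 0])ᵀ (by
    rw [show P⁻¹ * (b * b) * P = P⁻¹ * b * P * (P⁻¹ * b * P) by group, Units.val_mul, b1]
    ext i j
    fin_cases i <;> fin_cases j <;> simp [mul_apply, Fin.sum_univ_three]) (by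
    ext i j
    fin_cases i <;> fin_cases j <;> simp [mul_apply, Fin.sum_univ_three])
  rw [diagonal_transpose] at k1
  exact comm3 hζ h3 hl k1 k2

include hz z1 b1 aR bR in
theorem heis_neg [Fact r.Prime] (h3 : (3 : F) ≠ 0) (hR : Nat.card R = 27) {x : GL (Fin 3) F} (h4 : x ^ r = 1)
    (h5 : ∀ c : F, x.1 ≠ c • 1) (h6 : x ∈ subgroupNormalizer R) : r = 2 ∨ r = 3 := by
  by_contra! h
  have hr := (Fact.out : r.Prime)
  have h7 := card_modEq (r := r) (fun ρ hρ => (Subgroup.mem_normalizer_iff.1 h6 ρ).1 hρ) fun ρ _ => by simp [h4]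
  have h8 := Subgroup.card_dvd_of_le (inf_le_left : R ⊓ Subgroup.centralizer {x} ≤ R)
  have h9 : Nat.card ↥(R ⊓ Subgroup.centralizer {x}) ≠ 1 := fun h => by
    have := Subgroup.card_eq_one.1 h ▸ (show z ∈ R ⊓ Subgroup.centralizer {x} from
      ⟨hz, Subgroup.mem_centralizer_singleton_iff.2 (Units.ext (by simp [z1]))⟩)
    have := congrFun (congrFun (Subgroup.mem_bot.1 this ▸ z1) 0) 0
    simp at this
    exact h3 (by rw [← this] at hζ; linear_combination hζ)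
  have h10 : Nat.card ↥(R ⊓ Subgroup.centralizer {x}) ≠ 27 := fun h => by
    have := inf_eq_left.1 (Subgroup.eq_of_le_of_card_ge inf_le_left (hR.trans h.symm).le)
    have m : ∀ s t : GL (Fin 3) F, P⁻¹ * s * P * (P⁻¹ * t * P) = P⁻¹ * (s * t) * P := fun s t => by group
    have k : ∀ c ∈ R, (P⁻¹ * x * P).1 * (P⁻¹ * c * P).1 = (P⁻¹ * c * P).1 * (P⁻¹ * x * P).1 := fun c hc => by
      rw [← Units.val_mul, ← Units.val_mul, m, m, Subgroup.mem_centralizer_singleton_iff.1 (this hc)]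
    obtain ⟨c, hc⟩ := comm3 hζ h3 hl (a1 ▸ k a aR) (b1 ▸ k b bR)
    exact h5 c (scal_conj hc)
  rw [hR] at h7 h8
  generalize Nat.card ↥(R ⊓ Subgroup.centralizer {x}) = m at *
  have := Nat.le_of_dvd (by norm_num) h8
  have k : ∀ i j, r ∣ 2 ^ i * 3 ^ j → False := fun i j h' => (hr.dvd_mul.1 h').elim
    (fun t => h.1 ((Nat.prime_dvd_prime_iff_eq hr Nat.prime_two).1 (hr.dvd_of_dvd_pow t)))
    fun t => h.2 ((Nat.prime_dvd_prime_iff_eq hr Nat.prime_three).1 (hr.dvd_of_dvd_pow t))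
  have h11 := (Nat.modEq_iff_dvd' this).1 h7.symm
  interval_cases m <;> first | omega | exact k 3 1 h11 | exact k 1 2 h11

include e hz z1 b1 aR bR in
theorem heis_pos {U : GL (Fin 3) F} (h : U.1 = !![1, 0, 0; 0, 0, 1; 0, 1, 0] ∨
    ∃ s t u : F, s ^ 3 = 1 ∧ t ^ 3 = 1 ∧ u ^ 3 = 1 ∧ U.1 = diagonal ![s, t, u]) :
    P * U * P⁻¹ ∈ subgroupNormalizer R := by
  have ζ3 : ζ ^ 3 = 1 := by grind
  rcases h with h | ⟨s, t, u, h1, h2, h3, h⟩
  · have t2 : U⁻¹ = U := inv_eq_of_mul_eq_one_right (Units.ext (by simp [h, one_fin_three]))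
    obtain ⟨-, -, -, -, c1, c2, -⟩ := mat3 hl ζ3 hl
    refine heis_nrm e U (heis_key hζ hl hz z1 a1 aR _ hl c1 (by rw [t2, Units.val_mul, Units.val_mul, a1, h, c2])) ?_
    rw [show U * (P⁻¹ * b * P) * U⁻¹ = P⁻¹ * b * P * (P⁻¹ * b * P) from Units.ext (by
      rw [t2, Units.val_mul, Units.val_mul, Units.val_mul _ (P⁻¹ * b * P), b1, h]; simp)]
    simpa [mul_assoc] using mul_mem bR bR
  · obtain ⟨c1, c2, -, c3, -⟩ := mat3 h1 h2 h3
    refine heis_nrm e U ?_ ?_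
    · rw [show U * (P⁻¹ * a * P) = P⁻¹ * a * P * U from Units.ext (by
        rw [Units.val_mul, Units.val_mul _ U, a1, h, diagonal_mul_diagonal, diagonal_mul_diagonal]
        simp [mul_comm])]
      simpa [mul_assoc] using aR
    · have := heis_key hζ hl hz z1 a1 aR (U * (P⁻¹ * b * P) * U⁻¹ * (P⁻¹ * b * P)⁻¹) c1 c2
        ((P⁻¹ * b * P * U).mul_left_inj.1 (by
          rw [← Units.val_mul, show ∀ x : GL (Fin 3) F, U * x * U⁻¹ * x⁻¹ * (x * U) = U * x from fun x => by group,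
            Units.val_mul, Units.val_mul _ U, b1, h, c3]))
      simpa [mul_assoc] using mul_mem this bR

end

theorem heis_main [Fact r.Prime] (hq : 3 ∣ Nat.card F - 1) (h2 : (2 : F) ≠ 0) (hR : Nat.card R = 27)
    (hRe : Monoid.exponent R = 3) (hna : ¬IsMulCommutative R) {σ : F →+* F} {w : Prop}
    (hΓ : ∀ g, g ∈ Γ ↔ (w → g.1ᵀ * g.1.map σ = 1)) (hσ : w → ∀ c : F, c ^ 3 = 1 → c * σ c = 1) (hRΓ : R ≤ Γ)
    (hG : G = Γ ⊓ specialLinear _ F) (h1 : Cj Γ G) (hA : r = 2 ∨ r = 3 → TA G Γ r)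
    (hΩ : r ∣ (subgroupNormalizer R).relIndex G) :
    (AllN G (subgroupNormalizer R) r ↔ r = 2 ∨ r = 3) ∧ (r = 3 → 81 ∣ Nat.card G) := by
  have : Fact (Nat.Prime 3) := ⟨Nat.prime_three⟩
  obtain ⟨ω, hω⟩ := exists_prim hq
  have h3 : (3 : F) ≠ 0 := natCast_ne_zero_of_dvd (r := 3) one_ne_zero (by rwa [pow_one])
  obtain ⟨P, a, b, z, l, ζ, hζ, hl, e, hz, z1, ha, hb⟩ := heis (ω := ω) (by
    have := hω.geom_sum_eq_zero (by norm_num)
    simp only [Finset.sum_range_succ, Finset.sum_range_zero] at this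
    linear_combination this) h3 hR hRe hna
  have aR : a ∈ R := e ▸ Subgroup.subset_closure (by simp)
  have bR : b ∈ R := e ▸ Subgroup.subset_closure (by simp)
  have a1 : (P⁻¹ * a * P).1 = diagonal ![l, l * ζ, l * ζ ^ 2] := by simp [mul_assoc, ha]
  have b1 : (P⁻¹ * b * P).1 = !![0, 0, 1; 1, 0, 0; 0, 1, 0] := by simp [mul_assoc, hb]
  have fin : ∀ u U : GL (Fin 3) F, U ∈ Γ → P * U * P⁻¹ ∈ subgroupNormalizer R → Sim (toLin' u.1) (toLin' U.1) →
      ∃ y ∈ Γ, y ∈ subgroupNormalizer R ∧ Sim (toLin' u.1) (toLin' y.1) := fun u U h h' h'' =>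
    ⟨_, (hΓ _).2 fun hw => uni_conj (heis_uni hζ hl a1 b1 aR bR h3 (hσ hw) fun g hg => (hΓ g).1 (hRΓ hg) hw).choose_spec
      ((hΓ U).1 h hw), h', h''.trans (isConj_GL_iff.1 (isConj_iff.2 ⟨P, rfl⟩))⟩
  refine ⟨⟨fun H => ?_, fun h => allN_of (by rcases h with rfl | rfl <;> assumption) h1 (hA h) fun u _ hu hu' => ?_⟩,
    fun h => ?_⟩
  · by_contra h
    obtain ⟨x, hx, h4, h5⟩ := exists_po (hG ▸ inf_le_right) hΩ
      (fun h' => h (.inr ((Nat.prime_dvd_prime_iff_eq Fact.out Nat.prime_three).1 h')))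
    obtain ⟨g, -, h6⟩ := H x hx ⟨1, by simp [h4]⟩ h5
    exact h (heis_neg hζ hl hz z1 a1 b1 aR bR h3 hR (by
      rw [show g⁻¹ * x * g = g⁻¹ * x * g⁻¹⁻¹ by simp, conj_pow, h4]; simp) (fun c hc => h5 c (scal_conj hc)) h6)
  · rcases h with rfl | rfl
    · obtain ⟨T, hT⟩ : IsUnit (!![1, 0, 0; 0, 0, 1; 0, 1, 0] : Matrix (Fin 3) (Fin 3) F) :=
        (isUnit_iff_isUnit_det _).2 (by simp [det_fin_three])
      have t1 : T.1 ^ 2 = 1 := by rw [hT, sq]; simp [one_fin_three]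
      have t3 := heis_pos hζ hl e hz z1 a1 b1 aR bR (.inl hT)
      have t4 : T ∈ Γ := (hΓ _).2 fun _ => by
        rw [hT]
        ext i j
        fin_cases i <;> fin_cases j <;> simp [mul_apply, Fin.sum_univ_three]
      have u2 : u.1 ^ 2 = 1 := by rw [← Units.val_pow_eq_pow_val, ← hu, pow_orderOf_eq_one, Units.val_one]
      obtain ⟨i, j, c1, c2, c3, c4, -⟩ := inv_type h2 u2 hu'
      rw [Fintype.card_fin] at c3
      obtain ⟨rfl, rfl⟩ | ⟨rfl, rfl⟩ : (i = 2 ∧ j = 1) ∨ (i = 1 ∧ j = 2) := by omega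
      · exact fin u T t4 t3 (sim_inv h2 (by simp) u2 hu' t1 (fun c hc => by
          simpa [hT] using congrFun (congrFun hc 1) 2) (by rw [c4, hT]; simp; norm_num))
      · exact fin u (-T) ((hΓ _).2 fun hw => by simpa [Matrix.map_neg] using (hΓ _).1 t4 hw)
          (norm_smul (a := -1) (by simp) t3) (sim_inv h2 (by simp) u2 hu' (by simpa using t1) (fun c hc => by
          simpa [hT] using congrFun (congrFun hc 1) 2) (by rw [c4]; simp [hT]; norm_num))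
    · obtain ⟨Λ, c1, c2⟩ := exists_lin_of_pow hq (u := glEquiv u) (by simpa using hu)
      obtain ⟨d₀, d₁, d₂, rfl⟩ := Multiset.card_eq_three.1 (by simpa [c1, dg_lin] using dg_edivs (glEquiv u).1)
      simp only [Multiset.insert_eq_cons, Multiset.mem_cons, Multiset.mem_singleton, forall_eq_or_imp, forall_eq] at c2
      obtain ⟨-, -, ⟨U, hU⟩, -, -, -, -, c3⟩ := mat3 c2.1 c2.2.1 c2.2.2
      exact fin u U ((hΓ _).2 fun hw => hU ▸ c3 σ (hσ hw)) (heis_pos hζ hl e hz z1 a1 b1 aR bR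
        (.inr ⟨_, _, _, c2.1, c2.2.1, c2.2.2, hU⟩)) (sim_iff_edivs.2 (c1.trans (by rw [hU, edivs_diag]; rfl)))
  · have k : R ≤ subgroupNormalizer R ⊓ G := le_inf Subgroup.le_normalizer (hG ▸ le_inf hRΓ (e.le.trans
      ((Subgroup.closure_le _).2 (by
        rintro _ (rfl | rfl) <;> refine CA.AschDesc.mem_SL.2 (mul_right_cancel₀ P.det_ne_zero ?_)
        · rw [← det_mul, ha, det_mul, (mat3 hl (b := ζ) (by linear_combination (ζ - 1) * hζ) hl).2.2.2.2.2.2.1, mul_comm]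
        · rw [← det_mul, hb]; simp [det_fin_three]))))
    rw [← Subgroup.card_mul_index ((subgroupNormalizer R).subgroupOf G), ← Subgroup.inf_subgroupOf_right,
      Nat.card_congr (Subgroup.subgroupOfEquivOfLe inf_le_right).toEquiv, Subgroup.inf_subgroupOf_right]
    exact mul_dvd_mul (hR ▸ Subgroup.card_dvd_of_le k) (h ▸ hΩ : 3 ∣ _)

end CA.El
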