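import Cfsg.Agent.Lib.Lin.El26
import Cfsg.Agent.S3762

/-! Symplectic-type 2-groups of matrices: structure, and elements of odd prime order normalising them. -/

namespace CA.El

open Module Polynomial CA.Rcf CA.CForm CA.CForm.Form Cfsg.Geo CA.AschFG Matrix
open scoped commutatorElement

section
variable {M : Type*} [Monoid M] [HasDistribNeg M] {a b : M}
theorem ac (h : a * b = -(b * a)) : b * a = -(a * b) ∧ ∀ x, b * (a * x) = -(a * (b * x)) :=
  ⟨by rw [h, neg_neg], fun x => by rw [← mul_assoc, ← mul_assoc, h, neg_mul, neg_neg]⟩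
omit [HasDistribNeg M] in
theorem cc (h : a * b = b * a) : b * a = a * b ∧ ∀ x, b * (a * x) = a * (b * x) :=
  ⟨h.symm, fun x => by rw [← mul_assoc, ← mul_assoc, h]⟩
omit [HasDistribNeg M] in
theorem s1 (h : a * a = 1) : a * a = 1 ∧ ∀ x, a * (a * x) = x := ⟨h, fun x => by rw [← mul_assoc, h, one_mul]⟩
theorem sm (h : a * a = -1) : a * a = -1 ∧ ∀ x, a * (a * x) = -x :=
  ⟨h, fun x => by rw [← mul_assoc, h, neg_mul, one_mul]⟩
end

theorem comm_le_of_exp {G : Type*} [Group G] [Finite G] (hG : IsPGroup 2 G)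
    (h : ∀ A : Subgroup G, A.Characteristic → IsMulCommutative A → IsCyclic A) (h4 : Monoid.exponent G = 4) :
    commutator G ≤ Subgroup.center G := by
  obtain ⟨E, S, h1, h2, h3, h5⟩ := Cfsg.Agent.S3762.result hG h
  have k : ∀ x : S, orderOf x ≤ 4 := fun x => Nat.le_of_dvd (by norm_num) (by
    rw [← h4, Subgroup.orderOf_mk]; exact Monoid.order_dvd_exponent _)
  have h6 : IsCyclic S := h5.resolve_right (by
    rintro ⟨-, h6, ⟨m, ⟨e⟩⟩ | ⟨m, ⟨e⟩⟩ | ⟨n, h7, -, x, -, h8, -⟩⟩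
    · have := k (e.symm (.r 1))
      rw [Nat.card_congr e.toEquiv, DihedralGroup.nat_card] at h6
      rw [MulEquiv.orderOf_eq, DihedralGroup.orderOf_r_one] at this
      omega
    · have := k (e.symm (.a 1))
      have h0 := orderOf_pos (e.symm (.a 1))
      rw [Nat.card_congr e.toEquiv] at h6
      rw [MulEquiv.orderOf_eq, QuaternionGroup.orderOf_a_one] at this h0
      rcases m with _ | m
      · omega
      · rw [Nat.card_eq_fintype_card, QuaternionGroup.card] at h6; omega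
    · exact absurd (h8 ▸ k x) (not_le.2 (lt_of_lt_of_le (by norm_num) (Nat.pow_le_pow_right two_pos h7))))
  have c : ∀ x, (∀ e ∈ E, e * x = x * e) → (∀ e ∈ S, e * x = x * e) → x ∈ Subgroup.center G := fun x a b =>
    Subgroup.mem_center_iff.2 fun g => Subgroup.mem_centralizer_singleton_iff.1
      ((show E ⊔ S ≤ Subgroup.centralizer {x} from sup_le (fun e he => Subgroup.mem_centralizer_singleton_iff.2 (a e he))
        fun e he => Subgroup.mem_centralizer_singleton_iff.2 (b e he)) (h2 ▸ Subgroup.mem_top g))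
  have hS : S ≤ Subgroup.center G := fun x hx => c x (fun e he => h1 e he x hx) fun e he =>
    congrArg Subtype.val (h6.commutative.is_comm.comm (⟨e, he⟩ : S) ⟨x, hx⟩)
  have hE : ∀ x ∈ E, ∀ y ∈ E, ⁅x, y⁆ ∈ Subgroup.center G := fun x hx y hy => by
    rcases h3 with rfl | h3
    · simp [Subgroup.mem_bot.1 hx]
    · have := h3.1.2.2.le (CA.PGClassTwo.comm_mem_commutator (⟨x, hx⟩ : E) ⟨y, hy⟩)
      exact c _ (fun e he => congrArg Subtype.val (Subgroup.mem_center_iff.1 this (⟨e, he⟩ : E))) fun e he =>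
        (h1 _ (⁅(⟨x, hx⟩ : E), (⟨y, hy⟩ : E)⁆).2 e he).symm
  have d : ∀ x : G, ∃ e ∈ E, (x : G ⧸ Subgroup.center G) = e := fun x => by
    have : x ∈ E ⊔ Subgroup.center G := (h2.ge.trans (sup_le_sup_left hS E)) (Subgroup.mem_top x)
    obtain ⟨e, he, z, hz, rfl⟩ := Subgroup.mem_sup_of_normal_right.1 this
    exact ⟨e, he, QuotientGroup.mk_mul_of_mem e hz⟩
  refine Subgroup.commutator_le.2 fun x _ y _ => ?_
  obtain ⟨a, ha, e1⟩ := d x
  obtain ⟨b, hb, e2⟩ := d y
  have := hE a ha b hb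
  rw [← QuotientGroup.eq_one_iff, ← QuotientGroup.mk'_apply, map_commutatorElement, QuotientGroup.mk'_apply,
    QuotientGroup.mk'_apply] at this ⊢
  rwa [e1, e2]

variable {F : Type*} [Field F] {ι : Type} [Fintype ι] [DecidableEq ι] {r m : ℕ}
  {R : Subgroup (GL ι F)} {x a b : GL ι F} {N : Matrix ι ι F}

/-- An absolutely irreducible group whose elements commute or anticommute. -/
structure E2 (R : Subgroup (GL ι F)) : Prop where
  two : (2 : F) ≠ 0
  pm : ∀ a ∈ R, ∀ b ∈ R, a * b = b * a ∨ a * b = -(b * a)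
  irr : ∀ M : Matrix ι ι F, (∀ a ∈ R, M * a.1 = a.1 * M) → ∃ c : F, M = c • 1
  sq : ∀ a ∈ R, a * a = 1 ∨ a * a = -1
  neg : -1 ∈ R

/-- No elementary abelian subgroup of order eight. -/
def Mn (R : Subgroup (GL ι F)) : Prop := ∀ a ∈ R, ∀ b ∈ R, a * a = 1 → b * b = 1 → a * b = b * a →
  (a = 1 ∨ a = -1) ∨ (b = 1 ∨ b = -1) ∨ a * b = 1 ∨ a * b = -1

theorem rk_one (h : N.rank ≤ 1) (M : Matrix ι ι F) : N * M * N = (N * M).trace • N := by
  obtain ⟨v, hv⟩ := finrank_le_one_iff.1 h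
  choose c hc using fun j => hv ⟨_, Pi.single j 1, rfl⟩
  have e : N = vecMulVec v.1 c := by
    ext i j
    simpa [vecMulVec_apply, mul_comm] using (congrFun (congrArg Subtype.val (hc j)) i).symm
  rw [e, vecMulVec_mul, vecMulVec_mul_vecMulVec, trace_vecMulVec, dotProduct_comm, vecMulVec_smul]

theorem tr_anti (h2 : (2 : F) ≠ 0) {A : Matrix ι ι F} (h : A * b.1 = -(b.1 * A)) : A.trace = 0 := by
  have := trace_units_conj' b A
  rw [mul_assoc, h, mul_neg, Units.inv_mul_cancel_left, trace_neg] at this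
  exact mul_left_cancel₀ h2 (by linear_combination -this)

variable [Nonempty ι]

theorem pm_one {c : F} (h : a.1 = c • 1) (h' : a * a = 1) : a = 1 ∨ a = -1 := by
  have := congrArg Units.val h'
  rw [Units.val_mul, h, smul_mul_smul_comm, one_mul, Units.val_one] at this
  exact (mul_self_eq_one_iff.1 (smul_left_injective F one_ne_zero (this.trans (one_smul F _).symm))).imp
    (fun e => Units.ext (by simp [h, e])) fun e => Units.ext (by simp [h, e])

theorem ne_neg' (h2 : (2 : F) ≠ 0) (a : GL ι F) : a ≠ -a := fun h =>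
  a.ne_zero (smul_right_injective _ h2 (show (2 : F) • a.1 = (2 : F) • 0 by
    rw [two_smul, smul_zero]; exact add_eq_zero_iff_eq_neg.2 (congrArg Units.val h)))

theorem nsc_of_anti (h2 : (2 : F) ≠ 0) (h : a * b = -(b * a)) (c : F) : a.1 ≠ c • 1 := fun e =>
  ne_neg' h2 (b * a) (h ▸ Units.ext (by simp [e]))

theorem npm_of_anti (h2 : (2 : F) ≠ 0) (h : a * b = -(b * a)) : ¬(a = 1 ∨ a = -1) := by
  rintro (rfl | rfl)
  exacts [nsc_of_anti h2 h 1 (by simp), nsc_of_anti h2 h (-1) (by simp)]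

theorem not_anti (h2 : (2 : F) ≠ 0) (ho : Odd r) (h : x ^ r = 1) : x * a * x⁻¹ ≠ -a := fun e =>
  ne_neg' h2 1 (by
    have : a⁻¹ * x * a⁻¹⁻¹ = -x := by rw [inv_inv, mul_assoc, eq_mul_of_mul_inv_eq e]; simp
    have := congrArg (· ^ r) this
    simpa only [conj_pow, ho.neg_pow, h, mul_one, mul_inv_cancel] using this)

theorem e2_of [Nontrivial ι] (h2 : (2 : F) ≠ 0) (hc : commutator R ≤ Subgroup.center R)
    (h4 : Monoid.exponent R = 4) (hi : ActsAbsolutelyIrreducibly (matrixSet R)) : E2 R := by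
  have irr : ∀ M : Matrix ι ι F, (∀ a ∈ R, M * a.1 = a.1 * M) → ∃ c : F, M = c • 1 := fun M h =>
    hi.2 M (by rintro _ ⟨a, ha, rfl⟩; exact h a ha)
  have p4 : ∀ a : R, a ^ 4 = 1 := fun a => h4 ▸ Monoid.pow_exponent_eq_one a
  have pm : ∀ a ∈ R, ∀ b ∈ R, a * b = b * a ∨ a * b = -(b * a) := fun a ha b hb => by
    have z := CA.PGClassTwo.commute_of_mem_center (hc (CA.PGClassTwo.comm_mem_commutator (⟨a, ha⟩ : R) ⟨b, hb⟩))
    have h5 := CA.PGClassTwo.mul_pow_eq (z ⟨b, hb⟩) (z ⟨a, ha⟩) 4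
    rw [p4, p4, p4, one_mul, one_mul, show Nat.choose 4 2 = 4 + 2 from rfl, pow_add, p4, one_mul, sq] at h5
    obtain ⟨c, hc⟩ := irr (⁅a, b⁆).1 fun g hg => congrArg (fun t : R => t.1.1) (z ⟨g, hg⟩).eq.symm
    rw [CA.PGClassTwo.mul_eq_comm_mul b a]
    exact (pm_one hc (congrArg Subtype.val h5.symm)).imp (fun e => by rw [e, one_mul]) fun e => by rw [e, neg_one_mul]
  refine ⟨h2, pm, irr, fun a ha => ?_, ?_⟩
  · obtain ⟨c, hc⟩ := irr (a * a).1 fun g hg => congrArg Units.val (show a * a * g = g * (a * a) by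
      rcases pm g hg a ha with h | h
      · simp [mul_assoc, cc h]
      · simp [mul_assoc, ac h])
    exact pm_one hc (by simpa [pow_succ, mul_assoc] using congrArg Subtype.val (p4 ⟨a, ha⟩))
  · by_contra H
    obtain ⟨i, j, hij⟩ := exists_pair_ne ι
    obtain ⟨c, hc⟩ := irr (single i j 1) fun a ha => by
      obtain ⟨c, hc⟩ := irr a.1 fun b hb => congrArg Units.val ((pm a ha b hb).resolve_right fun e => H (by
        have := mul_mem (mul_mem ha hb) (inv_mem (mul_mem hb ha))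
        rwa [e, neg_mul, mul_inv_cancel] at this))
      simp [hc]
    simpa [hij] using congrFun (congrFun hc i) j

theorem mn_of (h2 : (2 : F) ≠ 0) (hn : -1 ∈ R) (h : IsOfMinusType 2 R) [Finite R] : Mn R := by
  intro a ha b hb h1 h3 h4
  by_contra! H
  obtain ⟨⟨a1, a2⟩, ⟨b1, b2⟩, c1, c2⟩ := H
  let S : Set R := {⟨-1, hn⟩, ⟨a, ha⟩, ⟨b, hb⟩}
  have hS : ∀ x ∈ S, ∀ y ∈ S, x * y = y * x := by
    rintro _ (rfl | rfl | rfl) _ (rfl | rfl | rfl) <;> simp [Subtype.ext_iff, h4]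
  have hc := Subgroup.isMulCommutative_closure hS
  have m : ∀ x ∈ S, x ∈ Subgroup.closure S := fun x hx => Subgroup.subset_closure hx
  have e : ∀ x ∈ Subgroup.closure S, x * x = 1 := fun x hx => Subgroup.closure_induction (fun x hx => by
    rcases hx with rfl | rfl | rfl <;> simp [Subtype.ext_iff, h1, h3]) (one_mul 1) (fun x y hx hy e e' => by
      have := congrArg Subtype.val (hc.is_comm.comm (⟨y, hy⟩ : Subgroup.closure S) ⟨x, hx⟩)
      rw [mul_assoc, ← mul_assoc y, show y * x = x * y from this, mul_assoc, e', mul_one, e])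
    (fun x _ e => by rw [← _root_.mul_inv_rev, e, inv_one]) hx
  obtain ⟨k, hk⟩ := IsPGroup.exists_card_eq (p := 2) (G := Subgroup.closure S) fun x =>
    ⟨1, Subtype.ext (by simpa [sq] using e x x.2)⟩
  have h5 := h _ hc e
  let f : Fin 5 → Subgroup.closure S := ![1, ⟨_, m ⟨-1, hn⟩ (by simp [S])⟩, ⟨_, m ⟨a, ha⟩ (by simp [S])⟩,
    ⟨_, m ⟨-1, hn⟩ (by simp [S])⟩ * ⟨_, m ⟨a, ha⟩ (by simp [S])⟩, ⟨_, m ⟨b, hb⟩ (by simp [S])⟩]
  have n := ne_neg' (ι := ι) h2
  have d1 : a ≠ b := fun e => c1 (e ▸ h1)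
  have d2 : -a ≠ b := fun e => c2 (by rw [← e, mul_neg, h1])
  have d3 : -a ≠ 1 := fun e => a2 (neg_eq_iff_eq_neg.1 e)
  have h6 := Nat.card_le_card_of_injective f fun i j => by
    fin_cases i <;> fin_cases j <;> simp [f, Subtype.ext_iff, a1, a2, b1, b2, d1, d2, d3, n, a1.symm, a2.symm, b1.symm,
      b2.symm, d1.symm, d2.symm, d3.symm, (n _).symm]
  rw [hk, Nat.card_fin] at *
  have := (Nat.pow_lt_pow_iff_right one_lt_two).1 h5
  interval_cases k <;> omega

namespace E2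

variable (h : E2 R)
include h

omit [Nonempty ι] in
theorem anti (ha : a ∈ R) (h' : ∀ c : F, a.1 ≠ c • 1) : ∃ b ∈ R, a * b = -(b * a) := by
  by_contra! H
  obtain ⟨c, hc⟩ := h.irr a.1 fun b hb => congrArg Units.val ((h.pm a ha b hb).resolve_right (H b hb))
  exact h' c hc

omit [Nonempty ι] in
theorem tr0 (ha : a ∈ R) (h' : ∀ c : F, a.1 ≠ c • 1) : a.1.trace = 0 := by
  obtain ⟨b, -, e⟩ := h.anti ha h'
  exact tr_anti h.two (congrArg Units.val e)

omit [Nonempty ι] in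
theorem neg_mem (ha : a ∈ R) : -a ∈ R := neg_one_mul a ▸ mul_mem h.neg ha

omit [Nonempty ι] in
theorem mem_Z : a ∈ (Subgroup.center R).map R.subtype ↔ a ∈ R ∧ ∃ c : F, a.1 = c • 1 :=
  ⟨by
    rintro ⟨z, hz, rfl⟩
    exact ⟨z.2, h.irr _ fun b hb => congrArg (fun t : R => t.1.1) (Subgroup.mem_center_iff.1 hz ⟨b, hb⟩).symm⟩,
  fun ⟨ha, c, hc⟩ => ⟨⟨a, ha⟩, Subgroup.mem_center_iff.2 fun g => Subtype.ext (Units.ext (by simp [hc])), rfl⟩⟩

omit [Nonempty ι] in
theorem Z_le (x : GL ι F) : (Subgroup.center R).map R.subtype ≤ R ⊓ Subgroup.centralizer {x} := fun a ha =>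
  let ⟨h1, c, hc⟩ := h.mem_Z.1 ha
  ⟨h1, Subgroup.mem_centralizer_singleton_iff.2 (Units.ext (by simp [hc]))⟩

theorem half (ha : a ∈ R) (hb : b ∈ R) (e : a * b = -(b * a)) : ((Subgroup.centralizer {a}).subgroupOf R).index = 2 := by
  refine Subgroup.index_eq_two_iff.2 ⟨⟨b, hb⟩, fun ⟨c, hc⟩ => ?_⟩
  simp only [Subgroup.mem_subgroupOf, Subgroup.mem_centralizer_singleton_iff, Subgroup.coe_mul]
  rcases h.pm a ha c hc with e' | e'
  · exact .inr ⟨e'.symm, fun k => ne_neg' h.two (a * (c * b)) (by simpa [mul_assoc, cc e', ac e] using k.symm)⟩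
  · exact .inl ⟨by simp [mul_assoc, ac e', ac e], fun k => ne_neg' h.two _ (k.symm.trans (ac e').1)⟩

variable [Finite F]

theorem pairs (hc : 4 * Nat.card (Subgroup.center R) < Nat.card R) : ∃ a ∈ R, ∃ b ∈ R, ∃ c ∈ R, ∃ d ∈ R,
    a * b = -(b * a) ∧ c * d = -(d * c) ∧ a * c = c * a ∧ a * d = d * a ∧ b * c = c * b ∧ b * d = d * b := by
  have k : ∀ K : Subgroup R, K.index ≤ 4 → ∃ c ∈ K, ∀ z : F, c.1.1 ≠ z • 1 := fun K hK => by
    by_contra! H
    have := Subgroup.card_le_of_le (show K ≤ Subgroup.center R from fun c hc =>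
      (Subgroup.mem_map_iff_mem R.subtype_injective).1 (h.mem_Z.2 ⟨c.2, H c hc⟩))
    have := K.index_mul_card ▸ Nat.mul_le_mul hK this
    omega
  obtain ⟨⟨a, ha⟩, -, h1⟩ := k ⊤ (by simp)
  obtain ⟨b, hb, e⟩ := h.anti ha h1
  obtain ⟨⟨c, hc⟩, ⟨h2, h3⟩, h4⟩ := k ((Subgroup.centralizer {a}).subgroupOf R ⊓ (Subgroup.centralizer {b}).subgroupOf R)
    (Subgroup.index_inf_le.trans (by rw [h.half ha hb e, h.half hb ha (ac e).1]))
  obtain ⟨d, hd, e'⟩ := h.anti hc h4
  replace h2 : a * c = c * a := (Subgroup.mem_centralizer_singleton_iff.1 h2).symm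
  replace h3 : b * c = c * b := (Subgroup.mem_centralizer_singleton_iff.1 h3).symm
  refine ⟨a, ha, b, hb, c, hc, ?_⟩
  rcases h.pm a ha d hd with e1 | e1 <;> rcases h.pm b hb d hd with e2 | e2
  · exact ⟨d, hd, e, e', h2, e1, h3, e2⟩
  · exact ⟨a * d, mul_mem ha hd, by simp [mul_assoc, ac e, ac e', cc h2, cc h3, cc e1, ac e2]⟩
  · exact ⟨b * d, mul_mem hb hd, by simp [mul_assoc, ac e, ac e', cc h2, cc h3, ac e1, cc e2]⟩
  · exact ⟨a * b * d, mul_mem (mul_mem ha hb) hd, by simp [mul_assoc, ac e, ac e', cc h2, cc h3, ac e1, ac e2]⟩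

end E2

/-- Four mutually anticommuting involutions. -/
structure Cl (R : Subgroup (GL ι F)) (a b c d : GL ι F) : Prop where
  mem : a ∈ R ∧ b ∈ R ∧ c ∈ R ∧ d ∈ R
  sq : a * a = 1 ∧ b * b = 1 ∧ c * c = 1 ∧ d * d = 1
  an : a * b = -(b * a) ∧ a * c = -(c * a) ∧ a * d = -(d * a) ∧ b * c = -(c * b) ∧ b * d = -(d * b) ∧ c * d = -(d * c)

variable {c d : GL ι F}

omit [Nonempty ι] in
theorem cl_of (ha : a ∈ R) (hb : b ∈ R) (hc : c ∈ R) (hd : d ∈ R) (a1 : a * a = 1) (b1 : b * b = 1) (c1 : c * c = -1)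
    (d1 : d * d = -1) (e1 : a * b = -(b * a)) (e2 : c * d = -(d * c)) (e3 : a * c = c * a) (e4 : a * d = d * a)
    (e5 : b * c = c * b) (e6 : b * d = d * b) : Cl R a b (a * b * c) (a * b * d) :=
  ⟨⟨ha, hb, mul_mem (mul_mem ha hb) hc, mul_mem (mul_mem ha hb) hd⟩,
    by simp [mul_assoc, s1 a1, s1 b1, sm c1, sm d1, ac e1, cc e3, cc e4, cc e5, cc e6],
    by simp [mul_assoc, s1 a1, s1 b1, ac e1, ac e2, cc e3, cc e4, cc e5, cc e6]⟩

namespace E2

variable (h : E2 R)
include h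

omit [Nonempty ι] in
theorem pow4 (ha : a ∈ R) : a ^ 4 = 1 := by
  rw [show 4 = 2 * 2 from rfl, pow_mul, _root_.sq a]
  rcases h.sq a ha with e | e <;> simp [e]

omit [Nonempty ι] in
theorem nf (ha : a ∈ R) (hb : b ∈ R) (e : a * b = -(b * a)) : (a * a = -1 ∧ b * b = -1) ∨ ∃ s ∈ R, ∃ t ∈ R,
    s * s = 1 ∧ t * t = 1 ∧ s * t = -(t * s) ∧ ∀ g, a * g = g * a → b * g = g * b → s * g = g * s ∧ t * g = g * t := by
  have k : ∀ g, a * g = g * a → b * g = g * b → a * b * g = g * (a * b) := fun g e1 e2 => by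
    simp [mul_assoc, cc e1, cc e2]
  rcases h.sq a ha with a1 | a1 <;> rcases h.sq b hb with b1 | b1
  · exact .inr ⟨a, ha, b, hb, a1, b1, e, fun _ => And.intro⟩
  · exact .inr ⟨a, ha, a * b, mul_mem ha hb, a1, by simp [mul_assoc, ac e, s1 a1, b1], by simp [mul_assoc, ac e],
      fun g e1 e2 => ⟨e1, k g e1 e2⟩⟩
  · exact .inr ⟨a * b, mul_mem ha hb, b, hb, by simp [mul_assoc, ac e, sm a1, b1], b1, by simp [mul_assoc, ac e],
      fun g e1 e2 => ⟨k g e1 e2, e2⟩⟩
  · exact .inl ⟨a1, b1⟩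

variable [Finite F] (hc : 4 * Nat.card (Subgroup.center R) < Nat.card R)
include hc

theorem cl_minus (hm : Mn R) : ∃ a b c d, Cl R a b c d := by
  obtain ⟨a, ha, b, hb, c, hc, d, hd, e1, e2, e3, e4, e5, e6⟩ := h.pairs hc
  have n := fun {a b : GL ι F} => npm_of_anti h.two (a := a) (b := b)
  rcases h.nf ha hb e1 with ⟨a1, b1⟩ | ⟨s, hs, t, ht, u1, t1, e, k⟩ <;>
    rcases h.nf hc hd e2 with ⟨c1, d1⟩ | ⟨s', hs', t', ht', u1', t1', e', k'⟩
  · exact absurd (hm _ (mul_mem ha hc) _ (mul_mem hb hd) (by simp [mul_assoc, cc e3, sm a1, c1])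
      (by simp [mul_assoc, cc e6, sm b1, d1]) (by simp [mul_assoc, ac e1, ac e2, cc e3, cc e4, cc e5, cc e6]))
      (not_or.2 ⟨n (b := b) (by simp [mul_assoc, ac e1, cc e5]), not_or.2 ⟨n (b := a) (by simp [mul_assoc, ac e1, cc e4]),
        n (b := a) (by simp [mul_assoc, ac e1, cc e3, cc e4])⟩⟩)
  · exact ⟨_, _, _, _, cl_of hs' ht' ha hb u1' t1' a1 b1 e' e1 (k' a e3.symm e4.symm).1 (k' b e5.symm e6.symm).1
      (k' a e3.symm e4.symm).2 (k' b e5.symm e6.symm).2⟩
  · exact ⟨_, _, _, _, cl_of hs ht hc hd u1 t1 c1 d1 e e2 (k c e3 e5).1 (k d e4 e6).1 (k c e3 e5).2 (k d e4 e6).2⟩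
  · have f1 := k s' (k' a e3.symm e4.symm).1.symm (k' b e5.symm e6.symm).1.symm
    have f2 := k t' (k' a e3.symm e4.symm).2.symm (k' b e5.symm e6.symm).2.symm
    exact absurd (hm s hs s' hs' u1 u1' f1.1)
      (not_or.2 ⟨n e, not_or.2 ⟨n e', n (b := t) (by simp [mul_assoc, ac e, cc f1.2])⟩⟩)

theorem cl_i {i : GL ι F} (hi : i ∈ R) (i1 : i * i = -1) (i2 : ∀ g, i * g = g * i) : ∃ a b c d, Cl R a b c d := by
  obtain ⟨a, ha, b, hb, c, hc, d, hd, e1, e2, e3, e4, e5, e6⟩ := h.pairs hc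
  have k : ∀ a ∈ R, (∃ j, i ^ j * a * (i ^ j * a) = 1) ∧ ∃ j, i ^ j * a * (i ^ j * a) = -1 := fun a ha => by
    rcases h.sq a ha with e | e
    · exact ⟨⟨0, by simp [e]⟩, 1, by simp [mul_assoc, cc (i2 a), sm i1, e]⟩
    · exact ⟨⟨1, by simp [mul_assoc, cc (i2 a), sm i1, e]⟩, 0, by simp [e]⟩
  obtain ⟨j1, a1⟩ := (k a ha).1
  obtain ⟨j2, b1⟩ := (k b hb).1
  obtain ⟨j3, c1⟩ := (k c hc).2
  obtain ⟨j4, d1⟩ := (k d hd).2
  have m := fun j a ha => mul_mem (pow_mem hi j) (show a ∈ R from ha)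
  have l : ∀ (j j' : ℕ) g g', i ^ j * g * (i ^ j' * g') = i ^ (j + j') * (g * g') := fun j j' g g' => by
    rw [mul_assoc, ← mul_assoc g, ← ((show Commute i g from i2 g).pow_left j').eq, pow_add]; simp only [mul_assoc]
  refine ⟨_, _, _, _, cl_of (m _ _ ha) (m _ _ hb) (m _ _ hc) (m _ _ hd) a1 b1 c1 d1 ?_ ?_ ?_ ?_ ?_ ?_⟩ <;>
    rw [l, l, add_comm] <;> simp [*]

omit hc in
theorem tr_id (ho : Odd r) (h1 : x ^ r = 1) (hx : x ∈ subgroupNormalizer R) :
    (Fintype.card ι : F) ^ 2 * Nat.card ↥(R ⊓ Subgroup.centralizer {x}) = Nat.card R * x.1.trace * x⁻¹.1.trace := by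
  classical
  cases nonempty_fintype R
  obtain ⟨c, hc⟩ := h.irr (∑ a : R, (a.1 * x * a.1⁻¹).1) fun b hb => by
    rw [Finset.sum_mul, Finset.mul_sum]
    exact (Fintype.sum_equiv (Equiv.mulLeft (⟨b, hb⟩ : R)) _ _ fun a => by simp [mul_assoc]).symm
  have h2 := congrArg trace hc
  have h3 := congrArg (fun M => trace (M * x⁻¹.1)) hc
  simp only [trace_sum, Units.val_mul, trace_units_conj, trace_smul, trace_one, Finset.sum_const, nsmul_eq_mul,
    Finset.card_univ, smul_eq_mul] at h2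
  simp only [Finset.sum_mul, trace_sum, smul_mul_assoc, one_mul, trace_smul, smul_eq_mul] at h3
  rw [Finset.sum_congr rfl (g := fun a : R => if a.1 ∈ Subgroup.centralizer {x} then (Fintype.card ι : F) else 0)
    fun a _ => ?_, ← Finset.sum_filter, Finset.sum_const, nsmul_eq_mul, ← Fintype.card_subtype,
    ← Nat.card_eq_fintype_card] at h3
  · rw [← Nat.card_congr (Subgroup.subgroupOfEquivOfLe (inf_le_left : R ⊓ Subgroup.centralizer {x} ≤ R)).toEquiv,
      Subgroup.inf_subgroupOf_left, Nat.card_eq_fintype_card (α := R), h2, mul_comm c, mul_assoc, ← h3, mul_comm,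
      mul_left_comm, _root_.sq]
    rfl
  · rw [← Units.val_mul]
    split_ifs with h4
    · rw [Subgroup.mem_centralizer_singleton_iff.1 h4]; simp
    · have h0 : a.1 * x * a.1⁻¹ * x⁻¹ ∈ R := by
        simpa [mul_assoc] using mul_mem a.2 ((Subgroup.mem_normalizer_iff.1 hx _).1 (inv_mem a.2))
      refine h.tr0 h0 fun c hc => h4 ?_
      have h5 : (a.1 * x * a.1⁻¹).1 = c • x.1 := by rw [← inv_mul_cancel_right (a.1 * x * a.1⁻¹) x, Units.val_mul, hc]; simp
      have h6 := congrArg (· ^ r) h5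
      simp only [← Units.val_pow_eq_pow_val, conj_pow, _root_.smul_pow, h1, mul_one, mul_inv_cancel, Units.val_one] at h6
      have h7 : c ^ r = 1 := smul_left_injective F one_ne_zero (h6.symm.trans (one_smul F _).symm)
      have h8 : c ^ 4 = 1 := smul_left_injective F (one_ne_zero (α := Matrix ι ι F)) (by
        have := congrArg Units.val (h.pow4 h0)
        rw [Units.val_pow_eq_pow_val, hc, _root_.smul_pow, one_pow] at this
        exact this.trans (one_smul F _).symm)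
      have h9 : c = 1 := by
        simpa [((Nat.coprime_two_right.2 ho).pow_right 2 : r.Coprime 4).gcd_eq_one] using pow_gcd_eq_one.2 ⟨h7, h8⟩
      rw [h9, one_smul] at h5
      exact Subgroup.mem_centralizer_singleton_iff.2 (eq_mul_of_mul_inv_eq (Units.ext h5))

omit hc [Finite F] in
theorem unip (hn : Fintype.card ι = 4) (hx : x ∈ subgroupNormalizer R) (e : x.1 = 1 + N) (h0 : N * N = 0)
    (h1 : N.rank ≤ 1) : ∃ c : F, x.1 = c • 1 := by
  by_contra! H
  have h2 : N ≠ 0 := fun h => H 1 (by simp [e, h])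
  have h4 : (4 : F) ≠ 0 := fun e => h.two (by simpa using (show (2 : F) * 2 = 0 by linear_combination e))
  have t : N.trace = 0 := by simpa [h0, h2] using (rk_one h1 1).symm
  have e' : x⁻¹.1 = 1 - N := Units.inv_eq_of_mul_eq_one_right (by simp [e, mul_sub, add_mul, h0])
  obtain ⟨c, hc⟩ := h.irr x.1 fun a ha => by
    have h3 : x * a * x⁻¹ * a⁻¹ ∈ R := mul_mem ((Subgroup.mem_normalizer_iff.1 hx _).1 ha) (inv_mem ha)
    obtain ⟨M, hM, m1, m2, m3⟩ : ∃ M, (x * a * x⁻¹ * a⁻¹).1 = (1 + N) * (1 - M) ∧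
        (x * a * x⁻¹ * a⁻¹)⁻¹.1 = (1 + M) * (1 - N) ∧ M.trace = 0 ∧ True :=
      ⟨a.1 * N * a⁻¹.1, by simp [e, e', mul_sub, sub_mul, mul_assoc, -Matrix.coe_units_inv],
        by simp [e, e', mul_add, add_mul, mul_assoc, -Matrix.coe_units_inv], by rw [trace_units_conj, t], trivial⟩
    have k := rk_one h1 M
    have k' : (M * N).trace = (N * M).trace := trace_mul_comm _ _
    rcases h.sq _ h3 with s | s
    · rw [inv_eq_of_mul_eq_one_right s, hM] at m1
      have m4 := congrArg (fun X => trace (N * X)) m1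
      simp only [mul_add, add_mul, mul_sub, mul_one, one_mul, ← mul_assoc, h0, zero_mul, k, trace_add,
        trace_sub, trace_smul, t, trace_zero, smul_zero] at m4
      have m5 : (x * a * x⁻¹ * a⁻¹).1.trace = 4 := by
        simp only [hM, mul_sub, add_mul, mul_one, one_mul, trace_add, trace_sub, trace_one, hn, t, m2]
        rw [mul_left_cancel₀ h.two (show 2 * (N * M).trace = 2 * 0 by linear_combination -m4)]; norm_num
      by_contra H'
      refine h4 (m5.symm.trans (h.tr0 h3 fun c hc => H' ?_))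
      rcases pm_one hc s with s | s
      · exact congrArg Units.val (show x * a = a * x by rw [mul_inv_eq_one.1 s |> eq_mul_of_mul_inv_eq])
      · rw [s] at m5
        simp [hn] at m5
        exact absurd (mul_left_cancel₀ h.two (show (2 : F) * 4 = 2 * 0 by linear_combination -m5)) h4
    · rw [inv_eq_of_mul_eq_one_right (show _ * -(x * a * x⁻¹ * a⁻¹) = 1 by rw [mul_neg, s, neg_neg]), Units.val_neg,
        hM] at m1
      have m4 := congrArg trace m1
      have m5 : (2 - (N * M).trace) • N = 0 := by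
        have := congrArg (N * ·) m1
        simp only [mul_add, add_mul, mul_sub, mul_neg, mul_one, one_mul, ← mul_assoc, h0, zero_mul, k] at this
        linear_combination (norm := module) -this
      simp only [mul_sub, add_mul, mul_one, one_mul, trace_add, trace_sub, trace_neg, trace_one, hn, t, m2, k'] at m4
      exact absurd (by linear_combination -m4 - 2 * (smul_eq_zero.1 m5).resolve_right h2) h4
  exact H c hc

omit hc in
theorem neg4 [Fact r.Prime] (hn : Fintype.card ι = 4) (hR : Nat.card R = 16 * m) (hZ : Nat.card (Subgroup.center R) = m)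
    (hm : m = 2 ∨ m = 4) (ho : Odd r) (h1 : x ^ r = 1) (h2 : ∀ c : F, x.1 ≠ c • 1) (hx : x ∈ subgroupNormalizer R) :
    (r = 5 ∧ x.1.trace * x⁻¹.1.trace = 1) ∨ (r = 3 ∧ (x.1.trace * x⁻¹.1.trace = 4 ∨
      (x.1.trace * x⁻¹.1.trace = 1 ∧ ∀ a ∈ R, x * a * x⁻¹ = a → ∃ c : F, a.1 = c • 1))) := by
  have hr := (Fact.out : r.Prime)
  have n := fun a => (Subgroup.mem_normalizer_iff.1 hx a).1
  have a1 := card_modEq (r := r) n fun ρ _ => by simp [h1]
  have a2 := h.tr_id ho h1 hx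
  obtain ⟨e, he⟩ := Subgroup.card_dvd_of_le (h.Z_le x)
  rw [Subgroup.card_map_of_injective R.subtype_injective, hZ] at he
  have a3 := Subgroup.card_dvd_of_le (inf_le_left : R ⊓ Subgroup.centralizer {x} ≤ R)
  have a4 : e ≠ 16 := fun h' => by
    have := inf_eq_left.1 (Subgroup.eq_of_le_of_card_ge (inf_le_left : R ⊓ Subgroup.centralizer {x} ≤ R)
      (by rw [he, hR, h', mul_comm]))
    obtain ⟨c, hc⟩ := h.irr x.1 fun a ha => congrArg Units.val (Subgroup.mem_centralizer_singleton_iff.1 (this ha)).symm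
    exact h2 c hc
  have a5 : ∀ j, r ∣ 2 ^ j → False := fun j h' =>
    ho.not_two_dvd_nat (((Nat.prime_dvd_prime_iff_eq hr Nat.prime_two).1 (hr.dvd_of_dvd_pow h')) ▸ dvd_rfl)
  have a6 : ∀ n, r ∣ m * n → r ∣ n := fun n h' => (hr.dvd_mul.1 h').resolve_left fun h' => by
    rcases hm with rfl | rfl
    exacts [a5 1 h', a5 2 h']
  have a7 : ∀ j s, s.Prime → r ∣ 2 ^ j * s → r = s := fun j s hs h' =>
    (Nat.prime_dvd_prime_iff_eq hr hs).1 ((hr.dvd_mul.1 h').resolve_left (a5 j))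
  have a8 : x.1.trace * x⁻¹.1.trace = e := by
    have : (m : F) ≠ 0 := by
      rcases hm with rfl | rfl
      exacts [h.two, by simpa using (show ((2 : F) ^ 2 ≠ 0) from pow_ne_zero 2 h.two) ∘ fun e => by linear_combination e]
    rw [he, hR, hn] at a2
    push_cast [-Matrix.coe_units_inv] at a2
    exact mul_left_cancel₀ (mul_ne_zero (pow_ne_zero 4 h.two) this) (by linear_combination -a2)
  rw [he, hR, mul_comm 16, Nat.mul_dvd_mul_iff_left (by omega)] at a3
  have a9 := Nat.le_of_dvd (by norm_num) a3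
  rw [he, hR, mul_comm 16] at a1
  have a10 := a6 _ (Nat.mul_sub m 16 e ▸ (Nat.modEq_iff_dvd' (Nat.mul_le_mul_left m a9)).1 a1.symm)
  obtain rfl | rfl | rfl | rfl : e = 1 ∨ e = 2 ∨ e = 4 ∨ e = 8 := by interval_cases e <;> omega
  · refine ((hr.dvd_mul (m := 5) (n := 3)).1 a10).imp (fun t => ⟨a7 0 5 Nat.prime_five t, by simpa using a8⟩)
      fun t => ⟨a7 0 3 Nat.prime_three t, .inr ⟨by simpa using a8, fun a ha e => (h.mem_Z.1 ?_).2⟩⟩
    rw [Subgroup.eq_of_le_of_card_ge (h.Z_le x) (by rw [Subgroup.card_map_of_injective R.subtype_injective, hZ, he]; omega)]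
    exact ⟨ha, Subgroup.mem_centralizer_singleton_iff.2 (eq_mul_of_mul_inv_eq e).symm⟩
  · obtain rfl := a7 1 7 Nat.prime_seven a10
    obtain ⟨a, ⟨ha, b1⟩, b2⟩ := SetLike.exists_of_lt (lt_of_le_of_ne (h.Z_le x) fun e => by
      rw [← e, Subgroup.card_map_of_injective R.subtype_injective, hZ] at he; omega)
    obtain ⟨b, hb, b3⟩ := h.anti ha fun c hc => b2 (h.mem_Z.2 ⟨ha, c, hc⟩)
    have b4 := ((Subgroup.centralizer {a}).subgroupOf R).index_mul_card
    rw [h.half ha hb b3, ← Subgroup.inf_subgroupOf_left,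
      Nat.card_congr (Subgroup.subgroupOfEquivOfLe inf_le_left).toEquiv, hR] at b4
    have b5 := Subgroup.mem_centralizer_singleton_iff.1 b1
    have b6 := card_modEq (r := 7) (K := R ⊓ Subgroup.centralizer {a}) (x := x) (fun g hg => ⟨n g hg.1,
      Subgroup.mem_centralizer_singleton_iff.2 (by
        rw [mul_assoc, mul_assoc, (show Commute a x from b5).inv_right.eq.symm, ← mul_assoc g,
          Subgroup.mem_centralizer_singleton_iff.1 hg.2, ← mul_assoc, ← mul_assoc, ← b5]; group)⟩) fun ρ _ => by simp [h1]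
    rw [show Nat.card ↥(R ⊓ Subgroup.centralizer {a} ⊓ Subgroup.centralizer {x}) = m * 2 from ?_] at b6
    · have := (Nat.modEq_iff_dvd' (by omega)).1 b6.symm
      omega
    have b7 := Subgroup.card_dvd_of_le (show R ⊓ Subgroup.centralizer {a} ⊓ Subgroup.centralizer {x} ≤
      R ⊓ Subgroup.centralizer {x} from inf_le_inf_right _ inf_le_left)
    have b8 : (Subgroup.center R).map R.subtype < R ⊓ Subgroup.centralizer {a} ⊓ Subgroup.centralizer {x} :=
      SetLike.lt_iff_le_and_exists.2 ⟨le_inf (h.Z_le a) ((h.Z_le x).trans inf_le_right),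
        a, Subgroup.mem_inf.2 ⟨⟨ha, Subgroup.mem_centralizer_singleton_iff.2 rfl⟩, b1⟩, b2⟩
    have b9 := mt (fun e => Subgroup.eq_of_le_of_card_ge b8.le (le_of_eq e)) b8.ne
    obtain ⟨f, hf⟩ := Subgroup.card_dvd_of_le b8.le
    rw [Subgroup.card_map_of_injective R.subtype_injective, hZ] at b9 hf
    rw [he, hf, Nat.mul_dvd_mul_iff_left (by omega), Nat.dvd_prime Nat.prime_two] at b7
    rcases b7 with rfl | rfl <;> omega
  · exact .inr ⟨a7 2 3 Nat.prime_three a10, .inl (by simpa using a8)⟩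
  · exact (a5 3 a10).elim

omit hc [Finite F] in
theorem neg_mn (hm : Mn R) (hs : ∀ a ∈ R, ∀ c : F, a.1 = c • 1 → a * a = 1) (hC : Cl R a b c d) (h1 : x ^ 3 = 1)
    (hx : x ∈ subgroupNormalizer R) (h2 : ∀ a ∈ R, x * a * x⁻¹ = a → ∃ c : F, a.1 = c • 1) : False := by
  have n := fun a => (Subgroup.mem_normalizer_iff.1 hx a).1
  have k : ∀ g ∈ R, x * g * x⁻¹ = g ∨ x * g * x⁻¹ = -g → ∃ c : F, g.1 = c • 1 := fun g hg e =>
    h2 g hg (e.resolve_right (not_anti h.two (by decide) h1))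
  have ha := hC.mem.1
  have a1 := hC.sq.1
  have a2 := nsc_of_anti h.two hC.an.1
  have hs := n a ha
  have ht := n _ hs
  have e0 : x * (x * (x * a * x⁻¹) * x⁻¹) * x⁻¹ = a := by
    rw [show x * (x * (x * a * x⁻¹) * x⁻¹) * x⁻¹ = x ^ 3 * a * (x ^ 3)⁻¹ by rw [pow_three]; group, h1]; simp
  have sq : ∀ g, g * g = 1 → x * g * x⁻¹ * (x * g * x⁻¹) = 1 := fun g e => by rw [conj_mul, e]; simp
  have u1 := sq a a1
  have t1 := sq _ u1
  have a3 : ¬(x * a * x⁻¹ = 1 ∨ x * a * x⁻¹ = -1) := fun e => npm_of_anti h.two hC.an.1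
    (e.imp (fun e => by simpa using e) fun e => by simpa using eq_inv_mul_of_mul_eq (eq_mul_of_mul_inv_eq e).symm.symm)
  have e1 := conj_mul (a := a * (x * a * x⁻¹)) (b := x) (c := x * (x * a * x⁻¹) * x⁻¹)
  rw [← conj_mul, e0] at e1
  generalize hs' : x * a * x⁻¹ = s at *
  generalize x * s * x⁻¹ = t at *
  obtain ⟨z, hz⟩ := k _ (mul_mem (mul_mem ha hs) ht) (by
    rw [← e1, mul_assoc a]
    exact (h.pm a ha _ (mul_mem hs ht)).imp Eq.symm fun e => (ac e).1)
  have e2 := ‹∀ a ∈ R, ∀ c : F, a.1 = c • 1 → a * a = 1› _ (mul_mem (mul_mem ha hs) ht) z hz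
  have e3 : a * s * (a * s) = 1 := by
    have : a * s * t * t = t * (a * s * t) := Units.ext (by rw [Units.val_mul, Units.val_mul t, hz]; simp)
    rw [mul_assoc, t1, mul_one] at this
    nth_rw 2 [this]
    rw [← mul_assoc, e2]
  refine (hm a ha s hs a1 u1 ?_).elim (npm_of_anti h.two hC.an.1) fun e => e.elim a3 fun e => ?_
  · rw [← inv_eq_of_mul_eq_one_right e3, _root_.mul_inv_rev, inv_eq_of_mul_eq_one_right a1,
      inv_eq_of_mul_eq_one_right u1]
  · obtain ⟨z, hz⟩ := k a ha (hs' ▸ e.imp (fun e => by rw [← one_mul s, ← a1, mul_assoc, e, mul_one])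
      fun e => by rw [← one_mul s, ← a1, mul_assoc, e, mul_neg, mul_one])
    exact a2 z hz

end E2

end CA.El
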