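import Cfsg.Agent.Lib.Lin.El27

/-! Elements of order 2, 3, 5 in the normaliser of a symplectic-type 2-group in dimension four. -/

namespace CA.El

open Module Polynomial CA.Rcf CA.CForm CA.CForm.Form Cfsg.Geo CA.AschFG Matrix

variable {F : Type*} [Field F] {ι : Type} [Fintype ι] [DecidableEq ι] {k : Kind F} {r m : ℕ}
  {G Γ R : Subgroup (GL ι F)} {x y u a b c d i : GL ι F} {φ : Form k (ι → F)} {M M' : Matrix ι ι F} {μ μ' : F}

/-- A similitude normalising `R`. -/
def NS (φ : Form k (ι → F)) (R : Subgroup (GL ι F)) (M : Matrix ι ι F) (μ : F) : Prop :=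
  (∀ u v, φ.B (M *ᵥ u) (M *ᵥ v) = μ * φ.B u v) ∧ ∃ y ∈ subgroupNormalizer R, y.1 = M

theorem NS.mul (h : NS φ R M μ) (h' : NS φ R M' μ') : NS φ R (M * M') (μ * μ') :=
  let ⟨y, h1, h2⟩ := h.2
  let ⟨y', h3, h4⟩ := h'.2
  ⟨fun u v => by rw [← mulVec_mulVec, ← mulVec_mulVec, h.1, h'.1, mul_assoc], y * y', mul_mem h1 h3, by simp [h2, h4]⟩

theorem NS.ex (hk : QB k) (h : NS φ R M μ) {c : F} (hc : c ≠ 0) (h' : ∀ u v, k.σ c * c * μ * φ.B u v = φ.B u v) :
    ∃ y ∈ IG φ, y ∈ subgroupNormalizer R ∧ y.1 = c • M := by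
  obtain ⟨y, h1, rfl⟩ := h.2
  have e : ∀ u v, φ.B ((c • y.1) *ᵥ u) ((c • y.1) *ᵥ v) = φ.B u v := fun u v => by
    rw [← h' u v]; simp only [smul_mulVec, B_smul_left, map_smul, smul_eq_mul, h.1]; ring
  obtain ⟨z, hz⟩ : IsUnit (c • y.1) := (Units.mk0 c hc • y).isUnit
  exact ⟨z, mem_IG.2 ⟨fun u v => hz ▸ e v u, fun v => hk.eq (hz ▸ e v v)⟩, norm_smul hz h1, hz⟩

/-- All non-trivial eigenvalues occur equally often. -/
def Full (Γ : Subgroup (GL ι F)) (r : ℕ) : Prop := ∀ u ∈ Γ, orderOf u = r → ∃ j s, s ≠ 0 ∧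
  j + (r - 1) * s = Fintype.card ι ∧ edivs (toLin' u.1) = Multiset.replicate j (X - 1) + s • (cycT F r).val

theorem Full.five (h : Full Γ 5) (hn : Fintype.card ι = 4) (hu : u ∈ Γ) (hy : y ∈ Γ) (h1 : orderOf u = 5)
    (h2 : orderOf y = 5) : Sim (toLin' u.1) (toLin' y.1) := by
  obtain ⟨j, s, a1, a2, a3⟩ := h u hu h1
  obtain ⟨j', s', b1, b2, b3⟩ := h y hy h2
  rw [sim_iff_edivs, a3, b3, show j = j' by omega, show s = s' by omega]

theorem Full.three (h : Full Γ 3) (h3 : (3 : F) ≠ 0) (hn : Fintype.card ι = 4) (hu : u ∈ Γ) (hy : y ∈ Γ)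
    (h1 : orderOf u = 3) (h2 : orderOf y = 3) (e : u.1 ^ 2 + u.1 + 1 = 0 ↔ y.1 ^ 2 + y.1 + 1 = 0) :
    Sim (toLin' u.1) (toLin' y.1) := by
  have : Fact (Nat.Prime 3) := ⟨Nat.prime_three⟩
  have k : ∀ (M : Matrix ι ι F) (j s : ℕ), edivs (toLin' M) = Multiset.replicate j (X - 1) + s • (cycT F 3).val →
      (M ^ 2 + M + 1 = 0 ↔ j = 0) := fun M j s e => by
    rw [show M ^ 2 + M + 1 = aeval M (cyclotomic 3 F) by simp [cyclotomic_three], ← map_eq_zero_iff _ toLin'.injective,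
      ← aeval_toLin', aeval_eq_zero_iff, e]
    refine ⟨fun H => by_contra fun hj => X_sub_one_notMem_cycT h3 (mem_cycT.2 ⟨irreducible_X_sub_C 1, monic_X_sub_C 1,
      H _ (Multiset.mem_add.2 (.inl (Multiset.mem_replicate.2 ⟨hj, rfl⟩)))⟩), ?_⟩
    rintro rfl d hd
    exact (mem_cycT.1 (Multiset.mem_of_mem_nsmul (by simpa using hd))).2.2
  obtain ⟨j, s, a1, a2, a3⟩ := h u hu h1
  obtain ⟨j', s', b1, b2, b3⟩ := h y hy h2
  rw [k _ _ _ a3, k _ _ _ b3] at e
  rw [sim_iff_edivs, a3, b3, show j = j' by omega, show s = s' by omega]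

variable [Finite F]

theorem full_of [Fact r.Prime] (hr : (r : F) ≠ 0) (h : ∀ u ∈ Γ, ∀ j m, (∀ d ∈ m, d ∈ cycT F r) →
    edivs (toLin' u.1) = Multiset.replicate j (X - 1) + m → ∃ s : ℕ, m = s • (cycT F r).val) : Full Γ r := by
  intro u hu h1
  obtain ⟨j, m, a1, a2, a3⟩ := (orderOf_eq_prime_iff hr (glEquiv u)).1 (by simpa using h1)
  obtain ⟨s, rfl⟩ := h u hu j m a2 a3
  refine ⟨j, s, by rintro rfl; simp at a1, ?_, a3⟩
  rw [← finrank_fun (F := F), finrank_eq_of_edivs hr a2 a3, ← (natDegree_cycT hr).2, Multiset.card_nsmul]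
  simp only [Finset.card_val]; ring

theorem full_one [Fact r.Prime] (hr : (r : F) ≠ 0) (h : orderOf (Nat.card F : ZMod r) = r - 1) : Full Γ r :=
  full_of hr fun _ _ _ m hm _ => by
    have := (natDegree_cycT hr).2
    rw [h, Nat.mul_eq_right (by have := (Fact.out : r.Prime).two_le; omega)] at this
    obtain ⟨d, hd⟩ := Finset.card_eq_one.1 this
    exact ⟨m.card, by
      rw [hd, Finset.singleton_val, Multiset.nsmul_singleton]
      exact Multiset.eq_replicate_card.2 (by simpa [hd] using hm)⟩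

theorem full_two [Fact r.Prime] (hr : (r : F) ≠ 0) (hφ : φ.Nondeg) (h : 2 * orderOf (Nat.card F : ZMod r) = r - 1)
    (h' : ∀ d ∈ cycT F r, dual k.σ d ≠ d) : Full (IG φ) r :=
  full_of hr (by
    classical
    rintro _ ⟨u, rfl⟩ j m hm e
    rw [toGL_eq] at e
    have h1 := hφ.map_dual_of_edivs e
    obtain ⟨s, t, h2, h3⟩ := Finset.card_eq_two.1 (Nat.eq_of_mul_eq_mul_right (orderOf_card_pos hr)
      ((natDegree_cycT hr).2.trans h.symm))
    obtain ⟨i, j, rfl⟩ := eq_rep_add (x := s) (y := t) (by simpa [h3] using hm)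
    have h4 : ∀ d ∈ Multiset.replicate i s + Multiset.replicate j t, dual k.σ d = s ∨ dual k.σ d = t := fun d hd => by
      simpa [h3] using hm _ (h1 ▸ Multiset.mem_map_of_mem _ hd)
    have h5 := h' s (by simp [h3])
    have h6 := h' t (by simp [h3])
    obtain rfl : i = j := by
      rw [Multiset.map_add, Multiset.map_replicate, Multiset.map_replicate] at h1
      have c1 := congrArg (Multiset.count s) h1
      have c2 := congrArg (Multiset.count t) h1
      simp only [Multiset.count_add, Multiset.count_replicate, if_neg h5, if_neg h6, if_neg h2, if_neg h2.symm,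
        if_true] at c1 c2
      split_ifs at c1 c2 <;> omega
    exact ⟨i, by rw [h3, Finset.insert_val_of_notMem (by simpa using h2), Finset.singleton_val, ← Multiset.singleton_add,
      nsmul_add, Multiset.nsmul_singleton, Multiset.nsmul_singleton]⟩)

namespace E2

variable (h : E2 R)
include h

theorem not_all [Nonempty ι] [Fact r.Prime] (hn : Fintype.card ι = 4) (hR : Nat.card R = 16 * m)
    (hZ : Nat.card (Subgroup.center R) = m) (hm : m = 2 ∨ m = 4) (ho : Odd r) (H : AllN G (subgroupNormalizer R) r)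
    (hx : x ∈ G) (h1 : x ^ r = 1) (h2 : ∀ c : F, x.1 ≠ c • 1) :
    (∀ N, x.1 = 1 + N → N * N = 0 → ¬N.rank ≤ 1) ∧ ((r = 5 ∧ x.1.trace * x⁻¹.1.trace = 1) ∨
      (r = 3 ∧ (x.1.trace * x⁻¹.1.trace = 4 ∨ (x.1.trace * x⁻¹.1.trace = 1 ∧
        (Mn R → ¬∀ a ∈ R, ∀ c : F, a.1 = c • 1 → a * a = 1))))) := by
  obtain ⟨g, -, h3⟩ := H x hx ⟨1, by simp [h1]⟩ h2
  have h4 : (g⁻¹ * x * g) ^ r = 1 := by rw [show g⁻¹ * x * g = g⁻¹ * x * g⁻¹⁻¹ by simp, conj_pow, h1]; simp
  have h5 := h.neg4 hn hR hZ hm ho h4 (fun c hc => h2 c (scal_conj hc)) h3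
  rw [show (g⁻¹ * x * g)⁻¹.1.trace = x⁻¹.1.trace by
    rw [show (g⁻¹ * x * g)⁻¹ = g⁻¹ * x⁻¹ * g by group, Units.val_mul, Units.val_mul, trace_units_conj'],
    Units.val_mul, Units.val_mul, trace_units_conj'] at h5
  refine ⟨fun N e e' e'' => ?_, h5.imp_right fun ⟨e, e'⟩ => ⟨e, e'.imp_right fun e' => ⟨e'.1, fun a1 a2 => ?_⟩⟩⟩
  · obtain ⟨c, hc⟩ := h.unip (N := g⁻¹.1 * N * g.1) hn h3 (by simp [e, mul_add, add_mul, -Matrix.coe_units_inv])
      (by simp [mul_assoc, ← mul_assoc N, e', -Matrix.coe_units_inv])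
      ((rank_mul_le_left _ _).trans ((rank_mul_le_right _ _).trans e''))
    exact h2 c (scal_conj hc)
  · obtain ⟨a, b, c, d, hC⟩ := h.cl_minus (by omega) a1
    exact h.neg_mn a1 a2 hC (e ▸ h4) h3 e'.2

variable (hR : R ≤ IG φ)
include hR

theorem ns (ha : a ∈ R) (a1 : a * a = -1) : NS φ R (1 + a.1) 2 := by
  have a2 : a.1 * a.1 = -1 := congrArg Units.val a1
  refine ⟨fun u v => ?_, ?_⟩
  · have := B_IG (hR ha) (a.1 *ᵥ u) v
    rw [mulVec_mulVec, a2, neg_mulVec, one_mulVec, B_neg_left] at this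
    simp only [add_mulVec, one_mulVec, B_add_left, map_add, B_IG (hR ha), ← this]
    ring
  · have e : (1 + a.1) * ((2 : F)⁻¹ • (1 - a.1)) = 1 := by
      rw [mul_smul_comm, inv_smul_eq_iff₀ h.two]; simp [mul_sub, add_mul, a2, two_smul]; abel
    refine ⟨⟨_, _, e, mul_eq_one_comm.1 e⟩, mem_norm fun g hg => ?_, rfl⟩
    rcases h.pm a ha g hg with e' | e'
    · rwa [mul_inv_eq_of_eq_mul (c := g) (Units.ext ?_)]
      simp [mul_add, add_mul, show a.1 * g.1 = g.1 * a.1 from congrArg Units.val e']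
    · rw [mul_inv_eq_of_eq_mul (c := a * g) (Units.ext ?_)]
      · exact mul_mem ha hg
      · simp [mul_add, add_mul, mul_assoc, ac (show a.1 * g.1 = -(g.1 * a.1) from congrArg Units.val e'), sm a2, add_comm]

variable (hk : QB k)
include hk

theorem quat (ha : a ∈ R) (hb : b ∈ R) (a1 : a * a = -1) (b1 : b * b = -1) (e : a * b = -(b * a)) :
    ∃ y ∈ IG φ, y ∈ subgroupNormalizer R ∧ y.1 = (-2 : F)⁻¹ • ((1 + a.1) * (1 + b.1)) ∧ y.1 * y.1 = -y.1 - 1 := by
  have h2 := h.two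
  obtain ⟨y, h1, h3, h4⟩ := ((h.ns hR ha a1).mul (h.ns hR hb b1)).ex hk (c := (-2)⁻¹) (by simpa) fun u v => by
    rw [map_inv₀, map_neg, map_ofNat]; field_simp
  refine ⟨y, h1, h3, h4, ?_⟩
  simp only [h4, smul_mul_smul_comm, mul_add, add_mul, mul_assoc, one_mul, mul_one, mul_neg, neg_neg,
    ac (show a.1 * b.1 = -(b.1 * a.1) from congrArg Units.val e), sm (show a.1 * a.1 = -1 from congrArg Units.val a1),
    sm (show b.1 * b.1 = -1 from congrArg Units.val b1)]
  match_scalars <;> field_simp <;> ring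

variable [Nonempty ι] (hC : Cl R a b c d)
include hC

theorem five : ∃ y ∈ IG φ, y ∈ subgroupNormalizer R ∧ orderOf y = 5 := by
  have h2 := h.two
  obtain ⟨⟨ha, hb, hc, hd⟩, ⟨a1, b1, c1, d1⟩, e1, e2, e3, e4, e5, e6⟩ := hC
  obtain ⟨y, h1, h3, h4⟩ := ((((h.ns hR (mul_mem ha hb) (by simp [mul_assoc, ac e1, s1 a1, b1])).mul
    (h.ns hR (mul_mem hb hc) (by simp [mul_assoc, ac e4, s1 b1, c1]))).mul
    (h.ns hR (mul_mem hc hd) (by simp [mul_assoc, ac e6, s1 c1, d1]))).mul
    (h.ns hR (h.neg_mem (mul_mem ha (mul_mem hb hc))) (by simp [mul_assoc, ac e1, ac e2, ac e4, s1 a1, s1 b1, c1]))).ex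
    hk (c := (2 * 2)⁻¹) (by simpa) fun u v => by rw [map_inv₀, map_mul, map_ofNat]; field_simp
  let v : ZMod 5 → GL ι F := ![a, -b, c, -d, a * b * c * d]
  have h5 : ∀ j, y * v j = v (j + 1) * y := fun j => Units.ext (by
    have f := fun {s t : GL ι F} (e : s * t = -(t * s)) => ac (show s.1 * t.1 = -(t.1 * s.1) from congrArg Units.val e)
    have f' := fun {s : GL ι F} (e : s * s = 1) => s1 (show s.1 * s.1 = 1 from congrArg Units.val e)
    rw [Units.val_mul, Units.val_mul, h4, smul_mul_assoc, mul_smul_comm]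
    congr 1
    fin_cases j
    · change _ * a.1 = (-b).1 * _
      simp only [Units.val_mul, Units.val_neg, mul_add, add_mul, mul_assoc, one_mul, mul_one, mul_neg, neg_mul, neg_neg,
        f e1, f e2, f e3, f e4, f e5, f e6, f' a1, f' b1, f' c1, f' d1]
      abel
    · change _ * (-b).1 = c.1 * _
      simp only [Units.val_mul, Units.val_neg, mul_add, add_mul, mul_assoc, one_mul, mul_one, mul_neg, neg_mul, neg_neg,
        f e1, f e2, f e3, f e4, f e5, f e6, f' a1, f' b1, f' c1, f' d1]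
      abel
    · change _ * c.1 = (-d).1 * _
      simp only [Units.val_mul, Units.val_neg, mul_add, add_mul, mul_assoc, one_mul, mul_one, mul_neg, neg_mul, neg_neg,
        f e1, f e2, f e3, f e4, f e5, f e6, f' a1, f' b1, f' c1, f' d1]
      abel
    · change _ * (-d).1 = (a * b * c * d).1 * _
      simp only [Units.val_mul, Units.val_neg, mul_add, add_mul, mul_assoc, one_mul, mul_one, mul_neg, neg_mul, neg_neg,
        f e1, f e2, f e3, f e4, f e5, f e6, f' a1, f' b1, f' c1, f' d1]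
      abel
    · change _ * (a * b * c * d).1 = a.1 * _
      simp only [Units.val_mul, Units.val_neg, mul_add, add_mul, mul_assoc, one_mul, mul_one, mul_neg, neg_mul, neg_neg,
        f e1, f e2, f e3, f e4, f e5, f e6, f' a1, f' b1, f' c1, f' d1]
      abel)
  have h6 : ∀ n : ℕ, y ^ n * a = v n * y ^ n := fun n => by
    induction n with
    | zero => simp [v]
    | succ n ih => rw [pow_succ', mul_assoc, ih, ← mul_assoc, h5, mul_assoc, Nat.cast_succ]
  have h7 : 5 ∣ orderOf y := (ZMod.natCast_eq_zero_iff _ _).1 (by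
    have := h6 (orderOf y)
    rw [pow_orderOf_eq_one, one_mul, mul_one] at this
    have k : ∀ g : GL ι F, a * g = -(g * a) → a ≠ g := fun g e e' => ne_neg' h2 _ (e' ▸ e)
    generalize ((orderOf y : ℕ) : ZMod 5) = j at this
    fin_cases j
    exacts [rfl, absurd this (k (-b) (by simp [e1])), absurd this (k c e2), absurd this (k (-d) (by simp [e3])),
      absurd this (k (a * b * c * d) (by simp [mul_assoc, ac e1, ac e2, ac e3]))])
  exact ⟨_, pow_mem h1 _, pow_mem h3 _, orderOf_pow_orderOf_div (orderOf_pos y).ne' h7⟩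

variable (hi : i ∈ R) (i1 : i * i = -1) (i2 : ∀ g, i * g = g * i)
include hi i1 i2

theorem three (h3 : (3 : F) ≠ 0) (hF : Full (IG φ) 3) (hn : Fintype.card ι = 4) (hu : u ∈ IG φ) (ho : orderOf u = 3) :
    ∃ y ∈ IG φ, y ∈ subgroupNormalizer R ∧ Sim (toLin' u.1) (toLin' y.1) := by
  have : Fact (Nat.Prime 3) := ⟨Nat.prime_three⟩
  have h2 := h.two
  obtain ⟨⟨ha, hb, hc, hd⟩, ⟨a1, b1, c1, d1⟩, e1, e2, e3, e4, e5, e6⟩ := hC
  obtain ⟨s, s0, s2, s3, s4⟩ := h.quat hR hk (mul_mem ha hb) (mul_mem hb hc) (by simp [mul_assoc, ac e1, s1 a1, b1])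
    (by simp [mul_assoc, ac e4, s1 b1, c1]) (by simp [mul_assoc, ac e1, ac e2, ac e4, s1 b1])
  obtain ⟨t, t0, t2, t3, t4⟩ := h.quat hR hk (mul_mem hi hd) (mul_mem hi (mul_mem ha (mul_mem hb (mul_mem hc hd))))
    (by simp [mul_assoc, cc (i2 _), sm i1, d1])
    (by simp [mul_assoc, cc (i2 _), sm i1, ac e1, ac e2, ac e3, ac e4, ac e5, ac e6, s1 a1, s1 b1, s1 c1, d1])
    (by simp [mul_assoc, cc (i2 _), sm i1, ac e3, ac e5, ac e6, s1 d1])
  have f := fun {s t : GL ι F} (e : s * t = -(t * s)) => ac (show s.1 * t.1 = -(t.1 * s.1) from congrArg Units.val e)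
  have f' := fun {s : GL ι F} (e : s * s = 1) => s1 (show s.1 * s.1 = 1 from congrArg Units.val e)
  have f'' := fun (s : GL ι F) => cc (show i.1 * s.1 = s.1 * i.1 from congrArg Units.val (i2 s))
  have g := sm (show i.1 * i.1 = -1 from congrArg Units.val i1)
  have q : ∀ y : GL ι F, y.1 * y.1 = -y.1 - 1 → y ^ 3 = 1 := fun y e => Units.ext (by
    rw [Units.val_pow_eq_pow_val, pow_three, e, mul_sub, mul_neg, e]; simp)
  have k1 : s * t = t * s := Units.ext (by
    simp only [s3, t3, smul_mul_smul_comm, Units.val_mul, mul_add, add_mul, mul_assoc, one_mul, mul_one, mul_neg, neg_mul,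
      neg_neg, f e1, f e2, f e3, f e4, f e5, f e6, f' a1, f' b1, f' c1, f' d1, f'' a, f'' b, f'' c, f'' d, g]
    congr 1
    abel)
  have k2 : d * s = s * d := Units.ext (by
    simp only [s3, smul_mul_assoc, mul_smul_comm, Units.val_mul, mul_add, add_mul, mul_assoc, one_mul, mul_one, mul_neg,
      neg_neg, f e3, f e5, f e6, f' b1])
  have k3 : d * t ≠ t * d := fun e => npm_of_anti h2 (a := i * d) (b := a) (by simp [mul_assoc, cc (i2 _), ac e3])
    (.inl (Units.ext (by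
      have := congrArg (fun x : GL ι F => (-2 : F) • x.1) (congrArg (· * (a * (b * (c * d)))) e)
      simp only [t3, smul_mul_assoc, mul_smul_comm, Units.val_mul, mul_add, add_mul, mul_assoc, one_mul, mul_one,
        mul_neg, neg_mul, neg_neg, f e1, f e2, f e3, f e4, f e5, f e6, f' a1, f' b1, f' c1, f' d1, f'' a, f'' b,
        f'' c, f'' d, g, smul_neg, smul_inv_smul₀ (neg_ne_zero.2 h2)] at this
      exact smul_right_injective _ h2 (by simp only [Units.val_mul, Units.val_one]; linear_combination (norm := module) this))))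
  by_cases e : u.1 ^ 2 + u.1 + 1 = 0
  · refine ⟨s, s0, s2, hF.three h3 hn hu s0 ho (orderOf_eq_prime (q s s4) fun e => h3 ?_) (iff_of_true e (by
      rw [_root_.sq, s4]; abel))⟩
    rw [e, Units.val_one] at s4
    exact smul_left_injective F (one_ne_zero (α := Matrix ι ι F)) (by linear_combination (norm := module) s4 - mul_one (1 : Matrix ι ι F))
  · refine ⟨s * t, mul_mem s0 t0, mul_mem s2 t2, hF.three h3 hn hu (mul_mem s0 t0) ho (orderOf_eq_prime
      (by rw [(show Commute s t from k1).mul_pow, q s s4, q t t4, one_mul]) fun e => k3 ?_) (iff_of_false e fun e => k3 ?_)⟩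
    · exact eq_inv_of_mul_eq_one_right e ▸ (show Commute d s from k2).inv_right.eq
    · have k4 : t.1 * s.1 = s.1 * t.1 := congrArg Units.val k1.symm
      rw [_root_.sq, Units.val_mul, mul_assoc, ← mul_assoc t.1, k4, mul_assoc, t4, ← mul_assoc, s4] at e
      have := congrArg (s.1 * ·) e
      simp only [mul_add, add_mul, mul_sub, sub_mul, mul_neg, neg_mul, mul_one, one_mul, ← mul_assoc, s4, mul_zero] at e this
      rwa [← show s = t from Units.ext (smul_right_injective _ h3 (by linear_combination (norm := module) e + (2 : F) • this))]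

theorem two' (hn : Fintype.card ι = 4) (ho : orderOf u = 2) (hu : ∀ z : F, u.1 ≠ z • 1) :
    ∃ y ∈ IG φ, y ∈ subgroupNormalizer R ∧ Sim (toLin' u.1) (toLin' y.1) := by
  have h2 := h.two
  obtain ⟨⟨ha, hb, hc, hd⟩, ⟨a1, b1, c1, d1⟩, e1, e2, e3, e4, e5, e6⟩ := hC
  obtain ⟨j, hj⟩ := h.irr i.1 fun g _ => congrArg Units.val (i2 g)
  have j1 : j * j = -1 := smul_left_injective F (one_ne_zero (α := Matrix ι ι F)) (by
    simpa [hj, smul_smul] using congrArg Units.val i1)
  have f := fun {s t : GL ι F} (e : s * t = -(t * s)) => ac (show s.1 * t.1 = -(t.1 * s.1) from congrArg Units.val e)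
  have f' := fun {s : GL ι F} (e : s * s = 1) => s1 (show s.1 * s.1 = 1 from congrArg Units.val e)
  obtain ⟨y, y1, y2, y3⟩ := (((h.ns hR (mul_mem hi ha) (by simp [mul_assoc, cc (i2 _), sm i1, a1])).mul
    (h.ns hR (h.neg_mem (mul_mem hb hc)) (by simp [mul_assoc, ac e4, s1 b1, c1]))).mul
    (h.ns hR (mul_mem ha (mul_mem hb hc)) (by simp [mul_assoc, ac e1, ac e2, ac e4, s1 a1, s1 b1, c1]))).ex
    hk (c := (1 - j) / (2 * 2)) (by
      refine div_ne_zero (fun e => h2 ?_) (by simpa)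
      linear_combination j1 + (1 + j) * e) fun u v => by
      have := B_IG (hR hi) u v
      simp only [hj, smul_mulVec, one_mulVec, B_smul_left, map_smul, smul_eq_mul] at this
      rw [map_div₀, map_mul, map_ofNat, map_sub, map_one]
      field_simp
      linear_combination (1 + j) * this - k.σ j * φ.B u v * j1
  have y4 : y.1 = (2 : F)⁻¹ • (1 + a.1 + j • (b.1 * c.1) - j • (a.1 * (b.1 * c.1))) := by
    simp only [y3, hj, smul_mul_assoc, Units.val_mul, Units.val_neg, mul_add, add_mul, mul_assoc, one_mul,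
      mul_one, mul_neg, neg_mul, f e1, f e2, f e4, f' a1, f' b1, f' c1]
    match_scalars <;> field_simp <;> grind
  have t1 : a.1.trace = 0 := tr_anti h2 (congrArg Units.val e1)
  have t2 : (b.1 * c.1).trace = 0 := tr_anti (b := b) h2 (by simp [mul_assoc, f e4])
  have t3 : (a.1 * (b.1 * c.1)).trace = 0 := tr_anti (b := d) h2 (by simp [mul_assoc, f e3, f e5, f e6])
  have y5 : y.1 ^ 2 = 1 := by
    simp only [y4, _root_.sq, smul_mul_assoc, mul_smul_comm, mul_add, add_mul, mul_sub, sub_mul, mul_assoc, one_mul,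
      mul_one, mul_neg, neg_neg, f e1, f e2, f e4, f' a1, f' b1, f' c1]
    match_scalars <;> field_simp <;> grind
  have y6 : y.1.trace = 2 := by
    simp only [y4, trace_smul, trace_add, trace_sub, trace_one, t1, t2, t3, hn, smul_eq_mul]
    field_simp; norm_num
  have y7 : ∀ z : F, y.1 ≠ z • 1 := fun z e => h2 (by
    have := congrArg (fun M => trace (a.1 * M)) (y4.symm.trans e)
    simp only [mul_smul_comm, mul_add, mul_sub, mul_one, f' a1, trace_smul, trace_add, trace_sub, trace_one, t1, t2, t3,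
      hn, smul_eq_mul] at this
    field_simp at this
    exact pow_eq_zero_iff two_ne_zero |>.1 (by push_cast at this; linear_combination this))
  have u2 : u.1 ^ 2 = 1 := by rw [← Units.val_pow_eq_pow_val, ← ho, pow_orderOf_eq_one, Units.val_one]
  obtain ⟨p, q, n1, n2, n3, n4, -⟩ := inv_type h2 u2 hu
  obtain ⟨rfl, rfl⟩ | ⟨rfl, rfl⟩ | ⟨rfl, rfl⟩ : (p = 3 ∧ q = 1) ∨ (p = 2 ∧ q = 2) ∨ (p = 1 ∧ q = 3) := by omega
  · exact ⟨y, y1, y2, sim_inv h2 hn.le u2 hu y5 y7 (by rw [n4, y6]; norm_num)⟩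
  · exact ⟨a, hR ha, Subgroup.le_normalizer ha, sim_inv h2 hn.le u2 hu ((_root_.sq _).trans (f' a1).1)
      (nsc_of_anti h2 e1) (by rw [n4, t1]; norm_num)⟩
  · exact ⟨-y, neg_one_mul y ▸ mul_mem (hR h.neg) y1, norm_smul (a := -1) (by simp) y2, sim_inv h2 hn.le u2 hu
      (by simpa using y5) (fun z e => y7 (-z) (by simpa [neg_eq_iff_eq_neg] using e)) (by simp [n4, y6]; norm_num)⟩

end E2

end CA.El
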