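import Cfsg.Agent.Lib.Lin.El28

/-! Normalisers of symplectic-type 2-groups in dimension four: the main statements. -/

namespace CA.El

open Module Polynomial CA.Rcf CA.CForm CA.CForm.Form Cfsg.Geo CA.AschFG Matrix

variable {F : Type*} [Field F] {ι : Type} [Fintype ι] [DecidableEq ι] [Nonempty ι] {k : Kind F} {r m : ℕ}
  {G R : Subgroup (GL ι F)} {x : GL ι F} {φ : Form k (ι → F)} {N : Matrix ι ι F} {t : F}

/-- An element that cannot normalise. -/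
def Bad (r : ℕ) (x : GL ι F) : Prop := x ^ r = 1 ∧ (∀ c : F, x.1 ≠ c • 1) ∧
  ((∃ N, x.1 = 1 + N ∧ N * N = 0 ∧ N.rank ≤ 1) ∨
    (x.1.trace * x⁻¹.1.trace ≠ 1 ∧ (r = 3 → x.1.trace * x⁻¹.1.trace ≠ 4)))

omit [Nonempty ι] in
theorem bad_tv [CharP F r] (e : x.1 = 1 + N) (h0 : N ≠ 0) (h1 : N * N = 0) (h2 : N.rank ≤ 1) : Bad r x := by
  have k : ∀ n : ℕ, (1 + N) ^ n = 1 + (n : F) • N := fun n => by
    induction n with
    | zero => simp
    | succ n ih => simp [pow_succ, ih, mul_add, add_mul, h1, add_smul]; abel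
  refine ⟨Units.ext (by simp [e, k]), fun c hc => h0 ?_, .inl ⟨N, e, h1, h2⟩⟩
  have h3 : N = (c - 1) • 1 := by rw [sub_smul, ← hc, e]; simp
  rw [h3, smul_mul_smul_comm, one_mul] at h1
  rw [h3]
  by_cases h4 : c - 1 = 0
  · rw [h4, zero_smul]
  · rw [(smul_eq_zero.1 h1).resolve_left (mul_ne_zero h4 h4), smul_zero]

theorem bad_three (h : t ^ 2 + t + 1 = 0) (h2 : (2 : F) ≠ 0) (h3 : (3 : F) ≠ 0) :
    ∃ x ∈ specialLinear (Fin 4) F, x.1 = diagonal ![1, t, t, t] ∧ Bad 3 x := by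
  have e : diagonal ![1, t, t, t] * diagonal ![1, t ^ 2, t ^ 2, t ^ 2] = 1 := by
    ext i j
    fin_cases i <;> fin_cases j <;> simp <;> grind
  refine ⟨⟨_, _, e, mul_eq_one_comm.1 e⟩, CA.AschDesc.mem_SL.2 (by simp [Fin.prod_univ_four]; grind), rfl,
    Units.ext ?_, fun c hc => ?_, .inr ?_⟩
  · simp only [Units.val_pow_eq_pow_val, diagonal_pow]
    ext i j
    fin_cases i <;> fin_cases j <;> simp <;> grind
  · have a := congrFun (congrFun hc 0) 0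
    have b := congrFun (congrFun hc 1) 1
    simp at a b
    grind
  · have : trace (diagonal ![1, t, t, t]) * trace (diagonal ![1, t ^ 2, t ^ 2, t ^ 2]) = 7 := by
      simp [Fin.sum_univ_four]
      linear_combination (9 * t - 6) * h
    exact ⟨fun e => mul_ne_zero h2 h3 (by linear_combination this.symm.trans e),
      fun _ e => h3 (by linear_combination this.symm.trans e)⟩

theorem bad_five (h : t ^ 2 + t - 1 = 0) (h5 : (5 : F) ≠ 0) : ∃ x ∈ specialLinear (Fin 4) F, Bad 5 x := by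
  have e : !![t, -1, 0, 0; 1, 0, 0, 0; 0, 0, 1, 0; 0, 0, 0, 1] * !![0, 1, 0, 0; -1, t, 0, 0; 0, 0, 1, 0; 0, 0, 0, 1] = 1 := by
    ext i j
    fin_cases i <;> fin_cases j <;> simp [mul_apply, Fin.sum_univ_four]
  refine ⟨⟨_, _, e, mul_eq_one_comm.1 e⟩, CA.AschDesc.mem_SL.2 (by simp [det_succ_row_zero, Fin.sum_univ_succ, Fin.succAbove]),
    Units.ext ?_, fun c hc => ?_, .inr ?_⟩
  · simp only [Units.val_pow_eq_pow_val, pow_succ]
    ext i j
    fin_cases i <;> fin_cases j <;> simp [mul_apply, Fin.sum_univ_four] <;> grind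
  · simpa using congrFun (congrFun hc 1) 0
  · simp [trace, Fin.sum_univ_four, -Matrix.coe_units_inv]
    grind

theorem bad_lin {x : GL (Fin 4) F} (h : IsPrimitiveRoot t 5) (h5 : (5 : F) ≠ 0)
    (e : edivs (toLin' x.1) = lin {t, t⁻¹, 1, 1}) : x ∈ specialLinear (Fin 4) F ∧ Bad 5 x := by
  have h0 := h.ne_zero (by norm_num)
  have h1 := h.geom_sum_eq_zero (by norm_num)
  have h2 := h.pow_eq_one
  simp only [Finset.sum_range_succ, Finset.sum_range_zero] at h1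
  have e' : diagonal ![t, t⁻¹, 1, 1] * diagonal ![t⁻¹, t, 1, 1] = 1 := by
    ext i j
    fin_cases i <;> fin_cases j <;> simp [h0]
  obtain ⟨g, rfl⟩ := isConj_iff.1 (isConj_GL_iff.2 (sim_iff_edivs.2 ((edivs_diag _).trans e.symm)) :
    IsConj (⟨_, _, e', mul_eq_one_comm.1 e'⟩ : GL (Fin 4) F) x)
  refine ⟨mem_SL.2 ((det_linear e).trans (by simp [h0])), ?_, fun c hc => ?_, .inr ?_⟩
  · exact Units.ext ((toLin'_eq_smul_iff.1 ((toLin'_pow _ _).trans ((pow_lin e (r := 5) (c := 1)).2 (by simp [h2])))).trans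
      (one_smul _ _))
  · exact (po_toLin'.1 (po_lin e (r := 5) (c := 1) (by simp [h2]) (x := t) (y := 1) (by simp) (by simp)
      (h.ne_one (by norm_num)))).2 c hc
  · rw [conj_inv, Units.val_mul, Units.val_mul, Units.val_mul, Units.val_mul, trace_units_conj, trace_units_conj]
    simp [Fin.sum_univ_four, -Matrix.coe_units_inv]
    grind

theorem sp_elt (t : F) : ∃ x ∈ Cfsg.spGL 2 F, (∀ c : F, x.1 ≠ c • 1) ∧ x.1.trace * x⁻¹.1.trace = (t + 2) ^ 2 ∧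
    (t + 1 = 0 → x ^ 3 = 1) ∧ (t ^ 2 + t - 1 = 0 → x ^ 5 = 1) := by
  have e : fromBlocks !![t, 0; 0, 1] !![-1, 0; 0, 0] !![1, 0; 0, 0] !![0, 0; 0, 1] *
      fromBlocks !![0, 0; 0, 1] !![1, 0; 0, 0] !![-1, 0; 0, 0] !![t, 0; 0, 1] = 1 := by
    simp [fromBlocks_multiply, ← fromBlocks_one, one_fin_two]
    ext i j
    fin_cases i <;> fin_cases j <;> simp
  refine ⟨⟨_, _, e, mul_eq_one_comm.1 e⟩, fun u v => ?_, fun c hc => ?_, ?_, fun h => Units.ext ?_, fun h => Units.ext ?_⟩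
  · simp [sympForm_eq, Cfsg.glToMat, fromBlocks_mulVec, mulVec, dotProduct]
    ring
  · simpa using congrFun (congrFun hc (.inr 0)) (.inl 0)
  · simp [trace, -Matrix.coe_units_inv]
    ring
  all_goals
    rw [Units.val_pow_eq_pow_val]
    simp only [pow_succ, pow_zero, Matrix.one_mul]
    ext (i | i) (j | j) <;> fin_cases i <;> fin_cases j <;> simp [mul_apply, Fintype.sum_sum_type] <;> grind

theorem exists_gold [Fintype F] (h2 : (2 : F) ≠ 0) (h : Fintype.card F % 5 = 1 ∨ Fintype.card F % 5 = 4) :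
    ∃ t : F, t ^ 2 + t - 1 = 0 := by
  have : Fact (Nat.Prime 5) := ⟨Nat.prime_five⟩
  have hF : ringChar F ≠ 2 := fun e => h2 (by simpa [e] using ringChar.Nat.cast_ringChar (R := F))
  obtain ⟨s, hs⟩ := (FiniteField.isSquare_odd_prime_iff hF (p := 5) (by norm_num)).2 (by
    rw [Ne, quadraticChar_neg_one_iff_not_isSquare, not_not, ← ZMod.natCast_mod _ 5]
    have := ZMod.χ₄_nat_eq_if_mod_four (Fintype.card F)
    rw [if_neg (by have := FiniteField.odd_card_of_char_ne_two hF; omega)] at this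
    rw [this]
    have k : ∀ a : ZMod 5, a = 1 ∨ a = 4 → IsSquare a := by
      rintro _ (rfl | rfl)
      exacts [⟨1, rfl⟩, ⟨2, rfl⟩]
    split_ifs <;> rcases h with h | h <;> rw [h]
    exacts [k _ (.inl rfl), k _ (.inr rfl), k _ (.inr rfl), k _ (.inl rfl)])
  exact ⟨(s - 1) / 2, by field_simp; push_cast at hs; linear_combination -hs⟩

theorem ord5 (p : ℕ) : orderOf (p : ZMod 5) = 4 ↔ p % 5 = 2 ∨ p % 5 = 3 := by
  have k : ∀ x : ZMod 5, (x ^ 4 = 1 ∧ ∀ m < 4, 0 < m → x ^ m ≠ 1) ↔ x.val = 2 ∨ x.val = 3 := by decide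
  rw [orderOf_eq_iff (by norm_num), k, ZMod.val_natCast]

theorem ord3 {p : ℕ} (h : p % 3 = 2) : orderOf (p : ZMod 3) = 2 := by
  rw [← ZMod.natCast_mod, h]
  exact orderOf_eq_prime (by decide) (by decide)

theorem five_cases {p : ℕ} (hp : p.Prime) (h : ¬orderOf (p : ZMod 5) = 4) : p = 5 ∨ p % 5 = 1 ∨ p % 5 = 4 := by
  rw [ord5] at h
  exact or_iff_not_imp_right.2 fun h' => ((Nat.prime_dvd_prime_iff_eq Nat.prime_five hp).1 (by omega)).symm

theorem e2_symp [Finite F] [Nontrivial ι] (h2 : (2 : F) ≠ 0) (h : IsSymplecticTypeGroup 2 R)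
    (hi : ActsAbsolutelyIrreducibly (matrixSet R)) : E2 R :=
  e2_of h2 (comm_le_of_exp h.pGroup h.cyclic_of_characteristic h.exponent_eq) h.exponent_eq hi

variable [Finite F] [Fact r.Prime] (h : E2 R) (hR : R ≤ IG φ) (hn : Fintype.card ι = 4)
include h hn

theorem E2.neg_main (hc : Nat.card R = 16 * m) (hZ : Nat.card (Subgroup.center R) = m) (hm : m = 2 ∨ m = 4)
    (hG : G ≤ specialLinear ι F) (hΩ : r ∣ (subgroupNormalizer R).relIndex G) (H : AllN G (subgroupNormalizer R) r) :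
    r = 2 ∨ ((r = 3 ∨ r = 5) ∧ ∀ x ∈ G, ¬Bad r x) := by
  refine or_iff_not_imp_left.2 fun h2 => ?_
  have ho := (Fact.out : r.Prime).odd_of_ne_two h2
  obtain ⟨x, a1, a2, a3⟩ := exists_po hG hΩ fun e => h2 ((Nat.prime_dvd_prime_iff_eq Fact.out Nat.prime_two).1
    ((Fact.out : r.Prime).dvd_of_dvd_pow (n := 2) (by simpa [hn] using e)))
  refine ⟨((h.not_all hn hc hZ hm ho H a1 a2 a3).2.imp And.left And.left).symm, fun x hx ⟨b1, b2, b3⟩ => ?_⟩
  obtain ⟨c1, c2⟩ := h.not_all hn hc hZ hm ho H hx b1 b2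
  rcases b3 with ⟨N, b3, b4, b5⟩ | ⟨b3, b4⟩
  · exact c1 N b3 b4 b5
  · exact c2.elim (fun e => b3 e.2) fun e => e.2.elim (b4 e.1) fun e => b3 e.1

include hR

theorem c6_main (hk : QB k) (hc : Nat.card R = 2 ^ 6) (hZ : Nat.card (Subgroup.center R) = 4)
    (hG : G ≤ specialLinear ι F) (h1 : Cj (IG φ) G) {P Q : Prop} (t2 : r = 2 → TA G (IG φ) r)
    (t3 : r = 3 → P → (3 : F) ≠ 0 ∧ TA G (IG φ) r ∧ Full (IG φ) r)
    (t5 : r = 5 → Q → (5 : F) ≠ 0 ∧ TA G (IG φ) r ∧ Full (IG φ) r)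
    (n3 : r = 3 → ¬P → ∃ x ∈ G, Bad r x) (n5 : r = 5 → ¬Q → ∃ x ∈ G, Bad r x)
    (hΩ : r ∣ (subgroupNormalizer R).relIndex G) :
    AllN G (subgroupNormalizer R) r ↔ r = 2 ∨ (r = 3 ∧ P) ∨ (r = 5 ∧ Q) := by
  obtain ⟨i, hi, i1, i2⟩ : ∃ i ∈ R, i * i = -1 ∧ ∀ g, i * g = g * i := by
    by_contra! H
    have := Subgroup.card_le_of_le (show (Subgroup.center R).map R.subtype ≤ Subgroup.zpowers (-1) from fun z hz => by
      obtain ⟨h1, c, h2⟩ := h.mem_Z.1 hz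
      rcases pm_one h2 ((h.sq z h1).resolve_right fun e => (H z h1 e).elim fun g hg =>
        hg (Units.ext (by simp [h2]))) with rfl | rfl
      exacts [one_mem _, Subgroup.mem_zpowers _])
    rw [Subgroup.card_map_of_injective R.subtype_injective, hZ, Nat.card_zpowers] at this
    exact absurd (this.trans (orderOf_le_of_pow_eq_one two_pos neg_one_sq)) (by norm_num)
  obtain ⟨a, b, c, d, hC⟩ := h.cl_i (by omega) hi i1 i2
  refine ⟨fun H => (h.neg_main hn hc hZ (.inr rfl) hG hΩ H).imp_right fun ⟨e, e'⟩ => e.imp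
    (fun e => ⟨e, by_contra fun hP => (n3 e hP).elim fun x hx => e' x hx.1 hx.2⟩)
    fun e => ⟨e, by_contra fun hP => (n5 e hP).elim fun x hx => e' x hx.1 hx.2⟩, ?_⟩
  rintro (rfl | ⟨rfl, hP⟩ | ⟨rfl, hP⟩)
  · exact allN_of h.two h1 (t2 rfl) fun u _ => h.two' hR hk hC hi i1 i2 hn
  · obtain ⟨a1, a2, a3⟩ := t3 rfl hP
    exact allN_of a1 h1 a2 fun u hu ho _ => h.three hR hk hC hi i1 i2 a1 a3 hn hu ho
  · obtain ⟨a1, a2, a3⟩ := t5 rfl hP
    obtain ⟨y, b1, b2, b3⟩ := h.five hR hk hC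
    exact allN_of a1 h1 a2 fun u hu ho _ => ⟨y, b1, b2, a3.five hn hu b1 ho b3⟩

omit hR [Fact r.Prime] in
theorem c6_sp_two {φ : Form (Kind.symp F) (ι → F)} (hφ : φ.Nondeg) (hR : R ≤ IG φ) {a b c d : GL ι F}
    (hC : Cl R a b c d) : AllN (IG φ) (subgroupNormalizer R) 2 := by
  rintro _ ⟨x, rfl⟩ h1 h2
  have h3 : PO 2 x.1.1 := toGL_eq x ▸ po_toLin'.2 ⟨by simpa using h1, h2⟩
  obtain ⟨⟨ha, hb, -⟩, ⟨a1, b1, -⟩, e1, -⟩ := hC
  obtain ⟨y, hy, h4⟩ : ∃ y : φ.Isom, toGL φ y ∈ R ∧ IsoSim x y := by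
    have k : ∀ y : φ.Isom, Neg y ↔ toGL φ y * toGL φ y = -1 := fun y => by
      rw [Neg, ← toGL_eq, ← toLin'_pow, toLin'_eq_smul_iff, Units.ext_iff, _root_.sq]; simp
    by_cases h4 : Neg x
    · obtain ⟨y, hy⟩ := hR (mul_mem ha hb)
      exact ⟨y, hy ▸ mul_mem ha hb, h4.isoSim (fun _ => rfl) h.two ((k y).2 (by
        simp [hy, mul_assoc, ac e1, s1 a1, b1])) hφ hφ rfl⟩
    · obtain ⟨y, rfl⟩ := hR ha
      exact ⟨y, ha, symp4 hφ hφ h.two (by simpa) (by simpa) h3 (toGL_eq y ▸ po_toLin'.2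
        ⟨⟨1, by rw [_root_.sq, one_smul]; exact congrArg Units.val a1⟩, nsc_of_anti h.two e1⟩) h4
        fun e => ne_neg' h.two 1 (a1.symm.trans ((k y).1 e))⟩
  obtain ⟨g, rfl⟩ := isConj_iff.1 (isConj_iff_isoSim.2 h4)
  exact ⟨toGL φ g⁻¹, ⟨_, rfl⟩, Subgroup.le_normalizer (by simpa using hy)⟩

end CA.El
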