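import Mathlib
import Cfsg.Agent.Lib.Lin.MaxTv
import Cfsg.Agent.Lib.Lin.SLnCard

/-! Parabolic subgroups of `GL_n`: membership, order, maximality. -/

set_option autoImplicit false

namespace CA.GLPar

open Cfsg Cfsg.Geo Matrix CA.AschBase CA.AschFG Module

variable {ι : Type} [Fintype ι] [DecidableEq ι] {F : Type*} [Field F]

theorem card_GL' [Finite F] :
    Nat.card (GL ι F) = ∏ i : Fin (Fintype.card ι), (Nat.card F ^ Fintype.card ι - Nat.card F ^ (i : ℕ)) := by
  rw [← CA.SLnCard.card_GL]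
  exact Nat.card_congr (Units.mapEquiv
    (Matrix.reindexAlgEquiv F F (Fintype.equivFin ι)).toRingEquiv.toMulEquiv).toEquiv

variable (F) in
/-- The coordinate subspace of vectors vanishing where `p` holds. -/
def cw (p : ι → Prop) : Submodule F (ι → F) where
  carrier := {v | ∀ i, p i → v i = 0}
  add_mem' := fun ha hb i hi => by simp [ha i hi, hb i hi]
  zero_mem' := fun _ _ => rfl
  smul_mem' := fun c v hv i hi => by simp [hv i hi]

omit [Fintype ι] [DecidableEq ι] in
theorem mem_cw {p : ι → Prop} {v : ι → F} : v ∈ cw F p ↔ ∀ i, p i → v i = 0 := Iff.rfl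

theorem mem_stab_of_map {W : Submodule F (ι → F)} {g : GL ι F}
    (h : ∀ v ∈ W, (g : Matrix ι ι F) *ᵥ v ∈ W) : g ∈ subspaceStabilizer W := by
  have h1 : W.map (CA.CForm.glEquiv g).toLinearMap = W :=
    Submodule.eq_of_le_of_finrank_eq (by rintro _ ⟨v, hv, rfl⟩; exact h v hv)
      (LinearEquiv.finrank_map_eq _ _)
  refine fun v => ⟨h v, fun hv => ?_⟩
  rw [← h1] at hv
  obtain ⟨w, hw, e⟩ := hv
  exact (CA.CForm.glEquiv g).injective e ▸ hw

theorem mem_stab_cw {p : ι → Prop} {g : GL ι F} :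
    g ∈ subspaceStabilizer (cw F p) ↔ ∀ i, p i → ∀ j, ¬ p j → (g : Matrix ι ι F) i j = 0 := by
  refine ⟨fun h i hi j hj => ?_, fun h => mem_stab_of_map fun v hv i hi => ?_⟩
  · have := mulVec_mem_of_stab h (v := Pi.single j 1) (fun k hk => by
      rw [Pi.single_eq_of_ne (by rintro rfl; exact hj hk)]) i hi
    simpa using this
  · refine Finset.sum_eq_zero fun j _ => ?_
    by_cases hj : p j
    · simp [hv j hj]
    · simp [h i hi j hj]

theorem card_stab_cw [Finite F] (p : ι → Prop) [DecidablePred p] :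
    Nat.card (subspaceStabilizer (cw F p)) =
      Nat.card F ^ (Fintype.card {i // ¬ p i} * Fintype.card {i // p i}) *
        Nat.card (GL {i // ¬ p i} F) * Nat.card (GL {i // p i} F) := by
  have hd := fun (g : subspaceStabilizer (cw F p)) =>
    twoBlockTriangular_det' (g.1 : Matrix ι ι F) p (mem_stab_cw.1 g.2)
  let M : ({i // ¬ p i} → {i // p i} → F) × GL {i // ¬ p i} F × GL {i // p i} F → Matrix ι ι F :=
    fun x => of fun i j => if hi : p i then (if hj : p j then x.2.2.1 ⟨i, hi⟩ ⟨j, hj⟩ else 0)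
      else if hj : p j then x.1 ⟨i, hi⟩ ⟨j, hj⟩ else x.2.1.1 ⟨i, hi⟩ ⟨j, hj⟩
  have hM : ∀ x i, p i → ∀ j, ¬ p j → M x i j = 0 := fun x i hi j hj => by simp [M, hi, hj]
  have hM1 : ∀ x, toSquareBlockProp (M x) p = x.2.2.1 := fun x => by
    ext i j; simp [M, toSquareBlockProp_def, i.2, j.2]
  have hM2 : ∀ x, toSquareBlockProp (M x) (fun i => ¬ p i) = x.2.1.1 := fun x => by
    ext i j; simp [M, toSquareBlockProp_def, i.2, j.2]
  let e : subspaceStabilizer (cw F p) ≃
      ({i // ¬ p i} → {i // p i} → F) × GL {i // ¬ p i} F × GL {i // p i} F :=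
    { toFun := fun g => (fun i j => (g.1 : Matrix ι ι F) i j,
        GeneralLinearGroup.mkOfDetNeZero _ (right_ne_zero_of_mul ((hd g).symm.trans_ne g.1.det_ne_zero)),
        GeneralLinearGroup.mkOfDetNeZero _ (left_ne_zero_of_mul ((hd g).symm.trans_ne g.1.det_ne_zero)))
      invFun := fun x => ⟨GeneralLinearGroup.mkOfDetNeZero (M x) (by
        rw [twoBlockTriangular_det' _ p (hM x), hM1, hM2]
        exact mul_ne_zero x.2.2.det_ne_zero x.2.1.det_ne_zero), mem_stab_cw.2 (hM x)⟩
      left_inv := fun g => by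
        ext i j
        by_cases hi : p i <;> by_cases hj : p j <;>
          simp [M, hi, hj, toSquareBlockProp_def, mem_stab_cw.1 g.2]
      right_inv := fun x => by
        refine Prod.ext ?_ (Prod.ext (Units.ext (hM2 x)) (Units.ext (hM1 x)))
        ext i j
        simp [M, i.2, j.2] }
  rw [Nat.card_congr e, Nat.card_prod, Nat.card_prod, Nat.card_fun, Nat.card_fun, ← pow_mul,
    Nat.card_eq_fintype_card (α := {i // p i}), Nat.card_eq_fintype_card (α := {i // ¬ p i}),
    mul_comm (Fintype.card {i // p i}), mul_assoc]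

theorem finrank_cw (p : ι → Prop) [DecidablePred p] :
    finrank F (cw F p) = Fintype.card {i // ¬ p i} := by
  rw [← finrank_fintype_fun_eq_card F]
  refine LinearEquiv.finrank_eq
    { toFun := fun v i => v.1 i
      map_add' := fun _ _ => rfl
      map_smul' := fun _ _ => rfl
      invFun := fun w => ⟨fun i => if h : p i then 0 else w ⟨i, h⟩, fun i hi => by simp [hi]⟩
      left_inv := fun v => by
        ext i
        by_cases h : p i
        · simp [h, v.2 i h]
        · simp [h]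
      right_inv := fun w => by ext i; simp [i.2] }

theorem card_ge {n k : ℕ} : Fintype.card {i : Fin n // k ≤ (i : ℕ)} = n - k := by
  rw [Fintype.card_subtype]
  by_cases h : k < n
  · have : (Finset.univ.filter fun i : Fin n => k ≤ (i : ℕ)) = Finset.Ici ⟨k, h⟩ := by
      ext i; simp [Fin.le_def]
    rw [this, Fin.card_Ici]
  · rw [Finset.filter_eq_empty_iff.2 fun i _ => by omega, Finset.card_empty]; omega

theorem card_not_ge {n k : ℕ} (hk : k ≤ n) : Fintype.card {i : Fin n // ¬ k ≤ (i : ℕ)} = k := by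
  rw [Fintype.card_subtype_compl, card_ge, Fintype.card_fin]; omega

/-- An element of prescribed determinant stabilising `W`. -/
theorem exists_det [Nonempty ι] (W : Submodule F (ι → F)) (c : Fˣ) :
    ∃ g ∈ subspaceStabilizer W, GeneralLinearGroup.det g = c := by
  obtain ⟨v, φ, h1, h2⟩ : ∃ (v : ι → F) (φ : Dual F (ι → F)), φ v = 1 ∧ ∀ w ∈ W, φ w • v ∈ W := by
    by_cases h : W = ⊤
    · exact ⟨Pi.single (Classical.arbitrary ι) 1, LinearMap.proj (Classical.arbitrary ι), by simp,
        fun _ _ => h ▸ Submodule.mem_top⟩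
    · obtain ⟨v, hv⟩ : ∃ v, v ∉ W := by simpa [Submodule.eq_top_iff'] using h
      obtain ⟨φ, a1, a2⟩ := CA.MaxTv.exists_dual hv 1
      exact ⟨v, φ, a2, fun w hw => by simp [a1 w hw]⟩
  have hd : (1 + vecMulVec (((c : F) - 1) • v) fun j => φ (Pi.single j 1)).det = c := by
    rw [vecMulVec_eq Unit, det_one_add_replicateCol_mul_replicateRow,
      CA.CForm.linearMap_apply_eq_dotProduct, map_smul, h1]
    simp
  refine ⟨GeneralLinearGroup.mkOfDetNeZero _ (hd.trans_ne c.ne_zero),
    mem_stab_of_map fun w hw => ?_, Units.ext hd⟩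
  simp only [GeneralLinearGroup.val_mkOfDetNeZero, add_mulVec, one_mulVec,
    CA.CForm.vecMulVec_mulVec', CA.CForm.linearMap_apply_eq_dotProduct]
  rw [smul_comm]
  exact W.add_mem hw (W.smul_mem _ (h2 w hw))

theorem isCoatom_stab {W : Submodule F (ι → F)} (h0 : W ≠ ⊥) (h1 : W ≠ ⊤) :
    IsCoatom (subspaceStabilizer W) := by
  have : Nonempty ι := by
    by_contra! h
    exact h0 (Subsingleton.elim _ _)
  obtain ⟨a1, a2⟩ := CA.MaxTv.max_stab h0 h1
  refine ⟨fun h => a1.ne (by rw [h, top_inf_eq]), fun X hX => eq_top_iff.2 fun g _ => ?_⟩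
  have key : ∀ g : GL ι F, ∃ d ∈ subspaceStabilizer W, d⁻¹ * g ∈ specialLinear ι F := fun g => by
    obtain ⟨d, hd, e⟩ := exists_det W (GeneralLinearGroup.det g)
    exact ⟨d, hd, by simp [specialLinear, MonoidHom.mem_ker, e]⟩
  rcases a2 (X ⊓ specialLinear ι F) (inf_le_inf_right _ hX.le) inf_le_right with h | h
  · refine (hX.not_ge fun x hx => ?_).elim
    obtain ⟨d, hd, e⟩ := key x
    have := (h.le ⟨X.mul_mem (X.inv_mem (hX.le hd)) hx, e⟩).1
    exact (Subgroup.mul_mem_cancel_left _ (Subgroup.inv_mem _ hd)).1 this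
  · obtain ⟨d, hd, e⟩ := key g
    exact (X.mul_mem_cancel_left (X.inv_mem (hX.le hd))).1 (h.ge e).1

/-- A non-zero subspace is determined by its stabiliser (among proper ones). -/
theorem eq_of_stab_le {W U : Submodule F (ι → F)} (h : subspaceStabilizer W ≤ subspaceStabilizer U)
    (h0 : U ≠ ⊥) (h1 : U ≠ ⊤) : U = W := by
  have key : ∀ (v : ι → F) (φ : Dual F (ι → F)), φ v = 0 → (∀ w ∈ W, φ w • v ∈ W) →
      ∀ u ∈ U, φ u • v ∈ U := fun v φ a1 a2 u hu => by
    obtain ⟨g, hg, a3⟩ := CA.MaxTv.tv_stab a1 a2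
    have := mulVec_mem_of_stab (h hg.1) hu
    simp only [a3] at this
    exact (U.add_mem_iff_right hu).1 this
  obtain ⟨u, hu, hu0⟩ := U.exists_mem_ne_zero_of_ne_bot h0
  obtain ⟨z, hz⟩ : ∃ v, v ∉ U := by simpa [Submodule.eq_top_iff'] using h1
  have nm : ∀ {v w : ι → F}, v ∉ U → w ∈ U → w ≠ 0 → w ∉ F ∙ v := fun hv hw hw0 h => by
    obtain ⟨c, rfl⟩ := Submodule.mem_span_singleton.1 h
    exact hv ((U.smul_mem_iff (by rintro rfl; simp at hw0)).1 hw)
  have hWU : W ≤ U := fun w hw => by_contra fun hw' => by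
    obtain ⟨φ, a1, a2⟩ := CA.MaxTv.exists_dual (nm hw' hu hu0) 1
    have := key w φ (a1 w (Submodule.mem_span_singleton_self w)) (fun _ _ => W.smul_mem _ hw) u hu
    simp [a2, hw'] at this
  refine le_antisymm (fun x hx => by_contra fun hx' => ?_) hWU
  obtain ⟨φ, a1, a2⟩ := CA.MaxTv.exists_dual (W := W ⊔ F ∙ z) (v := x) (fun h => by
    obtain ⟨w, hw, _, hz', rfl⟩ := Submodule.mem_sup.1 h
    obtain ⟨c, rfl⟩ := Submodule.mem_span_singleton.1 hz'
    exact hz ((U.smul_mem_iff (by rintro rfl; simp [hw] at hx')).1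
      ((U.add_mem_iff_right (hWU hw)).1 hx))) 1
  have := key z φ (a1 z (Submodule.mem_sup_right (Submodule.mem_span_singleton_self z)))
    (fun w hw => by simp [a1 w (Submodule.mem_sup_left hw)]) x hx
  simp [a2, hz] at this

end CA.GLPar
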