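import Cfsg.Agent.Lib.Lin.JacTru
import Cfsg.Agent.Lib.Lin.H10Bru
import Cfsg.Agent.Lib.Lie.H12Par
import Cfsg.Agent.S2420

/-! The unipotent characters of `GL_n(q)`. -/

set_option autoImplicit false

namespace CA.GLUnip

open Finset Matrix Cfsg CA.JacTru CA.H10Bru CA.H12Par MulAction

theorem pair_count {Γ X : Type*} [Group Γ] [Fintype Γ] (H K : Subgroup Γ) (c : Γ → X)
    (hc : ∀ x y, c x = c y ↔ ∃ h ∈ H, ∃ k ∈ K, y = h * x * k) :
    (Nat.card Γ : ℂ)⁻¹ * ∑ g, fixedPointCharacter H g * fixedPointCharacter K g = Nat.card (Set.range c) := by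
  classical
  have e1 : ∀ g : Γ, fixedPointCharacter H g * fixedPointCharacter K g =
      (Fintype.card (fixedBy ((Γ ⧸ H) × (Γ ⧸ K)) g) : ℂ) := by
    intro g
    rw [fixedPointCharacter, fixedPointCharacter, ← Nat.cast_mul, ← Nat.card_prod, ← Nat.card_eq_fintype_card]
    congr 1
    exact Nat.card_congr ((Equiv.Set.prod _ _).symm.trans (Equiv.setCongr (by
      ext ⟨a, b⟩; simp [mem_fixedBy, Prod.ext_iff])))
  have : Fintype (Quotient (orbitRel Γ ((Γ ⧸ H) × (Γ ⧸ K)))) := Fintype.ofFinite _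
  simp only [e1]
  rw [← Nat.cast_sum, sum_card_fixedBy_eq_card_orbits_mul_card_group, Nat.cast_mul, ← Nat.card_eq_fintype_card,
    ← Nat.card_eq_fintype_card, mul_comm, mul_inv_cancel_right₀ (Nat.cast_ne_zero.2 Nat.card_pos.ne')]
  congr 1
  let f : (Γ ⧸ H) × (Γ ⧸ K) → Set.range c := fun z => ⟨c (z.1.out⁻¹ * z.2.out), _, rfl⟩
  have hf : ∀ x y : Γ, (f ((x : Γ ⧸ H), (y : Γ ⧸ K))).1 = c (x⁻¹ * y) := by
    intro x y
    obtain ⟨h, e⟩ := QuotientGroup.mk_out_eq_mul H x
    obtain ⟨k, e'⟩ := QuotientGroup.mk_out_eq_mul K y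
    refine ((hc _ _).2 ⟨h⁻¹, inv_mem h.2, k, k.2, ?_⟩).symm
    change (QuotientGroup.mk x : Γ ⧸ H).out⁻¹ * (QuotientGroup.mk y : Γ ⧸ K).out = _
    rw [e, e']; group
  have key : ∀ z w, f z = f w ↔ (orbitRel Γ _).r z w := by
    rintro ⟨⟨x⟩, ⟨y⟩⟩ ⟨⟨x'⟩, ⟨y'⟩⟩
    refine Subtype.ext_iff.trans ((iff_of_eq (congrArg₂ Eq (hf x y) (hf x' y'))).trans ((hc _ _).trans ?_))
    change _ ↔ ∃ g : Γ, (((g * x' : Γ) : Γ ⧸ H), ((g * y' : Γ) : Γ ⧸ K)) = ((x : Γ ⧸ H), (y : Γ ⧸ K))
    simp only [Prod.mk.injEq, QuotientGroup.eq]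
    constructor
    · rintro ⟨h, hh, k, hk, e⟩
      refine ⟨x * h⁻¹ * x'⁻¹, by simpa using hh, ?_⟩
      rw [mul_assoc (x * h⁻¹), e, show (x * h⁻¹ * (h * (x⁻¹ * y) * k))⁻¹ * y = k⁻¹ by group]
      exact inv_mem hk
    · rintro ⟨g, h1, h2⟩
      exact ⟨_, h1, _, inv_mem h2, by group⟩
  refine Nat.card_congr (Equiv.ofBijective (Quotient.lift f fun a b h => (key a b).2 h) ⟨?_, ?_⟩)
  · rintro ⟨a⟩ ⟨b⟩ h
    exact Quotient.sound ((key a b).1 h)
  · rintro ⟨_, x, rfl⟩
    exact ⟨Quotient.mk _ (((1 : Γ) : Γ ⧸ H), (x : Γ ⧸ K)), Subtype.ext ((hf 1 x).trans (by simp))⟩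

variable {n : ℕ}

theorem exists_equiv (μ : Fin n → ℕ) (hμ : ∑ i, μ i = n) :
    ∃ e : (Σ i, Fin (μ i)) ≃ Fin n, ∀ x, compLabel μ (e x) = x.1 := by
  let e := (finSigmaFinEquiv (n := μ)).trans (finCongr hμ)
  have he : ∀ x, (e x).1 = ∑ k : Fin x.1, μ (Fin.castLE x.1.2.le k) + x.2 := fun x => finSigmaFinEquiv_apply x
  refine ⟨e, fun x => ?_⟩
  refine le_antisymm ((Cfsg.Agent.S2420.lab μ _ _).2 (by rw [Cfsg.Agent.S2420.tsum, he]; simp))
    (Nat.le_of_not_lt fun h => ?_)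
  have := (Cfsg.Agent.S2420.lab μ (e x) ⟨_, h.trans x.1.2⟩).1 le_rfl
  rw [he] at this
  refine this.not_ge (le_add_right ?_)
  rw [← add_le_add_iff_left (μ x.1), add_comm _ (∑ k : Fin x.1, _), ← Cfsg.Agent.S2420.tsum,
    ← sum_insert (by simpa [Fin.lt_def] using h)]
  exact sum_le_sum_of_subset fun t ht => by
    simp only [mem_insert, mem_filter, mem_univ, true_and] at ht ⊢
    exact ht.elim le_of_eq fun h' => h'.trans h.le

theorem card_fst {ι : Type*} [Fintype ι] [DecidableEq ι] (μ : ι → ℕ) (i : ι) :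
    #{x : Σ i, Fin (μ i) | x.1 = i} = μ i := by
  rw [← univ_sigma_univ, card_filter, sum_sigma, sum_eq_single i] <;> simp +contextual

theorem exists_label (μ : Fin n → ℕ) (hμ : ∑ i, μ i = n) :
    ∃ L : Fin n → Fin n, (∀ k, compLabel μ k = L k) ∧ ∀ i, #{k | L k = i} = μ i := by
  obtain ⟨e, he⟩ := exists_equiv μ hμ
  refine ⟨fun k => (e.symm k).1, fun k => by rw [← he, e.apply_symm_apply], fun i => ?_⟩
  rw [← card_fst μ i]
  exact card_equiv e.symm (by simp)

theorem exists_fib {α β γ : Type*} [Fintype α] [Fintype β] [DecidableEq γ] (f : α → γ) (g : β → γ)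
    (h : ∀ c, #{a | f a = c} = #{b | g b = c}) : ∃ e : α ≃ β, ∀ a, g (e a) = f a :=
  ⟨Equiv.ofFiberEquiv fun c => Fintype.equivOfCardEq (by
    classical rw [Fintype.card_subtype, Fintype.card_subtype]; convert h c), Equiv.ofFiberEquiv_map _⟩

/-- the intersection matrix -/
def cm (A B : Fin n → Fin n) (w : Equiv.Perm (Fin n)) : Fin n → Fin n → ℕ := fun i j => #{k | (A (w k), B k) = (i, j)}

theorem cm_eq_iff {a b : Fin n → ℕ} {A B : Fin n → Fin n} (hA : ∀ k, compLabel a k = A k) (hB : ∀ k, compLabel b k = B k)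
    (w w' : Equiv.Perm (Fin n)) :
    cm A B w = cm A B w' ↔ ∃ h ∈ youngSubgroup a, ∃ k ∈ youngSubgroup b, w' = h * w * k := by
  constructor
  · intro h
    obtain ⟨e, he⟩ := exists_fib (fun k => (A (w' k), B k)) (fun k => (A (w k), B k))
      fun c => (congrFun (congrFun h c.1) c.2).symm
    refine ⟨w' * e⁻¹ * w⁻¹, fun i => ?_, e, fun i => by rw [hB, hB, (Prod.mk.inj (he i)).2], by group⟩
    have := (Prod.mk.inj (he (e⁻¹ (w⁻¹ i)))).1
    rw [hA, hA]
    simp only [Equiv.Perm.mul_apply, ← this]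
    simp
  · rintro ⟨h, hh, k, hk, rfl⟩
    funext i j
    refine (card_equiv k fun t => ?_).symm
    have h1 : A (h (w (k t))) = A (w (k t)) := Fin.ext (by rw [← hA, ← hA, hh])
    have h2 : B (k t) = B t := Fin.ext (by rw [← hB, ← hB, hk])
    simp [h1, h2]

theorem card_range_cm {a b : Fin n → ℕ} {A B : Fin n → Fin n} (hA : ∀ i, #{k | A k = i} = a i)
    (hB : ∀ i, #{k | B k = i} = b i) : Nat.card (Set.range (cm A B)) = MM a b := by
  rw [MM, ← Nat.card_eq_finsetCard]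
  refine Nat.card_congr (Equiv.setCongr ?_)
  ext m
  simp only [Set.mem_range, coe_filter, Fintype.mem_piFinset, mem_piAntidiag, mem_univ, implies_true, and_true,
    Set.mem_ofPred_eq]
  constructor
  · rintro ⟨w, rfl⟩
    refine ⟨fun i => ?_, fun j => ?_⟩
    · rw [← hA i, show #{k | A k = i} = #{k | A (w k) = i} from (card_equiv w (by simp)).symm,
        card_eq_sum_card_fiberwise (f := B) (t := univ) (by simp)]
      exact sum_congr rfl fun j _ => by simp [cm, filter_filter]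
    · rw [← hB j, card_eq_sum_card_fiberwise (f := fun k => A (w k)) (t := univ) (by simp)]
      exact sum_congr rfl fun i _ => by simp [cm, filter_filter, and_comm]
  · rintro ⟨h1, h2⟩
    let Z := Σ p : Fin n × Fin n, Fin (m p.1 p.2)
    have hz : ∀ p, #{z : Z | z.1 = p} = m p.1 p.2 := card_fst fun p : Fin n × Fin n => m p.1 p.2
    obtain ⟨e1, he1⟩ := exists_fib (fun z : Z => z.1.1) A fun i => by
      rw [hA, ← h1, card_eq_sum_card_fiberwise (f := fun z : Z => z.1.2) (t := univ) (by simp)]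
      exact sum_congr rfl fun j _ => by rw [← hz (i, j)]; simp [filter_filter, Prod.ext_iff]
    obtain ⟨e2, he2⟩ := exists_fib (fun z : Z => z.1.2) B fun j => by
      rw [hB, ← h2, card_eq_sum_card_fiberwise (f := fun z : Z => z.1.1) (t := univ) (by simp)]
      exact sum_congr rfl fun i _ => by rw [← hz (i, j)]; simp [filter_filter, Prod.ext_iff, and_comm]
    refine ⟨e2.symm.trans e1, funext fun i => funext fun j => ?_⟩
    rw [← hz (i, j)]
    exact (card_equiv e2 fun z => by simp [he1, he2, Prod.ext_iff]).symm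

theorem inner_young {a b : Fin n → ℕ} (ha : ∑ i, a i = n) (hb : ∑ i, b i = n) :
    (Nat.card (Equiv.Perm (Fin n)) : ℂ)⁻¹ * ∑ g, fixedPointCharacter (youngSubgroup a) g *
      fixedPointCharacter (youngSubgroup b) g = MM a b := by
  obtain ⟨A, hA, hA'⟩ := exists_label a ha
  obtain ⟨B, hB, hB'⟩ := exists_label b hb
  rw [pair_count _ _ _ (cm_eq_iff hA hB), card_range_cm hA' hB']

variable {F : Type*} [Field F]

theorem P_mul (v w : Equiv.Perm (Fin n)) : P F (v * w) = P F v * P F w := by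
  ext i j
  rw [Units.val_mul, mul_P]; rfl

theorem label_mono (μ : Fin n → ℕ) : Monotone (compLabel μ) := fun a b h => card_le_card fun t ht => by
  simpa using (mem_filter.1 ht).2.trans h

theorem Bu_le (μ : Fin n → ℕ) : Bu n F ≤ parabolicGL n F μ := fun _ hg _ _ h =>
  hg (lt_of_not_ge fun h' => h.not_ge (label_mono μ h'))

theorem P_mem {μ : Fin n → ℕ} {w : Equiv.Perm (Fin n)} (h : w ∈ youngSubgroup μ) : P F w ∈ parabolicGL n F μ := by
  intro i j hij
  have : i ≠ w j := by rintro rfl; exact hij.ne (h j).symm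
  exact one_apply_ne this

theorem young_of_par {a b : Fin n → ℕ} {w w' : Equiv.Perm (Fin n)} {h k : GL (Fin n) F} (hh : h ∈ parabolicGL n F a)
    (hk : k ∈ parabolicGL n F b) (e : h * P F w = P F w' * k) :
    ∃ h ∈ youngSubgroup a, ∃ k ∈ youngSubgroup b, w' = h * w * k := by
  have hd := (h * P F w).det_ne_zero
  rw [det_apply'] at hd
  obtain ⟨σ, -, hσ⟩ := exists_ne_zero_of_sum_ne_zero hd
  have h0 : ∀ i, (h * P F w).1 (σ i) i ≠ 0 := fun i => prod_ne_zero_iff.1 (right_ne_zero_of_mul hσ) i (mem_univ _)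
  have h1 : ∀ i, compLabel a (σ i) ≤ compLabel a (w i) := fun i => not_lt.1 fun hl =>
    h0 i (by rw [Units.val_mul, mul_P]; exact hh hl)
  have h2 : ∀ i, compLabel b ((w'⁻¹ * σ) i) ≤ compLabel b i := fun i => not_lt.1 fun hl => h0 i (by
    have := P_inv_mul (h * P F w).1 w' ((w'⁻¹ * σ) i) i
    rw [← Units.val_mul, e, inv_mul_cancel_left, hk hl] at this
    rw [e]; simpa using this.symm)
  have h3 := (sum_eq_sum_iff_of_le fun i (_ : i ∈ univ) => h1 i).1
    ((Equiv.sum_comp σ (compLabel a)).trans (Equiv.sum_comp w (compLabel a)).symm)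
  have h4 := (sum_eq_sum_iff_of_le fun i (_ : i ∈ univ) => h2 i).1 (Equiv.sum_comp (w'⁻¹ * σ) (compLabel b))
  refine ⟨σ * w⁻¹, fun i => ?_, (w'⁻¹ * σ)⁻¹, inv_mem fun i => h4 i (mem_univ _), by group⟩
  simpa using h3 (w⁻¹ i) (mem_univ _)

theorem inner_par [Fintype (GL (Fin n) F)] {a b : Fin n → ℕ} (ha : ∑ i, a i = n) (hb : ∑ i, b i = n) :
    (Nat.card (GL (Fin n) F) : ℂ)⁻¹ * ∑ g, fixedPointCharacter (parabolicGL n F a) g *
      fixedPointCharacter (parabolicGL n F b) g = MM a b := by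
  obtain ⟨A, hA, hA'⟩ := exists_label a ha
  obtain ⟨B, hB, hB'⟩ := exists_label b hb
  choose w u hu _ v hv e using fun g : GL (Fin n) F => exists_bru g
  have key : ∀ x y, cm A B (w x) = cm A B (w y) ↔
      ∃ h ∈ parabolicGL n F a, ∃ k ∈ parabolicGL n F b, y = h * x * k := by
    intro x y
    rw [cm_eq_iff hA hB]
    have a1 := Bu_le a (hu x).1
    have a2 := Bu_le a (hu y).1
    have b1 := Bu_le b (hv x)
    have b2 := Bu_le b (hv y)
    constructor
    · rintro ⟨h, hh, k, hk, e1⟩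
      refine ⟨u y * P F h * (u x)⁻¹, mul_mem (mul_mem a2 (P_mem hh)) (inv_mem a1), (v x)⁻¹ * P F k * v y,
        mul_mem (mul_mem (inv_mem b1) (P_mem hk)) b2, ?_⟩
      have e2 := e x
      have e3 := e y
      rw [e1, P_mul, P_mul] at e3
      generalize u x = u1, u y = u2, v x = v1, v y = v2, P F (w x) = p at e2 e3 ⊢
      rw [e2, e3]; group
    · rintro ⟨h, hh, k, hk, e1⟩
      refine young_of_par (h := (u y)⁻¹ * h * u x) (k := v y * k⁻¹ * (v x)⁻¹)
        (mul_mem (mul_mem (inv_mem a2) hh) a1) (mul_mem (mul_mem b2 (inv_mem hk)) (inv_mem b1)) ?_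
      have e2 := e x
      have e3 := e y
      generalize u x = u1, u y = u2, v x = v1, v y = v2, P F (w x) = p, P F (w y) = p' at e2 e3 ⊢
      rw [show p' = u2⁻¹ * y * v2⁻¹ by rw [e3]; group, e1, e2]; group
  rw [pair_count _ _ _ key, ← card_range_cm hA' hB']
  congr 2
  refine congrArg _ (Set.Subset.antisymm (by rintro _ ⟨g, rfl⟩; exact ⟨_, rfl⟩) ?_)
  rintro _ ⟨σ, rfl⟩
  refine ⟨P F σ, ((cm_eq_iff hA hB _ _).2 (young_of_par (h := (u (P F σ))⁻¹) (k := v (P F σ))
    (inv_mem (Bu_le a (hu _).1)) (Bu_le b (hv _)) ?_)).symm⟩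
  rw [inv_mul_eq_iff_eq_mul, ← mul_assoc]; exact e _

theorem sum_sub {ν : Fin n → ℕ} (hs : ∑ i, ν i = n) {κ : Equiv.Perm (Fin n)} (h : ∀ i, (κ i).1 ≤ ν i + i) :
    ∑ i, (ν i + i - κ i) = n := by
  have h1 : ∑ i, (ν i + i - κ i) + ∑ i, (κ i).1 = ∑ i, (ν i + i.1) := by
    rw [← sum_add_distrib]; exact sum_congr rfl fun i _ => Nat.sub_add_cancel (h i)
  rw [Equiv.sum_comp κ fun i => i.1, sum_add_distrib, hs] at h1
  omega

theorem strict {ν : Fin n → ℕ} (h : Monotone ν) : StrictMono fun i => ν i + i.1 :=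
  fun _ _ hab => add_lt_add_of_le_of_lt (h hab.le) hab

theorem inner_unip [Fintype (GL (Fin n) F)] {ν ν' : Fin n → ℕ} (hm : Monotone ν) (hs : ∑ i, ν i = n)
    (hm' : Monotone ν') (hs' : ∑ i, ν' i = n) :
    classInner (unipotentCharacterGL n F ν) (unipotentCharacterGL n F ν') = if ν = ν' then 1 else 0 := by
  have e : (fun i => ν i + i.1) = (fun i => ν' i + i.1) ↔ ν = ν' := by simp [funext_iff]
  simp only [← e]
  rw [← orth (R := ℂ) (strict hm) (strict hm'), classInner]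
  simp only [unipotentCharacterGL, map_sum, sum_mul_sum]
  rw [sum_comm, mul_sum]
  refine sum_congr rfl fun κ _ => ?_
  rw [sum_comm, mul_sum]
  refine sum_congr rfl fun τ _ => ?_
  by_cases h1 : ∀ i, (κ i).1 ≤ ν i + i
  · by_cases h2 : ∀ i, (τ i).1 ≤ ν' i + i
    · rw [if_pos ⟨h1, h2⟩, ← inner_par (F := F) (sum_sub hs h1) (sum_sub hs' h2), mul_left_comm, mul_sum _ _ (_ * _)]
      congr 1
      refine sum_congr rfl fun g _ => ?_
      rw [if_pos h1, if_pos h2]
      simp only [fixedPointCharacter, map_mul, map_intCast, map_natCast]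
      ring
    · simp [h2]
  · simp [h1]

theorem gen_unip [Finite (GL (Fin n) F)] (ν : Fin n → ℕ) :
    IsGeneralizedCharacter (GL (Fin n) F) (unipotentCharacterGL n F ν) := by
  have : unipotentCharacterGL n F ν = ∑ κ : Equiv.Perm (Fin n), if ∀ i : Fin n, (κ i).val ≤ ν i + i.val then
      ((Equiv.Perm.sign κ : ℤ) : ℂ) • fixedPointCharacter (parabolicGL n F fun i => ν i + i.val - (κ i).val) else 0 := by
    funext g
    rw [unipotentCharacterGL, Finset.sum_apply]
    exact sum_congr rfl fun κ _ => by split_ifs <;> rfl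
  rw [this]
  refine CChar.CharGen.gen_sum _ fun κ _ => ?_
  split_ifs
  · exact CChar.CharGen.gen_intCast_smul _ (CChar.CharGen.gen_of_char (fpc_char _))
  · exact CChar.CharGen.gen_zero

/-- `q`-integer -/
def qi (q r : ℕ) : ℕ := ∑ l ∈ range r, q ^ l

theorem qi_add (q a b : ℕ) : qi q (a + b) = qi q a + q ^ a * qi q b := by
  simp [qi, sum_range_add, mul_sum, pow_add]

theorem fall (q m j : ℕ) : (∏ k ∈ range j, ((qi q m : ℂ) - qi q k)) * ∏ k ∈ range (m - j), (qi q (k + 1) : ℂ) =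
    if j ≤ m then (q : ℂ) ^ (j.choose 2) * ∏ k ∈ range m, (qi q (k + 1) : ℂ) else 0 := by
  split_ifs with h
  · induction j with
    | zero => simp
    | succ j ih =>
      have ih := ih (by omega)
      obtain ⟨r, rfl⟩ := Nat.exists_eq_add_of_le h
      rw [show j + 1 + r - j = r + 1 by omega, prod_range_succ] at ih
      rw [prod_range_succ, Nat.add_sub_cancel_left, Nat.choose_succ_succ', Nat.choose_one_right, pow_add, mul_assoc _ _ (∏ k ∈ range (j + 1 + r), _),
        ← ih, show j + 1 + r = j + (r + 1) by ring, qi_add]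
      push_cast; ring
  · rw [prod_eq_zero (mem_range.2 (not_le.1 h)) (sub_self _), zero_mul]

theorem sum_choose (n : ℕ) : ∑ j ∈ range n, j.choose 2 = n * (n - 1) * (n - 2) / 6 := by
  have : ∑ j ∈ range n, j.choose 2 = n.choose 3 := by
    induction n with
    | zero => rfl
    | succ n ih => rw [sum_range_succ, ih, Nat.choose_succ_succ', add_comm]
  rw [this, Nat.choose_eq_descFactorial_div_factorial]
  simp [Nat.descFactorial, Nat.factorial, mul_comm, mul_assoc]

theorem qi_pos {q : ℕ} (k : ℕ) : 0 < qi q (k + 1) := by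
  rw [add_comm, qi_add]; simp [qi]

theorem degree [Fintype F] {q : ℕ} (hq : Fintype.card F = q) {ν : Fin n → ℕ} (hs : ∑ i, ν i = n) :
    unipotentCharacterGL n F ν 1 * (q : ℂ) ^ (n * (n - 1) * (n - 2) / 6) *
        ∏ i : Fin n, ∏ j ∈ range (ν i + i.val), (qi q (j + 1) : ℂ) =
      (∏ j ∈ range n, (qi q (j + 1) : ℂ)) *
        ∏ i : Fin n, ∏ j ∈ Ioi i, ((qi q (ν j + j.val) : ℂ) - (qi q (ν i + i.val) : ℂ)) := by
  classical
  rw [← det_vandermonde, det_eval_matrixOfPolynomials_eq_det_vandermonde _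
    (fun j : Fin n => ∏ k ∈ range j, (Polynomial.X - Polynomial.C (qi q k : ℂ)))
    (fun j => by rw [Polynomial.natDegree_prod_of_monic _ _ fun k _ => Polynomial.monic_X_sub_C _]
                 simp only [Polynomial.natDegree_X_sub_C, sum_const, card_range, smul_eq_mul, mul_one])
    (fun j => Polynomial.monic_prod_of_monic _ _ fun k _ => Polynomial.monic_X_sub_C _), ← det_transpose, det_apply',
    unipotentCharacterGL, sum_mul, sum_mul, mul_sum]
  refine sum_congr rfl fun κ _ => ?_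
  simp only [transpose_apply, of_apply, Polynomial.eval_prod, Polynomial.eval_sub, Polynomial.eval_X, Polynomial.eval_C]
  have h0 : ∀ m, ∏ k ∈ range m, (qi q (k + 1) : ℂ) ≠ 0 := fun m =>
    prod_ne_zero_iff.2 fun k _ => Nat.cast_ne_zero.2 (qi_pos k).ne'
  have h1 := prod_congr (rfl : (univ : Finset (Fin n)) = univ) fun i _ => fall q (ν i + i) (κ i)
  rw [prod_mul_distrib, Fintype.prod_ite_zero] at h1
  split_ifs with h
  · rw [if_pos h, prod_mul_distrib, prod_pow_eq_pow_sum, Equiv.sum_comp κ fun i => i.1.choose 2,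
      Fin.sum_univ_eq_sum_range (fun j => j.choose 2), sum_choose] at h1
    have h2 := congrArg (Nat.cast : ℕ → ℂ) (Cfsg.Agent.S2420.result hq _ (sum_sub hs h))
    rw [fpc_one, Subgroup.index, mul_assoc, ← h1]
    simp only [Nat.cast_mul, Nat.cast_prod] at h2
    change _ * ∏ i : Fin n, ∏ j ∈ range _, (qi q (j + 1) : ℂ) = ∏ j ∈ range n, (qi q (j + 1) : ℂ) at h2
    rw [← h2]; ring
  · rw [if_neg h, mul_eq_zero] at h1
    rw [h1.resolve_right (prod_ne_zero_iff.2 fun i _ => h0 _)]; simp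

theorem irr_unip [Fintype F] {ν : Fin n → ℕ} (hm : Monotone ν) (hs : ∑ i, ν i = n) :
    IsIrrCharacter (GL (Fin n) F) (unipotentCharacterGL n F ν) := by
  classical
  refine CChar.CharGen.irr_of_gen_norm_one (gen_unip ν) ((inner_unip hm hs hm hs).trans (if_pos rfl)) ?_
  obtain ⟨z, hz⟩ := CChar.CharGen.gen_apply_one (gen_unip (F := F) ν)
  have h := degree (F := F) rfl hs
  rw [hz] at h ⊢
  have hq : 0 < Fintype.card F := Fintype.card_pos
  generalize Fintype.card F = q at h hq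
  have h' : z * (q : ℤ) ^ (n * (n - 1) * (n - 2) / 6) * ∏ i : Fin n, ∏ j ∈ range (ν i + i.val), (qi q (j + 1) : ℤ) =
      (∏ j ∈ range n, (qi q (j + 1) : ℤ)) *
        ∏ i : Fin n, ∏ j ∈ Ioi i, ((qi q (ν j + j.val) : ℤ) - (qi q (ν i + i.val) : ℤ)) := by exact_mod_cast h
  have p0 : ∀ m, 0 < ∏ k ∈ range m, (qi q (k + 1) : ℤ) := fun m => prod_pos fun k _ => Nat.cast_pos.2 (qi_pos k)
  have p1 : 0 ≤ ∏ i : Fin n, ∏ j ∈ Ioi i, ((qi q (ν j + j.val) : ℤ) - (qi q (ν i + i.val) : ℤ)) :=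
    prod_nonneg fun i _ => prod_nonneg fun j hj => sub_nonneg.2 (Nat.cast_le.2
      (sum_le_sum_of_subset (range_subset_range.2 (strict hm (mem_Ioi.1 hj)).le)))
  have := mul_nonneg (p0 n).le p1
  rw [← h', mul_assoc] at this
  simpa using nonneg_of_mul_nonneg_left this (mul_pos (by positivity) (prod_pos fun i _ => p0 _))

end CA.GLUnip
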