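import Cfsg.Agent.Lib.Lin.MaxF1
import Cfsg.Agent.Lib.Lin.MaxC1

/-!
Groups generated by reflections of a three-dimensional quadratic space over a prime field.
-/

set_option autoImplicit false
set_option linter.unusedSectionVars false

namespace CA.CForm

open Module CA.MaxF Matrix
open scoped MatrixGroups

namespace Form
variable {F : Type*} [Field F] [Fintype F] {V : Type*} [AddCommGroup V] [Module F V]
  [FiniteDimensional F V] {f : Form (Kind.orth F) V} {Y : Subgroup f.Isom}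

local notation:75 g:76 " ⊳ " v:75 => (g : V ≃ₗ[F] V) v

theorem exists_natCast (hp : (Fintype.card F).Prime) (a : F) : ∃ n : ℕ, a = n := by
  have := Fact.mk hp
  obtain ⟨n, hn⟩ := ZMod.natCast_zmod_surjective ((ZMod.ringEquivOfPrime F hp rfl).symm a)
  exact ⟨n, by rw [← map_natCast (ZMod.ringEquivOfPrime F hp rfl), hn, RingEquiv.apply_symm_apply]⟩

theorem Lev.mem_levS (hp : (Fintype.card F).Prime) {x w : V} (h : f.Lev Y x w) (hx : f.Q x = 0) :
    w ∈ levS Y hx := fun a => by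
  obtain ⟨n, rfl⟩ := exists_natCast hp a
  induction n with
  | zero => simpa using lev_zero hx
  | succ n ih => simpa [add_smul] using ih.add h

theorem Lev.eichler_mem {x w : V} (h : f.Lev Y x w) {c : F} (hc : f.EichlerCond x w c) :
    f.eichler x w c hc ∈ Y := by
  obtain ⟨c', h', hm⟩ := h
  obtain rfl : c' = c := h'.π_c.trans hc.π_c.symm
  exact hm

theorem Qgrp_le_of_levS {x : V} {hx : f.Q x = 0} (h : ∀ w, f.B x w = 0 → w ∈ levS Y hx) :
    f.Qgrp x ≤ Y := f.Qgrp_le fun w _ hc => (lev_of_mem_levS (h w hc.B_pw)).eichler_mem hc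

theorem B_refl (x u : V) : f.B x (f.refl u ⊳ x) = f.B x x - (f.Q u)⁻¹ * f.B u x ^ 2 := by
  rw [refl_apply, map_sub, map_smul, f.orth_symm x u, smul_eq_mul]; ring

section three
variable (hf : f.Nondeg) (h3 : finrank F V = 3)
include hf h3

theorem Nondeg.mem_span_three {x w v : V} (hx0 : x ≠ 0) (hx : f.Q x = 0) (hw : w ∉ F ∙ x)
    (hB : f.B x w = 0) (hv : f.B x v = 0) : ∃ a b : F, a • x + b • w = v := by
  have h1 := hf.finrank_perp (F ∙ x)
  rw [finrank_span_singleton hx0, h3] at h1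
  have h2 : LinearIndependent F ![x, w] := (LinearIndependent.pair_iff' hx0).2 fun a e =>
    hw (e ▸ Submodule.smul_mem _ _ (Submodule.mem_span_singleton_self x))
  have h4 := finrank_span_eq_card h2
  rw [Matrix.range_cons_cons_empty] at h4
  have h5 : Submodule.span F {x, w} = f.perp (F ∙ x) := Submodule.eq_of_le_of_finrank_eq
    (Submodule.span_le.2 (by
      rintro _ (rfl | rfl)
      exacts [f.mem_perp_span_singleton.2 (f.B_self_of_Q hx), f.mem_perp_span_singleton.2 hB]))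
    (by simp at h4; omega)
  exact Submodule.mem_span_pair.1 (h5 ▸ f.mem_perp_span_singleton.2 hv)

theorem Nondeg.Eich_le_three (hp : (Fintype.card F).Prime) (h2 : (2 : F) ≠ 0) {x w u v : V}
    (hx0 : x ≠ 0) (hx : f.Q x = 0) (hw : w ∉ F ∙ x) (h : f.Lev Y x w) (hu : f.Q u ≠ 0)
    (hv : f.Q v ≠ 0) (huv : f.B u v = 0) (ru : f.refl u ∈ Y) (rv : f.refl v ∈ Y) : f.Eich ≤ Y := by
  have hQ : f.Qgrp x ≤ Y := Qgrp_le_of_levS (hx := hx) fun z hz => by
    obtain ⟨a, b, rfl⟩ := hf.mem_span_three h3 hx0 hx hw h.B_eq hz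
    exact add_mem (Submodule.smul_mem _ _ (self_mem_levS hx))
      (Submodule.smul_mem _ _ (h.mem_levS hp hx))
  have key : ∀ u, f.Q u ≠ 0 → f.refl u ∈ Y → f.B u x ≠ 0 → f.Eich ≤ Y := fun u hu ru hB =>
    hf.Eich_le_of_Qgrp' (.inl h3.ge) hx hQ ru (by simp [B_refl, f.B_self_of_Q hx, hu, hB])
  by_cases h1 : f.B u x = 0
  · refine key v hv rv fun h4 => ?_
    obtain ⟨a, b, rfl⟩ := hf.mem_span_three h3 hx0 hx (w := u) (fun c => by
      obtain ⟨a, rfl⟩ := Submodule.mem_span_singleton.1 c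
      exact hu (f.Q_smul_of_Q hx a)) (f.eq_zero_symm h1) (f.eq_zero_symm h4)
    simp [h1, orth_B_self, h2, hu] at huv
    simp [huv, f.Q_smul_of_Q hx] at hv
  · exact key u hu ru h1

theorem Nondeg.exists_lev_three {p : ℕ} [Fact p.Prime] [CharP F p] (h2 : (2 : F) ≠ 0) {g : f.Isom}
    (hg : g ∈ Y) (h1 : g ≠ 1) (hp : g ^ p = 1) :
    ∃ x w, x ≠ 0 ∧ f.Q x = 0 ∧ w ∉ F ∙ x ∧ f.Lev Y x w := by
  have : Nontrivial V := Module.nontrivial_of_finrank_pos (R := F) (by omega)
  have : CharP (Module.End F V) p := charP_of_injective_algebraMap (R := F)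
    (FaithfulSMul.algebraMap_injective F _) p
  set M : Module.End F V := (g : V ≃ₗ[F] V).toLinearMap - 1 with hM
  have hM1 : M ^ p = 0 := by
    rw [hM, sub_pow_char_of_commute p (Commute.one_right _), one_pow, sub_eq_zero]
    ext v
    have := congrArg (fun e : f.Isom => e ⊳ v) hp
    simpa [Module.End.pow_apply, LinearEquiv.pow_apply] using this
  have Mv : ∀ v, M v = g ⊳ v - v := fun v => rfl
  obtain ⟨x, hx0, hx1, u, hu⟩ : ∃ x, x ≠ 0 ∧ M x = 0 ∧ ∃ u, M u = x := by
    by_contra! H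
    have : ∀ n, ∀ v, (M ^ n) (M v) = 0 → M v = 0 := fun n => by
      induction n with
      | zero => simp
      | succ n ih => exact fun v hv => by_contra fun c => H _ c (ih _ hv) v rfl
    exact h1 (f.isom_ext fun v => sub_eq_zero.1 (this p v (by simp [hM1])))
  have gx : g ⊳ x = x := sub_eq_zero.1 hx1
  have hx : f.Q x = 0 := by
    have : f.B x x = 0 := by
      nth_rw 2 [← hu]
      rw [Mv, map_sub]
      nth_rw 1 [← gx]
      rw [B_coe_map, sub_self]
    simpa [orth_B_self, h2] using this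
  have : g ∈ f.Qgrp x := (hf.mem_Qgrp_iff hx hx0).2 ⟨gx, fun v hv => by_contra fun c => by
    have hv' : v ∉ F ∙ x := fun c' => by
      obtain ⟨a, rfl⟩ := Submodule.mem_span_singleton.1 c'
      simp [gx] at c
    obtain ⟨a, b, e⟩ := hf.mem_span_three h3 hx0 hx hv' hv (v := M v)
      (by rw [Mv, map_sub, hv]; nth_rw 1 [← gx]; rw [B_coe_map, hv, sub_self])
    have hb : b ≠ 0 := fun hb => c (by
      rw [← Mv, ← e, hb, zero_smul, add_zero]
      exact Submodule.smul_mem _ _ (Submodule.mem_span_singleton_self x))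
    have : ∀ n, (M ^ n) (M v) = b ^ n • M v := fun n => by
      induction n with
      | zero => simp
      | succ n ih =>
        rw [pow_succ', Module.End.mul_apply, ih, map_smul, pow_succ, mul_smul]
        congr 1
        nth_rw 1 [← e]
        rw [map_add, map_smul, map_smul, hx1, smul_zero, zero_add]
    have := this p
    rw [hM1, LinearMap.zero_apply, eq_comm, smul_eq_zero, ] at this
    rcases this with h | h
    · exact hb (pow_eq_zero_iff (Fact.out : p.Prime).ne_zero |>.1 h)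
    · exact c (by rw [← Mv, h]; exact zero_mem _)⟩
  obtain ⟨w, c, hc, rfl⟩ := (mem_Qgrp hx).1 this
  refine ⟨x, w, hx0, hx, fun c' => ?_, c, hc, hg⟩
  obtain ⟨a, rfl⟩ := Submodule.mem_span_singleton.1 c'
  exact h1 (f.eichler_smul_self hc)

end three

set_option maxHeartbeats 400000 in
theorem exists_order {p : ℕ} [Fact p.Prime] [CharP F p] (h2 : (2 : F) ≠ 0) {u v w : V}
    {c a b : F} (hc : c ≠ 0) (hu : f.Q u = c) (hv : f.Q v = c) (hw : f.Q w = c) (huv : f.B u v = 0)
    (huw : f.B u w = 2 * c * a) (hvw : f.B v w = 2 * c * b) (ha : a ≠ 0) (hb : b ≠ 0)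
    (hd : a ^ 2 + b ^ 2 ≠ 1) (ru : f.refl u ∈ Y) (rv : f.refl v ∈ Y) (rw : f.refl w ∈ Y) :
    Gd (4 * a ^ 2) ∨ ∃ g ∈ Y, g ≠ 1 ∧ g ^ p = 1 := by
  classical
  let k := AlgebraicClosure F
  let ι := algebraMap F k
  have hι : Function.Injective ι := ι.injective
  obtain ⟨d, hd'⟩ := IsAlgClosed.exists_pow_nat_eq (ι (a ^ 2 + b ^ 2 - 1)) two_pos
  have hd0 : d ≠ 0 := by
    rintro rfl
    exact sub_ne_zero.2 hd (hι (by simp [← hd']))
  have hk : (2 : k) ≠ 0 := fun e => h2 (hι (by rw [map_ofNat, e, map_zero]))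
  have hn : 1 - a ^ 2 - b ^ 2 ≠ 0 := fun e => hd (by linear_combination -e)
  have e1 : ι a ^ 2 + ι b ^ 2 - d ^ 2 = 1 := by simp [hd']
  let α : V → V → F := fun x y => f.B x y / (2 * c)
  let γ : V → F := fun y => (α w y - a * α u y - b * α v y) / (1 - a ^ 2 - b ^ 2)
  let φ : V → Matrix (Fin 2) (Fin 2) k := fun y => ph (ι (α u y)) (ι (α v y)) (ι (γ y) * d)
  have s1 : ∀ x, f.Q x = c → α x x = 1 := fun x hx => by simp [α, orth_B_self, hx, h2, hc]
  have s2 : α u v = 0 := by simp [α, huv]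
  have s3 : α u w = a := by simp [α, huw, h2, hc]
  have s4 : α v w = b := by simp [α, hvw, h2, hc]
  have s5 : ∀ x y, α x y = α y x := fun x y => by simp [α, f.orth_symm x y]
  have φu : φ u = ph 1 0 0 := by simp [φ, γ, s1 u hu, s5 v u, s2, s5 w u, s3]
  have φv : φ v = ph 0 1 0 := by simp [φ, γ, s1 v hv, s5 w v, s2, s4]
  have φw : φ w = ph (ι a) (ι b) d := by
    have : γ w = 1 := by
      simp only [γ, s1 w hw, s3, s4]
      rw [div_eq_one_iff_eq hn]; ring
    simp [φ, this, s3, s4]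
  have hr : ∀ x, f.Q x = c → ∀ y z, α z (f.refl x ⊳ y) = α z y - 2 * α x y * α z x :=
    fun x hx y z => by simp only [α, refl_apply, hx, map_sub, map_smul, smul_eq_mul]; field_simp
  have φr : ∀ x, f.Q x = c → ∀ y, φ (f.refl x ⊳ y) = φ y - ι (2 * α x y) • φ x := fun x hx y => by
    have : γ (f.refl x ⊳ y) = γ y - 2 * α x y * γ x := by simp only [γ, hr x hx]; field_simp; ring
    ext i j
    fin_cases i <;> fin_cases j <;> simp [φ, ph, hr x hx, this] <;> ring
  let Γ : Subgroup (f.Isom × PGL(2, k)) :=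
    { carrier := {x | x.1 ∈ Y ∧ ∃ m : GL (Fin 2) k, .mk m = x.2 ∧ ∃ ε : k, ε * ε = 1 ∧
        ∀ y, m.val * φ y = ε • φ (x.1 ⊳ y) * m.val}
      one_mem' := ⟨one_mem _, 1, map_one _, 1, one_mul _, fun y => by simp⟩
      mul_mem' := by
        rintro ⟨g, _⟩ ⟨g', _⟩ ⟨h1, m, rfl, ε, h3, h4⟩ ⟨h1', m', rfl, ε', h3', h4'⟩
        refine ⟨mul_mem h1 h1', m * m', map_mul .., ε * ε', by linear_combination h3' + (ε' * ε') * h3,
          fun y => ?_⟩
        simp only [Units.val_mul, mul_assoc, h4', smul_mul_assoc, mul_smul_comm] at h4 ⊢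
        rw [← mul_assoc, h4, smul_mul_assoc, smul_smul, mul_comm ε', mul_assoc]
        rfl
      inv_mem' := by
        rintro ⟨g, _⟩ ⟨h1, m, rfl, ε, h3, h4⟩
        refine ⟨inv_mem h1, m⁻¹, map_inv .., ε, h3, fun y => ?_⟩
        have := h4 ((g⁻¹ : f.Isom) ⊳ y)
        rw [isom_apply_inv_apply] at this
        rw [Units.inv_mul_eq_iff_eq_mul, ← mul_assoc, Units.eq_mul_inv_iff_mul_eq, mul_smul_comm,
          Prod.fst_inv, this, smul_mul_assoc, smul_smul, h3, one_smul] }
  have gen : ∀ x, f.Q x = c → f.refl x ∈ Y → ∀ {r s t : k} (h : r ^ 2 + s ^ 2 - t ^ 2 = 1),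
      φ x = ph r s t → (∀ y, φ x * φ y + φ y * φ x = ι (2 * α x y) • 1) →
      .mk (iv r s t h) ∈ Γ.map (MonoidHom.snd _ _) := fun x hx rx r s t h e H =>
    ⟨(f.refl x, .mk (iv r s t h)), ⟨rx, iv r s t h, rfl, -1, by ring, fun y => by
      change ph r s t * _ = _ * ph r s t
      rw [φr x hx, smul_mul_assoc, sub_mul, smul_mul_assoc, ← e, eq_sub_of_add_eq (H y)]
      rw [e, ph_sq h]; simp⟩, rfl⟩
  have inj : ∀ x ∈ Γ, x.1 = 1 → x = 1 := by
    rintro ⟨_, _⟩ ⟨-, m, rfl, ε, h3, h4⟩ rfl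
    have t1 := h4 u
    have t2 := h4 v
    have t3 := h4 w
    simp only [isom_one_apply, φu, φv, φw] at t1 t2 t3
    refine Prod.ext rfl (mk_eq_one.2 ?_)
    simp only [← Matrix.ext_iff, Fin.forall_fin_two] at t1 t2 t3
    simp [ph, mul_apply, Fin.sum_univ_two] at t1 t2 t3
    rcases mul_self_eq_one_iff.1 h3 with rfl | rfl
    · have h01 : m.val 0 1 = 0 := mul_left_cancel₀ hk (by linear_combination t1.1.2)
      exact ⟨h01, by linear_combination h01 - t2.1.1, by linear_combination t2.1.2⟩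
    · have h00 : m.val 0 0 = 0 := mul_left_cancel₀ hk (by linear_combination -t1.1.1)
      have h01 : m.val 0 1 = 0 := mul_left_cancel₀ (mul_ne_zero hk hd0)
        (by linear_combination -t3.1.1 - 2 * ι a * h00 + (ι b + d) * t2.2.2)
      exact ⟨h01, by linear_combination t2.2.2 - h01, by linear_combination 2 * h00 - t2.2.1⟩
  have inj' : Function.Injective ((MonoidHom.fst _ _).comp Γ.subtype) :=
    (injective_iff_map_eq_one _).2 fun x hx => Subtype.ext (inj _ x.2 hx)
  have : Finite Γ := Finite.of_injective _ inj'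
  have : Finite (Γ.map (MonoidHom.snd _ _)) := Finite.of_surjective _ (MonoidHom.subgroupMap_surjective _ Γ)
  have : CharP k p := charP_of_injective_algebraMap hι p
  rcases three_invol p hk (map_ne_zero ι |>.2 ha) (map_ne_zero ι |>.2 hb) hd0 e1
    (Γ.map (MonoidHom.snd _ _)) 
    (gen u hu ru _ φu fun y => by rw [φu, ph_anti]; simp [map_ofNat])
    (gen v hv rv _ φv fun y => by rw [φv, ph_anti]; simp [map_ofNat])
    (gen w hw rw _ φw fun y => by
      rw [φw, ph_anti]
      congr 1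
      have : γ y * (1 - a ^ 2 - b ^ 2) = α w y - a * α u y - b * α v y := div_mul_cancel₀ _ hn
      have := congrArg ι this
      simp only [map_mul, map_sub, map_pow, map_one, map_ofNat] at this ⊢
      linear_combination 2 * this + 2 * ι (γ y) * e1) with h | ⟨_, ⟨x, hx, rfl⟩, h1, h3⟩
  · refine .inl (h.imp (fun h => hι ?_) (.imp (fun h => hι ?_) fun h => hι ?_)) <;>
      simpa [map_ofNat] using h
  · have h4 : p ∣ orderOf x.1 := by
      rw [← orderOf_eq_prime h3 h1]
      refine (orderOf_map_dvd _ _).trans ?_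
      rw [← Subgroup.orderOf_mk x hx, ← orderOf_injective _ inj']
      rfl
    have h5 := orderOf_pow_orderOf_div (orderOf_pos x.1).ne' h4
    exact .inr ⟨_, pow_mem hx.1 _, fun e => (Fact.out : p.Prime).one_lt.ne' (by
      rw [← h5, e, orderOf_one]), by
        have := pow_orderOf_eq_one (x.1 ^ (orderOf x.1 / p))
        rwa [h5] at this⟩

variable (hf : f.Nondeg) (hp : (Fintype.card F).Prime) (h2 : (2 : F) ≠ 0)
include hf hp h2

theorem Nondeg.full_three {u v z : V} (hu : f.Q u ≠ 0) (hv : f.Q v ≠ 0) (hz : f.Q z ≠ 0)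
    (huv : f.B u v = 0) (huz : f.B u z = 0) (hvz : f.B v z = 0) (ru : f.refl u ∈ Y)
    (rv : f.refl v ∈ Y) (H : (∃ x ∈ Submodule.span F {u, v, z}, ∃ w ∈ Submodule.span F {u, v, z},
      x ≠ 0 ∧ f.Q x = 0 ∧ w ∉ F ∙ x ∧ f.Lev Y x w) ∨ ∃ a b : F, a ≠ 0 ∧ b ≠ 0 ∧
        ¬Gd (4 * a ^ 2) ∧ f.Q v = f.Q u ∧ f.Q (a • u + b • v + z) = f.Q u ∧
          f.refl (a • u + b • v + z) ∈ Y) :
    f.Base Y (Submodule.span F {u, v, z}) ∧
      ∀ y ∈ Submodule.span F {u, v, z}, f.Q y = f.Q u → f.refl y ∈ Y := by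
  set W := Submodule.span F {u, v, z} with hW
  have mu : u ∈ W := Submodule.subset_span (by simp)
  have mv : v ∈ W := Submodule.subset_span (by simp)
  have mz : z ∈ W := Submodule.subset_span (by simp)
  have b1 := f.eq_zero_symm huv
  have b2 := f.eq_zero_symm huz
  have b3 := f.eq_zero_symm hvz
  have key : ∀ a b c : F, f.B u (a • u + b • v + c • z) = 0 → f.B v (a • u + b • v + c • z) = 0 →
      f.B z (a • u + b • v + c • z) = 0 → a = 0 ∧ b = 0 ∧ c = 0 := fun a b c h1 h3 h4 => by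
    simp [orth_B_self, *] at h1 h3 h4
    exact ⟨h1, h3, h4⟩
  have hd : Disjoint W (f.perp W) := Submodule.disjoint_def.2 fun x hx hx' => by
    obtain ⟨a, b, c, rfl⟩ := Submodule.mem_span_triple.1 hx
    obtain ⟨rfl, rfl, rfl⟩ := key a b c (hx' u mu) (hx' v mv) (hx' z mz)
    simp
  have h3 : finrank F W = 3 := by
    have := finrank_span_eq_card (R := F) (b := ![u, v, z]) (Fintype.linearIndependent_iff.2 fun g hg => by
      rw [Fin.sum_univ_three] at hg
      simp only [cons_val] at hg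
      obtain ⟨h1, h3, h4⟩ := key (g 0) (g 1) (g 2) (by simp [hg]) (by simp [hg]) (by simp [hg])
      exact fun i => by fin_cases i <;> assumption)
    rwa [Matrix.range_cons, Matrix.range_cons_cons_empty, ← Set.insert_eq] at this
  have hc := hf.isCompl_perp hd
  have hn := (f.nondeg_restrict_iff W).2 hd
  have rf : ∀ {y} (hy : y ∈ W), f.refl y ∈ Y →
      (f.restrict W).refl ⟨y, hy⟩ ∈ Y.comap (f.extLeft hc) := fun hy h => by
    rwa [Subgroup.mem_comap, extLeft_refl]
  have E : (f.restrict W).Eich ≤ Y.comap (f.extLeft hc) := by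
    rcases H with ⟨x, mx, w, mw, hx0, hx, hw, c, h, hl⟩ | ⟨a, b, ha, hb, hG, h4, h5, h6⟩
    · refine hn.Eich_le_three h3 hp h2 (x := ⟨x, mx⟩) (w := ⟨w, mw⟩) (u := ⟨u, mu⟩) (v := ⟨v, mv⟩)
        (fun e => hx0 (congrArg Subtype.val e)) hx (fun c => ?_) ⟨c, ⟨h.1, h.2, h.3⟩, ?_⟩ hu hv huv
        (rf mu ru) (rf mv rv)
      · obtain ⟨a, e⟩ := Submodule.mem_span_singleton.1 c
        exact hw (Submodule.mem_span_singleton.2 ⟨a, congrArg Subtype.val e⟩)
      · rwa [Subgroup.mem_comap, extLeft_eichler]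
    · have := Fact.mk hp
      have := charP_of_card_eq_prime (R := F) rfl
      have mw : a • u + b • v + z ∈ W := add_mem (add_mem (W.smul_mem _ mu) (W.smul_mem _ mv)) mz
      rcases exists_order (p := Fintype.card F) (f := f.restrict W) h2 (u := ⟨u, mu⟩) (v := ⟨v, mv⟩)
        (w := ⟨_, mw⟩) hu rfl h4 h5 huv (a := a) (b := b)
        (by simp [orth_B_self, huv, huz]; ring) (by simp [orth_B_self, b1, hvz, h4]; ring) ha hb
        (fun e => hz (by
          simp [orth_Q_add, orth_Q_smul, huv, huz, hvz, h4] at h5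
          linear_combination h5 - f.Q u * e)) (rf mu ru) (rf mv rv) (rf mw h6) with
        h | ⟨g, hg, h7, h8⟩
      · exact absurd h hG
      · obtain ⟨x, w, hx0, hx, hw, hl⟩ := hn.exists_lev_three h3 h2 hg h7 h8
        exact hn.Eich_le_three h3 hp h2 hx0 hx hw hl (u := ⟨u, mu⟩) (v := ⟨v, mv⟩) hu hv huv
          (rf mu ru) (rf mv rv)
  refine ⟨fun x hx w hw c h => ?_, fun y hy e => ?_⟩
  · have := E ((f.restrict W).eichler_mem_Eich ⟨x, hx⟩ ⟨w, hw⟩ c ⟨h.1, h.2, h.3⟩)
    rwa [Subgroup.mem_comap, extLeft_eichler] at this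
  · obtain ⟨g, hg⟩ := hn.exists_commutator_eq_refl_mul (v := ⟨y, hy⟩) (w := ⟨u, mu⟩)
      (e.symm ▸ hu : f.Q y ≠ 0) hu ⟨f.Q u, by change f.Q y * f.Q u = _; rw [e]⟩
    have := E ((hn.commutator_eq_Eich (good_of_two_ne_zero _ h2) h3.ge).le
      (Subgroup.commutator_mem_commutator (Subgroup.mem_top ((f.restrict W).refl ⟨y, hy⟩))
        (Subgroup.mem_top g)))
    rw [← hg, Subgroup.mem_comap, map_mul, extLeft_refl, extLeft_refl] at this
    exact (Y.mul_mem_cancel_right ru).1 this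

end Form
end CA.CForm
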