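import Cfsg.Agent.Lib.Lin.MaxC3
import Cfsg.Agent.Lib.Lin.MaxF2

/-!
Non-degenerate planes of a finite quadratic space.
-/

set_option autoImplicit false
set_option linter.unusedSectionVars false

namespace CA.H12Dc

open Module CA.CForm CA.CForm.Form Polynomial

section Field
variable {F : Type*} [Field F] [Fintype F]

theorem avoid {n : ℕ} (A B C : Fin n → F) (h : ∀ i, A i ≠ 0 ∨ B i ≠ 0 ∨ C i ≠ 0)
    (hn : 2 * n < Fintype.card F) : ∃ s, ∀ i, A i * s ^ 2 + B i * s + C i ≠ 0 := by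
  let p : Fin n → F[X] := fun i => Polynomial.C (A i) * X ^ 2 + Polynomial.C (B i) * X +
    Polynomial.C (C i)
  have hp : ∀ i, p i ≠ 0 := fun i e => by
    have h0 := congrArg (·.coeff 0) e
    have h1 := congrArg (·.coeff 1) e
    have h2 := congrArg (·.coeff 2) e
    simp [p, coeff_X, coeff_C] at h0 h1 h2
    have := h i
    tauto
  have hd : (∏ i, p i).natDegree ≤ 2 * n := (natDegree_prod_le _ _).trans (by
    simpa [mul_comm] using Finset.sum_le_card_nsmul Finset.univ (fun i => (p i).natDegree) 2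
      fun i _ => natDegree_quadratic_le)
  obtain ⟨s, hs⟩ := (∏ i, p i).exists_eval_ne_zero_of_natDegree_lt_card
    (Finset.prod_ne_zero_iff.2 fun i _ => hp i) (by
      rw [Cardinal.mk_fintype]; exact_mod_cast hd.trans_lt hn)
  rw [eval_prod, Finset.prod_ne_zero_iff] at hs
  exact ⟨s, fun i => by simpa [p] using hs i (Finset.mem_univ i)⟩

theorem as_add (h2 : (2 : F) = 0) {c c' : F} (h : ∀ y : F, y ^ 2 + y ≠ c)
    (h' : ∀ y : F, y ^ 2 + y ≠ c') : ∃ y : F, y ^ 2 + y = c + c' := by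
  classical
  let φ : F →+ F :=
    { toFun y := y ^ 2 + y
      map_zero' := by simp
      map_add' a b := by linear_combination a * b * h2 }
  have hk : Nat.card φ.ker = 2 := by
    rw [← Nat.card_congr (Equiv.Set.univ _)]
    have : (φ.ker : Set F) = {0, 1} := by
      ext y
      simp only [SetLike.mem_coe, AddMonoidHom.mem_ker, Set.mem_insert_iff, Set.mem_singleton_iff]
      change y ^ 2 + y = 0 ↔ _
      rw [show y ^ 2 + y = y * (y - 1) by linear_combination y * h2, mul_eq_zero, sub_eq_zero]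
    rw [Nat.card_congr (Equiv.Set.univ _)]
    change Nat.card (φ.ker : Set F) = 2
    rw [this, Nat.card_coe_set_eq, Set.ncard_pair zero_ne_one]
  have h1 := φ.ker.card_mul_index
  have h3 := φ.range.card_mul_index
  rw [AddSubgroup.index_ker, hk] at h1
  have h4 : 0 < Nat.card φ.range := Nat.card_pos
  have h5 : φ.range.index = 2 := by nlinarith
  exact (AddSubgroup.add_mem_iff_of_index_two h5).2 (iff_of_false (fun ⟨y, e⟩ => h y e)
    fun ⟨y, e⟩ => h' y e)

theorem inv_mem_sub (Λ : Subring F) {a : F} (h : a ∈ Λ) : a⁻¹ ∈ Λ := by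
  by_cases h0 : a = 0
  · simp [h0]
  have h1 := FiniteField.pow_card_sub_one_eq_one a h0
  have h2 : 2 ≤ Fintype.card F := Fintype.one_lt_card
  rw [show Fintype.card F - 1 = Fintype.card F - 2 + 1 by omega, pow_succ] at h1
  rw [← eq_inv_of_mul_eq_one_left h1]
  exact pow_mem h _

theorem sub_even (h2 : (2 : F) = 0) (Λ : Subring F) {C : F} (h : ∀ y, y ^ 2 + y + C ∈ Λ)
    (hq : 7 ≤ Fintype.card F ∨ ∀ y, y ^ 2 + y + C ≠ 0) (c : F) : c ∈ Λ := by
  by_contra hc
  have hC : C ∈ Λ := by simpa using h 0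
  have h1 : ∀ y, y ^ 2 + y ∈ Λ := fun y => by simpa using Λ.sub_mem (h y) hC
  have h3 : ∀ {a}, a ∉ Λ → ∀ y : F, y ^ 2 + y ≠ a := fun ha y e => ha (e ▸ h1 y)
  rcases hq with hq | hq
  · obtain ⟨y, hy⟩ := avoid ![(1 : F), 1] ![1, 1] ![0, 1] (by simp [Fin.forall_fin_two]) (by omega)
    have a0 : y ^ 2 + y ≠ 0 := by simpa using hy 0
    have a1 : y ^ 2 + y + 1 ≠ 0 := by simpa using hy 1
    obtain ⟨z, hz⟩ := as_add h2 (h3 hc) (h3 (a := (y ^ 2 + y) * c) fun e => hc (by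
      simpa [a0] using Λ.mul_mem (inv_mem_sub Λ (h1 y)) e))
    have := Λ.mul_mem (inv_mem_sub Λ (Λ.add_mem (h1 y) Λ.one_mem)) (h1 z)
    rw [hz, show c + (y ^ 2 + y) * c = (y ^ 2 + y + 1) * c by ring, inv_mul_cancel_left₀ a1] at this
    exact hc this
  · obtain ⟨z, hz⟩ := as_add h2 (h3 hc) (c' := C) fun y e => hq y (by linear_combination e + C * h2)
    exact hc (by simpa [hz] using Λ.sub_mem (h1 z) hC)

end Field

variable {F : Type*} [Field F] [Fintype F] {V : Type*} [AddCommGroup V] [Module F V]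
  [FiniteDimensional F V] {f : Form (Kind.orth F) V} {U : Submodule F V}

local notation:75 g:76 " ⊳ " v:75 => (g : V ≃ₗ[F] V) v

/-- no non-zero singular vector -/
def An (f : Form (Kind.orth F) V) (U : Submodule F V) : Prop := ∀ v ∈ U, f.Q v = 0 → v = 0

/-- a non-degenerate plane whose isometry group is large enough -/
structure Pl (f : Form (Kind.orth F) V) (U : Submodule F V) : Prop where
  nd : f.Nondeg
  two : finrank F U = 2
  disj : Disjoint U (f.perp U)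
  big : 7 ≤ Fintype.card F ∨ (An f U ∧ Fintype.card F ≠ 3)

theorem span_two (h : finrank F U = 2) {a b : V} (ha : a ∈ U) (hb : b ∈ U) (a0 : a ≠ 0)
    (hab : b ∉ F ∙ a) {v : V} (hv : v ∈ U) : ∃ s t : F, s • a + t • b = v := by
  have h2 : LinearIndependent F ![a, b] := (LinearIndependent.pair_iff' a0).2 fun c e =>
    hab (e ▸ Submodule.smul_mem _ _ (Submodule.mem_span_singleton_self a))
  have h4 := finrank_span_eq_card h2
  rw [Matrix.range_cons_cons_empty] at h4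
  have h5 : Submodule.span F {a, b} = U := Submodule.eq_of_le_of_finrank_eq
    (Submodule.span_le.2 (by rintro _ (rfl | rfl) <;> assumption)) (by rw [h4, h]; simp)
  exact Submodule.mem_span_pair.1 (h5 ▸ hv)

theorem Q_line (u b : V) (s : F) : f.Q (u + s • b) = f.Q b * s ^ 2 + f.B u b * s + f.Q u := by
  rw [orth_Q_add, orth_Q_smul, map_smul, smul_eq_mul]; ring

namespace Pl
variable (h : Pl f U)
include h

theorem dual {a : V} (ha : a ∈ U) (a0 : a ≠ 0) : ∃ u ∈ U, f.B a u = 1 := by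
  by_contra! H
  refine a0 (Submodule.disjoint_def.1 h.disj a ha fun u hu => f.eq_zero_symm ?_)
  by_contra e
  exact H ((f.B a u)⁻¹ • u) (U.smul_mem _ hu) (by simp [e])

theorem orth {a : V} (ha : a ∈ U) (qa : f.Q a ≠ 0) : ∃ b ∈ U, f.B a b = 0 ∧ f.Q b ≠ 0 := by
  have a0 : a ≠ 0 := by rintro rfl; simp at qa
  have := f.finrank_le_inf_perp U a
  obtain ⟨b, ⟨h1, h2⟩, h4⟩ := exists_not_mem_of_lt (S := ⊥) (T := U ⊓ f.perp (F ∙ a))
    (by rw [finrank_bot]; have := h.two; omega)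
  replace h2 := f.mem_perp_span_singleton.1 h2
  refine ⟨b, h1, h2, fun e => h4 ?_⟩
  by_cases hb : b ∈ F ∙ a
  · obtain ⟨c, rfl⟩ := Submodule.mem_span_singleton.1 hb
    rw [orth_Q_smul, mul_eq_zero, or_iff_left qa, pow_eq_zero_iff two_ne_zero] at e
    simp [e]
  refine Submodule.disjoint_def.1 h.disj b h1 fun v hv => ?_
  obtain ⟨s, t, rfl⟩ := span_two h.two ha h1 a0 hb hv
  simp [h2, f.B_self_of_Q e]

theorem b1 {a : V} (ha : a ∈ U) (qa : f.Q a ≠ 0) : ∃ u ∈ U, f.Q u ≠ 0 ∧ f.B a u = 1 ∧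
    u ∉ F ∙ a ∧ 2 * f.Q a * f.Q u ≠ 1 := by
  obtain ⟨u, hu, e⟩ := h.dual ha (by rintro rfl; simp at qa)
  obtain ⟨b, hb, e', qb⟩ := h.orth ha qa
  have k : ∀ c : F, c * f.Q a * f.Q b ≠ 0 ∨ c * f.Q a * f.B u b ≠ 0 ∨ c * f.Q a * f.Q u - 1 ≠ 0 :=
    fun c => by by_cases hc : c = 0 <;> simp [hc, qa, qb]
  obtain ⟨s, s1, s2, s3⟩ : ∃ s : F, f.Q (u + s • b) ≠ 0 ∧ 2 * f.Q a * f.Q (u + s • b) ≠ 1 ∧
      4 * f.Q a * f.Q (u + s • b) ≠ 1 := by
    rcases h.big with hq | ⟨hA, hq⟩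
    · obtain ⟨s, hs⟩ := avoid ![f.Q b, 2 * f.Q a * f.Q b, 4 * f.Q a * f.Q b]
        ![f.B u b, 2 * f.Q a * f.B u b, 4 * f.Q a * f.B u b]
        ![f.Q u, 2 * f.Q a * f.Q u - 1, 4 * f.Q a * f.Q u - 1]
        (by intro i; fin_cases i; exacts [.inl qb, k 2, k 4]) (by omega)
      refine ⟨s, ?_, fun e => hs 1 ?_, fun e => hs 2 ?_⟩
      · rw [Q_line]; exact hs 0
      all_goals rw [Q_line] at e; simp; linear_combination e
    have s1 : ∀ s : F, f.Q (u + s • b) ≠ 0 := fun s e => by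
      have := congrArg (f.B a) (hA _ (U.add_mem hu (U.smul_mem s hb)) e)
      simp [*] at this
    by_cases h2 : (2 : F) = 0
    · exact ⟨0, s1 0, by simp [h2], by simp [show (4 : F) = 0 by linear_combination 2 * h2]⟩
    have h3 := two_ne_zero_iff_odd.1 h2
    have h4 : 2 ≤ Fintype.card F := Fintype.one_lt_card
    obtain ⟨s, hs⟩ := avoid ![2 * f.Q a * f.Q b, 4 * f.Q a * f.Q b]
        ![2 * f.Q a * f.B u b, 4 * f.Q a * f.B u b]
        ![2 * f.Q a * f.Q u - 1, 4 * f.Q a * f.Q u - 1]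
        (by intro i; fin_cases i; exacts [k 2, k 4]) (by rw [Nat.odd_iff] at h3; omega)
    refine ⟨s, s1 s, fun e => hs 0 ?_, fun e => hs 1 ?_⟩
    all_goals rw [Q_line] at e; simp; linear_combination e
  have e2 : f.B a (u + s • b) = 1 := by simp [e, e']
  refine ⟨_, U.add_mem hu (U.smul_mem s hb), s1, e2, fun hm => s3 ?_, s2⟩
  obtain ⟨c, hc⟩ := Submodule.mem_span_singleton.1 hm
  rw [← hc, map_smul, orth_B_self, smul_eq_mul] at e2
  rw [← hc, orth_Q_smul]
  linear_combination (2 * c * f.Q a + 1) * e2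

theorem val (c : F) : ∃ v ∈ U, f.Q v = c := f.exists_Q_eq_of_two_le h.disj h.two.ge c

/-- two non-orthogonal independent vectors of the same non-zero length -/
theorem pair : ∃ p ∈ U, ∃ p' ∈ U, f.Q p ≠ 0 ∧ f.Q p' = f.Q p ∧ f.B p p' ≠ 0 ∧ p' ∉ F ∙ p := by
  obtain ⟨a, ha, qa⟩ := h.val 1
  have qa' : f.Q a ≠ 0 := qa ▸ one_ne_zero
  obtain ⟨u, hu, qu, e, n1, n2⟩ := h.b1 ha qa'
  refine ⟨a, ha, f.refl u ⊳ a, (f.refl_mem_stab hu a).1 ha, qa', f.Q_coe_map .., ?_, fun c => n1 ?_⟩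
  · rw [B_refl, f.orth_symm a u, e, orth_B_self]
    intro c
    exact n2 (by field_simp at c; linear_combination c)
  · rw [refl_apply, f.orth_symm a u, e, Submodule.sub_mem_iff_right _
      (Submodule.mem_span_singleton_self a)] at c
    exact (Submodule.smul_mem_iff _ (by simpa using qu)).1 c

theorem nonsing {v : V} (hv : v ∉ f.perp U) : ∃ u ∈ U, f.Q u ≠ 0 ∧ f.B u v ≠ 0 := by
  by_contra! H
  obtain ⟨p, hp, p', hp', a, b, -, c⟩ := h.pair
  refine hv fun u hu => ?_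
  obtain ⟨s, t, rfl⟩ := span_two h.two hp hp' (by rintro rfl; simp at a) c hu
  simp [H p hp a, H p' hp' (b ▸ a)]

theorem tau {u u' w : V} (hu : u ∈ U) (hu' : u' ∈ U) (q : f.Q u ≠ 0) (q' : f.Q u' ≠ 0)
    (hn : u' ∉ F ∙ u) (hw : w ∈ U) : (f.B u u' ^ 2 / (f.Q u * f.Q u')) • w =
      f.refl u ⊳ f.refl u' ⊳ w + f.refl u' ⊳ f.refl u ⊳ w + (w + w) := by
  obtain ⟨s, t, rfl⟩ := span_two h.two hu hu' (by rintro rfl; simp at q) hn hw
  simp only [refl_apply, map_add, map_sub, map_smul, orth_B_self, f.orth_symm u u']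
  match_scalars <;> field_simp <;> ring

/-- an invariant additive subgroup not orthogonal to the plane contains it -/
theorem b3 {W : AddSubgroup V} (hW : ∀ u ∈ U, f.Q u ≠ 0 → ∀ w ∈ W, f.refl u ⊳ w ∈ W) {w₀ : V}
    (h0 : w₀ ∈ W) (hn : w₀ ∉ f.perp U) {v : V} (hv : v ∈ U) : v ∈ W := by
  have key : ∀ u ∈ U, f.Q u ≠ 0 → ∀ w ∈ W, ((f.Q u)⁻¹ * f.B u w) • u ∈ W := fun u hu q w hw => by
    simpa [refl_apply] using W.sub_mem hw (hW u hu q w hw)
  obtain ⟨a, ha, qa, haW⟩ : ∃ a ∈ U, f.Q a ≠ 0 ∧ a ∈ W := by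
    obtain ⟨u, hu, q, e⟩ := h.nonsing hn
    exact ⟨_, U.smul_mem _ hu, by simp [orth_Q_smul, q, e], key u hu q w₀ h0⟩
  let Λ : Subring F :=
    { carrier := {c | ∀ w ∈ W, w ∈ U → c • w ∈ W}
      mul_mem' := fun {a b} ha hb w hw hu => by
        rw [mul_smul]; exact ha _ (hb w hw hu) (U.smul_mem _ hu)
      one_mem' := fun w hw _ => by simpa using hw
      add_mem' := fun {a b} ha hb w hw hu => by
        rw [add_smul]; exact W.add_mem (ha w hw hu) (hb w hw hu)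
      zero_mem' := fun w _ _ => by simp
      neg_mem' := fun {a} ha w hw hu => by rw [neg_smul]; exact W.neg_mem (ha w hw hu) }
  have h1 : ∀ u ∈ U, f.B a u = 1 → f.Q a * f.Q u ∈ Λ := fun u hu e => by
    by_cases q : f.Q u = 0
    · simp [q]
    rw [← inv_inv (_ * _)]
    refine inv_mem_sub Λ ?_
    by_cases hm : u ∈ F ∙ a
    · obtain ⟨c, rfl⟩ := Submodule.mem_span_singleton.1 hm
      rw [map_smul, orth_B_self, smul_eq_mul] at e
      rw [orth_Q_smul, inv_eq_of_mul_eq_one_right (b := ((4 : ℕ) : F)) (by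
        push_cast; linear_combination (2 * c * f.Q a + 1) * e)]
      exact natCast_mem Λ 4
    intro w hw hwU
    have := h.tau ha hu qa q hm hwU
    rw [e, one_pow, one_div] at this
    rw [this]
    exact W.add_mem (W.add_mem (hW a ha qa _ (hW u hu q w hw)) (hW u hu q _ (hW a ha qa w hw)))
      (W.add_mem hw hw)
  have h2 : ∀ c, c ∈ Λ := fun c => by
    obtain ⟨u, hu, e⟩ := h.dual ha (by rintro rfl; simp at qa)
    by_cases h2 : (2 : F) = 0
    · have k : ∀ y, f.Q a * f.Q (u + (y / f.Q a) • a) = y ^ 2 + y + f.Q a * f.Q u := fun y => by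
        rw [Q_line, f.orth_symm a u, e]; field_simp
      have k' : ∀ y : F, f.B a (u + y • a) = 1 := fun y => by simp [e, orth_B_self, h2]
      refine sub_even h2 Λ (C := f.Q a * f.Q u) (fun y => k y ▸ h1 _ (U.add_mem hu
        (U.smul_mem _ ha)) (k' _)) (h.big.imp_right fun hA y e' => ?_) c
      rw [← k, mul_eq_zero, or_iff_right qa] at e'
      simpa [hA.1 _ (U.add_mem hu (U.smul_mem _ ha)) e'] using k' (y / f.Q a)
    obtain ⟨b, hb, e', qb⟩ := h.orth ha qa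
    have k := fun s : F => h1 (u + s • b) (U.add_mem hu (U.smul_mem _ hb)) (by simp [e, e'])
    simp only [Q_line] at k
    convert Λ.add_mem (Λ.sub_mem (Λ.sub_mem (k (c + (2 * f.Q a * f.Q b)⁻¹)) (k c))
      (k (2 * f.Q a * f.Q b)⁻¹)) (k 0) using 1
    field_simp
    ring
  obtain ⟨u, hu, qu, e, n1, -⟩ := h.b1 ha qa
  obtain ⟨s, t, rfl⟩ := span_two h.two ha hu (by rintro rfl; simp at qa) n1 hv
  refine W.add_mem (h2 s a haW ha) ?_
  have := h2 (t * f.Q u) _ (key u hu qu a haW) (U.smul_mem _ hu)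
  rwa [smul_smul, f.orth_symm a u, e, mul_one, mul_inv_cancel_right₀ qu] at this

theorem hyp_val {x y a : V} (hh : f.IsHyp x y) (hx : x ∈ U) (hy : y ∈ U) (ha : a ∈ U)
    (qa : f.Q a ≠ 0) (m : F) : ∃ u ∈ U, f.B a u = 1 ∧ f.Q a * f.Q u = m * (1 - m) := by
  obtain ⟨s, t, rfl⟩ := span_two h.two hx hy hh.x_ne_zero (fun c => by
    obtain ⟨c, rfl⟩ := Submodule.mem_span_singleton.1 c
    simpa [hh.B_xx] using hh.B_xy) ha
  have b2 : f.B y x = 1 := by rw [orth_symm, hh.B_xy]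
  have k : ∀ s t : F, f.Q (s • x + t • y) = s * t := fun s t => by
    simp [orth_Q_add, orth_Q_smul, hh.Q_x, hh.Q_y, hh.B_xy, mul_comm]
  rw [k, mul_ne_zero_iff] at qa
  refine ⟨(m / t) • x + ((1 - m) / s) • y, U.add_mem (U.smul_mem _ hx) (U.smul_mem _ hy), ?_, ?_⟩
  · simp [hh.B_xx, hh.B_yy, hh.B_xy, b2]
    field_simp [qa.1, qa.2]
    ring
  · rw [k, k]
    field_simp [qa.1, qa.2]

end Pl

end CA.H12Dc
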