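import Cfsg.Agent.Lib.Lin.H12Dc1
import Cfsg.Agent.Lib.Lin.MaxC4

/-!
Orthogonal decompositions of a finite quadratic space into planes: reflections.
-/

set_option autoImplicit false
set_option linter.unusedSectionVars false

namespace CA.H12Dc

open Module CA.CForm CA.CForm.Form Polynomial

variable {F : Type*} [Field F] [Fintype F] {V : Type*} [AddCommGroup V] [Module F V]
  [FiniteDimensional F V] {f : Form (Kind.orth F) V} {U : Submodule F V} {ι : Type*} [Fintype ι]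
  [DecidableEq ι] {D : ι → Submodule F V} {X Y : Subgroup f.Isom}

local notation:75 g:76 " ⊳ " v:75 => (g : V ≃ₗ[F] V) v

theorem Pl.sing (h : Pl f U) {a : V} (ha : a ∈ U) (a0 : a ≠ 0) (qa : f.Q a = 0) (c : F) :
    ∃ u ∈ U, f.B a u = 1 ∧ f.Q u = c := by
  obtain ⟨u, hu, e⟩ := h.dual ha a0
  refine ⟨u + (c - f.Q u) • a, U.add_mem hu (U.smul_mem _ ha), by simp [e, f.B_self_of_Q qa], ?_⟩
  rw [Q_line, qa, f.orth_symm a u, e]; ring

theorem Pl.ns (h : Pl f U) {a : V} (ha : a ∈ U) (a0 : a ≠ 0) :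
    ∃ u ∈ U, f.B a u = 1 ∧ f.Q u ≠ 0 := by
  by_cases qa : f.Q a = 0
  · obtain ⟨u, hu, e, e'⟩ := h.sing ha a0 qa 1
    exact ⟨u, hu, e, e' ▸ one_ne_zero⟩
  · obtain ⟨u, hu, e, e', -⟩ := h.b1 ha qa
    exact ⟨u, hu, e', e⟩

theorem not_le_single (h : finrank F U = 2) (c : V) : ¬U ≤ F ∙ c := fun e => by
  have h1 := Submodule.finrank_mono e
  have h2 : finrank F (F ∙ c) ≤ 1 := by simpa using finrank_span_le_card ({c} : Set V)
  omega

theorem comp (hf : f.Nondeg) (h5 : 5 ≤ finrank F V) (hU : Disjoint U (f.perp U))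
    (h2 : 2 ≤ finrank F U) (g : f.Isom) : ∃ k ∈ f.fix (f.perp U), g * k ∈ f.Eich := by
  obtain ⟨l, hl, rfl⟩ := hf.exists_reflProd (good_of_five_le h5) g
  induction l with
  | nil => exact ⟨1, one_mem _, by simp⟩
  | cons w l ih =>
    obtain ⟨k, hk, e⟩ := ih fun v hv => hl v (by simp [hv])
    obtain ⟨u, hu, q⟩ := f.exists_Q_eq_of_two_le hU h2 (f.Q w)
    refine ⟨k * f.refl u, mul_mem hk fun v hv => f.refl_apply_of_B (hv u hu), ?_⟩
    have := mul_mem (f.Eich_normal.conj_mem _ e (f.refl w))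
      (hf.refl_mul_refl_mem h5 (hl w (by simp)) q)
    simpa [mul_assoc] using this

theorem lev_of_refl {v e : V} (hv : f.Q v ≠ 0) (he : f.Q e = 0) (hB : f.B e v = 0)
    (h : f.refl v * f.refl (v + e) ∈ Y) : f.Lev Y e ((f.Q v)⁻¹ • v) := by
  have h1 := f.orth_eichlerCond (f.Q_smul_of_Q he (f.Q v)⁻¹) (w := v) (by simp [hB])
  have h2 : f.Lev Y ((f.Q v)⁻¹ • e) v := ⟨_, h1, by
    rw [f.eichler_eq_refl_mul h1 hv, smul_inv_smul₀ hv]; exact h⟩
  exact h2.smul_left he (inv_ne_zero hv)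

theorem sum_pr (h : f.ODec D) (v : V) : ∑ l, h.pr l v = v :=
  (sub_eq_zero.1 (h.eq_zero fun j => by
    rw [map_sub, map_sum, Finset.sum_eq_single j (fun l _ e => h.pr_of_ne e.symm (h.pr_mem l v))
      (by simp), h.pr_of_mem (h.pr_mem j v), sub_self])).symm

theorem exists_Q_pr (h : f.ODec D) {v : V} (hv : f.Q v ≠ 0) : ∃ j, f.Q (h.pr j v) ≠ 0 := by
  by_contra! H
  exact hv (h.Q_eq_zero H)

theorem act_eq (h : f.ODec D) {g : f.Isom} {i j : ι} (e : ∀ v ∈ D i, g ⊳ v ∈ D j) :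
    f.act g (D i) = D j := Submodule.eq_of_le_of_finrank_eq
  (by rintro _ ⟨v, hv, rfl⟩; exact e v hv) (by rw [finrank_act, h.finrank_eq])

theorem exists_perm (h : f.ODec D) (h0 : ∀ i, D i ≠ ⊥) {g : f.Isom} (hg : f.PermD D g) :
    ∃ π : Equiv.Perm ι, ∀ i v, v ∈ D i ↔ g ⊳ v ∈ D (π i) := by
  choose s hs using hg
  have k : ∀ i v, v ∈ D i ↔ g ⊳ v ∈ D (s i) := fun i v => by
    rw [← act_eq h (hs i), apply_mem_act]
  have : Function.Injective s := fun i j e => by
    obtain ⟨v, hv, v0⟩ := (D i).exists_mem_ne_zero_of_ne_bot (h0 i)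
    exact h.eq_of_mem hv ((k j v).2 (e ▸ hs i v hv)) v0
  exact ⟨.ofBijective s (Finite.injective_iff_bijective.1 this), k⟩

/-- a decomposition into at least five good planes -/
structure Dc (f : Form (Kind.orth F) V) (D : ι → Submodule F V) : Prop where
  od : f.ODec D
  pl : ∀ i, Pl f (D i)
  five : 5 ≤ Fintype.card ι
  dim : 5 ≤ finrank F V

namespace Dc
variable (h : Dc f D)
include h

theorem ne_bot (i : ι) : D i ≠ ⊥ := fun e => by have := (h.pl i).two; rw [e, finrank_bot] at this; omega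

theorem out (s : Finset ι) (hs : s.card ≤ 4) : ∃ k, k ∉ s := by
  by_contra! H
  have := Finset.card_le_card (fun k _ => H k : Finset.univ ⊆ s)
  have := h.five
  rw [Finset.card_univ] at *; omega

theorem inv {g : f.Isom} (hg : f.PermD D g) : f.PermD D g⁻¹ := fun i => by
  obtain ⟨π, e⟩ := exists_perm h.od h.ne_bot hg
  exact ⟨π.symm i, fun v hv => (e _ _).2 (by simpa using hv)⟩

theorem b2 {i j : ι} {a b : V} (ha : a ∈ D i) (hb : b ∈ D j) (a0 : a ≠ 0) (b0 : b ≠ 0) :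
    ∃ u ∈ D i, ∃ u' ∈ D j, f.Q u ≠ 0 ∧ f.Q u + f.Q u' = 0 ∧ f.B a u = 1 ∧ f.B b u' = 1 := by
  by_cases qa : f.Q a = 0
  · obtain ⟨u', hu', e, q⟩ := (h.pl j).ns hb b0
    obtain ⟨u, hu, e', q'⟩ := (h.pl i).sing ha a0 qa (-f.Q u')
    exact ⟨u, hu, u', hu', by simpa [q'], by simp [q'], e', e⟩
  by_cases qb : f.Q b = 0
  · obtain ⟨u', hu', e, q⟩ := (h.pl i).ns ha a0
    obtain ⟨u, hu, e', q'⟩ := (h.pl j).sing hb b0 qb (-f.Q u')
    exact ⟨u', hu', u, hu, q, by simp [q'], e, e'⟩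
  by_cases hA : An f (D i)
  swap
  · have hq := (h.pl i).big.resolve_right fun c => hA c.1
    simp only [An, not_forall] at hA
    obtain ⟨x, hx, qx, x0⟩ := hA
    obtain ⟨y, hy, hh⟩ := h.od.exists_isHyp hx x0 qx
    obtain ⟨x', hx', x0', qx'⟩ := h.od.exists_sing hx x0 qx j
    obtain ⟨y', hy', hh'⟩ := h.od.exists_isHyp hx' x0' qx'
    obtain ⟨l, hl⟩ := avoid ![f.Q a, 0, 1] ![0, f.Q a, -1] ![f.Q b, f.Q b, 0]
      (by intro i; fin_cases i <;> simp [qa]) (by omega)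
    have l0 : f.Q a * l ^ 2 + f.Q b ≠ 0 := by simpa using hl 0
    have l1 : f.Q a * l + f.Q b ≠ 0 := by simpa using hl 1
    have l2 : l ^ 2 + -l ≠ 0 := by simpa using hl 2
    obtain ⟨m, hm⟩ : ∃ m, m * (f.Q a * l ^ 2 + f.Q b) = f.Q a * l + f.Q b := ⟨_, div_mul_cancel₀ _ l0⟩
    obtain ⟨u, hu, e1, e2⟩ := (h.pl i).hyp_val hh hx hy ha qa m
    obtain ⟨u', hu', e3, e4⟩ := (h.pl j).hyp_val hh' hx' hy' hb qb (l * m)
    refine ⟨u, hu, u', hu', fun q => ?_, mul_left_cancel₀ (mul_ne_zero qa qb) ?_, e1, e3⟩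
    · rw [q, mul_zero, eq_comm, mul_eq_zero, sub_eq_zero] at e2
      rcases e2 with rfl | rfl
      · exact l1 (by linear_combination -hm)
      · exact mul_ne_zero qa l2 (by linear_combination hm)
    · linear_combination f.Q b * e2 + f.Q a * e4 - m * hm
  have hA' : An f (D j) := fun x hx qx => by
    by_contra x0
    obtain ⟨x', hx', x0', qx'⟩ := h.od.exists_sing hx x0 qx i
    exact x0' (hA x' hx' qx')
  obtain ⟨u, hu, e⟩ := (h.pl i).dual ha a0
  obtain ⟨u', hu', e'⟩ := (h.pl j).dual hb b0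
  suffices H : ∃ c ∈ D i, ∃ c' ∈ D j, f.B a c = 0 ∧ f.B b c' = 0 ∧ f.Q (u + c) + f.Q (u' + c') = 0 by
    obtain ⟨c, hc, c', hc', e1, e2, e3⟩ := H
    have e4 : f.B a (u + c) = 1 := by simp [e, e1]
    exact ⟨_, (D i).add_mem hu hc, _, (D j).add_mem hu' hc', fun q => by
      simp [hA _ ((D i).add_mem hu hc) q] at e4, e3, e4, by simp [e', e2]⟩
  by_cases h2 : (2 : F) = 0
  · suffices H : ∃ s s' : F, f.Q (u + s • a) + f.Q (u' + s' • b) = 0 by
      obtain ⟨s, s', H⟩ := H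
      exact ⟨_, (D i).smul_mem s ha, _, (D j).smul_mem s' hb, by simp [orth_B_self, h2],
        by simp [orth_B_self, h2], H⟩
    simp only [Q_line, f.orth_symm a u, f.orth_symm b u', e, e']
    by_cases hab : f.Q a + f.Q b = 0
    · have k : ∀ {U : Submodule F V} {a u : V}, An f U → a ∈ U → u ∈ U → f.Q a ≠ 0 → f.B a u = 1 →
          ∀ y : F, y ^ 2 + y ≠ f.Q a * f.Q u := fun {U a u} hU ha hu qa e y c => by
        have := hU _ (U.add_mem hu (U.smul_mem (y / f.Q a) ha)) (mul_left_cancel₀ qa (by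
          rw [Q_line, f.orth_symm a u, e]
          field_simp
          linear_combination c + f.Q a * f.Q u * h2))
        have := congrArg (f.B a) this
        simp [e, orth_B_self, h2] at this
      obtain ⟨y, hy⟩ := as_add h2 (k hA ha hu qa e) (k hA' hb hu' qb e')
      refine ⟨y / f.Q a, 0, mul_left_cancel₀ qa ?_⟩
      field_simp
      linear_combination hy + f.Q u' * hab + f.Q a * f.Q u * h2
    · obtain ⟨s, hs⟩ := isSquare_of_two_eq_zero h2 ((f.Q u + f.Q u') / (f.Q a + f.Q b))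
      rw [div_eq_iff hab] at hs
      exact ⟨s, s, by linear_combination hs + (s + s * s * (f.Q a + f.Q b)) * h2⟩
  obtain ⟨c, hc, e1, q1⟩ := (h.pl i).orth ha qa
  obtain ⟨c', hc', e2, q2⟩ := (h.pl j).orth hb qb
  obtain ⟨s, t, H⟩ := FiniteField.exists_root_sum_quadratic (degree_quadratic (b := f.B u c)
    (c := f.Q u) q1) (degree_quadratic (b := f.B u' c') (c := f.Q u') q2)
    (Nat.odd_iff.1 (two_ne_zero_iff_odd.1 h2))
  exact ⟨_, (D i).smul_mem s hc, _, (D j).smul_mem t hc', by simp [e1], by simp [e2], by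
    simpa [Q_line] using H⟩

/-- a rotation permuting the planes is supported on one of them -/
theorem rot {p p' : V} (q : f.Q p ≠ 0) (q' : f.Q p' = f.Q p) (hB : f.B p p' ≠ 0) (hn : p' ∉ F ∙ p)
    (hρ : f.PermD D (f.refl p * f.refl p')) : ∃ j, p ∈ D j ∧ p' ∈ D j := by
  have p0 : p ≠ 0 := by rintro rfl; simp at q
  have m1 : p ∈ Submodule.span F {p, p'} := Submodule.subset_span (by simp)
  have m2 : p' ∈ Submodule.span F {p, p'} := Submodule.subset_span (by simp)
  have ei : (f.refl p * f.refl p')⁻¹ = f.refl p' * f.refl p := by rw [mul_inv_rev, refl_inv, refl_inv]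
  have F1 : ∀ v, (f.refl p * f.refl p' : f.Isom) ⊳ v - v ∈ Submodule.span F {p, p'} ∧
      ((f.refl p * f.refl p')⁻¹ : f.Isom) ⊳ v - v ∈ Submodule.span F {p, p'} := fun v => by
    rw [ei, isom_mul_apply, isom_mul_apply, f.refl_apply p, f.refl_apply p' v, f.refl_apply p',
      f.refl_apply p v, sub_right_comm, sub_sub_cancel_left, sub_right_comm, sub_sub_cancel_left]
    exact ⟨sub_mem (neg_mem (Submodule.smul_mem _ _ m2)) (Submodule.smul_mem _ _ m1),
      sub_mem (neg_mem (Submodule.smul_mem _ _ m1)) (Submodule.smul_mem _ _ m2)⟩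
  have F2 : ∀ v, (f.refl p * f.refl p' : f.Isom) ⊳ v = ((f.refl p * f.refl p')⁻¹ : f.Isom) ⊳ v →
      f.B p v = 0 := fun v e => by
    by_contra c
    refine hn (Submodule.mem_span_singleton.2 ⟨f.B p' v / f.B p v, ?_⟩)
    rw [ei] at e
    simp only [isom_mul_apply, refl_apply, map_sub, map_smul, q', f.orth_symm p p'] at e
    refine smul_right_injective V (mul_ne_zero (mul_ne_zero (pow_ne_zero 2 (inv_ne_zero q)) hB) c) ?_
    simp only [smul_smul]
    rw [mul_assoc, mul_div_cancel₀ _ c]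
    linear_combination (norm := module) e
  obtain ⟨j, hj⟩ : ∃ j, h.od.pr j p ≠ 0 := by
    by_contra! H
    exact p0 (h.od.eq_zero H)
  refine ⟨j, by_contra fun hc => hj (h.od.pr_of_perp fun v hv => f.eq_zero_symm (F2 v ?_))⟩
  obtain ⟨π, e⟩ := exists_perm h.od h.ne_bot hρ
  generalize f.refl p * f.refl p' = ρ at *
  have e' : ∀ v ∈ D j, (ρ⁻¹ : f.Isom) ⊳ v ∈ D (π.symm j) := fun v hv => (e _ _).2 (by simpa using hv)
  by_cases hm : π j = j
  · have hm' : π.symm j = j := π.symm_apply_eq.2 hm.symm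
    obtain ⟨c, hc'⟩ : ∃ c, Submodule.span F {p, p'} ⊓ D j ≤ F ∙ c := by
      have h1 := Submodule.finrank_lt_finrank_of_lt (lt_of_le_of_ne inf_le_left fun e :
        Submodule.span F {p, p'} ⊓ D j = _ => hc ⟨(e.ge m1).2, (e.ge m2).2⟩)
      have h2 := finrank_span_pair_le (F := F) p p'
      obtain ⟨c, hc⟩ := finrank_le_one_iff.1 (show finrank F
        (Submodule.span F {p, p'} ⊓ D j : Submodule F V) ≤ 1 by omega)
      refine ⟨c, fun v hv => ?_⟩
      obtain ⟨a, ha⟩ := hc ⟨v, hv⟩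
      exact Submodule.mem_span_singleton.2 ⟨a, congrArg Subtype.val ha⟩
    have k : ∀ v ∈ D j, ∃ s t : F, ρ ⊳ v = v + s • c ∧ (ρ⁻¹ : f.Isom) ⊳ v = v + t • c := fun v hv => by
      obtain ⟨s, hs⟩ := Submodule.mem_span_singleton.1
        (hc' ⟨(F1 v).1, sub_mem (hm ▸ (e j v).1 hv) hv⟩)
      obtain ⟨t, ht⟩ := Submodule.mem_span_singleton.1 (hc' ⟨(F1 v).2, sub_mem (hm' ▸ e' v hv) hv⟩)
      exact ⟨s, t, by rw [hs]; abel, by rw [ht]; abel⟩
    have k1 : ∀ v ∈ D j, f.B c v ≠ 0 → ρ ⊳ v = (ρ⁻¹ : f.Isom) ⊳ v := fun v hv c0 => by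
      obtain ⟨s, t, hs, ht⟩ := k v hv
      have := f.B_coe_map ρ v ((ρ⁻¹ : f.Isom) ⊳ v)
      rw [isom_apply_inv_apply, hs, ht] at this
      simp only [map_add, B_add_left, orth_B_smul_left, map_smul, smul_eq_mul,
        f.orth_symm c v, add_right_inj] at this
      rw [hs, ht, mul_right_cancel₀ c0 this]
    by_cases c0 : f.B c v = 0
    swap
    · exact k1 v hv c0
    by_cases c1 : c ∈ f.perp (D j)
    · obtain ⟨s, t, hs, ht⟩ := k v hv
      have z : ∀ {s : F} {w}, w ∈ D j → w = v + s • c → w = v := fun {s w} hw e => by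
        rw [e, Submodule.disjoint_def.1 (h.od.disj j) (s • c) (((D j).add_mem_iff_right hv).1
          (e ▸ hw)) (Submodule.smul_mem _ _ c1), add_zero]
      rw [z (hm ▸ (e j v).1 hv) hs, z (hm' ▸ e' v hv) ht]
    rw [mem_perp'] at c1
    push Not at c1
    obtain ⟨w, hw, c1⟩ := c1
    have := k1 (v + w) ((D j).add_mem hv hw) (by simpa [c0])
    rwa [map_add, map_add, k1 w hw c1, add_left_inj] at this
  · have hm' : π.symm j ≠ j := fun c => hm (π.symm_apply_eq.1 c).symm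
    have k : D j ≤ Submodule.span F {h.od.pr j p, h.od.pr j p'} := fun w hw => by
      obtain ⟨s, t, e1⟩ := Submodule.mem_span_pair.1 (F1 w).1
      refine Submodule.mem_span_pair.2 ⟨-s, -t, ?_⟩
      have := congrArg (h.od.pr j) e1
      rw [map_sub, h.od.pr_of_ne (Ne.symm hm) ((e j w).1 hw), h.od.pr_of_mem hw, map_add, map_smul,
        map_smul] at this
      linear_combination (norm := module) -this
    obtain ⟨s, t, e1⟩ := Submodule.mem_span_pair.1 (sub_mem (F1 v).1 (F1 v).2)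
    rw [sub_sub_sub_cancel_right] at e1
    have e2 := congrArg (h.od.pr j) e1
    rw [map_sub, h.od.pr_of_ne (Ne.symm hm) ((e j v).1 hv), h.od.pr_of_ne hm'.symm (e' v hv),
      map_add, map_smul, map_smul, sub_zero] at e2
    have k2 : ∀ {s t : F} {a b : V}, s • a + t • b = 0 → D j ≤ Submodule.span F {a, b} → s = 0 :=
      fun {s t a b} e k => by
        by_contra s0
        refine not_le_single (h.pl j).two b (k.trans (Submodule.span_le.2 ?_))
        rintro _ (rfl | rfl)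
        · exact (Submodule.smul_mem_iff _ s0).1 (eq_neg_of_add_eq_zero_left e ▸
            neg_mem (Submodule.smul_mem _ _ (Submodule.mem_span_singleton_self _)))
        · exact Submodule.mem_span_singleton_self _
    rw [← sub_eq_zero, ← e1, k2 e2 k, k2 ((add_comm _ _).trans e2) (Set.pair_comm _ _ ▸ k)]
    simp

end Dc

end CA.H12Dc
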