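import Cfsg.Agent.Lib.Lin.H12Dc2

/-!
Orthogonal decompositions into planes: overgroups of the stabiliser, elements fixing a plane.
-/

set_option autoImplicit false
set_option linter.unusedSectionVars false

namespace CA.H12Dc

open Module CA.CForm CA.CForm.Form

variable {F : Type*} [Field F] [Fintype F] {V : Type*} [AddCommGroup V] [Module F V]
  [FiniteDimensional F V] {f : Form (Kind.orth F) V} {U : Submodule F V} {ι : Type*} [Fintype ι]
  [DecidableEq ι] {D : ι → Submodule F V} {X Y : Subgroup f.Isom}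

local notation:75 g:76 " ⊳ " v:75 => (g : V ≃ₗ[F] V) v

/-- the level at a singular vector -/
def levA (Y : Subgroup f.Isom) {x : V} (hx : f.Q x = 0) : AddSubgroup V where
  carrier := {w | f.Lev Y x w}
  zero_mem' := lev_zero hx
  add_mem' := Lev.add
  neg_mem' := Lev.neg

/-- a singular vector supported on two planes with a third plane in its level -/
def Good (Y : Subgroup f.Isom) (D : ι → Submodule F V) : Prop := ∃ k l m x, k ≠ l ∧ m ≠ k ∧ m ≠ l ∧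
  x ≠ 0 ∧ f.Q x = 0 ∧ x ∈ D k ⊔ D l ∧ ∀ w ∈ D m, f.Lev Y x w

theorem Good.mono (h : Good Y D) (e : ∀ g ∈ Y, g ∈ f.Eich → g ∈ X) : Good X D := by
  obtain ⟨k, l, m, x, a, b, c, d, q, hx, H⟩ := h
  refine ⟨k, l, m, x, a, b, c, d, q, hx, fun w hw => ?_⟩
  obtain ⟨c, hc, hm⟩ := H w hw
  exact ⟨c, hc, e _ hm (f.eichler_mem_Eich _ _ _ _)⟩

theorem fix_of_sup {g : f.Isom} {U' : Submodule F V} (h : g ∈ f.fix U) (h' : g ∈ f.fix U') {x : V}
    (hx : x ∈ U ⊔ U') : g ⊳ x = x := f.mem_fix_sup.2 ⟨h, h'⟩ x hx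

theorem pr_sup (h : f.ODec D) {k l : ι} {x : V} (hx : x ∈ D k ⊔ D l) (x0 : x ≠ 0) :
    ∃ j, (j = k ∨ j = l) ∧ h.pr j x ≠ 0 := by
  by_contra! H
  refine x0 (h.eq_zero fun j => ?_)
  by_cases e : j = k ∨ j = l
  · exact H j e
  rw [not_or] at e
  exact h.pr_of_perp (sup_le (h.orth j k e.1) (h.orth j l e.2) hx)

namespace Dc
variable (h : Dc f D)
include h

section
variable {p : ι → Prop} (rf : ∀ i, p i → ∀ u ∈ D i, f.Q u ≠ 0 → f.refl u ∈ Y)
include rf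

theorem three {v : V} (q : f.Q v ≠ 0) (hv : f.refl v ∈ Y) {k l m : ι} (pk : p k) (pl : p l)
    (pm : p m) (kl : k ≠ l) (mk : m ≠ k) (ml : m ≠ l) (a : h.od.pr k v ≠ 0) (b : h.od.pr l v ≠ 0)
    (c : h.od.pr m v ≠ 0) : Good Y D := by
  obtain ⟨u, hu, u', hu', q1, q2, e1, e2⟩ := h.b2 (h.od.pr_mem k v) (h.od.pr_mem l v) a b
  rw [h.od.B_pr' hu] at e1
  rw [h.od.B_pr' hu'] at e2
  have e3 : f.B u u' = 0 := h.od.orth k l kl hu' u hu
  have q3 : f.Q u' = -f.Q u := by linear_combination q2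
  have hg := mul_mem (rf k pk u hu q1) (rf l pl u' hu' (by simpa [q3]))
  have e4 : (f.refl u * f.refl u' : f.Isom) ⊳ v = v + (f.Q u)⁻¹ • (u' - u) := by
    simp only [isom_mul_apply, refl_apply, map_sub, map_smul, f.orth_symm v, e1, e2, e3, q3]
    match_scalars <;> field_simp
    ring
  have e5 : f.Q ((f.Q u)⁻¹ • (u' - u)) = 0 := by
    rw [orth_Q_smul, Q_sub, q3, f.eq_zero_symm e3]; simp
  have e6 := lev_of_refl (Y := Y) q e5 (by simp [f.orth_symm v, e1, e2])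
    (mul_mem hv (by rw [← e4, ← conj_refl]; exact mul_mem (mul_mem hg hv) (inv_mem hg)))
  have hx : (f.Q u)⁻¹ • (u' - u) ∈ D k ⊔ D l := Submodule.smul_mem _ _
    (sub_mem (Submodule.mem_sup_right hu') (Submodule.mem_sup_left hu))
  refine ⟨k, l, m, _, kl, mk, ml, smul_ne_zero (inv_ne_zero q1) fun e => q1 ?_, e5, hx,
    fun w hw => (h.pl m).b3 (W := levA Y e5) (fun z hz qz w hw => Lev.fix hw (rf m pm z hz qz)
      (f.refl_apply_of_B (sup_le (h.od.orth m k mk) (h.od.orth m l ml) hx z hz))) e6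
      (fun e => c ?_) hw⟩
  · rw [Submodule.disjoint_def.1 (h.od.disj k) u hu (sub_eq_zero.1 e ▸ h.od.orth k l kl hu'), Q_zero]
  · exact h.od.pr_of_perp ((Submodule.smul_mem_iff _ (inv_ne_zero q)).1 e)

theorem step (sw : ∀ i j, p i → p j → i ≠ j → ∃ σ ∈ Y, (∀ v ∈ D i, σ ⊳ v ∈ D j) ∧
      ∀ l, l ≠ i → l ≠ j → σ ∈ f.fix (D l)) (th : ∀ i j, ∃ m, p m ∧ m ≠ i ∧ m ≠ j)
    {v : V} (q : f.Q v ≠ 0) (hv : f.refl v ∈ Y) (hp : ∀ l, h.od.pr l v ≠ 0 → p l) :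
    (∃ j, v ∈ D j) ∨ Good Y D := by
  obtain ⟨j, hj⟩ := exists_Q_pr h.od q
  have j0 : h.od.pr j v ≠ 0 := fun e => by simp [e] at hj
  refine or_iff_not_imp_left.2 fun hn => ?_
  obtain ⟨k, kj, k0⟩ := h.od.exists_pr_ne fun e => hn ⟨j, e⟩
  by_cases H : ∃ m, m ≠ j ∧ m ≠ k ∧ h.od.pr m v ≠ 0
  · obtain ⟨m, a, b, c⟩ := H
    exact h.three rf q hv (hp _ j0) (hp _ k0) (hp _ c) kj.symm a b j0 k0 c
  push Not at H
  have e : v = h.od.pr j v + h.od.pr k v := by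
    conv_lhs => rw [← sum_pr h.od v]
    exact Fintype.sum_eq_add j k kj.symm fun m hm => H m hm.1 hm.2
  obtain ⟨m, pm, mj, mk⟩ := th j k
  obtain ⟨σ, hσ, s1, s2⟩ := sw k m (hp _ k0) pm mk.symm
  have ha := h.od.pr_mem j v
  have hb := h.od.pr_mem k v
  obtain ⟨u, hu, qu, e1, n1, n2⟩ := (h.pl j).b1 ha hj
  have hg := mul_mem (mul_mem hv (rf j (hp _ j0) u hu qu)) hσ
  have pj := hp _ j0
  have pk := hp _ k0
  generalize h.od.pr j v = a at *
  generalize h.od.pr k v = b at *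
  have hc := s1 b hb
  have c0 : σ ⊳ b ≠ 0 := by simpa using k0
  have e2 : σ ⊳ v = a + σ ⊳ b := by rw [e, map_add, s2 j kj.symm mj.symm a ha]
  generalize σ ⊳ b = c at *
  have o1 : f.B u c = 0 := h.od.orth j m mj.symm hc u hu
  have o2 : f.B a c = 0 := h.od.orth j m mj.symm hc a ha
  have o3 : f.B b c = 0 := h.od.orth k m mk.symm hc b hb
  have o4 : f.B b a = 0 := h.od.orth k j kj ha b hb
  have o5 : f.B b u = 0 := h.od.orth k j kj hu b hb
  obtain ⟨β, hβ⟩ : ∃ β, β = (f.Q v)⁻¹ * (2 * f.Q a - (f.Q u)⁻¹) := ⟨_, rfl⟩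
  have β0 : β ≠ 0 := hβ ▸ mul_ne_zero (inv_ne_zero q) fun c => n2 (by
    field_simp at c; linear_combination c)
  have e3 : (f.refl v * f.refl u * σ : f.Isom) ⊳ v =
      ((1 - β) • a - (f.Q u)⁻¹ • u) + (-β) • b + c := by
    rw [isom_mul_apply, isom_mul_apply, e2, f.refl_apply u, f.refl_apply v]
    have : f.B v (a + c - ((f.Q u)⁻¹ * f.B u (a + c)) • u) = 2 * f.Q a - (f.Q u)⁻¹ := by
      simp [e, o1, o2, o3, o4, o5, e1, f.orth_symm a u, orth_B_self]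
    rw [this, ← hβ, map_add, o1, f.orth_symm a u, e1]
    conv_lhs => rw [e]
    module
  have m1 : (1 - β) • a - (f.Q u)⁻¹ • u ∈ D j := sub_mem ((D j).smul_mem _ ha) ((D j).smul_mem _ hu)
  have m2 := (D k).smul_mem (-β) hb
  refine h.three rf (v := (f.refl v * f.refl u * σ : f.Isom) ⊳ v) (by rwa [Q_coe_map])
    (by rw [← conj_refl]; exact mul_mem (mul_mem hg hv) (inv_mem hg)) pj pk pm kj.symm mj mk ?_ ?_ ?_
  all_goals rw [e3, map_add, map_add]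
  · rw [h.od.pr_of_mem m1, h.od.pr_of_ne kj.symm m2, h.od.pr_of_ne mj.symm hc, add_zero, add_zero]
    exact fun c => n1 ((Submodule.smul_mem_iff _ (inv_ne_zero qu)).1 (sub_eq_zero.1 c ▸
      Submodule.smul_mem _ _ (Submodule.mem_span_singleton_self a)))
  · rw [h.od.pr_of_mem m2, h.od.pr_of_ne kj m1, h.od.pr_of_ne mk.symm hc, add_zero, zero_add]
    exact smul_ne_zero (neg_ne_zero.2 β0) k0
  · rwa [h.od.pr_of_mem hc, h.od.pr_of_ne mj m1, h.od.pr_of_ne mk m2, add_zero, zero_add]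

end

variable (hX : ∀ g ∈ f.Eich, f.PermD D g → g ∈ X)
include hX

theorem cmp {g : f.Isom} (hg : f.PermD D g) (l : ι) : ∃ k ∈ f.fix (f.perp (D l)), g * k ∈ X := by
  obtain ⟨k, hk, e⟩ := comp h.od.nondeg h.dim (h.od.disj l) (h.pl l).two.ge g
  exact ⟨k, hk, hX _ e (hg.mul (h.od.permD_of_fix hk))⟩

theorem swap {i j : ι} (ij : i ≠ j) : ∃ σ ∈ X, f.PermD D σ ∧ (∀ v ∈ D i, σ ⊳ v ∈ D j) ∧
    (∀ v ∈ D j, σ ⊳ v ∈ D i) ∧ ∀ l, l ≠ i → l ≠ j → σ ∈ f.fix (D l) := by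
  obtain ⟨g, h1, h2, h3⟩ := h.od.exists_swap ij
  have h4 : ∀ l, l ≠ i → l ≠ j → g ∈ f.fix (D l) := fun l a b v hv =>
    h3 v (h.od.orth i l a.symm hv) (h.od.orth j l b.symm hv)
  have h5 : f.PermD D g := fun l => by
    by_cases a : l = i
    · exact ⟨j, a ▸ h1⟩
    by_cases b : l = j
    · exact ⟨i, b ▸ h2⟩
    exact ⟨l, fun v hv => by rwa [h4 l a b v hv]⟩
  obtain ⟨k, hk, e⟩ := h.cmp hX h5 i
  refine ⟨_, e, h5.mul (h.od.permD_of_fix hk), fun v hv => h1 _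
    ((h.od.nondeg.mem_stab_of_fix_perp le_rfl hk v).1 hv), fun v hv => ?_, fun l a b =>
      mul_mem (h4 l a b) (f.fix_anti (h.od.orth i l a.symm) hk)⟩
  rw [isom_mul_apply, hk v (h.od.orth i j ij hv)]
  exact h2 v hv

theorem good_le (H : Good X D) : f.Eich ≤ X := by
  obtain ⟨k, l, m, x, kl, mk, ml, x0, q, hx, H⟩ := H
  have H1 : ∀ m, m ≠ k → m ≠ l → ∀ w ∈ D m, f.Lev X x w := fun m' a b w hw => by
    by_cases e : m' = m
    · exact H w (e ▸ hw)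
    obtain ⟨σ, hσ, -, s1, -, s2⟩ := h.swap hX e
    simpa using (H _ (s1 w hw)).fix (inv_mem hσ) (fix_of_sup (inv_mem (s2 k a.symm mk.symm))
      (inv_mem (s2 l b.symm ml.symm)) hx)
  obtain ⟨b, hb⟩ := h.out {k, l, m} (Finset.card_le_three.trans (by omega))
  simp only [Finset.mem_insert, Finset.mem_singleton, not_or] at hb
  obtain ⟨σ, hσ, -, s1, s2, s3⟩ := h.swap hX mk
  obtain ⟨τ, hτ, -, t1, t2, t3⟩ := h.swap hX hb.2.1
  have hg := mul_mem hσ hτ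
  have sup : ∀ {a b : ι} {y : V} (qy : f.Q y = 0), (∀ w ∈ D a, f.Lev X y w) →
      (∀ w ∈ D b, f.Lev X y w) → ∀ w ∈ D a ⊔ D b, f.Lev X y w := fun _ h1 h2 w hw => by
    obtain ⟨s, hs, t, ht, rfl⟩ := Submodule.mem_sup.1 hw
    exact (h1 s hs).add (h2 t ht)
  have hy : ((σ * τ)⁻¹ : f.Isom) ⊳ x ∈ D m ⊔ D b := by
    obtain ⟨s, hs, t, ht, rfl⟩ := Submodule.mem_sup.1 hx
    rw [map_add]
    refine add_mem (Submodule.mem_sup_left (f.mem_act.1 ?_)) (Submodule.mem_sup_right (f.mem_act.1 ?_))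
    · rwa [act_eq h.od (j := k) fun v hv => by
        rw [isom_mul_apply, t3 m (Ne.symm hb.2.2) ml v hv]; exact s1 v hv]
    · rwa [act_eq h.od (j := l) fun v hv => by
        rw [isom_mul_apply, s3 l ml.symm kl.symm _ (t1 v hv)]; exact t1 v hv]
  have qy : f.Q (((σ * τ)⁻¹ : f.Isom) ⊳ x) = 0 := by rwa [Q_coe_map]
  have H2 : ∀ w ∈ D k ⊔ D l, f.Lev X (((σ * τ)⁻¹ : f.Isom) ⊳ x) w := sup qy (fun w hw => by
      simpa using (H ((σ * τ : f.Isom) ⊳ w) (by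
        rw [isom_mul_apply, t3 k (Ne.symm hb.1) kl w hw]; exact s2 w hw)).map (inv_mem hg))
    fun w hw => by
      simpa using (H1 b hb.1 hb.2.1 ((σ * τ : f.Isom) ⊳ w) (by
        rw [isom_mul_apply, s3 b hb.2.2 hb.1 _ (t2 w hw)]; exact t2 w hw)).map (inv_mem hg)
  have y0 : ((σ * τ)⁻¹ : f.Isom) ⊳ x ≠ 0 := by simpa using x0
  generalize ((σ * τ)⁻¹ : f.Isom) ⊳ x = y at hy qy H2 y0
  have H3 := sup q H (H1 b hb.1 hb.2.1)
  have H4 : ∀ u ∈ D k ⊔ D l, f.B x u = 0 → f.Lev X x u := fun u hu e => by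
    obtain ⟨j, hj, j0⟩ := pr_sup h.od hy y0
    obtain ⟨w, hw, e1⟩ := (h.pl j).dual (h.od.pr_mem j y) j0
    rw [h.od.B_pr' hw] at e1
    have hw' : w ∈ D m ⊔ D b := by
      rcases hj with rfl | rfl
      exacts [Submodule.mem_sup_left hw, Submodule.mem_sup_right hw]
    obtain ⟨c, hc, hE⟩ := H2 u hu
    have := (H3 w hw').fix hE (by
      rw [eichler_apply, f.eq_zero_symm e, f.eq_zero_symm (H3 y hy).B_eq]; simp)
    rw [eichler_apply, e1, one_smul] at this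
    convert (this.add (H3 _ (Submodule.smul_mem _ ((Kind.orth F).ε * (f.B u w + c * 1)) hy))).sub
      (H3 w hw') using 1
    abel
  obtain ⟨j, hj, j0⟩ := pr_sup h.od hx x0
  obtain ⟨u, hu, qu, e⟩ := (h.pl j).nonsing fun c => j0 (h.od.pr_of_perp c)
  obtain ⟨t, ht, hg⟩ := h.cmp hX (h.od.permD_of_fix (i := j) (g := f.refl u) fun v hv =>
    f.refl_apply_of_B (hv u hu)) m
  refine h.od.nondeg.Eich_le_of_Qgrp' (.inl (by have := h.dim; omega)) q
    (f.Qgrp_le fun w _ hc => Lev.eichler_mem ?_ hc) hg ?_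
  · have h1 : w - (h.od.pr k w + h.od.pr l w) ∈ levA X q := by
      have := Finset.sum_sdiff (f := fun i => h.od.pr i w) (Finset.subset_univ {k, l})
      rw [Finset.sum_pair kl, sum_pr] at this
      rw [← eq_sub_of_add_eq this]
      exact sum_mem fun i hi => by
        simp only [Finset.mem_sdiff, Finset.mem_insert, Finset.mem_singleton, not_or] at hi
        exact H1 i hi.2.1 hi.2.2 _ (h.od.pr_mem i w)
    simpa using (H4 (h.od.pr k w + h.od.pr l w) (add_mem (Submodule.mem_sup_left (h.od.pr_mem k w))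
      (Submodule.mem_sup_right (h.od.pr_mem l w))) (by
        have := Lev.B_eq h1
        rwa [map_sub, hc.B_pw, zero_sub, neg_eq_zero] at this)).add h1
  · rw [isom_mul_apply, ht x (sup_le (h.od.orth m k mk) (h.od.orth m l ml) hx), B_refl,
      f.B_self_of_Q q]
    simp [qu, e]

variable (hX' : X ≤ f.Eich) (hn : ¬f.Eich ≤ X)
include hX' hn

theorem perm_of_refl {p : ι → Prop} (rf : ∀ i, p i → ∀ u ∈ D i, f.Q u ≠ 0 → f.refl u ∈ Y)
    (sw : ∀ i j, p i → p j → i ≠ j → ∀ σ ∈ X, (∀ l, l ≠ i → l ≠ j → σ ∈ f.fix (D l)) → σ ∈ Y)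
    (th : ∀ i j, ∃ m, p m ∧ m ≠ i ∧ m ≠ j) (e : ∀ g ∈ Y, g ∈ f.Eich → g ∈ X) {g : f.Isom}
    (hg : g ∈ Y) {i : ι} (hi : p i) (hp : ∀ v ∈ D i, ∀ l, h.od.pr l (g ⊳ v) ≠ 0 → p l) :
    ∃ j, ∀ v ∈ D i, g ⊳ v ∈ D j := by
  have key : ∀ v ∈ D i, f.Q v ≠ 0 → ∃ j, g ⊳ v ∈ D j := fun v hv q =>
    (h.step rf (fun i j a b c => by
      obtain ⟨σ, hσ, -, s1, -, s2⟩ := h.swap hX c
      exact ⟨σ, sw i j a b c σ hσ s2, s1, s2⟩) th (by rwa [Q_coe_map]) (by
        rw [← conj_refl]; exact mul_mem (mul_mem hg (rf i hi v hv q)) (inv_mem hg))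
      (hp v hv)).resolve_right fun c => hn (h.good_le hX (c.mono e))
  obtain ⟨a, ha, b, hb, q, q', n1, n2⟩ := (h.pl i).pair
  obtain ⟨j, hj⟩ := key a ha q
  obtain ⟨k, hk⟩ := key b hb (q' ▸ q)
  obtain rfl : j = k := by
    by_contra c
    exact n1 (by simpa using h.od.orth j k c hk _ hj)
  refine ⟨j, fun v hv => ?_⟩
  obtain ⟨s, t, rfl⟩ := span_two (h.pl i).two ha hb (by rintro rfl; simp at q) n2 hv
  rw [map_add, map_smul, map_smul]
  exact add_mem ((D j).smul_mem _ hj) ((D j).smul_mem _ hk)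

theorem perm_of_stab {g : f.Isom} (hg : g ∈ X) {o : ι} (hs : g ∈ f.stab (D o)) : f.PermD D g := by
  let Y : Subgroup f.Isom :=
    { carrier := {y | ∃ g ∈ X, g ∈ f.stab (D o) ∧ ∀ v ∈ f.perp (D o), y ⊳ v = g ⊳ v}
      one_mem' := ⟨1, one_mem _, one_mem _, fun _ _ => rfl⟩
      mul_mem' := fun ⟨a, ha, ha', e⟩ ⟨b, hb, hb', e'⟩ => ⟨a * b, mul_mem ha hb, mul_mem ha' hb',
        fun v hv => by
          rw [isom_mul_apply, isom_mul_apply, e' v hv, e _ ((f.stab_le_stab_perp _ hb' v).1 hv)]⟩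
      inv_mem' := fun {y} ⟨a, ha, ha', e⟩ => ⟨a⁻¹, inv_mem ha, inv_mem ha', fun v hv => by
        have := e _ ((f.stab_le_stab_perp _ (inv_mem ha') v).1 hv)
        rw [isom_apply_inv_apply] at this
        conv_lhs => rw [← this, isom_inv_apply_apply]⟩ }
  intro i
  by_cases io : i = o
  · exact ⟨o, fun v hv => (hs v).1 (io ▸ hv)⟩
  refine h.perm_of_refl hX hX' hn (Y := Y) (p := (· ≠ o)) (fun i io u hu q => ?_)
    (fun i j a b _ σ hσ s => ⟨σ, hσ, f.fix_le_stab _ (s o a.symm b.symm), fun _ _ => rfl⟩)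
    (fun i j => ?_) (fun y ⟨a, ha, _, e⟩ hy => ?_) ⟨g, hg, hs, fun _ _ => rfl⟩ io
    fun v hv l c e => c (e ▸ h.od.pr_of_perp ((f.stab_le_stab_perp _ hs v).1
      (h.od.orth o i (Ne.symm io) hv)))
  · obtain ⟨t, ht, e⟩ := h.cmp hX (h.od.permD_of_fix (i := i) (g := f.refl u) fun v hv =>
      f.refl_apply_of_B (hv u hu)) o
    exact ⟨_, e, mul_mem (f.fix_le_stab _ fun v hv => f.refl_apply_of_B (h.od.orth i o io hv u hu))
      (h.od.nondeg.mem_stab_of_fix_perp le_rfl ht), fun v hv => by rw [isom_mul_apply, ht v hv]⟩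
  · obtain ⟨m, hm⟩ := h.out {o, i, j} (Finset.card_le_three.trans (by omega))
    exact ⟨m, by simpa using hm⟩
  · have := h.od.mem_of_fix hX (i := o) (g := a⁻¹ * y) (fun v hv => by
      rw [isom_mul_apply, e v hv, isom_inv_apply_apply]) (mul_mem (inv_mem (hX' ha)) hy)
    simpa using mul_mem ha this

theorem perm_of_map {g : f.Isom} (hg : g ∈ X) {i j : ι} (e : ∀ v ∈ D i, g ⊳ v ∈ D j) :
    f.PermD D g := by
  by_cases ij : j = i
  · exact h.perm_of_stab hX hX' hn hg (f.mem_stab_of_le (ij ▸ e))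
  obtain ⟨σ, hσ, s0, s1, -⟩ := h.swap hX ij
  simpa using (h.inv s0).mul (h.perm_of_stab hX hX' hn (mul_mem hσ hg)
    (f.mem_stab_of_le fun v hv => s1 _ (e v hv)))

/-- a conjugate of a rotation of a plane which permutes the planes -/
theorem perm_of_rot {g : f.Isom} (hg : g ∈ X) {i : ι} {a b : V} (ha : a ∈ D i) (hb : b ∈ D i)
    (q : f.Q a ≠ 0) (q' : f.Q b = f.Q a) (n1 : f.B a b ≠ 0) (n2 : b ∉ F ∙ a)
    (H : f.PermD D (f.refl (g ⊳ a) * f.refl (g ⊳ b))) : f.PermD D g := by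
  obtain ⟨j, h1, h2⟩ := h.rot (by rwa [Q_coe_map]) (by rwa [Q_coe_map, Q_coe_map])
    (by rwa [B_coe_map]) (fun c => n2 (by
      obtain ⟨s, hs⟩ := Submodule.mem_span_singleton.1 c
      exact Submodule.mem_span_singleton.2 ⟨s, g.1.injective (by rwa [map_smul])⟩)) H
  refine h.perm_of_map hX hX' hn hg (i := i) (j := j) fun v hv => ?_
  obtain ⟨s, t, rfl⟩ := span_two (h.pl i).two ha hb (by rintro rfl; simp at q) n2 hv
  rw [map_add, map_smul, map_smul]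
  exact add_mem ((D j).smul_mem _ h1) ((D j).smul_mem _ h2)

omit hX' hn in
theorem rot_mem {g : f.Isom} (hg : g ∈ X) {i j : ι} {a b : V} (ha : a ∈ D i) (hb : b ∈ D j)
    (q : f.Q a ≠ 0) (q' : f.Q b = f.Q a) : f.refl (g ⊳ a) * f.refl (g ⊳ b) ∈ X := by
  have := hX _ (h.od.nondeg.refl_mul_refl_mem h.dim q q')
    ((h.od.permD_of_fix (i := i) fun v hv => f.refl_apply_of_B (hv a ha)).mul
      (h.od.permD_of_fix (i := j) fun v hv => f.refl_apply_of_B (hv b hb)))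
  have := mul_mem (mul_mem hg this) (inv_mem hg)
  rwa [← conj_mul, conj_refl, conj_refl] at this

theorem perm_of_perp {g : f.Isom} (hg : g ∈ X) {i m : ι}
    (e : ∀ v ∈ D i, ∀ w ∈ D m, f.B (g ⊳ v) w = 0) : f.PermD D g := by
  obtain ⟨a, ha, b, hb, q, q', n1, n2⟩ := (h.pl i).pair
  refine h.perm_of_rot hX hX' hn hg ha hb q q' n1 n2 (h.perm_of_stab hX hX' hn
    (h.rot_mem hX hg ha hb q q') (o := m) (f.fix_le_stab _ fun w hw => ?_))
  rw [isom_mul_apply, f.refl_apply_of_B (e b hb w hw), f.refl_apply_of_B (e a ha w hw)]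

end Dc

end CA.H12Dc
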