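import Cfsg.Agent.Lib.Lin.MaxE1
import Cfsg.Agent.Lib.Lin.MaxC3

/-!
Overgroups of the tensor product of a symplectic and an orthogonal group, part one: lemmas on
orthogonal spaces in odd characteristic, generation by transvections, dihedral groups.
-/

set_option autoImplicit false
set_option linter.unusedSectionVars false

namespace CA.H12Tn

open CA.CForm CA.CForm.Form Module

local notation:75 g:76 " ⊳ " v:75 => (Subtype.val g) v

variable {F : Type*} [Field F]

theorem finrank_pair_le {W : Type*} [AddCommGroup W] [Module F W] (a b : W) :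
    finrank F (Submodule.span F {a, b}) ≤ 2 := by
  classical
  have := finrank_span_finset_le_card (R := F) ({a, b} : Finset W)
  rw [Set.finrank, Finset.coe_pair] at this
  exact this.trans Finset.card_le_two

section Orth
variable {W : Type*} [AddCommGroup W] [Module F W] {f : Form (Kind.orth F) W}

theorem Q_add_sub (x y : W) : f.Q (x + y) + f.Q (x - y) = 2 * f.Q x + 2 * f.Q y := by
  rw [f.orth_Q_add, f.Q_sub]; simp; ring

theorem exists_ns {Z : Submodule F W} {x y : W} (hx : x ∈ Z) (hy : y ∈ Z) (h : f.B x y ≠ 0) :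
    ∃ z ∈ Z, f.Q z ≠ 0 := by
  by_contra H
  push Not at H
  apply h
  rw [f.orth_B_eq, H _ (Z.add_mem hx hy), H x hx, H y hy]; simp

/-- A subspace containing the non-singular vectors of a non-degenerate subspace contains it. -/
theorem le_of_ns (h2 : (2 : F) ≠ 0) {S T : Submodule F W} (hS : Disjoint S (f.perp S))
    (h : ∀ y ∈ S, f.Q y ≠ 0 → y ∈ T) : S ≤ T := by
  intro s hs
  by_cases s0 : s = 0
  · rw [s0]; exact T.zero_mem
  by_cases qs : f.Q s ≠ 0
  · exact h s hs qs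
  push Not at qs
  obtain ⟨y, hy, qy⟩ := f.exists_nonsingular hS (by rintro rfl; exact s0 (by simpa using hs))
  have e := Q_add_sub (f := f) s y
  by_cases h1 : f.Q (s + y) = 0
  · have : f.Q (s - y) ≠ 0 := fun h3 => by
      rw [h1, h3, qs] at e
      exact qy (by simpa [h2] using e.symm)
    simpa using T.add_mem (h _ (S.sub_mem hs hy) this) (h y hy qy)
  · simpa using T.sub_mem (h _ (S.add_mem hs hy) h1) (h y hy qy)

theorem exists_B_ne {S : Submodule F W} (hS : Disjoint S (f.perp S)) {x : W} (hx : x ∈ S)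
    (x0 : x ≠ 0) : ∃ y ∈ S, f.B x y ≠ 0 := by
  by_contra H
  push Not at H
  exact x0 (Submodule.disjoint_def.1 hS x hx (f.mem_perp'.2 H))

/-- A non-singular vector orthogonal to two orthogonal non-singular vectors. -/
theorem exists_ns_perp (h2 : (2 : F) ≠ 0) {S : Submodule F W} (hS : Disjoint S (f.perp S))
    {a b : W} (ha : a ∈ S) (hb : b ∈ S) (qa : f.Q a ≠ 0) (qb : f.Q b ≠ 0 ∨ b = 0) (hab : f.B a b = 0)
    {s : W} (hs : s ∈ S) (hs' : s ∉ Submodule.span F {a, b}) :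
    ∃ z ∈ S, f.Q z ≠ 0 ∧ f.B a z = 0 ∧ f.B b z = 0 := by
  let p : W → W := fun x => x - (f.B a x / (2 * f.Q a)) • a - (f.B b x / (2 * f.Q b)) • b
  have hba : f.B b a = 0 := f.eq_zero_symm hab
  have hp : ∀ x ∈ S, p x ∈ S ⊓ f.perp (Submodule.span F {a, b}) := fun x hx => by
    refine ⟨S.sub_mem (S.sub_mem hx (S.smul_mem _ ha)) (S.smul_mem _ hb),
      f.mem_perp_span_pair.2 ⟨?_, ?_⟩⟩
    · simp only [p, map_sub, map_smul, hab, f.orth_B_self, smul_eq_mul]; field_simp; ring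
    · rcases qb with qb | rfl
      · simp only [p, map_sub, map_smul, hba, f.orth_B_self, smul_eq_mul]; field_simp; ring
      · simp
  have p0 : p s ≠ 0 := fun e => hs' (by
    have : s = (f.B a s / (2 * f.Q a)) • a + (f.B b s / (2 * f.Q b)) • b := by
      rw [← sub_eq_zero, ← e]; simp only [p]; abel
    rw [this]
    exact Submodule.mem_span_pair.2 ⟨_, _, rfl⟩)
  obtain ⟨y, hy, hB⟩ := exists_B_ne hS (hp s hs).1 p0
  have h3 := f.mem_perp_span_pair.1 (hp s hs).2
  obtain ⟨z, hz, qz⟩ := exists_ns (f := f) (hp s hs) (hp y hy) (by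
    have e : p y = y - (f.B a y / (2 * f.Q a)) • a - (f.B b y / (2 * f.Q b)) • b := rfl
    rw [e, map_sub, map_sub, map_smul, map_smul, f.eq_zero_symm h3.1, f.eq_zero_symm h3.2]
    simpa using hB)
  exact ⟨z, hz.1, qz, f.mem_perp_span_pair.1 hz.2⟩

variable [FiniteDimensional F W]

theorem exists_ns_perp' (h2 : (2 : F) ≠ 0) {S : Submodule F W} (hS : Disjoint S (f.perp S))
    {a b : W} (ha : a ∈ S) (hb : b ∈ S) (qa : f.Q a ≠ 0) (qb : f.Q b ≠ 0) (hab : f.B a b = 0)
    (h3 : 3 ≤ finrank F S) : ∃ z ∈ S, f.Q z ≠ 0 ∧ f.B a z = 0 ∧ f.B b z = 0 := by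
  obtain ⟨s, hs, hs'⟩ := exists_not_mem_of_lt (S := Submodule.span F {a, b}) (T := S)
    (by have := finrank_pair_le (F := F) a b; omega)
  exact exists_ns_perp h2 hS ha hb qa (.inl qb) hab hs hs'

theorem exists_ns_perp1 (h2 : (2 : F) ≠ 0) {S : Submodule F W} (hS : Disjoint S (f.perp S))
    {a : W} (ha : a ∈ S) (qa : f.Q a ≠ 0) (h3 : 2 ≤ finrank F S) :
    ∃ z ∈ S, f.Q z ≠ 0 ∧ f.B a z = 0 := by
  obtain ⟨s, hs, hs'⟩ := exists_not_mem_of_lt (S := F ∙ a) (T := S)
    (by have := finrank_span_singleton (K := F) (v := a) (by rintro rfl; simp at qa); omega)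
  obtain ⟨z, h1, h3, h4, -⟩ := exists_ns_perp h2 hS ha S.zero_mem qa (.inr rfl) (map_zero _) hs
    (by rwa [Set.pair_comm, Submodule.span_insert_zero])
  exact ⟨z, h1, h3, h4⟩

/-- Two linear maps proportional on every non-singular vector are proportional. -/
theorem eig (h2 : (2 : F) ≠ 0) {S : Submodule F W} (hS : Disjoint S (f.perp S))
    (h3 : 3 ≤ finrank F S ∨ ∃ l : F, l ≠ 0 ∧ l ^ 2 ≠ 1) {V' : Type*} [AddCommGroup V'] [Module F V']
    (Θ Φ : W →ₗ[F] V') (hΦ : ∀ y ∈ S, Φ y = 0 → y = 0)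
    (h : ∀ y ∈ S, f.Q y ≠ 0 → ∃ c : F, Θ y = c • Φ y) : ∃ c : F, ∀ y ∈ S, Θ y = c • Φ y := by
  by_cases S0 : S = ⊥
  · exact ⟨0, fun y hy => by rw [S0] at hy; simp [(Submodule.mem_bot F).1 hy]⟩
  obtain ⟨y₀, hy₀, q₀⟩ := f.exists_nonsingular hS S0
  obtain ⟨c, hc⟩ := h y₀ hy₀ q₀
  let T := LinearMap.ker (Θ - c • Φ)
  have mT : ∀ y, y ∈ T ↔ Θ y = c • Φ y := fun y => by simp [T, sub_eq_zero]
  have key : ∀ y ∈ S, f.Q y ≠ 0 → ∀ l : F, l ≠ 0 → f.Q (y₀ + l • y) ≠ 0 → y ∈ T := by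
    intro y hy qy l l0 ql
    obtain ⟨d, hd⟩ := h y hy qy
    obtain ⟨d', hd'⟩ := h _ (S.add_mem hy₀ (S.smul_mem l hy)) ql
    rw [mT, hd]
    by_contra hne
    have hdc : d ≠ c := fun e => hne (by rw [e])
    simp only [map_add, map_smul, hc, hd] at hd'
    have e1 : (c - d') • y₀ + (l * (d - d')) • y = 0 :=
      hΦ _ (S.add_mem (S.smul_mem _ hy₀) (S.smul_mem _ hy)) (by
        simp only [map_add, map_smul]
        rw [← sub_eq_zero] at hd'
        rw [← hd']; module)
    by_cases e2 : d = d'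
    · subst e2
      simp only [sub_self, mul_zero, zero_smul, add_zero, smul_eq_zero, sub_eq_zero] at e1
      rcases e1 with e1 | e1
      · exact hdc e1.symm
      · rw [e1] at q₀; simp at q₀
    · have l1 : l * (d - d') ≠ 0 := mul_ne_zero l0 (sub_ne_zero.2 e2)
      have e3 : y = (-(c - d') / (l * (d - d'))) • y₀ := by
        refine smul_right_injective W l1 ?_
        simp only [smul_smul]
        rw [mul_div_cancel₀ _ l1, neg_smul, eq_neg_iff_add_eq_zero, add_comm, e1]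
      apply hne
      rw [← hd, e3, map_smul, map_smul, hc, smul_comm]
  have good : ∀ y ∈ S, f.Q y ≠ 0 → y ∈ T ∨ (f.B y₀ y = 0 ∧ f.Q y = -f.Q y₀) := by
    intro y hy qy
    by_contra H
    push Not at H
    have e1 : f.Q (y₀ + (1 : F) • y) = 0 := by
      by_contra e; exact H.1 (key y hy qy 1 one_ne_zero e)
    have e2 : f.Q (y₀ + (-1 : F) • y) = 0 := by
      by_contra e; exact H.1 (key y hy qy (-1) (by simp) e)
    simp only [f.orth_Q_add, f.orth_Q_smul, map_smul, smul_eq_mul] at e1 e2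
    have e3 : f.B y₀ y = 0 := mul_left_cancel₀ h2 (by linear_combination e1 - e2)
    exact H.2 e3 (by linear_combination e1 - e3)
  refine ⟨c, fun y hy => (mT y).1 (le_of_ns h2 hS (T := T) (fun y hy qy => ?_) hy)⟩
  rcases good y hy qy with e | ⟨e1, e2⟩
  · exact e
  rcases h3 with h3 | ⟨l, l0, l1⟩
  · obtain ⟨z, hz, qz, e3, e4⟩ := exists_ns_perp' h2 hS hy₀ hy q₀ qy e1 h3
    have k : ∀ z ∈ S, f.Q z ≠ 0 → f.B y₀ z = 0 → f.B y z = 0 → y₀ + y + z ∈ T := by
      intro z hz qz e3 e4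
      rcases good _ (S.add_mem (S.add_mem hy₀ hy) hz) (by
        rw [f.orth_Q_add, f.orth_Q_add, f.B_add_left, e1, e2, e3, e4]; simpa using qz) with e | e
      · exact e
      · exfalso
        have := e.1
        rw [map_add, map_add, e1, e3, f.orth_B_self] at this
        exact q₀ (by simpa [h2] using this)
    have k1 := T.add_mem (k z hz qz e3 e4) (k (-z) (S.neg_mem hz) (by simpa) (by simpa) (by simpa))
    have k2 := T.sub_mem k1 (T.smul_mem 2 ((mT y₀).2 hc))
    rw [show y₀ + y + z + (y₀ + y + -z) - (2 : F) • y₀ = (2 : F) • y by module] at k2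
    exact (T.smul_mem_iff h2).1 k2
  · refine key y hy qy l l0 ?_
    rw [f.orth_Q_add, f.orth_Q_smul, map_smul, e1, e2]
    intro e
    apply mul_ne_zero (sub_ne_zero.2 l1) q₀
    simp only [smul_zero] at e
    linear_combination -e

theorem disj_top (hf : f.Nondeg) : Disjoint (⊤ : Submodule F W) (f.perp ⊤) := by
  rw [hf.perp_top]; exact disjoint_bot_right

/-- The singular vectors not orthogonal to a given one span the space. -/
theorem span_sing (h2 : (2 : F) ≠ 0) (hf : f.Nondeg) (h3 : 3 ≤ finrank F W) {w : W} (w0 : w ≠ 0)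
    (qw : f.Q w = 0) {Y : Submodule F W} (h : ∀ z, f.Q z = 0 → f.B w z ≠ 0 → z ∈ Y) : Y = ⊤ := by
  have k : ∀ z, f.B w z = 1 → z - f.Q z • w ∈ Y := fun z hz => h _ (by
    rw [f.Q_sub, f.orth_Q_smul, qw, map_smul, f.orth_symm, hz]; simp)
    (by simp [hz, f.B_self_of_Q qw])
  obtain ⟨z, -, hz⟩ := hf.exists_partner qw w0
  have hy : ∃ y, f.B w y = 0 ∧ f.Q y ≠ 0 := by
    by_contra H
    push Not at H
    have h1 := hf.finrank_perp (F ∙ w)
    rw [finrank_span_singleton w0] at h1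
    have : f.perp (F ∙ w) ≤ F ∙ w := by
      conv_rhs => rw [← hf.perp_perp (F ∙ w)]
      intro x hx y hy
      by_contra e
      obtain ⟨z, hz, qz⟩ := exists_ns hy hx e
      exact qz (H z (f.mem_perp_span_singleton.1 hz))
    have := Submodule.finrank_mono this
    rw [finrank_span_singleton w0] at this
    omega
  obtain ⟨y, hy, qy⟩ := hy
  have hw : w ∈ Y := by
    have k1 := Y.sub_mem (Y.add_mem (k (z + y) (by simp [hz, hy])) (k (z - y) (by simp [hz, hy])))
      (Y.smul_mem 2 (k z hz))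
    have e := Q_add_sub (f := f) z y
    rw [show z + y - f.Q (z + y) • w + (z - y - f.Q (z - y) • w) - (2 : F) • (z - f.Q z • w) =
      (2 * f.Q z - (f.Q (z + y) + f.Q (z - y))) • w by module, e] at k1
    exact (Y.smul_mem_iff (by simp [h2, qy])).1 k1
  have k' : ∀ x, f.B w x = 1 → x ∈ Y := fun x hx => by
    simpa using Y.add_mem (k x hx) (Y.smul_mem (f.Q x) hw)
  rw [eq_top_iff]
  intro x _
  have := Y.add_mem (k' (x + (1 - f.B w x) • z) (by simp [hz])) (Y.smul_mem (f.B w x - 1) (k' z hz))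
  rwa [show x + (1 - f.B w x) • z + (f.B w x - 1) • z = x by module] at this

/-- Eigenvectors of an involution fixing the orthogonal complement of `S`. -/
theorem exists_eig (h2 : (2 : F) ≠ 0) {S : Submodule F W} (hS : Disjoint S (f.perp S)) {h : f.Isom}
    (hh : ∀ x, h ⊳ (h ⊳ x) = x) (hs : ∀ x ∈ S, h ⊳ x ∈ S) {ε : F} (hε : ε * ε = 1) {w : W}
    (hw : w ∈ S) (hne : h ⊳ w ≠ -ε • w) : ∃ z ∈ S, f.Q z ≠ 0 ∧ h ⊳ z = ε • z := by
  let E : Submodule F W := S ⊓ LinearMap.ker ((h.1 : W →ₗ[F] W) - ε • LinearMap.id)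
  have mE : ∀ z, z ∈ E ↔ z ∈ S ∧ h ⊳ z = ε • z := fun z => by simp [E, sub_eq_zero]
  have k : ∀ x ∈ S, ε • x + h ⊳ x ∈ E := fun x hx => (mE _).2
    ⟨S.add_mem (S.smul_mem _ hx) (hs x hx), by
      rw [map_add, map_smul, hh, smul_add, smul_smul, hε, one_smul, add_comm]⟩
  obtain ⟨y, hy, hB⟩ := exists_B_ne hS (k w hw).1 (fun e => hne (by
    rw [neg_smul, eq_neg_iff_add_eq_zero, add_comm, e]))
  obtain ⟨z, hz, qz⟩ := exists_ns (f := f) (k w hw) (k y hy) (by
    have e := ((mE _).1 (k w hw)).2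
    set a := ε • w + h ⊳ w
    have e2 : f.B a (h ⊳ y) = ε * f.B a y := by
      conv_lhs => rw [← hh a]
      rw [f.B_coe_map, e, f.B_smul_left]; rfl
    rw [map_add, map_smul, e2, smul_eq_mul, ← two_mul]
    exact mul_ne_zero h2 (mul_ne_zero (left_ne_zero_of_mul_eq_one hε) hB))
  exact ⟨z, ((mE z).1 hz).1, qz, ((mE z).1 hz).2⟩

end Orth

section Symp
variable {V : Type*} [AddCommGroup V] [Module F V] {f : Form (Kind.symp F) V}

/-- The transvection `x ↦ x + c B(u, x) u`. -/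
def tv (f : Form (Kind.symp F) V) (u : V) (c : F) : f.Isom :=
  f.eichler u 0 c (f.symp_eichlerCond (map_zero _) c)

theorem tv_apply (u : V) (c : F) (x : V) : tv f u c ⊳ x = x + (c * f.B u x) • u := by
  rw [tv, eichler_apply]; simp

theorem symp_eichler_apply {u v : V} {c : F} (h : f.EichlerCond u v c) (x : V) :
    f.eichler u v c h ⊳ x = x + f.B u x • v + (f.B v x + c * f.B u x) • u := by
  rw [eichler_apply]; simp only [Kind.symp_ε]; module

variable {X : Subgroup f.Isom}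

theorem Tgrp_le_iff {x : V} : f.Tgrp x ≤ X ↔ ∀ c, tv f x c ∈ X :=
  ⟨fun h _ => h (f.eichler_mem_Tgrp _ _ _), fun h => f.Tgrp_le fun c _ => h c⟩

theorem Tgrp_add {x y : V} (hx : f.Tgrp x ≤ X) (hy : f.Tgrp y ≤ X) (h : f.B x y ≠ 0) (a : F) :
    f.Tgrp (y + a • x) ≤ X := by
  have := Tgrp_map hy (Tgrp_le_iff.1 hx (a / f.B x y))
  rwa [tv_apply, div_mul_cancel₀ _ h] at this

/-- One non-trivial transvection and enough homotheties give the whole transvection group. -/
theorem add_closed_of_sq (h2 : (2 : F) ≠ 0) {P : F → Prop} (h0 : P 0)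
    (hsub : ∀ a b, P a → P b → P (a - b)) {c : F} (hsq : ∀ l : F, l ≠ 0 → P (l ^ 2 * c)) (a : F) :
    P (a * c) := by
  have k : ∀ l : F, P (l ^ 2 * c) := fun l => by
    by_cases l0 : l = 0
    · simpa [l0] using h0
    · exact hsq l l0
  have := hsub _ _ (k ((a + 1) / 2)) (k ((a - 1) / 2))
  rwa [show ((a + 1) / 2) ^ 2 * c - ((a - 1) / 2) ^ 2 * c = a * c by field_simp; ring] at this

variable [FiniteDimensional F V]

/-- Generation by transvection groups in odd characteristic. -/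
theorem Eich_le_of_Tgrp (h2 : (2 : F) ≠ 0) (hf : f.Nondeg) {x y₀ : V} (hx : f.Tgrp x ≤ X)
    (hy₀ : f.Tgrp y₀ ≤ X) (h₀ : f.B x y₀ = 1)
    (hs : ∀ Y : Submodule F V, (∀ y, f.Tgrp y ≤ X → f.B x y ≠ 0 → y ∈ Y) → Y = ⊤) : f.Eich ≤ X := by
  have qx := f.symp_Q x
  have xx := f.symp_B_self x
  have key : ∀ y, f.Tgrp y ≤ X → f.B x y = 1 → y - y₀ ∈ levS X qx := by
    intro y hy h1
    have k : ∀ m : F, m ≠ f.B y₀ y → f.Tgrp (y + m • x + (-1 : F) • y₀) ≤ X := fun m hm =>
      Tgrp_add hy₀ (Tgrp_add hx hy (by simp [h1]) m) (by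
        rw [map_add, map_smul, f.symp_symm x y₀, h₀]; simpa [sub_ne_zero, ← sub_eq_add_neg] using hm.symm) _
    set β := f.B y₀ y
    set w := y + (β - 1) • x + (-1 : F) • y₀ with hw
    have k1 := k (β + 1) (by simp)
    have k2 := k (β - 1) (by simp)
    rw [show y + (β + 1) • x + (-1 : F) • y₀ = w + (2 : F) • x by rw [hw]; module] at k1
    have xw : f.B x w = 0 := by simp [hw, h1, h₀, xx]
    have wx := f.eq_zero_symm xw
    have : w ∈ levS X qx := mem_levS.2 fun a => by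
      refine ⟨2 * a, f.symp_eichlerCond (by simp [xw]) _, ?_⟩
      convert X.mul_mem (Tgrp_le_iff.1 k1 (a / 2)) (Tgrp_le_iff.1 k2 (-(a / 2))) using 1
      refine f.isom_ext fun v => ?_
      rw [isom_mul_apply, symp_eichler_apply, tv_apply, tv_apply, ← hw]
      simp only [map_add, map_smul, B_add_left, B_smul_left, xw, f.symp_B_self, Kind.symp_σ,
        smul_eq_mul]
      match_scalars <;> field_simp <;> ring
    have := (levS X qx).sub_mem this ((levS X qx).smul_mem (β - 1) (self_mem_levS qx))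
    rwa [show w - (β - 1) • x = y - y₀ by rw [hw]; module] at this
  have top := hs (levS X qx ⊔ F ∙ y₀) fun y hy h1 => by
    have := key ((f.B x y)⁻¹ • y) (by rwa [Tgrp_smul _ (inv_ne_zero h1)]) (by simp [h1])
    rw [← Submodule.smul_mem_iff _ (inv_ne_zero h1)]
    simpa using Submodule.add_mem_sup this (Submodule.mem_span_singleton_self y₀)
  refine hf.Eich_le_of_Qgrp' (.inr ⟨1, one_ne_zero, rfl⟩) qx (Qgrp_le_of_lev hx fun w hw => ?_)
    (Tgrp_le_iff.1 hy₀ 1) (by simp [tv_apply, xx, h₀, f.symp_symm x y₀])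
  obtain ⟨l, hl, z, hz, rfl⟩ := Submodule.mem_sup.1 (top ▸ Submodule.mem_top (x := w))
  obtain ⟨a, rfl⟩ := Submodule.mem_span_singleton.1 hz
  rw [map_add, (lev_of_mem_levS hl).B_eq, map_smul, h₀] at hw
  simp only [smul_eq_mul, mul_one, zero_add] at hw
  simpa [hw] using lev_of_mem_levS hl

end Symp

/-- Two involutions of a finite group are conjugate in the group they generate, or there is a third
involution commuting with both. -/
theorem dihedral {G : Type*} [Group G] [Finite G] (K : Subgroup G) {x y : G} (hxK : x ∈ K)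
    (hyK : y ∈ K) (hx : x * x = 1) (hy : y * y = 1) : (∃ r ∈ K, x = r * y * r⁻¹) ∨
      ∃ z ∈ K, z ≠ 1 ∧ z * z = 1 ∧ z * x = x * z ∧ z * y = y * z ∧
        ((∃ r ∈ K, z * x = r * y * r⁻¹) ∨ ∃ r ∈ K, z * y = r * y * r⁻¹) := by
  set r := x * y with hr
  have rK : r ∈ K := K.mul_mem hxK hyK
  have xi : x⁻¹ = x := inv_eq_of_mul_eq_one_right hx
  have yi : y⁻¹ = y := inv_eq_of_mul_eq_one_right hy
  have h1 : y * r * y⁻¹ = r⁻¹ := by rw [hr, mul_inv_rev, xi, yi, mul_assoc, mul_assoc, hy, mul_one]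
  have h2 : ∀ i : ℕ, y * (r ^ i)⁻¹ = r ^ i * y := fun i => by
    have := congrArg (· ^ i) h1
    simp only [conj_pow, inv_pow] at this
    rw [← this, yi, ← mul_assoc, ← mul_assoc, hy, one_mul]
  have h3 : ∀ i : ℕ, r ^ i * y * (r ^ i)⁻¹ = r ^ (2 * i) * y := fun i => by
    rw [mul_assoc, h2, ← mul_assoc, ← pow_add, two_mul]
  have h4 : x = r * y := by rw [hr, mul_assoc, hy, mul_one]
  have hm := pow_orderOf_eq_one r
  have hp : 0 < orderOf r := orderOf_pos r
  rcases Nat.even_or_odd' (orderOf r) with ⟨m, e | e⟩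
  · right
    have zz : r ^ m * r ^ m = 1 := by rw [← pow_add, ← two_mul, ← e, hm]
    have zy : r ^ m * y = y * r ^ m := by rw [← h2, inv_eq_of_mul_eq_one_right zz]
    refine ⟨r ^ m, K.pow_mem rK m, pow_ne_one_of_lt_orderOf (by omega) (by omega), zz, ?_, zy, ?_⟩
    · calc r ^ m * x = r ^ m * (r * y) := by rw [← h4]
        _ = r * (r ^ m * y) := by
          rw [← mul_assoc (r ^ m) r, ← mul_assoc r, ← pow_succ, ← pow_succ']
        _ = x * r ^ m := by rw [zy, ← mul_assoc, ← h4]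
    rcases Nat.even_or_odd' m with ⟨i, e' | e'⟩
    · exact .inr ⟨r ^ i, K.pow_mem rK i, by rw [h3, e']⟩
    · refine .inl ⟨r ^ (i + 1), K.pow_mem rK _, ?_⟩
      rw [h3, e']
      conv_lhs => rw [h4]
      rw [← mul_assoc, ← pow_succ]; rfl
  · refine .inl ⟨r ^ (m + 1), K.pow_mem rK _, ?_⟩
    rw [h3, show 2 * (m + 1) = orderOf r + 1 by omega, pow_succ, hm, one_mul, ← h4]

end CA.H12Tn
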