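import Cfsg.Agent.Lib.Lin.H12Dc3
import Cfsg.Agent.Lib.Lin.H12Tn1

/-!
Orthogonal decompositions into planes: odd characteristic.
-/

set_option autoImplicit false
set_option linter.unusedSectionVars false

namespace CA.H12Dc

open Module CA.CForm CA.CForm.Form

variable {F : Type*} [Field F] [Fintype F] {V : Type*} [AddCommGroup V] [Module F V]
  [FiniteDimensional F V] {f : Form (Kind.orth F) V} {U : Submodule F V} {ι : Type*} [Fintype ι]
  [DecidableEq ι] {D : ι → Submodule F V} {X Y : Subgroup f.Isom}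

local notation:75 g:76 " ⊳ " v:75 => (g : V ≃ₗ[F] V) v

theorem ext_blocks (h : f.ODec D) {s : f.Isom} (e : ∀ l, s ∈ f.fix (D l)) : s = 1 :=
  f.isom_ext fun v => by
    conv_lhs => rw [← sum_pr h v, map_sum]
    rw [Finset.sum_congr rfl fun l _ => e l _ (h.pr_mem l v), sum_pr, isom_one_apply]

/-- `s` is `-1` on two planes and `1` on the others -/
def Ng (D : ι → Submodule F V) (s : f.Isom) (a b : ι) : Prop :=
  ∀ l, ∀ v ∈ D l, s ⊳ v = if l = a ∨ l = b then -v else v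

theorem Ng.sq (h : f.ODec D) {s : f.Isom} {a b : ι} (e : Ng D s a b) : s * s = 1 :=
  ext_blocks h fun l v hv => by
    rw [isom_mul_apply, e l v hv]
    split_ifs with c
    · rw [map_neg, e l v hv, if_pos c, neg_neg]
    · rw [e l v hv, if_neg c]

theorem Ng.perm {s : f.Isom} {a b : ι} (e : Ng D s a b) : f.PermD D s := fun l => ⟨l, fun v hv => by
  rw [e l v hv]
  split_ifs
  exacts [neg_mem hv, hv]⟩

theorem Ng.sub_sup (h : f.ODec D) {s : f.Isom} {a b : ι} (e : Ng D s a b) (v : V) :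
    s ⊳ v - v ∈ D a ⊔ D b := by
  rw [← sum_pr h v, map_sum, ← Finset.sum_sub_distrib]
  refine sum_mem fun l _ => ?_
  have := h.pr_mem l v
  rw [e l _ this]
  split_ifs with c
  · rcases c with rfl | rfl
    exacts [Submodule.mem_sup_left (sub_mem (neg_mem this) this),
      Submodule.mem_sup_right (sub_mem (neg_mem this) this)]
  · simp

namespace Dc
variable (h : Dc f D)
include h

theorem few {τ : f.Isom} (hτ : f.PermD D τ) (sq : τ * τ = 1) {N : Submodule F V}
    (hN : ∀ v, τ ⊳ v - v ∈ N) (h4 : finrank F N ≤ 4) : ∃ m, τ ∈ f.fix (D m) := by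
  by_contra! H
  simp only [mem_fix, not_forall] at H
  choose e he e0 using H
  have e1 : ∀ m, e m ≠ 0 := fun m c => by simpa [c] using e0 m
  choose e' he' n using fun m => exists_not_mem_of_lt (S := F ∙ e m) (T := D m)
    (by rw [finrank_span_singleton (e1 m), (h.pl m).two]; omega)
  obtain ⟨π, hπ⟩ := exists_perm h.od h.ne_bot hτ
  have t2 : ∀ v, τ ⊳ τ ⊳ v = v := fun v => by rw [← isom_mul_apply, sq, isom_one_apply]
  have p2 : ∀ m, π (π m) = m := fun m => h.od.eq_of_mem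
    ((hπ _ _).1 ((hπ _ _).1 (he m))) (by rw [t2]; exact he m) (by rw [t2]; exact e1 m)
  let o := Fintype.equivFin ι
  let v : ι → V := fun m => if o m ≤ o (π m) then e m else τ ⊳ e' (π m)
  have hv : ∀ m, v m ∈ D m := fun m => by
    simp only [v]
    split_ifs
    · exact he m
    · simpa [p2] using (hπ _ _).1 (he' (π m))
  have li : LinearIndependent F fun m => (⟨τ ⊳ v m - v m, hN _⟩ : N) := by
    refine Fintype.linearIndependent_iff.2 fun c hc => ?_
    have h1 : ∑ m, c m • τ ⊳ v m = ∑ m, c m • v m := by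
      have := congrArg Subtype.val hc
      simpa [smul_sub, sub_eq_zero] using this
    have h2 : ∀ m, c m • τ ⊳ v m = c (π m) • v (π m) := fun m => by
      have := congrArg (h.od.pr (π m)) h1
      rwa [map_sum, map_sum, Finset.sum_eq_single m (fun l _ c => h.od.pr_of_ne
        (π.injective.ne c.symm) ((D _).smul_mem _ ((hπ _ _).1 (hv l)))) (by simp),
        Finset.sum_eq_single (π m) (fun l _ c => h.od.pr_of_ne c.symm ((D _).smul_mem _ (hv l)))
        (by simp), h.od.pr_of_mem ((D _).smul_mem _ ((hπ _ _).1 (hv m))),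
        h.od.pr_of_mem ((D _).smul_mem _ (hv _))] at this
    have h3 : ∀ m, o m < o (π m) → c m = 0 ∧ c (π m) = 0 := fun m hm => by
      have := h2 m
      simp only [v, p2, if_pos hm.le, if_neg hm.not_ge, ← map_smul, EmbeddingLike.apply_eq_iff_eq] at this
      have k : c (π m) = 0 := by
        by_contra k
        exact n m ((Submodule.smul_mem_iff _ k).1 (this ▸ Submodule.smul_mem _ _
          (Submodule.mem_span_singleton_self _)))
      exact ⟨by simpa [k, e1] using this, k⟩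
    intro m
    rcases lt_trichotomy (o m) (o (π m)) with k | k | k
    · exact (h3 m k).1
    · have := h2 m
      rw [← o.injective k] at this
      by_contra c0
      refine e0 m ?_
      simpa [v, k.le] using smul_right_injective V c0 this
    · simpa [p2] using (h3 (π m) (by rwa [p2])).2
  have := li.fintype_card_le_finrank
  have := h.five
  omega

theorem Ng_conj {s k : f.Isom} {a b : ι} (e : Ng D s a b) (hk : f.PermD D k) :
    ∃ c d, Ng D (k * s * k⁻¹) c d := by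
  obtain ⟨π, hπ⟩ := exists_perm h.od h.ne_bot hk
  refine ⟨π a, π b, fun l v hv => ?_⟩
  obtain ⟨l, rfl⟩ := π.surjective l
  rw [isom_mul_apply, isom_mul_apply, e l _ ((hπ _ _).2 (by simpa using hv))]
  simp only [EmbeddingLike.apply_eq_iff_eq]
  split_ifs <;> simp

variable (hX : ∀ g ∈ f.Eich, f.PermD D g → g ∈ X) (h2 : (2 : F) ≠ 0)
include hX h2

theorem exists_Ng {a b : ι} (ab : a ≠ b) : ∃ s ∈ X, Ng D s a b := by
  obtain ⟨u, hu, qu⟩ := (h.pl a).val 1
  replace qu : f.Q u ≠ 0 := qu ▸ one_ne_zero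
  obtain ⟨u', hu', e, qu'⟩ := (h.pl a).orth hu qu
  obtain ⟨g, hg⟩ := h.od.exists_act a b
  have hw : g ⊳ u ∈ D b := hg ▸ f.apply_mem_act.2 hu
  have hw' : g ⊳ u' ∈ D b := hg ▸ f.apply_mem_act.2 hu'
  have k : ∀ {a : ι} {u u' v : V}, u ∈ D a → u' ∈ D a → f.Q u ≠ 0 → f.Q u' ≠ 0 → f.B u u' = 0 →
      v ∈ D a → f.refl u ⊳ f.refl u' ⊳ v = -v := fun {a u u' v} hu hu' q q' e hv => by
    obtain ⟨s, t, rfl⟩ := span_two (h.pl a).two hu hu' (by rintro rfl; simp at q) (fun c => by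
      obtain ⟨c, rfl⟩ := Submodule.mem_span_singleton.1 c
      simp [orth_B_self, h2, q] at e
      simp [e] at q') hv
    simp only [map_add, map_smul, f.refl_apply_of_B e, f.refl_apply_of_B (f.eq_zero_symm e),
      f.refl_apply_self q, f.refl_apply_self q', map_neg]
    module
  have m := mul_mem (h.rot_mem hX (one_mem X) hu hw qu (f.Q_coe_map ..))
    (h.rot_mem hX (one_mem X) hu' hw' qu' (f.Q_coe_map ..))
  refine ⟨_, m, fun l v hv => ?_⟩
  have o : ∀ {i j : ι} {x y : V}, i ≠ j → x ∈ D i → y ∈ D j → f.refl x ⊳ y = y :=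
    fun c hx hy => f.refl_apply_of_B (h.od.orth _ _ c hy _ hx)
  simp only [isom_mul_apply, isom_one_apply]
  split_ifs with c
  · rcases c with rfl | rfl
    · rw [o ab.symm hw' hv, o ab.symm hw ((f.refl_mem_stab hu' v).1 hv), k hu hu' qu qu' e hv]
    · rw [o ab hu' ((f.refl_mem_stab hw' v).1 hv), k hw hw' (by rwa [Q_coe_map]) (by rwa [Q_coe_map])
        (by rwa [B_coe_map]) hv, o ab hu (neg_mem hv)]
  · rw [not_or] at c
    rw [o (Ne.symm c.2) hw' hv, o (Ne.symm c.1) hu' hv, o (Ne.symm c.2) hw hv, o (Ne.symm c.1) hu hv]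

variable (hX' : X ≤ f.Eich) (hn : ¬f.Eich ≤ X)
include hX' hn

theorem perm_of_sign {g τ : f.Isom} (hg : g ∈ X) {i m : ι} (e : ∀ v ∈ D i, τ ⊳ g ⊳ v = g ⊳ v)
    (e' : ∀ w ∈ D m, τ ⊳ w = -w) : f.PermD D g :=
  h.perm_of_perp hX hX' hn hg (i := i) (m := m) fun v hv w hw => mul_left_cancel₀ h2 (by
    have := f.B_coe_map τ (g ⊳ v) w
    rw [e v hv, e' w hw, map_neg] at this
    linear_combination -this)

theorem perm_of_conj {g s : f.Isom} (hg : g ∈ X) {a b : ι} (e : Ng D s a b)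
    (H : f.PermD D (g * s * g⁻¹)) : f.PermD D g := by
  obtain ⟨m, hm⟩ := h.few H (by rw [conj_mul, e.sq h.od, mul_one, mul_inv_cancel])
    (N := f.act g (D a ⊔ D b)) (fun v => f.mem_act.2 (by
      simpa [isom_mul_apply] using e.sub_sup h.od ((g⁻¹ : f.Isom) ⊳ v))) (by
      have := Submodule.finrank_add_le_finrank_add_finrank (D a) (D b)
      rw [(h.pl a).two, (h.pl b).two] at this
      rwa [finrank_act])
  simpa using h.inv (h.perm_of_sign hX h2 hX' hn (inv_mem hg) (τ := s) (i := m) (m := a)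
    (fun v hv => by simpa [isom_mul_apply] using congrArg (g⁻¹ : f.Isom).1 (hm v hv))
    fun w hw => by simpa using e a w hw)

theorem perm_of_comm {z τ : f.Isom} (hτ : τ ∈ X) (c : z * τ = τ * z) {i m : ι}
    (e : z ∈ f.fix (D i)) (e' : ∀ w ∈ D m, z ⊳ w = -w) : f.PermD D τ :=
  h.perm_of_sign hX h2 hX' hn hτ (i := i) (fun v hv => by
    rw [← isom_mul_apply, c, isom_mul_apply, e v hv]) e'

theorem core {s₁ s₂ s₃ r z y : f.Isom} {a b c d a' b' : ι} (e₁ : Ng D s₁ a b) (e₂ : Ng D s₂ c d)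
    (e₃ : Ng D s₃ a' b') (h₃ : s₃ ∈ X) (hr : r ∈ X) (hy : y ∈ X) (hz : f.PermD D z) (z1 : z ≠ 1)
    (e : z * s₁ = r * s₂ * r⁻¹) (cm : z * (y * s₃ * y⁻¹) = y * s₃ * y⁻¹ * z) : f.PermD D y := by
  obtain ⟨c, d, e₄⟩ := h.Ng_conj e₂ (h.perm_of_conj hX h2 hX' hn hr e₂ (e ▸ hz.mul e₁.perm))
  rw [← e] at e₄
  have ez : ∀ v, z ⊳ v = (z * s₁ : f.Isom) ⊳ s₁ ⊳ v := fun v => by
    rw [← isom_mul_apply, mul_assoc, e₁.sq h.od, mul_one]
  obtain ⟨m, hm⟩ := h.out {a, b, c, d} Finset.card_le_four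
  simp only [Finset.mem_insert, Finset.mem_singleton, not_or] at hm
  obtain ⟨j, hj⟩ : ∃ j, z ∉ f.fix (D j) := by
    by_contra! H
    exact z1 (ext_blocks h.od H)
  refine h.perm_of_conj hX h2 hX' hn hy e₃ (h.perm_of_comm hX h2 hX' hn
    (mul_mem (mul_mem hy h₃) (inv_mem hy)) cm (i := m) (m := j) (fun v hv => ?_) fun w hw => ?_)
  · rw [ez, e₁ m v hv, if_neg (by tauto), e₄ m v hv, if_neg (by tauto)]
  · by_cases c1 : j = a ∨ j = b <;> by_cases c2 : j = c ∨ j = d
    · exact (hj fun v hv => by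
        rw [ez, e₁ j v hv, if_pos c1, map_neg, e₄ j v hv, if_pos c2, neg_neg]).elim
    · rw [ez, e₁ j w hw, if_pos c1, map_neg, e₄ j w hw, if_neg c2]
    · rw [ez, e₁ j w hw, if_neg c1, e₄ j w hw, if_pos c2]
    · exact (hj fun v hv => by rw [ez, e₁ j v hv, if_neg c1, e₄ j v hv, if_neg c2]).elim

theorem odd {g : f.Isom} (hg : g ∈ X) : f.PermD D g := by
  have : Finite V := Module.finite_of_finite F
  have : Finite f.Isom := Finite.of_injective (fun g : f.Isom => (g.1 : V → V))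
    fun _ _ e => Subtype.ext (DFunLike.coe_injective e)
  obtain ⟨a, -⟩ := h.out ∅ (by simp)
  obtain ⟨b, ba⟩ := h.out {a} (by simp)
  obtain ⟨c, hc⟩ := h.out {a, b} (Finset.card_le_two.trans (by omega))
  obtain ⟨d, hd⟩ := h.out {a, b, c} (Finset.card_le_three.trans (by omega))
  simp only [Finset.mem_insert, Finset.mem_singleton, not_or] at ba hc hd
  obtain ⟨p, hp, p', hp', q, q', n1, n2⟩ := (h.pl a).pair
  refine h.perm_of_rot hX hX' hn hg hp hp' q q' n1 n2 ?_
  have hx := h.rot_mem hX hg hp hp' q q'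
  obtain ⟨s, hs, e⟩ := h.exists_Ng hX h2 (Ne.symm ba)
  obtain ⟨s', hs', e'⟩ := h.exists_Ng hX h2 (Ne.symm hd.2.2)
  obtain ⟨v, ⟨⟨v1, v2⟩, v3⟩, v0⟩ := exists_not_mem_of_lt (S := ⊥)
    (T := (D a ⊔ D b) ⊓ f.perp (F ∙ g ⊳ p) ⊓ f.perp (F ∙ g ⊳ p')) (by
      have d1 := f.finrank_le_inf_perp (D a ⊔ D b) (g ⊳ p)
      have d2 := f.finrank_le_inf_perp ((D a ⊔ D b) ⊓ f.perp (F ∙ g ⊳ p)) (g ⊳ p')
      have d3 := Submodule.finrank_sup_add_finrank_inf_eq (D a) (D b)
      rw [((h.od.disj a).mono_right (h.od.orth a b (Ne.symm ba))).eq_bot, (h.pl a).two,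
        (h.pl b).two, finrank_bot] at d3
      rw [finrank_bot]; omega)
  have x1 : (f.refl (g ⊳ p) * f.refl (g ⊳ p') : f.Isom) ⊳ v = v := by
    rw [isom_mul_apply, f.refl_apply_of_B (f.mem_perp_span_singleton.1 v3),
      f.refl_apply_of_B (f.mem_perp_span_singleton.1 v2)]
  generalize f.refl (g ⊳ p) * f.refl (g ⊳ p') = x at hx x1 ⊢
  have x2 : (x⁻¹ : f.Isom) ⊳ v = v := by rw [← x1, isom_inv_apply_apply, x1]
  have f1 : s' ∈ f.fix (D a) := fun v hv => by rw [e' a v hv, if_neg (by tauto)]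
  have f2 : s' ∈ f.fix (D b) := fun v hv => by rw [e' b v hv, if_neg (by tauto)]
  have f3 : s ∈ f.fix (D c) := fun v hv => by rw [e c v hv, if_neg (by tauto)]
  have s1 : s ⊳ v = -v := by
    obtain ⟨s, hs, t, ht, rfl⟩ := Submodule.mem_sup.1 v1
    rw [map_add, e a s hs, e b t ht, if_pos (by simp), if_pos (by simp), neg_add]
  have t1 : (x * s' * x⁻¹ : f.Isom) ⊳ v = v := by
    rw [isom_mul_apply, isom_mul_apply, x2, fix_of_sup f1 f2 v1, x1]
  have st : ∀ {y : f.Isom} {c : F}, y ⊳ v = c • v → y ∈ f.stab (F ∙ v) := fun {y c} e =>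
    f.mem_stab_of_le fun w hw => by
      obtain ⟨c, rfl⟩ := Submodule.mem_span_singleton.1 hw
      rw [map_smul, e]
      exact Submodule.smul_mem _ _ (Submodule.smul_mem _ _ (Submodule.mem_span_singleton_self v))
  rcases CA.H12Tn.dihedral (X ⊓ f.stab (F ∙ v)) (x := x * s' * x⁻¹) (y := s)
    (Subgroup.mem_inf.2 ⟨mul_mem (mul_mem hx hs') (inv_mem hx), st (c := 1) (by rw [t1, one_smul])⟩)
    (Subgroup.mem_inf.2 ⟨hs, st (c := -1) (by rw [s1, neg_one_smul])⟩)
    (by rw [conj_mul, e'.sq h.od, mul_one, mul_inv_cancel]) (e.sq h.od) with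
    ⟨r, hr, er⟩ | ⟨z, hz, z1, -, c1, c2, ⟨r, hr, er⟩ | ⟨r, hr, er⟩⟩
  all_goals rw [Subgroup.mem_inf] at *
  · obtain ⟨c, hc⟩ := Submodule.mem_span_singleton.1
      ((inv_mem hr.2 v).1 (Submodule.mem_span_singleton_self v))
    rw [er, isom_mul_apply, isom_mul_apply, ← hc, map_smul, s1, smul_neg, hc, map_neg,
      isom_apply_inv_apply, neg_eq_iff_add_eq_zero, ← two_smul F] at t1
    exact (v0 ((smul_eq_zero.1 t1).resolve_left h2)).elim
  · have hz' := mul_mem (mul_mem (inv_mem hx) hz.1) hx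
    have c3 : s' * (x⁻¹ * z * x) = x⁻¹ * z * x * s' := by
      simpa [mul_assoc] using congrArg (fun t => x⁻¹ * t * x) c1.symm
    simpa using h.inv (h.core hX h2 hX' hn e' e e hs (mul_mem (inv_mem hx) hr.1) (inv_mem hx)
      (h.perm_of_comm hX h2 hX' hn hz' c3 f1 (m := c) fun w hw => by simpa using e' c w hw)
      (fun c => z1 (by simpa [mul_assoc] using congrArg (fun t => x * t * x⁻¹) c))
      (by simpa [mul_assoc] using congrArg (fun t => x⁻¹ * t * x) er)
      (by simpa [mul_assoc] using congrArg (fun t => x⁻¹ * t * x) c2))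
  · exact h.core hX h2 hX' hn e e e' hs' hr.1 hx (h.perm_of_comm hX h2 hX' hn hz.1 c2.symm f3
      (m := a) fun w hw => by simpa using e a w hw) z1 er c1

end Dc

end CA.H12Dc
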