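import Cfsg.Agent.Lib.Lin.H12Dc4

/-!
Orthogonal decompositions into planes: even characteristic.
-/

set_option autoImplicit false
set_option linter.unusedSectionVars false

namespace CA.H12Dc

open Module CA.CForm CA.CForm.Form

variable {F : Type*} [Field F] [Fintype F] {V : Type*} [AddCommGroup V] [Module F V]
  [FiniteDimensional F V] {f : Form (Kind.orth F) V} {U : Submodule F V} {ι : Type*} [Fintype ι]
  [DecidableEq ι] {D : ι → Submodule F V} {X Y : Subgroup f.Isom}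

local notation:75 g:76 " ⊳ " v:75 => (g : V ≃ₗ[F] V) v

theorem refl_even (hf : f.Nondeg) (h5 : 5 ≤ finrank F V) (h2 : (2 : F) = 0) {a b : V}
    (qa : f.Q a ≠ 0) (qb : f.Q b ≠ 0) : f.refl a * f.refl b ∈ f.Eich := by
  obtain ⟨c, hc⟩ := isSquare_of_two_eq_zero h2 (f.Q a / f.Q b)
  have c0 : c ≠ 0 := by rintro rfl; simp [qa, qb] at hc
  rw [← f.refl_smul c0 b]
  exact hf.refl_mul_refl_mem h5 qa (by rw [orth_Q_smul, sq, ← hc, div_mul_cancel₀ _ qb])

theorem eich_refl {v y : V} {c : F} (q : f.Q v ≠ 0) (c0 : c ≠ 0) (qy : f.Q y = 0)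
    (e : f.B y ((c / f.Q v) • v) = 0) :
    f.eichler y _ _ (f.orth_eichlerCond qy e) = f.refl v * f.refl (v + c • y) := by
  have k := div_ne_zero c0 q
  rw [f.eichler_eq_refl_mul _ (by simp [orth_Q_smul, q, c0]), f.refl_smul k,
    ← f.refl_smul k (v + c • y), orth_Q_smul, smul_add, smul_smul]
  congr 4
  field_simp

theorem B_sum (h : f.ODec D) (v w : V) : f.B v w = ∑ l, f.B (h.pr l v) (h.pr l w) := by
  conv_lhs => rw [← sum_pr h w, map_sum]
  exact Finset.sum_congr rfl fun l _ => (h.B_pr' (h.pr_mem l w) v).symm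

theorem Pl.mem_span (h : Pl f U) {a d : V} (ha : a ∈ U) (hd : d ∈ U) (a0 : a ≠ 0)
    (e : f.B a a = 0) (e' : f.B a d = 0) : d ∈ F ∙ a := by
  by_contra c
  refine a0 (Submodule.disjoint_def.1 h.disj a ha fun v hv => f.eq_zero_symm ?_)
  obtain ⟨s, t, rfl⟩ := span_two h.two ha hd a0 c hv
  simp [e, e']

namespace Dc
variable (h : Dc f D) (hX : ∀ g ∈ f.Eich, f.PermD D g → g ∈ X) (h2 : (2 : F) = 0)
include h hX h2

theorem rr {i j : ι} {a b : V} (ha : a ∈ D i) (hb : b ∈ D j) (qa : f.Q a ≠ 0) (qb : f.Q b ≠ 0) :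
    f.refl a * f.refl b ∈ X := hX _ (refl_even h.od.nondeg h.dim h2 qa qb)
  ((h.od.permD_of_fix (i := i) fun _ hv => f.refl_apply_of_B (hv a ha)).mul
    (h.od.permD_of_fix (i := j) fun _ hv => f.refl_apply_of_B (hv b hb)))

variable (hX' : X ≤ f.Eich) (hn : ¬f.Eich ≤ X)
include hX' hn

theorem perm_of_vec {g : f.Isom} (hg : g ∈ X) {i : ι} {a : V} (ha : a ∈ D i) (q : f.Q a ≠ 0)
    (e : g ⊳ a = a) : f.PermD D g := by
  have pr : f.PermD D (f.refl a) := h.od.permD_of_fix (i := i) fun v hv => f.refl_apply_of_B (hv a ha)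
  have cg : f.refl a * g * (f.refl a)⁻¹ = g := by
    have := f.conj_refl g a
    rw [e, mul_inv_eq_iff_eq_mul] at this
    rw [← this, mul_inv_cancel_right]
  have rf : ∀ i, ∀ u ∈ D i, f.Q u ≠ 0 → f.refl u * f.refl a ∈ f.Eich ∧
      f.PermD D (f.refl u * f.refl a) := fun j u hu q' => ⟨refl_even h.od.nondeg h.dim h2 q' q,
    (h.od.permD_of_fix (i := j) fun v hv => f.refl_apply_of_B (hv u hu)).mul pr⟩
  have nr : f.refl a ∉ f.Eich := fun c => by
    have := h.od.nondeg.dick_of_mem_Eich (good_of_five_le h.dim) c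
    rw [h.od.nondeg.dick_refl _ q] at this
    exact absurd this (by decide)
  have rr := f.refl_mul_self a
  generalize f.refl a = r at *
  have ri : r⁻¹ = r := inv_eq_of_mul_eq_one_right rr
  let Z : Subgroup f.Isom := X ⊓ X.comap (MulAut.conj r).toMonoidHom
  have mZ : ∀ {x}, x ∈ Z ↔ x ∈ X ∧ r * x * r⁻¹ ∈ X := Iff.rfl
  have nZ : ∀ {x}, x ∈ Z → r * x * r ∈ Z := fun {x} hx => mZ.2 ⟨by simpa [ri] using (mZ.1 hx).2, by
    rw [ri, ← mul_assoc, ← mul_assoc, rr, one_mul, mul_assoc, rr, mul_one]; exact hx.1⟩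
  have hZ : ∀ x ∈ f.Eich, f.PermD D x → x ∈ Z := fun x a b => mZ.2 ⟨hX x a b,
    hX _ (f.Eich_normal.conj_mem _ a r) ((pr.mul b).mul (h.inv pr))⟩
  let Y : Subgroup f.Isom :=
    { carrier := {y | y ∈ Z ∨ y * r ∈ Z}
      one_mem' := .inl (one_mem _)
      mul_mem' := by
        rintro a b (ha | ha) (hb | hb)
        · exact .inl (mul_mem ha hb)
        · exact .inr (by rw [mul_assoc]; exact mul_mem ha hb)
        · refine .inr ?_
          convert mul_mem ha (nZ hb) using 1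
          rw [mul_assoc a r, ← mul_assoc r, ← mul_assoc r, rr, one_mul, mul_assoc]
        · refine .inl ?_
          convert mul_mem ha (nZ hb) using 1
          rw [mul_assoc a r, ← mul_assoc r, ← mul_assoc r, rr, one_mul, mul_assoc b, rr, mul_one]
      inv_mem' := by
        rintro a (ha | ha)
        · exact .inl (inv_mem ha)
        · refine .inr ?_
          convert nZ (inv_mem ha) using 1
          rw [mul_inv_rev, ri, ← mul_assoc, rr, one_mul] }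
  intro j
  refine h.perm_of_refl hX hX' hn (Y := Y) (p := fun _ => True) (fun i _ u hu q =>
    .inr (hZ _ (rf i u hu q).1 (rf i u hu q).2)) (fun i j _ _ _ σ hσ s => ?_) (fun i j => ?_)
    (fun y hy e => ?_) (.inl (mZ.2 ⟨hg, cg.symm ▸ hg⟩)) trivial fun _ _ _ _ => trivial
  · obtain ⟨m, hm⟩ := h.out {i, j} (Finset.card_le_two.trans (by omega))
    simp only [Finset.mem_insert, Finset.mem_singleton, not_or] at hm
    exact .inl (hZ σ (hX' hσ) (h.perm_of_stab hX hX' hn hσ (f.fix_le_stab _ (s m hm.1 hm.2))))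
  · obtain ⟨m, hm⟩ := h.out {i, j} (Finset.card_le_two.trans (by omega))
    exact ⟨m, by simpa using hm⟩
  · exact hy.elim (·.1) fun c => (nr ((Subgroup.mul_mem_cancel_left _ e).1 (hX' c.1))).elim

variable {g : f.Isom} (hg : g ∈ X) (ng : ¬f.PermD D g) {i : ι}
include hg ng

theorem full {a : V} (ha : a ∈ D i) (q : f.Q a ≠ 0) (k : ι) : h.od.pr k (g ⊳ a) ≠ 0 := fun c => by
  obtain ⟨p, hp, p', hp', q1, q2, n1, n2⟩ := (h.pl k).pair
  have c' := h.od.mem_perp_of_pr c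
  have k : ∀ p ∈ D k, f.refl ((g⁻¹ : f.Isom) ⊳ p) ⊳ a = a := fun p hp =>
    f.refl_apply_of_B (by rw [← f.B_coe_map g, isom_apply_inv_apply, c' p hp])
  exact ng (by simpa using h.inv (h.perm_of_rot hX hX' hn (inv_mem hg) hp hp' q1 q2 n1 n2
    (h.perm_of_vec hX h2 hX' hn (h.rot_mem hX (inv_mem hg) hp hp' q1 q2) ha q (by
      rw [isom_mul_apply, k p' hp', k p hp]))))

theorem line {a : V} (ha : a ∈ D i) (q : f.Q a ≠ 0) {k l : ι} (kl : k ≠ l)
    (qk : f.Q (h.od.pr k (g ⊳ a)) ≠ 0) (ql : f.Q (h.od.pr l (g ⊳ a)) ≠ 0) {v : V} (hv : v ∈ D i) :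
    f.B (h.od.pr k (g ⊳ a)) (g ⊳ v) = 0 := by
  have hu := h.od.pr_mem k (g ⊳ a)
  have hw := h.od.pr_mem l (g ⊳ a)
  have e1 : f.B (h.od.pr k (g ⊳ a)) (g ⊳ a) = 0 := by rw [← h.od.B_pr hu, orth_B_self, h2, zero_mul]
  have e2 : f.B (h.od.pr l (g ⊳ a)) (g ⊳ a) = 0 := by rw [← h.od.B_pr hw, orth_B_self, h2, zero_mul]
  generalize h.od.pr k (g ⊳ a) = u at *
  generalize h.od.pr l (g ⊳ a) = w at *
  have e3 : (g⁻¹ * (f.refl u * f.refl w) * g : f.Isom) ⊳ a = a := by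
    simp [f.refl_apply_of_B e1, f.refl_apply_of_B e2]
  obtain ⟨j, hj⟩ := h.perm_of_vec hX h2 hX' hn (mul_mem (mul_mem (inv_mem hg)
    (h.rr hX h2 hu hw qk ql)) hg) ha q e3 i
  have a0 : a ≠ 0 := by rintro rfl; simp at q
  obtain rfl : i = j := h.od.eq_of_mem ha (e3 ▸ hj a ha) a0
  obtain ⟨c, hc⟩ := Submodule.mem_span_singleton.1 ((h.pl i).mem_span ha (sub_mem (hj v hv) hv) a0
    (by rw [orth_B_self, h2, zero_mul]) (by rw [map_sub, ← e3, B_coe_map, e3, sub_self]))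
  have e4 := congrArg g.1 hc
  simp only [isom_mul_apply, map_sub, isom_apply_inv_apply, map_smul, refl_apply,
    h.od.orth k l kl hw u hu] at e4
  obtain ⟨m, hm⟩ := h.out {k, l} (Finset.card_le_two.trans (by omega))
  simp only [Finset.mem_insert, Finset.mem_singleton, not_or] at hm
  have e5 := congrArg (h.od.pr m) e4
  have e6 := congrArg (h.od.pr k) e4
  simp only [map_sub, map_smul, h.od.pr_of_ne hm.1 hu, h.od.pr_of_ne hm.2 hw, h.od.pr_of_ne kl hw,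
    h.od.pr_of_mem hu, smul_zero, sub_zero, sub_self, smul_eq_zero,
    h.full hX h2 hX' hn hg ng ha q m, or_false] at e5 e6
  have u0 : u ≠ 0 := by rintro rfl; simp at qk
  simpa [e5, qk, u0] using e6

theorem two_ns {k l : ι} (kl : k ≠ l) {a b : V} (ha : a ∈ D i) (hb : b ∈ D i)
    (qa : f.Q (h.od.pr k (g ⊳ a)) ≠ 0) (qb : f.Q (h.od.pr l (g ⊳ b)) ≠ 0) {v w : V} (hv : v ∈ D i)
    (hw : w ∈ D i) : f.B (h.od.pr k (g ⊳ v)) (h.od.pr k (g ⊳ w)) = 0 := by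
  obtain ⟨c, hc, q, q1, q2⟩ : ∃ c ∈ D i, f.Q c ≠ 0 ∧ f.Q (h.od.pr k (g ⊳ c)) ≠ 0 ∧
      f.Q (h.od.pr l (g ⊳ c)) ≠ 0 := by
    obtain ⟨p, hp, p', hp', q, q', n1, n2⟩ := (h.pl i).pair
    by_cases hq : 7 ≤ Fintype.card F
    swap
    · have k : ∀ j, f.Q (h.od.pr j (g ⊳ p)) ≠ 0 := fun j c => h.full hX h2 hX' hn hg ng hp q j
        (((h.pl j).big.resolve_left hq).1 _ (h.od.pr_mem j _) c)
      exact ⟨p, hp, q, k _, k _⟩
    have kk : ∀ {j a}, a ∈ D i → f.Q (h.od.pr j (g ⊳ a)) ≠ 0 → f.Q (h.od.pr j (g ⊳ p')) ≠ 0 ∨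
        f.B (h.od.pr j (g ⊳ p)) (h.od.pr j (g ⊳ p')) ≠ 0 ∨ f.Q (h.od.pr j (g ⊳ p)) ≠ 0 :=
      fun {j a} ha c => by
        by_contra! H
        obtain ⟨s, t, rfl⟩ := span_two (h.pl i).two hp hp' (by rintro rfl; simp at q) n2 ha
        simp [orth_Q_add, orth_Q_smul, H] at c
    obtain ⟨s, hs⟩ := avoid ![f.Q p', f.Q (h.od.pr k (g ⊳ p')), f.Q (h.od.pr l (g ⊳ p'))]
      ![f.B p p', f.B (h.od.pr k (g ⊳ p)) (h.od.pr k (g ⊳ p')),
        f.B (h.od.pr l (g ⊳ p)) (h.od.pr l (g ⊳ p'))]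
      ![f.Q p, f.Q (h.od.pr k (g ⊳ p)), f.Q (h.od.pr l (g ⊳ p))]
      (by intro i; fin_cases i; exacts [.inr (.inl n1), kk ha qa, kk hb qb]) (by omega)
    refine ⟨p + s • p', add_mem hp ((D i).smul_mem _ hp'), ?_, ?_, ?_⟩
    all_goals simp only [map_add, map_smul, Q_line]
    exacts [hs 0, hs 1, hs 2]
  have hu := h.od.pr_mem k (g ⊳ c)
  have key : ∀ v ∈ D i, h.od.pr k (g ⊳ v) ∈ F ∙ h.od.pr k (g ⊳ c) := fun v hv =>
    (h.pl k).mem_span hu (h.od.pr_mem k _) (fun e => by simp [e] at q1)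
      (by rw [orth_B_self, h2, zero_mul])
      (by rw [h.od.B_pr hu, h.line hX h2 hX' hn hg ng hc q kl q1 q2 hv])
  obtain ⟨s, hs⟩ := Submodule.mem_span_singleton.1 (key v hv)
  obtain ⟨t, ht⟩ := Submodule.mem_span_singleton.1 (key w hw)
  simp [← hs, ← ht, orth_B_self, h2]

theorem even_false : False := by
  obtain ⟨i, -⟩ := h.out ∅ (by simp)
  obtain ⟨p, hp, p', hp', q, q', n1, n2⟩ := (h.pl i).pair
  have z : ∀ {j}, (∀ v ∈ D i, f.Q (h.od.pr j (g ⊳ v)) = 0) → ∀ v ∈ D i, ∀ w ∈ D i,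
      f.B (h.od.pr j (g ⊳ v)) (h.od.pr j (g ⊳ w)) = 0 := fun H v hv w hw => by
    rw [orth_B_eq, ← map_add, ← map_add, H _ (add_mem hv hw), H v hv, H w hw]; simp
  obtain ⟨k, hk⟩ := exists_Q_pr h.od (v := g ⊳ p) (by rwa [Q_coe_map])
  by_cases H : ∃ l, l ≠ k ∧ ∃ b ∈ D i, f.Q (h.od.pr l (g ⊳ b)) ≠ 0
  · obtain ⟨l, lk, b, hb, qb⟩ := H
    refine n1 ?_
    rw [← f.B_coe_map g, B_sum h.od]
    refine Finset.sum_eq_zero fun j _ => ?_
    by_cases c : ∀ v ∈ D i, f.Q (h.od.pr j (g ⊳ v)) = 0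
    · exact z c p hp p' hp'
    push Not at c
    obtain ⟨a, ha, qa⟩ := c
    by_cases jk : j = k
    · exact h.two_ns hX h2 hX' hn hg ng (jk ▸ lk.symm) ha hb qa qb hp hp'
    · exact h.two_ns hX h2 hX' hn hg ng jk ha hp qa hk hp hp'
  push Not at H
  obtain ⟨l, lk⟩ := h.out {k} (by simp)
  obtain ⟨m, hm⟩ := h.out {k, l} (Finset.card_le_two.trans (by omega))
  simp only [Finset.mem_insert, Finset.mem_singleton, not_or] at hm lk
  have hy := h.od.pr_mem l (g ⊳ p)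
  have y0 := h.full hX h2 hX' hn hg ng hp q l
  have y1 := h.full hX h2 hX' hn hg ng hp' (q' ▸ q) l
  have qy := H l lk p hp
  obtain ⟨c, hc⟩ := Submodule.mem_span_singleton.1 ((h.pl l).mem_span hy (h.od.pr_mem l (g ⊳ p')) y0
    (f.B_self_of_Q qy) (z (H l lk) p hp p' hp'))
  have c0 : c ≠ 0 := by rintro rfl; simp [← hc] at y1
  have b1 : ∀ u ∈ D l, f.B u (g ⊳ p) = f.B u (h.od.pr l (g ⊳ p)) := fun u hu => (h.od.B_pr hu _).symm
  have b2 : ∀ u ∈ D l, f.B u (g ⊳ p') = c * f.B u (h.od.pr l (g ⊳ p)) := fun u hu => by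
    rw [← h.od.B_pr hu, ← hc, map_smul, smul_eq_mul]
  generalize h.od.pr l (g ⊳ p) = y at *
  obtain ⟨y', hy', hh⟩ := h.od.exists_isHyp hy y0 qy
  obtain ⟨d, hd⟩ := avoid ![(1 : F)] ![-1] ![0] (by simp) (by
    have := (h.pl l).big.resolve_right fun c => y0 (c.1 y hy qy); omega)
  have d0 : d ≠ 0 := by rintro rfl; simpa using hd 0
  have d1 : d⁻¹ - 1 ≠ 0 := by
    rw [sub_ne_zero, Ne, inv_eq_one]; rintro rfl; simpa using hd 0
  have yx : f.B y' y = 1 := by rw [orth_symm, hh.B_xy]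
  have m1 : y + d • y' ∈ D l := add_mem hy ((D l).smul_mem _ hy')
  have m2 : y + (1 : F) • y' ∈ D l := add_mem hy ((D l).smul_mem _ hy')
  have q1 : ∀ d : F, f.Q (y + d • y') = d := fun d => by simp [Q_line, hh.Q_y, qy, hh.B_xy]
  have ht := h.rr hX h2 m1 m2 (by rwa [q1]) (by rw [q1]; exact one_ne_zero)
  have et : ∀ (v : V) (c : F), (∀ u ∈ D l, f.B u v = c * f.B u y) →
      (f.refl (y + d • y') * f.refl (y + (1 : F) • y') : f.Isom) ⊳ v = v + ((d⁻¹ - 1) * c) • y :=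
    fun v c e => by
      simp only [isom_mul_apply, refl_apply, q1, map_sub, map_smul, e _ m1, e _ m2, B_add_left,
        orth_B_smul_left, map_add, hh.B_xx, hh.B_xy, hh.B_yy, yx]
      match_scalars <;> field_simp <;> ring
  generalize f.refl (y + d • y') * f.refl (y + (1 : F) • y') = t at ht et
  have r1 := h.rot_mem hX hg hp hp' q q'
  have r2 := h.rot_mem hX (mul_mem ht hg) hp hp' q q'
  rw [isom_mul_apply, isom_mul_apply, et _ 1 (by simpa using b1), et _ c b2, mul_one] at r2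
  have n3 : ∀ s t : F, s ≠ 0 → h.od.pr k (s • g ⊳ p + t • g ⊳ p') ≠ 0 := fun s t s0 e => by
    obtain ⟨u, hu, eu⟩ := (h.pl i).dual (add_mem ((D i).smul_mem s hp) ((D i).smul_mem t hp'))
      fun e => n2 (by
        have t0 : t ≠ 0 := by rintro rfl; simp [s0] at e; simp [e] at q
        exact (Submodule.smul_mem_iff _ t0).1 (eq_neg_of_add_eq_zero_right e ▸
          neg_mem (Submodule.smul_mem _ _ (Submodule.mem_span_singleton_self _))))
    rw [← f.B_coe_map g, B_sum h.od, Finset.sum_eq_single k (fun j _ c => z (H j c) _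
      (add_mem ((D i).smul_mem s hp) ((D i).smul_mem t hp')) u hu) (by simp), map_add, map_smul,
      map_smul, e] at eu
    simp at eu
  have b3 : f.B y (g ⊳ p) = 0 := by rw [b1 y hy, hh.B_xx]
  have b4 : f.B y (g ⊳ p') = 0 := by rw [b2 y hy, hh.B_xx, mul_zero]
  have q2 : f.Q (g ⊳ p) ≠ 0 := by rwa [Q_coe_map]
  have q3 : f.Q (g ⊳ p') ≠ 0 := by rwa [Q_coe_map, q']
  generalize g ⊳ p = a at *
  generalize g ⊳ p' = b at *
  have e1 := eich_refl q2 d1 qy (by simp [b3])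
  have e2 := eich_refl q3 (mul_ne_zero d1 c0) qy (by simp [b4])
  have e3 := f.conj_eichler (f.refl b) _ _ _ (f.orth_eichlerCond qy
    (show f.B y (((d⁻¹ - 1) / f.Q a) • a) = 0 by simp [b3]))
  obtain ⟨w, L, w0⟩ : ∃ w, f.Lev X y w ∧ h.od.pr k w ≠ 0 := by
    have c1 : f.EichlerCond y (f.refl b ⊳ (((d⁻¹ - 1) / f.Q a) • a))
        (f.Q (((d⁻¹ - 1) / f.Q a) • a)) :=
      ⟨qy, by simp [refl_apply, b3, b4], (f.Q_coe_map ..).symm⟩
    rw [f.eichler_congr _ c1 (f.refl_apply_of_B (f.eq_zero_symm b4)) rfl rfl] at e3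
    have := mul_mem (inv_mem r1) r2
    rw [show (f.refl a * f.refl b)⁻¹ * (f.refl (a + (d⁻¹ - 1) • y) * f.refl (b + ((d⁻¹ - 1) * c) • y))
      = f.refl b * (f.refl a * f.refl (a + (d⁻¹ - 1) • y)) * (f.refl b)⁻¹ *
        (f.refl b * f.refl (b + ((d⁻¹ - 1) * c) • y)) by
          simp only [mul_inv_rev, mul_assoc, inv_mul_cancel_left]; rw [refl_inv, refl_inv],
      ← e1, ← e2, e3,
      eichler_mul] at this
    refine ⟨_, ⟨_, _, this⟩, ?_⟩
    convert n3 ((d⁻¹ - 1) / f.Q a) ((d⁻¹ - 1) * c / f.Q b - (d⁻¹ - 1) / f.Q a * ((f.Q b)⁻¹ * f.B b a))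
      (div_ne_zero d1 q2) using 2
    rw [map_smul, refl_apply]
    module
  have o : ∀ {j u}, j ≠ l → u ∈ D j → f.refl u ⊳ y = y := fun c hu =>
    f.refl_apply_of_B (h.od.orth _ _ c hy _ hu)
  obtain ⟨u, hu, qu, e⟩ := (h.pl k).nonsing fun c => w0 (h.od.pr_of_perp c)
  obtain ⟨u', hu', eu, qu'⟩ := (h.pl k).orth (a := u) hu qu
  obtain ⟨x, hx, qx⟩ := (h.pl m).val 1
  replace qx : f.Q x ≠ 0 := qx ▸ one_ne_zero
  obtain ⟨n, hn'⟩ := h.out {k, l, m} (Finset.card_le_three.trans (by omega))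
  simp only [Finset.mem_insert, Finset.mem_singleton, not_or] at hn'
  have fx : ∀ u ∈ D k, f.Q u ≠ 0 → ∀ w, f.Lev X y w →
      f.Lev X y ((f.refl u * f.refl x : f.Isom) ⊳ w) := fun u hu qu w L =>
    L.fix (h.rr hX h2 hu hx qu qx) (by rw [isom_mul_apply, o hm.2 hx, o (Ne.symm lk) hu])
  refine hn (h.good_le hX ⟨l, m, k, y, Ne.symm hm.2, Ne.symm lk, Ne.symm hm.1, y0, qy,
    Submodule.mem_sup_left hy, fun v hv => ?_⟩)
  obtain ⟨a, ha, a', ha', qa, qa', n4, n5⟩ := (h.pl k).pair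
  have L2 := L.sub (L.fix (h.rr hX h2 ha ha' qa (qa' ▸ qa))
    (by rw [isom_mul_apply, o (Ne.symm lk) ha', o (Ne.symm lk) ha]))
  have e4 : w - (f.refl a * f.refl a' : f.Isom) ⊳ w = ((f.Q a)⁻¹ * f.B a (f.refl a' ⊳ w)) • a +
      ((f.Q a')⁻¹ * f.B a' w) • a' := by
    rw [isom_mul_apply, f.refl_apply a]
    conv_lhs => arg 2; arg 1; rw [refl_apply]
    module
  have m3 : w - (f.refl a * f.refl a' : f.Isom) ⊳ w ∈ D k :=
    e4 ▸ add_mem ((D k).smul_mem _ ha) ((D k).smul_mem _ ha')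
  refine ((h.pl k).b3 (W := levA X qy ⊓ (D k).toAddSubgroup) (fun u hu qu w hw => ⟨?_,
    (f.refl_mem_stab hu w).1 hw.2⟩) ⟨L2, m3⟩ (fun c => w0 (h.od.pr_of_perp fun z hz => ?_)) hv).1
  · have := fx u hu qu w hw.1
    rwa [isom_mul_apply, f.refl_apply_of_B (h.od.orth m k hm.1 hw.2 x hx)] at this
  have e5 := Submodule.disjoint_def.1 (h.od.disj k) _ m3 c
  rw [e4] at e5
  have a0 : a ≠ 0 := by rintro rfl; simp at qa
  have e6 : f.B a' w = 0 := by
    by_contra c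
    exact n5 ((Submodule.smul_mem_iff _ (mul_ne_zero (inv_ne_zero (qa' ▸ qa)) c)).1
      (eq_neg_of_add_eq_zero_right e5 ▸
        neg_mem (Submodule.smul_mem _ _ (Submodule.mem_span_singleton_self _))))
  have e7 : f.B a w = 0 := by simpa [e6, f.refl_apply_of_B e6, qa, a0] using e5
  obtain ⟨s, t, rfl⟩ := span_two (h.pl k).two ha ha' a0 n5 hz
  simp [e6, e7]

end Dc

/-- overgroups of the stabiliser of a decomposition into planes -/
theorem Dc.max (h : Dc f D) (hX : ∀ g ∈ f.Eich, f.PermD D g → g ∈ X) (hX' : X ≤ f.Eich) :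
    (∀ g ∈ X, f.PermD D g) ∨ f.Eich ≤ X := by
  refine or_iff_not_imp_right.2 fun hn g hg => ?_
  by_cases h2 : (2 : F) = 0
  · exact by_contra fun ng => h.even_false hX h2 hX' hn hg ng
  · exact h.odd hX h2 hX' hn hg

end CA.H12Dc
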