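import Cfsg.Agent.Lib.Lin.MaxGL

/-!
Stabilisers of non-degenerate subspaces of odd-dimensional quadratic spaces in small dimension.
-/

set_option autoImplicit false
set_option linter.unusedSectionVars false

namespace CA.CForm

open Module Polynomial

namespace Form
variable {F : Type*} [Field F] [Fintype F] {V : Type*} [AddCommGroup V] [Module F V]
  [FiniteDimensional F V] {f : Form (Kind.orth F) V} {X : Subgroup f.Isom} {U : Submodule F V}

local notation:75 g:76 " ⊳ " v:75 => (g : V ≃ₗ[F] V) v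

theorem exists_two_sq (h2 : (2 : F) ≠ 0) (a : F) : ∃ s t : F, s ^ 2 + t ^ 2 = a := by
  obtain ⟨s, t, h⟩ := FiniteField.exists_root_sum_quadratic (f := X ^ 2) (g := X ^ 2 - C a)
    (degree_X_pow 2) (degree_X_pow_sub_C two_pos a)
    (Nat.odd_iff.1 (two_ne_zero_iff_odd.1 h2))
  exact ⟨s, t, by simp at h; linear_combination h⟩

theorem IsHyp.perp_part {x y : V} (h : f.IsHyp x y) (hU : Disjoint U (f.perp U)) (hx : x ∈ U)
    (hy : y ∈ U) : ∃ A ≤ U, Disjoint A (f.perp A) ∧ finrank F U ≤ finrank F A + 2 ∧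
      ∀ a ∈ A, f.B x a = 0 ∧ f.B y a = 0 := by
  have h1 := f.finrank_le_inf_perp U x
  have h2 := f.finrank_le_inf_perp (U ⊓ f.perp (F ∙ x)) y
  refine ⟨U ⊓ f.perp (F ∙ x) ⊓ f.perp (F ∙ y), inf_le_left.trans inf_le_left,
    Submodule.disjoint_def.2 fun a ha hp => Submodule.disjoint_def.1 hU a ha.1.1 fun u hu => ?_,
    by omega, fun a ha => ⟨f.mem_perp_span_singleton.1 ha.1.2, f.mem_perp_span_singleton.1 ha.2⟩⟩
  have h4 := f.mem_perp_span_pair.1 (h.sub_mem_perp u)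
  have h5 := hp (u - (_ * f.B y u) • x - f.B x u • y) ⟨⟨U.sub_mem (U.sub_mem hu
    (U.smul_mem _ hx)) (U.smul_mem _ hy), f.mem_perp_span_singleton.2 h4.1⟩,
    f.mem_perp_span_singleton.2 h4.2⟩
  simpa [f.mem_perp_span_singleton.1 ha.1.2, f.mem_perp_span_singleton.1 ha.2] using h5

theorem Nondeg.max_nondeg_odd (hf : f.Nondeg) (ho : Odd (finrank F V))
    (hU : Disjoint U (f.perp U)) (h4 : 4 ≤ finrank F U)
    (hlt : finrank F (f.perp U) < finrank F U) (hW : (f.restrict (f.perp U)).IrrI)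
    (hX : f.stab U ⊓ f.Eich ≤ X) : X ≤ f.stab U ∨ f.Eich ≤ X := by
  have h2 := hf.two_ne_zero_of_odd ho
  have hg := good_of_two_ne_zero f h2
  have h3 : 3 ≤ finrank F V := by have := Submodule.finrank_le U; omega
  have hE := hf.commutator_eq_Eich hg h3
  have hb := base_of_le hX
  have hyp : ∀ x ∈ U, x ≠ 0 → f.Q x = 0 → ∃ y ∈ U, f.IsHyp x y := fun x hx h0 hQ =>
    hf.exists_isHyp_mem hQ hx fun h => h0 (Submodule.disjoint_def.1 hU x hx h)
  by_cases hM : f.ML X U
  swap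
  · right
    unfold ML at hM
    push Not at hM
    obtain ⟨x, hx, hx0, hQ, hn⟩ := hM
    obtain ⟨y, hy, h⟩ := hyp x hx hx0 hQ
    obtain ⟨A, hA, dA, rA, oA⟩ := h.perp_part hU hx hy
    obtain ⟨w, hw, hw1⟩ := f.exists_Q_eq_of_two_le dA (by omega) 1
    have fx : ∀ u ∈ A, f.refl u ∈ f.fix (f.perp A) := fun u hu =>
      refl_mem_fix (f.le_perp_perp A hu)
    refine hf.Eich_le_of_Qgrp' (.inl h3) hQ (Qgrp_le_of_lev (hb.Tgrp_le hx) fun w' hw' =>
      lev_of_mem_levS (hb.grow hf hU hx hn (fun v hv hv0 hl => hf.eq_of_irrI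
        (hf.disjoint_perp_perp hU) hW (fun g hg' u hu hul => ?_) hv hl hv0) w' hw'))
      (hb y hy w (hA hw) _ (f.orth_eichlerCond h.Q_y (oA w hw).2)) ?_
    · rw [hf.perp_perp] at hg'
      obtain ⟨s, hs, h5⟩ := hf.exists_mul_mem_commutator hg (S := f.fix (f.perp A))
        ⟨_, fx w hw, hf.dick_refl hg (hw1 ▸ one_ne_zero)⟩ (fun _ => by
          obtain ⟨u, hu, v, hv, h⟩ := hf.exists_refl_mul_refl_spin hg h2 dA (by omega)
          exact ⟨_, mul_mem (fx u hu) (fx v hv), h⟩) g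
      have := map_mem_levS hul (hX ⟨mul_mem (hf.mem_stab_of_fix_perp hA hs) (f.fix_le_stab U hg'),
        hE ▸ h5⟩) (by
          rw [isom_mul_apply, hg' x hx, hs x fun a ha => f.eq_zero_symm (oA a ha).1])
      rwa [isom_mul_apply, hs _ fun a ha => by rw [← hg' a (hA ha), B_coe_map, hu a (hA ha)]] at this
    · rw [eichler_apply]
      simp [h.B_xx, h.B_xy, h.B_yx, oA w hw, f.eq_zero_symm (oA w hw).1, hw1]
  left
  let n : f.Isom := ⟨.neg F, (f.orth_mem_Isom).2 fun x => by simp⟩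
  have hn : ∀ g, g * n = n * g := fun g => f.isom_ext fun v => map_neg g.1 v
  have hn' : n * n = 1 := f.isom_ext fun v => neg_neg v
  have dn : hf.dick hg n = -1 := by
    rw [dick_apply, show f.commSub n = ⊤ from eq_top_iff.2 fun v _ => f.mem_commSub.2
      ⟨-(2 : F)⁻¹ • v, by
        change -_ - _ = _
        rw [neg_smul, neg_neg, sub_neg_eq_add, ← two_smul F, smul_inv_smul₀ h2]⟩, finrank_top,
      ho.neg_one_pow]
  obtain ⟨c, hc, sc⟩ : ∃ c : F, c ≠ 0 ∧ sqSign c = hf.spin hg n := by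
    rcases Int.units_eq_one_or (hf.spin hg n) with e | e
    · exact ⟨1, one_ne_zero, e ▸ sqSign_one⟩
    · obtain ⟨c, hc⟩ := FiniteField.exists_nonsquare (F := F) fun e => h2
        (by rw [← Nat.cast_ofNat, ← e]; exact ringChar.Nat.cast_ringChar)
      exact ⟨c, fun e => hc (e ▸ IsSquare.zero), e ▸ sqSign_eq_neg_one.2 hc⟩
  have R1 : ∀ v, f.Q v = c → v ∈ U ∨ v ∈ f.perp U → n * f.refl v ∈ X := fun v hv h =>
    hX ⟨mul_mem (f.mem_stab_of_le fun _ => neg_mem) (h.elim refl_mem_stab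
      fun h => f.fix_le_stab U (refl_mem_fix h)), hE ▸ (hf.mem_commutator_iff hg _).2
        ⟨by rw [map_mul, dn, hf.dick_refl hg (hv ▸ hc)]; rfl,
          by rw [map_mul, hf.spin_refl hg (hv ▸ hc), hv, sc, Int.units_mul_self]⟩⟩
  have A : ∀ v, f.Q v = c → n * f.refl v ∈ X → v ∈ U ∨ v ∈ f.perp U := fun v hv hr => by
    obtain ⟨a, ha, b, hb', rfl⟩ := Submodule.mem_sup.1
      ((hf.isCompl_perp hU).sup_eq_top ▸ Submodule.mem_top (x := v))
    by_contra! H
    have a0 : a ≠ 0 := fun e => H.2 (by rwa [e, zero_add])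
    by_cases hQ : f.Q a = 0
    · have hab := hb' a ha
      rw [f.Q_add_of_B hab, hQ, zero_add] at hv
      have h1 := f.orth_eichlerCond (f.Q_smul_of_Q hQ c⁻¹) (w := b) (by simp [hab])
      have h5 : f.Lev X (c⁻¹ • a) b := ⟨_, h1, by
        rw [f.eichler_eq_refl_mul h1 (hv ▸ hc), hv, smul_inv_smul₀ hc, add_comm]
        have := mul_mem (R1 b hv (.inr hb')) hr
        rwa [mul_assoc, ← mul_assoc (f.refl b), hn, ← mul_assoc, ← mul_assoc, hn', one_mul] at this⟩
      replace h5 := h5.smul_left hQ (inv_ne_zero hc)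
      obtain ⟨y, hy, h⟩ := hyp a ha a0 hQ
      have h6 : ∀ t : F, f.Lev X a (t ^ 2 • c⁻¹ • b) := fun t => by
        by_cases ht : t = 0
        · simpa [ht] using lev_zero hQ
        have := h5.map (hX ⟨hf.mem_stab_of_fix_perp (Submodule.span_le.2 (by
          rintro _ (rfl | rfl) <;> assumption)) (h.torus_mem_fix _),
          h.torus_mul_self_mem_Eich hf h3 (Units.mk0 t ht)⟩)
        rw [h.torus_apply_x, h.torus_apply_of_B _ (by simp [hab]) (by simp [hb' y hy])] at this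
        simpa [sq] using this.smul_left hQ (Units.ne_zero _)
      refine H.1 (add_mem ha ((U.smul_mem_iff (inv_ne_zero hc)).1 (hM a ha a0 hQ fun l => ?_)))
      obtain ⟨s, t, rfl⟩ := exists_two_sq h2 l
      exact add_smul (s ^ 2) _ (c⁻¹ • b) ▸ (h6 s).add (h6 t)
    · have h1 := f.finrank_le_inf_perp U a
      obtain ⟨x, ⟨hx, hxa⟩, x0, xQ⟩ := iso_orth f (U ⊓ f.perp (F ∙ a)) (by omega)
      replace hxa := f.mem_perp_span_singleton.1 hxa
      have e : (n * f.refl (a + b) : f.Isom) ⊳ x = (-1 : F) • x := by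
        rw [isom_mul_apply, f.refl_apply_of_B (by simp [hxa, f.eq_zero_symm (hb' x hx)])]
        simp [n]
      have h5 : (n * f.refl (a + b) : f.Isom) ⊳ a ∈ U := hM x hx x0 xQ fun l => by
        have := (hb.mem_levS hx xQ ha (f.eq_zero_symm hxa) (-l)).map hr
        rw [e] at this
        simpa using this.smul_left xQ (by simp)
      rw [isom_mul_apply, refl_apply] at h5
      have := U.add_mem ha h5
      simp only [n, LinearEquiv.neg_apply, neg_sub, add_sub_cancel] at this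
      exact H.1 ((U.smul_mem_iff (by
        simp [hv, hc, f.eq_zero_symm (hb' a ha), orth_B_self, h2, hQ])).1 this)
  intro g hg'
  have A' : ∀ v ∈ U, f.Q v = c → g ⊳ v ∈ U ∨ g ⊳ v ∈ f.perp U := fun v hv h =>
    A _ (by rwa [Q_coe_map]) (by
      have := mul_mem (mul_mem hg' (R1 v h (.inl hv))) (inv_mem hg')
      rwa [← mul_assoc, hn, mul_assoc n, mul_assoc n, conj_refl] at this)
  have B : ∀ x ∈ U, f.Q x = 0 → g ⊳ x ∈ U ∨ g ⊳ x ∈ f.perp U := fun x hx hQ => by
    by_cases x0 : x = 0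
    · simp [x0]
    obtain ⟨y, hy, h⟩ := hyp x hx x0 hQ
    obtain ⟨A, hA, dA, rA, oA⟩ := h.perp_part hU hx hy
    obtain ⟨w, hw, hw1⟩ := f.exists_Q_eq_of_two_le dA (by omega) c
    obtain ⟨o1, o2⟩ := oA w hw
    have o3 := f.eq_zero_symm o1
    have o4 := f.eq_zero_symm o2
    have key : ∀ T T' : Submodule F V, (∀ u ∈ T, ∀ v ∈ T', f.B u v = 0) →
        (∀ v ∈ U, f.Q v = c → g ⊳ v ∈ T ∨ g ⊳ v ∈ T') → g ⊳ (x + c • y) ∈ T → g ⊳ x ∈ T := by
      intro T T' h1 h5 h6
      have h7 : ∀ w ∈ U, f.Q w = c → f.B x w = 0 → f.B y w = 0 → g ⊳ (c • y + w) ∈ T :=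
        fun w hw h7 h8 h9 => (h5 _ (add_mem (U.smul_mem _ hy) hw) (by
          rw [f.Q_add_of_B (by simp [h9]), f.Q_smul_of_Q h.Q_y, h7, zero_add])).resolve_right
          fun c' => hc (by simpa [h.B_xy, h.B_yy, h8, h9] using h1 _ h6 _ c')
      have := T.add_mem (h7 w (hA hw) hw1 o1 o2) (h7 (-w) (neg_mem (hA hw)) (by simpa) (by simpa)
        (by simpa))
      rw [← map_add, add_add_add_comm, add_neg_cancel, add_zero, ← two_smul F, map_smul,
        T.smul_mem_iff h2] at this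
      simpa using T.sub_mem h6 this
    exact (A' _ (add_mem hx (U.smul_mem _ hy)) (h.Q_add_smul c)).imp
      (key U (f.perp U) (fun u hu v hv => hv u hu) A')
      (key (f.perp U) U (fun u hu v hv => f.eq_zero_symm (hu v hv)) fun v hv h => (A' v hv h).symm)
  obtain ⟨x, hx, x0, xQ⟩ := iso_orth f U (by omega)
  obtain ⟨y, hy, h⟩ := hyp x hx x0 xQ
  have key : ∀ T T' : Submodule F V, (∀ u ∈ T, ∀ v ∈ T', f.B u v = 0) →
      (∀ v ∈ U, f.Q v = 0 → g ⊳ v ∈ T ∨ g ⊳ v ∈ T') → g ⊳ x ∈ T → ∀ v ∈ U, g ⊳ v ∈ T := by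
    intro T T' h1 h5 h6 v hv
    refine h.induction_singular hx hy (P := fun v => g ⊳ v ∈ T)
      (fun a b ha hb => by rw [map_add]; exact add_mem ha hb) (fun z hz zQ => ?_) hv
    by_cases z0 : z = 0
    · simp [z0]
    obtain ⟨t, t1, t2, t3⟩ := ((f.nondeg_restrict_iff U).2 hU).exists_singular_B_ne_zero
      (.inl (by omega)) (x := ⟨x, hx⟩) (x' := ⟨z, hz⟩) xQ (by simpa using x0) zQ (by simpa using z0)
    have := (h5 t t.2 t1).resolve_right fun c => t2 (by simpa using h1 _ h6 _ c)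
    exact (h5 z hz zQ).resolve_right fun c => t3 (f.eq_zero_symm (by simpa using h1 _ this _ c))
  rcases B x hx xQ with c | c
  · exact f.mem_stab_of_le (key U (f.perp U) (fun u hu v hv => hv u hu) B c)
  · have := Submodule.finrank_mono (show f.act g U ≤ f.perp U from fun v hv => by
      obtain ⟨u, hu, rfl⟩ := hv
      exact key (f.perp U) U (fun u hu v hv => f.eq_zero_symm (hu v hv)) (fun v hv h => (B v hv h).symm) c u hu)
    rw [finrank_act] at this
    omega

end Form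
end CA.CForm

namespace CA.MaxGL

open CA.CForm CA.CForm.Form CA.AschFG CA.AschFG7 CA.AschO1 CA.AschProp CA.AschTForm Cfsg Cfsg.Geo Module

theorem orth_max_nondeg_odd {ι : Type} [Fintype ι] [DecidableEq ι] {F : Type*} [Field F] [Fintype F]
    {φ : Form (Kind.orth F) (ι → F)} (hφ : φ.Nondeg) (hn : 7 ≤ Fintype.card ι)
    (ho : Odd (Fintype.card ι)) {W : Submodule F (ι → F)} (h0 : W ≠ ⊥) (h1 : W ≠ ⊤)
    (hW : IsNondegenerateOn (QuadraticMap.polar φ.Q) W) (i1 : (φ.restrict W).IrrI)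
    (i2 : (φ.restrict (φ.perp W)).IrrI) :
    IsMaximalIn (omegaGL φ.Q) (subspaceStabilizer W ⊓ omegaGL φ.Q) := by
  rw [omega_eq hφ (by omega)]
  rw [polar_fn] at hW
  have hW' := nondegOn_iff.1 hW
  refine max_stab hφ (iso_orth φ) (by omega) (by omega) h0 h1 fun X => ?_
  have e := hφ.finrank_perp W
  rw [finrank_fun] at e
  obtain ⟨m, hm⟩ := id ho
  rw [← finrank_fun (F := F)] at ho
  by_cases h : finrank F (φ.perp W) < finrank F W
  · exact hφ.max_nondeg_odd ho hW' (by omega) h i2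
  · rw [← hφ.stab_perp W]
    refine hφ.max_nondeg_odd ho ?_ (by omega) ?_ ?_ <;> rw [hφ.perp_perp]
    exacts [hW'.symm, by omega, i1]

end CA.MaxGL
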