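import Cfsg.Agent.Lib.Lin.H12Dc5
import Cfsg.Agent.Lib.Lin.MaxF7
import Cfsg.Agent.Lib.Lin.MaxGL2

/-!
Orthogonal decompositions into four-dimensional subspaces; the final statement.
-/

set_option autoImplicit false
set_option linter.unusedSectionVars false

namespace CA.H12Dc

open Module CA.CForm CA.CForm.Form

variable {F : Type*} [Field F] [Fintype F] {V : Type*} [AddCommGroup V] [Module F V]
  [FiniteDimensional F V] {f : Form (Kind.orth F) V} {U : Submodule F V} {ι : Type*} [Fintype ι]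
  [DecidableEq ι] {D : ι → Submodule F V} {X Y : Subgroup f.Isom}

local notation:75 g:76 " ⊳ " v:75 => (g : V ≃ₗ[F] V) v

/-- Witt index at most one -/
def Mi (f : Form (Kind.orth F) V) (U : Submodule F V) : Prop :=
  ∀ x ∈ U, ∀ y ∈ U, f.Q x = 0 → f.Q y = 0 → f.B x y = 0 → x ≠ 0 → y ∈ F ∙ x

theorem sing_perp (h : 4 ≤ finrank F U) (a : V) : ∃ x ∈ U, x ≠ 0 ∧ f.Q x = 0 ∧ f.B a x = 0 := by
  have := f.finrank_le_inf_perp U a
  obtain ⟨x, hx, x0, q⟩ := iso_orth f (U ⊓ f.perp (F ∙ a)) (by omega)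
  exact ⟨x, hx.1, x0, q, f.mem_perp_span_singleton.1 hx.2⟩

section
variable (h : f.ODec D) (hX : ∀ g ∈ f.Eich, f.PermD D g → g ∈ X) (hM : f.MLA X D)
  (h4 : ∀ i, finrank F (D i) = 4) (h5 : 5 ≤ finrank F V)
include h hX hM h4 h5

theorem four_ns {v m : V} {j : ι} (hm : m ∈ D j) (qm : f.Q m ≠ 0)
    (q : f.Q v ≠ 0) (r : f.refl v * f.refl m ∈ X) : ∃ k, v ∈ D k := by
  obtain ⟨k, hk⟩ := exists_Q_pr h q
  obtain ⟨x, hx, x0, qx, e⟩ := sing_perp (f := f) (h4 k).ge v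
  obtain ⟨b, hb, e1, e2⟩ : ∃ b ∈ D k, f.B x b = 0 ∧ f.B v b ≠ 0 := by
    by_contra! H
    obtain ⟨c, hc⟩ := Submodule.mem_span_singleton.1 (h.mem_span_of_perp hx H)
    exact hk (hc ▸ f.Q_smul_of_Q qx c)
  have hE := h.base hX k x hx b hb _ (f.orth_eichlerCond qx e1)
  have pE := h.permD_of_fix (eichler_mem_fix hx hb _ (f.orth_eichlerCond qx e1))
  have e3 := f.eichler_apply_of_B x b _ (f.orth_eichlerCond qx e1) (f.eq_zero_symm e)
  generalize f.eichler x b _ _ = E at hE pE e3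
  obtain ⟨l, hl⟩ := pE j
  have r1 := mul_mem (mul_mem hE r) (inv_mem hE)
  rw [← conj_mul, conj_refl, conj_refl] at r1
  have r2 : f.refl m * f.refl (E ⊳ m) ∈ X := hX _ (h.nondeg.refl_mul_refl_mem h5 qm (f.Q_coe_map ..))
    ((h.permD_of_fix (i := j) fun v hv => f.refl_apply_of_B (hv m hm)).mul
      (h.permD_of_fix (i := l) fun v hv => f.refl_apply_of_B (hv _ (hl m hm))))
  have r3 := mul_mem (mul_mem r r2) (inv_mem r1)
  simp only [mul_inv_rev, refl_inv, mul_assoc] at r3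
  rw [← mul_assoc (f.refl m), refl_mul_self, one_mul, ← mul_assoc (f.refl (E ⊳ m)), refl_mul_self,
    one_mul, e3, sub_eq_add_neg, ← neg_smul] at r3
  refine ⟨k, ((D k).smul_mem_iff (inv_ne_zero q)).1 (hM k _ ((D k).smul_mem _ hx)
    (smul_ne_zero ?_ x0) _ (lev_of_refl q (f.Q_smul_of_Q qx _) (by simp [f.eq_zero_symm e]) r3))⟩
  simpa [f.orth_symm v b] using e2

variable {S : Submodule F V} (hb : f.Base X S)
  (hN : 3 ≤ Fintype.card F ∨ ∀ j, ∀ m ∈ S, m ∈ D j → f.Q m = 0)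
include hb hN

theorem four_root {j : ι} {x y z : V} (hx : x ∈ D j) (x0 : x ≠ 0) (qx : f.Q x = 0) (hy : y ∈ S)
    (hz : z ∈ S) (qy : f.Q y = 0) (e : f.B y z = 0) (n : z ∉ F ∙ y) (e1 : f.B y x = 0)
    (e2 : f.B z x = 0) : y ∈ D j ∨ (f.Q z = 0 ∧ ∃ m ∈ S, m ∈ D j ∧ m ≠ 0 ∧ f.Q m = 0) ∨
      (h.pr j y ∈ F ∙ x ∧ h.pr j z ∈ F ∙ x) := by
  have M : ∀ a : F, ∀ w ∈ D j, f.B x w = 0 → (a * f.B y w) • z -
      (a * f.B z w + a ^ 2 * f.Q z * f.B y w) • y ∈ D j := fun a w hw hB => by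
    have c := f.orth_eichlerCond qy (w := a • z) (by simp [e])
    have := sub_mem ((hM.ml j).map_mem (h.base hX j) hx x0 qx hw hB
      (hb y hy _ (S.smul_mem a hz) _ c) (by rw [eichler_apply]; simp [e1, e2])) hw
    convert this using 1
    rw [eichler_apply, orth_Q_smul]
    simp only [orth_B_smul_left, Kind.orth_ε]
    module
  refine or_iff_not_imp_left.2 fun ny => or_iff_not_imp_left.2 fun H => ?_
  have k : ∀ w ∈ D j, f.B x w = 0 → f.B y w = 0 := fun w hw hB => by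
    by_contra c
    have m1 := M 1 w hw hB
    have m2 := sub_mem (S.smul_mem (1 * f.B y w) hz)
      (S.smul_mem (1 * f.B z w + 1 ^ 2 * f.Q z * f.B y w) hy)
    have q : f.Q ((1 * f.B y w) • z - (1 * f.B z w + 1 ^ 2 * f.Q z * f.B y w) • y) =
        f.B y w ^ 2 * f.Q z := by simp [Q_sub, orth_Q_smul, qy, f.eq_zero_symm e]
    by_cases qz : f.Q z = 0
    · exact H ⟨qz, _, m2, m1, fun e => n ((Submodule.smul_mem_iff _ (by simpa using c)).1
        (sub_eq_zero.1 e ▸ Submodule.smul_mem _ _ (Submodule.mem_span_singleton_self y))),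
        by rw [q, qz, mul_zero]⟩
    rcases hN with hq | hN
    · obtain ⟨a, ha⟩ := avoid ![(1 : F)] ![-1] ![0] (by simp) (by omega)
      refine ny (((D j).smul_mem_iff (mul_ne_zero (mul_ne_zero (ha 0) qz) c)).1 ?_)
      convert sub_mem ((D j).smul_mem a m1) (M a w hw hB) using 1
      simp
      module
    · exact mul_ne_zero (pow_ne_zero 2 c) qz (q ▸ hN j _ m2 m1)
  refine ⟨h.mem_span_of_perp hx k, h.mem_span_of_perp hx fun w hw hB => ?_⟩
  by_contra c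
  have := M 1 w hw hB
  rw [k w hw hB] at this
  exact ny (((D j).smul_mem_iff c).1 (by simpa using this))

variable (hS : Disjoint S (f.perp S)) (hS4 : finrank F S = 4)
include hS hS4

theorem four_le {j : ι} {m : V} (hm : m ∈ S) (hm' : m ∈ D j) (m0 : m ≠ 0) (q : f.Q m = 0) :
    S ≤ D j := by
  have L : ∀ m ∈ S, m ∈ D j → m ≠ 0 → f.Q m = 0 → ∀ w ∈ S, f.B m w = 0 → w ∈ D j :=
    fun m a b c d w hw e => hM.ml j m b c d (hb.mem_levS a d hw e)
  obtain ⟨y, hy, hh⟩ := h.nondeg.exists_isHyp_mem q hm fun c => m0 (Submodule.disjoint_def.1 hS m hm c)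
  obtain ⟨A, a1, -, a2, a3⟩ := hh.perp_part hS hm hy
  have hy' : y ∈ D j := by
    obtain ⟨x, hx, x0, qx, e⟩ := sing_perp (f := f) (h4 j).ge y
    have := f.finrank_le_inf_perp A x
    obtain ⟨z, ⟨z1, z2⟩, z0⟩ := exists_not_mem_of_lt (S := ⊥) (T := A ⊓ f.perp (F ∙ x))
      (by rw [finrank_bot]; omega)
    have z3 := L m hm hm' m0 q z (a1 z1) (a3 z z1).1
    by_cases qz : f.Q z = 0
    · exact L z (a1 z1) z3 z0 qz y hy (f.eq_zero_symm (a3 z z1).2)
    have k : ∀ {x}, f.Q x = 0 → z ∉ F ∙ x := fun qx c => by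
      obtain ⟨s, rfl⟩ := Submodule.mem_span_singleton.1 c
      exact qz (f.Q_smul_of_Q qx s)
    rcases four_root h hX hM h4 h5 hb hN hx x0 qx hy (a1 z1) hh.Q_y (a3 z z1).2 (k hh.Q_y) e
      (f.eq_zero_symm (f.mem_perp_span_singleton.1 z2)) with c | c | c
    · exact c
    · exact absurd c.1 qz
    · exact absurd (h.pr_of_mem z3 ▸ c.2) (k qx)
  intro v hv
  simpa using add_mem (L m hm hm' m0 q (v - f.B m v • y) (sub_mem hv (S.smul_mem _ hy))
    (by simp [hh.B_xy])) ((D j).smul_mem (f.B m v) hy')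

theorem four_ex : ∃ j, S ≤ D j := by
  by_contra! H
  have n : ∀ j, ∀ m ∈ S, m ∈ D j → m ≠ 0 → f.Q m ≠ 0 := fun j m a b c d =>
    H j (four_le h hX hM h4 h5 hb hN hS hS4 a b c d)
  obtain ⟨v, hv, q⟩ := f.exists_Q_eq_of_two_le hS (by omega) 1
  obtain ⟨j, hj⟩ := exists_Q_pr h (v := v) (q ▸ one_ne_zero)
  obtain ⟨x, hx, x0, qx, e⟩ := sing_perp (f := f) (h4 j).ge v
  have R : ∀ y ∈ S, y ≠ 0 → ∀ z ∈ S, f.Q y = 0 → f.B y z = 0 → z ∉ F ∙ y → f.B y x = 0 →
      f.B z x = 0 → h.pr j y ∈ F ∙ x ∧ h.pr j z ∈ F ∙ x := fun y hy y0 z hz qy a b c d =>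
    ((four_root h hX hM h4 h5 hb hN hx x0 qx hy hz qy a b c d).resolve_left
      fun c => n j y hy c y0 qy).resolve_left fun ⟨_, m, a, b, c, d⟩ => n j m a b c d
  have R1 : ∀ y ∈ S, y ≠ 0 → f.Q y = 0 → f.B y x = 0 → h.pr j y ∈ F ∙ x := fun y hy y0 qy a => by
    have d1 := f.finrank_le_inf_perp S x
    have d2 := f.finrank_le_inf_perp (S ⊓ f.perp (F ∙ x)) y
    obtain ⟨z, ⟨⟨z1, z2⟩, z3⟩, z0⟩ := exists_not_mem_of_lt (S := F ∙ y)
      (T := S ⊓ f.perp (F ∙ x) ⊓ f.perp (F ∙ y)) (by rw [finrank_span_singleton y0]; omega)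
    exact (R y hy y0 z z1 qy (f.mem_perp_span_singleton.1 z3) z0 a
      (f.eq_zero_symm (f.mem_perp_span_singleton.1 z2))).1
  obtain ⟨y, hy, y0, qy, e'⟩ := sing_perp (f := f) hS4.ge x
  obtain ⟨c, hc⟩ : ∃ c : F, c • x = h.pr j v := by
    refine Submodule.mem_span_singleton.1 ?_
    by_cases b : f.B y v = 0
    · refine (R y hy y0 v hv qy b (fun c => ?_) (f.eq_zero_symm e') e).2
      obtain ⟨c, rfl⟩ := Submodule.mem_span_singleton.1 c
      simp [f.Q_smul_of_Q qy] at q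
    have := R1 (v - (f.B y v)⁻¹ • y) (sub_mem hv (S.smul_mem _ hy))
      (fun c => by rw [sub_eq_zero.1 c, f.Q_smul_of_Q qy] at q; exact zero_ne_one q)
      (by simp [Q_sub, q, f.Q_smul_of_Q qy, f.orth_symm y v, b]) (by simp [e, f.eq_zero_symm e'])
    rw [map_sub, map_smul] at this
    simpa using add_mem this (Submodule.smul_mem _ (f.B y v)⁻¹ (R1 y hy y0 qy (f.eq_zero_symm e')))
  exact hj (hc ▸ f.Q_smul_of_Q qx c)

end

theorem four_max (h : f.ODec D) (hX : ∀ g ∈ f.Eich, f.PermD D g → g ∈ X)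
    (h4 : ∀ i, finrank F (D i) = 4) (h5 : 5 ≤ finrank F V)
    (hq : 3 ≤ Fintype.card F ∨ ∀ i, Mi f (D i)) (ht : ∀ i j : ι, ∃ l, l ≠ i ∧ l ≠ j) :
    (∀ g ∈ X, f.PermD D g) ∨ f.Eich ≤ X := by
  refine h.max_of_mla hX (fun i => .inl (by have := h4 i; omega))
    (fun i => (h.nondeg_restrict i).orth_irrI fun c => by have := h4 i; omega)
    (fun i => iso_orth f _ (by have := h4 i; omega)) (h.third ht) fun hM g hg i u hu u0 q => ?_
  have hS := disjoint_act (h.disj i) g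
  by_cases hN : 3 ≤ Fintype.card F ∨ ∀ j, ∀ m ∈ f.act g (D i), m ∈ D j → f.Q m = 0
  · obtain ⟨j, hj⟩ := four_ex h hX hM h4 h5 ((h.base hX i).act hg) hN hS (by rw [finrank_act, h4])
    exact ⟨j, hj hu⟩
  push Not at hN
  obtain ⟨h3, j, m, hm, hm', qm⟩ := hN
  have h2 : (2 : F) = 0 := by
    by_contra c
    have h6 := two_ne_zero_iff_odd.1 c
    have h7 : 2 ≤ Fintype.card F := Fintype.one_lt_card
    rw [Nat.odd_iff] at h6; omega
  have k : ∀ v ∈ f.act g (D i), f.Q v ≠ 0 → ∃ k, v ∈ D k := fun v hv q => by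
    refine four_ns h hX hM h4 h5 hm' qm q ?_
    have := mul_mem (mul_mem hg (h.mem_of_fix hX (i := i) (mul_mem
      (fun w hw => f.refl_apply_of_B (hw _ (f.mem_act.1 hv)))
      (fun w hw => f.refl_apply_of_B (hw _ (f.mem_act.1 hm)))) (refl_even h.nondeg h5 h2
        (by rwa [Q_coe_map]) (by rwa [Q_coe_map])))) (inv_mem hg)
    rwa [← conj_mul, conj_refl, conj_refl, isom_apply_inv_apply, isom_apply_inv_apply] at this
  obtain ⟨y, hy, hh⟩ := h.nondeg.exists_isHyp_mem q hu fun c => u0 (Submodule.disjoint_def.1 hS u hu c)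
  obtain ⟨A, a1, a0, a2, a3⟩ := hh.perp_part hS hu hy
  rw [finrank_act, h4] at a2
  have an : ∀ a ∈ A, a ≠ 0 → f.Q a ≠ 0 := fun a ha c qa => by
    obtain ⟨s, hs⟩ := Submodule.mem_span_singleton.1 ((hq.resolve_left h3.not_ge) i _
      (f.mem_act.1 hu) _ (f.mem_act.1 (a1 ha)) (by rwa [Q_coe_map]) (by rwa [Q_coe_map])
      (by rw [B_coe_map, (a3 a ha).1]) (by simpa using u0))
    rw [← map_smul, EmbeddingLike.apply_eq_iff_eq] at hs
    have := (a3 a ha).2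
    rw [← hs, map_smul, orth_symm, hh.B_xy, smul_eq_mul, mul_one] at this
    exact c (by rw [← hs, this, zero_smul])
  obtain ⟨a, ha, n⟩ := exists_not_mem_of_lt (S := ⊥) (T := A) (by rw [finrank_bot]; omega)
  obtain ⟨b, hb, e⟩ : ∃ b ∈ A, f.B b a ≠ 0 := by
    by_contra! H
    exact n (Submodule.disjoint_def.1 a0 a ha H)
  obtain ⟨k1, c1⟩ := k a (a1 ha) (an a ha n)
  obtain ⟨k2, c2⟩ := k b (a1 hb) (an b hb (by rintro rfl; simp at e))
  obtain ⟨k3, c3⟩ := k (u + a) (add_mem hu (a1 ha)) (by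
    simpa [orth_Q_add, q, (a3 a ha).1] using an a ha n)
  obtain rfl : k2 = k1 := by_contra fun c => e (h.orth _ _ c c1 b c2)
  obtain rfl : k2 = k3 := by_contra fun c => e (by
    simpa [f.eq_zero_symm (a3 b hb).1] using h.orth _ _ c c3 b c2)
  exact ⟨k2, by simpa using sub_mem c3 c1⟩

open Cfsg Cfsg.Geo CA.AschBase CA.AschTForm CA.AschProp CA.AschFG CA.AschFG5 CA.AschFG7
  CA.AschO1 CA.MaxGL in
theorem orth_max_decomp' {ι : Type} [Fintype ι] [DecidableEq ι] {φ : Form (Kind.orth F) (ι → F)}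
    {t m : ℕ} {D : Fin t → Submodule F (ι → F)} (hφ : φ.Nondeg)
    (hD : IsOrthogonalMDecomposition φ.Q m D)
    (hm : (m = 2 ∧ 5 ≤ t ∧ (7 ≤ Fintype.card F ∨ (Fintype.card F ≠ 3 ∧
      ¬∀ i, IsPlusTypeOn φ.Q (D i)))) ∨
      (m = 4 ∧ 3 ≤ t ∧ (3 ≤ Fintype.card F ∨ ¬∀ i, IsPlusTypeOn φ.Q (D i)))) :
    IsMaximalIn (omegaGL φ.Q) (decompositionStabilizer D ⊓ omegaGL φ.Q) := by
  obtain ⟨h1, h2⟩ := orthDecomp_iff.1 hD
  have h := odec hφ h1 h2
  have h3 := decomp_card h1.decomp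
  have h5 : 5 ≤ Fintype.card ι := by rcases hm with ⟨rfl, hm, -⟩ | ⟨rfl, hm, -⟩ <;> omega
  have h6 := h1.decomp.finrank_eq
  rw [omega_eq hφ h5]
  refine max_of (not_le_orth hφ h5 h1.decomp (.inr (by omega))) fun X a b => Or.imp_left
    (fun (h : ∀ g ∈ X, φ.PermD D g) g hg => (mem_comap_decomp h1.decomp).2 (h g hg)) ?_
  have hX : ∀ g ∈ φ.Eich, φ.PermD D g → g ∈ X := fun g hg e =>
    a ⟨(mem_comap_decomp h1.decomp).2 e, hg⟩
  rcases hm with ⟨rfl, hm, hq⟩ | ⟨rfl, hm, hq⟩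
  · refine Dc.max ⟨h, fun i => ⟨hφ, h6 i, h.disj i, hq.imp_right fun c => ⟨fun v hv q => ?_, c.1⟩⟩,
      by simpa using hm, by rwa [finrank_fun]⟩ hX b
    by_contra v0
    refine c.2 fun j => ?_
    obtain ⟨x, hx, x0, qx⟩ := h.exists_sing hv v0 q j
    exact ⟨F ∙ x, (Submodule.span_singleton_le_iff_mem _ _).2 hx, (ts_span_singleton qx).Q_eq,
      by rw [finrank_span_singleton x0, h6]⟩
  · refine four_max h hX h6 (by rwa [finrank_fun]) (hq.imp_right fun c i x hx y hy qx qy e x0 => ?_)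
      (exists_third hm)
    by_contra n
    refine c fun j => ?_
    obtain ⟨g, hg⟩ := h.exists_act i j
    have h7 := (ts_span_singleton qx).sup_singleton qy (φ.mem_perp_span_singleton.2 e)
    have h8 : finrank F (F ∙ x) < finrank F (F ∙ x ⊔ F ∙ y : Submodule F _) :=
      Submodule.finrank_lt_finrank_of_lt (lt_of_le_of_ne le_sup_left fun e =>
        n (e ▸ Submodule.mem_sup_right (Submodule.mem_span_singleton_self y)))
    have h9 := Submodule.finrank_add_le_finrank_add_finrank (F ∙ x) (F ∙ y)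
    rw [finrank_span_singleton x0] at h8 h9
    rw [finrank_span_singleton (by rintro rfl; simp at n)] at h9
    refine ⟨_, hg ▸ Submodule.map_mono (sup_le ((Submodule.span_singleton_le_iff_mem _ _).2 hx)
      ((Submodule.span_singleton_le_iff_mem _ _).2 hy)), (h7.act g).Q_eq, ?_⟩
    have := φ.finrank_act g (F ∙ x ⊔ F ∙ y)
    rw [h6]
    exact (congrArg (2 * ·) this).trans (by omega)

end CA.H12Dc
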