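import Cfsg.Agent.Lib.Lin.MaxH4

/-!
Maximality of the stabiliser of an orthogonal frame over a prime field in dimension 10.
-/

set_option autoImplicit false
set_option linter.unusedSectionVars false

namespace CA.CForm

open Module CA.MaxF Pi Equiv Finset

namespace Form
variable {F : Type*} [Field F] [Fintype F] {ι : Type*} [Fintype ι] [DecidableEq ι]

section
local notation:75 g:76 " ⊳ " v:75 => (Subtype.val g) v
local notation "𝐞" i:max => (Pi.single i 1 : ι → F)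

/-- `X` is a proper overgroup of the special monomial group of the standard frame. -/
structure Fe15 (f : Form (Kind.orth F) (ι → F)) (X : Subgroup f.Isom) (c : F) : Prop where
  c_ne : c ≠ 0
  two : (2 : F) ≠ 0
  prime : (Fintype.card F).Prime
  big : Fintype.card ι = 10
  B_eq : ∀ u v, f.B u v = 2 * c * (u ⬝ᵥ v)
  flip_mem : ∀ i j, i ≠ j → ∃ g ∈ X, ∀ u, g ⊳ u = u - (2 * u i) • 𝐞 i - (2 * u j) • 𝐞 j
  perm_mem : ∀ σ : Perm ι, Perm.sign σ = 1 → ∃ g ∈ X, ∀ u, g ⊳ u = u ∘ σ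
  det : X ≤ f.SIsom
  not_le : ¬f.Eich ≤ X

variable {f : Form (Kind.orth F) (ι → F)} {X : Subgroup f.Isom} {c : F} {g : f.Isom}

theorem Mon.few15 (hg : g ∈ f.Mon) {S : Finset ι} {y y' : ι → F}
    (H : ∀ m, m ∉ S → ∃ α β : F, ∀ j, j ∉ S → (g ⊳ 𝐞 m - 𝐞 m) j = α * y j + β * y' j) :
    (∃ T : Finset ι, T.card ≤ 2 ∧ ∀ m, m ∉ S → m ∉ T → g ⊳ 𝐞 m = 𝐞 m) ∨
      ∃ T : Finset ι, T.card ≤ 4 ∧ ∀ j, j ∉ S → j ∉ T → y j = 0 := by
  refine or_iff_not_imp_left.2 fun H' => ?_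
  push Not at H'
  choose r a e using hg
  have k : ∀ m j, j ≠ m → j ≠ r m → (g ⊳ 𝐞 m - 𝐞 m) j = 0 := fun m j h1 h2 => by simp [e, h1, h2]
  obtain ⟨m₁, s₁, -, n₁⟩ := H' ∅ (by simp)
  obtain ⟨m₂, s₂, t₂, n₂⟩ := H' {m₁, r m₁} card_le_two
  simp only [mem_insert, mem_singleton, not_or] at t₂
  obtain ⟨α₁, β₁, e₁⟩ := H m₁ s₁
  obtain ⟨α₂, β₂, e₂⟩ := H m₂ s₂
  have d₁ := mt (Mon.diag (e m₁)) n₁
  have d₂ := mt (Mon.diag (e m₂)) n₂
  have z₁ := k m₁ m₂ t₂.1 t₂.2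
  rw [e₁ _ s₁] at d₁
  rw [e₂ _ s₂] at d₂
  rw [e₁ _ s₂] at z₁
  refine ⟨{m₁, r m₁, m₂, r m₂}, card_le_four, fun j h1 h2 => ?_⟩
  simp only [mem_insert, mem_singleton, not_or] at h2
  have z₂ := k m₁ j h2.1 h2.2.1
  have z₃ := k m₂ j h2.2.2.1 h2.2.2.2
  rw [e₁ _ h1] at z₂
  rw [e₂ _ h1] at z₃
  have n : α₁ * β₂ - α₂ * β₁ ≠ 0 := fun n => mul_ne_zero d₁ d₂ (by
    linear_combination (α₂ * y m₁ + β₂ * y' m₁) * z₁ + (y m₁ * y' m₂ - y' m₁ * y m₂) * n)
  exact mul_left_cancel₀ n (by linear_combination β₂ * z₂ - β₁ * z₃)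

namespace Fe15
variable (h : f.Fe15 X c)
include h

theorem Q_eq (u : ι → F) : f.Q u = c * (u ⬝ᵥ u) :=
  mul_left_cancel₀ h.two (by rw [← orth_B_self, h.B_eq, mul_assoc])

theorem B_zero {u v : ι → F} : f.B u v = 0 ↔ u ⬝ᵥ v = 0 := by simp [h.B_eq, h.two, h.c_ne]

theorem nondeg : f.Nondeg := fun x hx => funext fun i => by simpa [h.B_zero] using hx (𝐞 i)

theorem dot_map (g : f.Isom) (u v : ι → F) : (g ⊳ u) ⬝ᵥ (g ⊳ v) = u ⬝ᵥ v :=
  mul_left_cancel₀ (mul_ne_zero h.two h.c_ne) (by rw [← h.B_eq, ← h.B_eq, B_coe_map])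

theorem out (s : Finset ι) (hs : s.card ≤ 9) : ∃ k, k ∉ s :=
  exists_notMem_of_lt (by have := h.big; omega)

theorem move (i j : ι) : ∃ s ∈ X, s ∈ f.Mon ∧ s ⊳ 𝐞 j = 𝐞 i ∧ ∀ u, (s ⊳ u) i = u j := by
  obtain ⟨k, hk⟩ := h.out {i, j} (card_le_two.trans (by omega))
  obtain ⟨l, hl⟩ := h.out {k, i, j} (card_le_three.trans (by omega))
  simp only [mem_insert, mem_singleton, not_or] at hk hl
  obtain ⟨σ, h1, h2⟩ : ∃ σ : Perm ι, Perm.sign σ = 1 ∧ σ i = j := by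
    by_cases e : i = j
    · exact ⟨1, by simp, e⟩
    · exact ⟨swap i j * swap k l, by simp [e, Ne.symm hl.1],
        by simp [swap_apply_of_ne_of_ne (Ne.symm hk.1) (Ne.symm hl.2.1)]⟩
  obtain ⟨s, hs, e⟩ := h.perm_mem σ h1
  exact ⟨s, hs, fun m => ⟨σ.symm m, 1, by rw [e, single_comp, one_smul]⟩,
    by rw [e, single_comp, ← h2, σ.symm_apply_apply], fun u => by rw [e, ← h2]; rfl⟩

theorem not_lev (i : ι) :
    ¬∀ x w : ι → F, x i = 0 → w i = 0 → f.Q x = 0 → f.B x w = 0 → f.Lev X x w := fun H => by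
  have H' : ∀ j (x w : ι → F), x j = 0 → w j = 0 → f.Q x = 0 → f.B x w = 0 → f.Lev X x w :=
    fun j x w h1 h2 h3 h4 => by
      obtain ⟨s, hs, -, -, e⟩ := h.move i j
      simpa using (H (s ⊳ x) (s ⊳ w) (by rw [e, h1]) (by rw [e, h2]) (by rw [Q_coe_map, h3])
        (by rw [B_coe_map, h4])).map (X.inv_mem hs)
  obtain ⟨a, ha⟩ := h.out {i} (by simp)
  obtain ⟨b, hb⟩ := h.out {a, i} (card_le_two.trans (by omega))
  obtain ⟨d, hd⟩ := h.out {b, a, i} (card_le_three.trans (by omega))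
  obtain ⟨j, hj⟩ := h.out {d, b, a, i} (card_le_four.trans (by omega))
  simp only [mem_insert, mem_singleton, not_or] at ha hb hd hj
  obtain ⟨s, t, e⟩ := exists_two_sq h.two (-1 : F)
  set x : ι → F := s • 𝐞 a + t • 𝐞 b + 𝐞 d with hx
  have xi : x i = 0 := by simp [hx, Ne.symm ha, Ne.symm hb.2, Ne.symm hd.2.2]
  have xj : x j = 0 := by simp [hx, hj.1, hj.2.1, hj.2.2.1]
  have xd : x d = 1 := by simp [hx, hd.1, hd.2.1]
  have xx : x ⬝ᵥ x = 0 := by
    simp [hx, hd.1, hd.2.1, hb.1, Ne.symm hd.1, Ne.symm hd.2.1, Ne.symm hb.1]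
    linear_combination e
  have qx : f.Q x = 0 := by rw [h.Q_eq, xx, mul_zero]
  obtain ⟨g, hg, eg⟩ := h.flip_mem d j (Ne.symm hj.1)
  refine h.not_le (h.nondeg.Eich_le_of_Qgrp' (.inl (by have := h.big; simp; omega)) qx
    (f.Qgrp_le fun w _ hc => Lev.eichler_mem ?_ hc) hg ?_)
  · have h1 := h.B_zero.1 hc.B_pw
    simpa using (H' i x (w - w i • 𝐞 i) xi (by simp) qx (h.B_zero.2 (by simp [h1, xi]))).add
      (H' j x (w i • 𝐞 i) xj (by simp [hj.2.2.2]) qx (by simp [h.B_zero, xi]))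
  · rw [Ne, h.B_zero]
    simpa [eg, xx, xd, xj] using h.two

theorem mon_of_fix (hg : g ∈ X) {i : ι} {a : F} (e : g ⊳ 𝐞 i = a • 𝐞 i) : g ∈ f.Mon := by
  have h2 := h.two
  have hc := h.c_ne
  let f' := f.comap (xt i)
  have hB : ∀ u v, f'.B u v = 2 * c * (u ⬝ᵥ v) := fun u v => by rw [comap_B, h.B_eq, xt_dot]
  have hQ : ∀ u, f'.Q u = c * (u ⬝ᵥ u) := fun u => by rw [comap_Q, h.Q_eq, xt_dot]
  let Y : Subgroup f'.Isom :=
    { carrier := {g' | ∃ g ∈ X, ∀ v, g ⊳ xt i v = xt i (g' ⊳ v)}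
      one_mem' := ⟨1, one_mem _, fun _ => rfl⟩
      mul_mem' := fun ⟨a, ha, e⟩ ⟨b, hb, e'⟩ =>
        ⟨a * b, mul_mem ha hb, fun v => by rw [isom_mul_apply, e', e, isom_mul_apply]⟩
      inv_mem' := fun {a} ⟨b, hb, e⟩ => ⟨b⁻¹, inv_mem hb, fun v => by
        conv_lhs => rw [← f'.isom_apply_inv_apply a v, ← e, isom_inv_apply_apply]⟩ }
  refine (frame_refl (Y := Y) hc h2 h.prime (by have := h.big; simp; omega) hB (fun j => ?_)
    (fun σ hσ => ?_)).elim (fun H => ?_) fun H => ?_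
  rotate_left 2
  · have a0 : a ≠ 0 := by
      rintro rfl
      rw [zero_smul, LinearEquiv.map_eq_zero_iff] at e
      simpa using congrFun e i
    have k0 : ∀ v, (g ⊳ xt i v) i = 0 := fun v => by
      have := h.dot_map g (𝐞 i) (xt i v)
      simpa [e, xt_self, a0] using this
    let φ : ({j // j ≠ i} → F) →ₗ[F] ({j // j ≠ i} → F) :=
      LinearMap.funLeft F F Subtype.val ∘ₗ g.1.toLinearMap ∘ₗ xt i
    have k1 : ∀ v, xt i (φ v) = g ⊳ xt i v := fun v => xt_res (k0 v)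
    have k2 : Function.Injective φ := (injective_iff_map_eq_zero _).2 fun v hv => funext fun j => by
      have := k1 v
      rw [hv, map_zero, eq_comm, LinearEquiv.map_eq_zero_iff] at this
      simpa [xt_val] using congrFun this j
    let g' : f'.Isom := ⟨.ofInjectiveEndo φ k2, f'.orth_mem_Isom.2 fun x =>
      (congrArg f.Q (k1 x)).trans (f.Q_coe_map ..)⟩
    intro j
    by_cases hj : j = i
    · exact ⟨i, a, hj ▸ e⟩
    obtain ⟨k, hk⟩ := H g' ⟨g, hg, fun v => (k1 v).symm⟩ ⟨j, hj⟩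
    obtain ⟨b, hb⟩ := Submodule.mem_span_singleton.1 (hk _ (Submodule.mem_span_singleton_self _))
    refine ⟨k, b, ?_⟩
    rw [← xt_single, ← map_smul, hb]
    exact (congrArg g.1 (xt_single ⟨j, hj⟩).symm).trans (k1 _).symm
  · refine (h.not_lev i fun x w h1 h3 h4 h5 => ?_).elim
    have c1 := f.orth_eichlerCond h4 (w := (2 : F)⁻¹ • w) (by simp [h5])
    have c2 : f'.EichlerCond (fun j => x j) (fun j => ((2 : F)⁻¹ • w) j) (f.Q ((2 : F)⁻¹ • w)) := by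
      have := f'.orth_eichlerCond (x := fun j => x j) (w := fun j => ((2 : F)⁻¹ • w) j)
        (by rw [comap_Q, xt_res h1, h4]) (by rw [comap_B, xt_res h1, xt_res (by simp [h3]), c1.B_pw])
      rwa [comap_Q, xt_res (by simp [h3])] at this
    obtain ⟨s, hs, e⟩ := H (f'.eichler_mem_Eich _ _ _ c2)
    have e1 : ∀ v, v i = 0 → s ⊳ v = f.eichler _ _ _ c1 ⊳ v := fun v hv => by
      conv_lhs => rw [← xt_res hv, e]
      rw [eichler_apply, eichler_apply, map_sub, map_add, map_smul, map_smul, comap_B, comap_B,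
        xt_res h1, xt_res hv, xt_res (v := (2 : F)⁻¹ • w) (by simp [h3])]
    have e2 : ∀ v, (f.eichler _ _ _ c1 ⊳ v) i = v i := fun v => by simp [eichler_apply, h1, h3]
    have e3 : f.eichler _ _ _ c1 ⊳ 𝐞 i = 𝐞 i := by
      simp [eichler_apply, h.B_eq, h1, h3]
    have e4 : s ⊳ 𝐞 i = (s ⊳ 𝐞 i) i • 𝐞 i := funext fun j => by
      by_cases hj : j = i
      · simp [hj]
      have := h.dot_map s (𝐞 i) ((f.eichler _ _ _ c1)⁻¹ ⊳ 𝐞 j)
      have k : ((f.eichler _ _ _ c1)⁻¹ ⊳ 𝐞 j) i = 0 := by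
        rw [← e2 ((f.eichler _ _ _ c1)⁻¹ ⊳ 𝐞 j), isom_apply_inv_apply]; simp [Ne.symm hj]
      rw [e1 _ k, isom_apply_inv_apply, single_dotProduct, k] at this
      simpa [hj] using this
    have e5 := h.dot_map s (𝐞 i) (𝐞 i)
    generalize (s ⊳ 𝐞 i) i = b at e4
    rw [e4] at e5
    simp only [smul_dotProduct, dotProduct_smul, single_dotProduct, single_eq_same, smul_eq_mul,
      mul_one] at e5
    have e6 : s * s = f.eichler _ _ _ c1 * f.eichler _ _ _ c1 := f.isom_ext fun v => by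
      have : v = (v - v i • 𝐞 i) + v i • 𝐞 i := by simp
      rw [this, map_add, map_add, map_smul, map_smul, isom_mul_apply, isom_mul_apply, isom_mul_apply,
        isom_mul_apply, e1 (v - _) (by simp), e1 _ (by rw [e2]; simp), e3, e3, e4, map_smul, e4,
        smul_smul b, e5, one_smul]
    have := ((show f.Lev X x ((2 : F)⁻¹ • w + (2 : F)⁻¹ • w) from
      ⟨_, _, f.eichler_mul c1 c1 ▸ e6 ▸ mul_mem hs hs⟩))
    rwa [← two_smul F, smul_inv_smul₀ h2] at this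
  · obtain ⟨s, hs, e⟩ := h.flip_mem i j j.2.symm
    refine ⟨s, hs, fun v => ?_⟩
    rw [e, refl_apply, hQ, hB, map_sub, map_smul, xt_single, xt_self, xt_val]
    simp only [single_dotProduct, single_eq_same, mul_one, one_mul, mul_zero, zero_smul, sub_zero]
    congr 2
    field_simp
  · obtain ⟨s, hs, e⟩ := h.perm_mem (Perm.ofSubtype σ) (by rw [Perm.sign_ofSubtype, hσ])
    refine ⟨⟨LinearEquiv.funCongrLeft F F σ, f'.orth_mem_Isom.2 fun x => by
      rw [hQ, hQ]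
      exact congrArg _ (comp_equiv_dotProduct_comp_equiv x x σ)⟩, ⟨s, hs, fun v => ?_⟩, fun _ => rfl⟩
    rw [e]
    ext j
    by_cases hj : j = i
    · rw [Function.comp, Perm.ofSubtype_apply_of_not_mem σ (by simpa using hj), hj, xt_self, xt_self]
    · rw [Function.comp, Perm.ofSubtype_apply_of_mem σ hj, xt_val]
      exact (xt_val (i := i) (v ∘ σ) ⟨j, hj⟩).symm

theorem mon_of_ev (hg : g ∈ X) {i j : ι} {a : F} (e : g ⊳ 𝐞 i = a • 𝐞 j) : g ∈ f.Mon := by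
  obtain ⟨s, hs, hm, e', -⟩ := h.move i j
  exact (Subgroup.mul_mem_cancel_left _ hm).1 (h.mon_of_fix (mul_mem hs hg) (i := i) (a := a)
    (by rw [isom_mul_apply, e, map_smul, e']))


theorem flip (n : ℕ) (I : Finset ι) (hI : I.card = 2 * n) :
    ∃ g ∈ X, ∀ u, g ⊳ u = u - (2 : F) • rs I u := by
  induction n generalizing I with
  | zero => exact ⟨1, one_mem _, fun u => by ext i; simp [rs, card_eq_zero.1 hI]⟩
  | succ n ih =>
    obtain ⟨a, ha, b, hb, ab⟩ := one_lt_card.1 (show 1 < I.card by omega)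
    obtain ⟨g, hg, e⟩ := ih ((I.erase a).erase b) (by
      rw [card_erase_of_mem (by simp [hb, ab.symm]), card_erase_of_mem ha]; omega)
    obtain ⟨s, hs, e'⟩ := h.flip_mem a b ab
    refine ⟨_, mul_mem hs hg, fun u => ?_⟩
    rw [isom_mul_apply, e', e]
    ext i
    by_cases hi : i = a
    · simp [rs, hi, ha, ab]
    by_cases hi' : i = b <;> simp [rs, hi, hi', hb, ab.symm]

theorem perm_frame (hg : g ∈ X) {s : f.Isom} (hs : s ∈ X) {p : ι}
    (e : s ⊳ g ⊳ 𝐞 p = g ⊳ 𝐞 p) (q : ι) :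
    (∃ a : F, s ⊳ g ⊳ 𝐞 q = a • g ⊳ 𝐞 q) ∨ (g ⊳ 𝐞 q) ⬝ᵥ (s ⊳ g ⊳ 𝐞 q) = 0 := by
  obtain ⟨r, a, e'⟩ := h.mon_of_fix (mul_mem (mul_mem (inv_mem hg) hs) hg) (i := p) (a := 1)
    (by rw [isom_mul_apply, isom_mul_apply, e, isom_inv_apply_apply, one_smul]) q
  have := congrArg g.1 e'
  rw [isom_mul_apply, isom_mul_apply, isom_apply_inv_apply, map_smul] at this
  by_cases hr : r = q
  · exact .inl ⟨a, hr ▸ this⟩
  · exact .inr (by simp [this, h.dot_map, Ne.symm hr])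

theorem unit (g : f.Isom) (i : ι) : (g ⊳ 𝐞 i) ⬝ᵥ (g ⊳ 𝐞 i) = 1 := by simp [h.dot_map]

theorem dot_inv (g : f.Isom) (u v : ι → F) : (g ⊳ u) ⬝ᵥ v = u ⬝ᵥ (g⁻¹ ⊳ v) := by
  rw [← h.dot_map g u, isom_apply_inv_apply]

theorem mon_of_small (hg : g ∈ X) {p : ι} {T : Finset ι} (hT : T.card ≤ 4)
    (e : ∀ k, k ∉ T → (g ⊳ 𝐞 p) k = 0) : g ∈ f.Mon := by
  have h2 := h.two
  obtain ⟨k, hk⟩ := h.out T (by omega)
  obtain ⟨q, hq⟩ : ∃ q, (g ⊳ 𝐞 q) k ≠ 0 := by
    by_contra! H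
    have : g⁻¹ ⊳ 𝐞 k = 0 := funext fun q => by simpa [H] using (h.dot_inv g (𝐞 q) (𝐞 k)).symm
    have h1 := h.unit g⁻¹ k
    rw [this] at h1
    simp at h1
  have y1 := h.unit g q
  have key : ∀ n, ∀ I : Finset ι, I.card = 2 * n → Disjoint I T → ∀ i ∈ I, ∀ j, j ∉ I →
      (g ⊳ 𝐞 q) i ≠ 0 → (g ⊳ 𝐞 q) j ≠ 0 → 2 * ∑ i ∈ I, (g ⊳ 𝐞 q) i ^ 2 = 1 :=
    fun n I hI hd i hi j hj i0 j0 => by
      obtain ⟨s, hs, es⟩ := h.flip n I hI
      rcases h.perm_frame hg hs (p := p) (by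
        rw [es]; ext m
        by_cases hm : m ∈ I <;> simp [rs, hm]
        exact .inr (e m (disjoint_left.1 hd hm))) q with ⟨a, ha⟩ | ha
      · rw [es] at ha
        have a1 := congrFun ha i
        have a2 := congrFun ha j
        simp only [Pi.sub_apply, Pi.smul_apply, rs, hi, hj, if_true, if_false, smul_eq_mul] at a1 a2
        exact absurd (by linear_combination (g ⊳ 𝐞 q) i * a2 - (g ⊳ 𝐞 q) j * a1)
          (mul_ne_zero h2 (mul_ne_zero i0 j0))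
      · rw [es, dotProduct_sub, dotProduct_smul, dot_rs, y1, smul_eq_mul] at ha
        linear_combination -ha
  by_cases hA : ∃ l m, l ∉ T ∧ m ∉ T ∧ l ≠ m ∧ (g ⊳ 𝐞 q) l = 0 ∧ (g ⊳ 𝐞 q) m = 0
  · obtain ⟨l, m, hl, hm, lm, l0, m0⟩ := hA
    have lk : l ≠ k := fun e => hq (e ▸ l0)
    have mk : m ≠ k := fun e => hq (e ▸ m0)
    obtain ⟨s, hs, es⟩ := h.perm_mem (swap l m * swap k l) (by simp [lm, lk.symm])
    have k1 : ∀ u : ι → F, u l = 0 → u m = 0 → s ⊳ u = u - u k • 𝐞 k + u k • 𝐞 l :=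
      fun u h1 h3 => funext fun j => by
        simp only [es, Function.comp, Perm.mul_apply, swap_apply_def]
        split_ifs <;> simp_all
    have k2 : (g ⊳ 𝐞 q) k ^ 2 = 1 := by
      rcases h.perm_frame hg hs (p := p) (by rw [k1 _ (e l hl) (e m hm), e k hk]; simp) q with
        ⟨a, ha⟩ | ha
      · rw [k1 _ l0 m0] at ha
        exact absurd (by simpa [l0, lk] using congrFun ha l) hq
      · rw [k1 _ l0 m0] at ha
        simp only [dotProduct_add, dotProduct_sub, dotProduct_smul, dotProduct_single, y1, l0,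
          smul_eq_mul] at ha
        linear_combination -ha
    refine h.mon_of_ev hg (i := q) (j := k) (a := (g ⊳ 𝐞 q) k) (funext fun j => ?_)
    by_cases hj : j = k
    · simp [hj]
    by_contra j0
    replace j0 : (g ⊳ 𝐞 q) j ≠ 0 := by simpa [hj] using j0
    have := key 1 {k, l} (card_pair lk.symm) (by simp [hk, hl]) k (by simp) j
      (by simpa [hj] using fun e : j = l => j0 (e ▸ l0)) hq j0
    rw [sum_pair lk.symm, k2, l0] at this
    exact one_ne_zero (by linear_combination this : (1 : F) = 0)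
  · obtain ⟨z, hz⟩ : ∃ z, ∀ l, l ∉ T → l ≠ z → (g ⊳ 𝐞 q) l ≠ 0 := by
      by_cases H : ∃ z, z ∉ T ∧ (g ⊳ 𝐞 q) z = 0
      · obtain ⟨z, h1, h3⟩ := H
        exact ⟨z, fun l h4 h5 h6 => hA ⟨l, z, h4, h1, h5, h6, h3⟩⟩
      · exact ⟨k, fun l h4 _ h6 => H ⟨l, h4, h6⟩⟩
    obtain ⟨A, hA, cA⟩ := exists_subset_card_eq (s := (insert k (insert z T))ᶜ) (n := 4) (by
      have := card_insert_le k (insert z T)
      have := card_insert_le z T
      have := h.big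
      rw [card_compl]; omega)
    obtain ⟨B, hB, cB⟩ := exists_subset_card_eq (s := A) (n := 2) (by omega)
    have key' : ∀ n, ∀ I ⊆ A, I.card = 2 * (n + 1) → 2 * ∑ i ∈ I, (g ⊳ 𝐞 q) i ^ 2 = 1 :=
      fun n I hI cI => by
        have k : ∀ i ∈ I, i ≠ k ∧ i ≠ z ∧ i ∉ T := fun i hi => by simpa using hA (hI hi)
        obtain ⟨i, hi⟩ := card_pos.1 (show 0 < I.card by omega)
        exact key _ I cI (disjoint_left.2 fun i hi => (k i hi).2.2) i hi _
          (fun e => (k _ e).1 rfl) (hz i (k i hi).2.2 (k i hi).2.1) hq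
    have := sum_sdiff hB (f := fun i => (g ⊳ 𝐞 q) i ^ 2)
    exact (one_ne_zero (by
      linear_combination key' 1 A subset_rfl cA - key' 0 B hB cB - key' 0 (A \ B) sdiff_subset
        (by rw [card_sdiff_of_subset hB]; omega) + 2 * this : (1 : F) = 0)).elim

theorem conj_flip (g : f.Isom) {s : f.Isom} {k l : ι}
    (e : ∀ u, s ⊳ u = u - (2 * u k) • 𝐞 k - (2 * u l) • 𝐞 l) (v : ι → F) :
    (g * s * g⁻¹) ⊳ v =
      v - (2 * ((g ⊳ 𝐞 k) ⬝ᵥ v)) • g ⊳ 𝐞 k - (2 * ((g ⊳ 𝐞 l) ⬝ᵥ v)) • g ⊳ 𝐞 l := by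
  rw [isom_mul_apply, isom_mul_apply, e, map_sub, map_sub, map_smul, map_smul, isom_apply_inv_apply,
    h.dot_inv, h.dot_inv, single_dotProduct, single_dotProduct, one_mul, one_mul]

theorem mon_of_conj (hg : g ∈ X) {s : f.Isom} {k l : ι} (kl : k ≠ l)
    (e : ∀ u, s ⊳ u = u - (2 * u k) • 𝐞 k - (2 * u l) • 𝐞 l) (H : g * s * g⁻¹ ∈ f.Mon) :
    g ∈ f.Mon := by
  obtain ⟨T, h1, h2⟩ := Mon.supp H (z := g ⊳ 𝐞 k) (z' := g ⊳ 𝐞 l) h.two (by simp [h.unit])
    (by simp [h.dot_map, kl]) fun m => ⟨_, by rw [h.conj_flip g e, dotProduct_single, mul_one]⟩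
  exact h.mon_of_small hg h1 h2

theorem mon_of_two (hg : g ∈ X) {p k l : ι} (kl : k ≠ l) (h1 : (g ⊳ 𝐞 p) k = 0)
    (h2 : (g ⊳ 𝐞 p) l = 0) : g ∈ f.Mon := by
  obtain ⟨s, hs, e⟩ := h.flip_mem k l kl
  refine inv_mem_iff.1 (h.mon_of_conj (inv_mem hg) kl e
    (h.mon_of_fix (mul_mem (mul_mem (inv_mem hg) hs) (inv_mem (inv_mem hg))) (i := p) (a := 1) ?_))
  rw [inv_inv, isom_mul_apply, isom_mul_apply, e, h1, h2]
  simp

theorem mon_of_nine (hg : g ∈ X) {p : ι} {T : Finset ι} (hT : T.card ≤ 8)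
    (e : ∀ k, k ∉ T → (g ⊳ 𝐞 p) k = 0) : g ∈ f.Mon := by
  obtain ⟨k, hk⟩ := h.out T (by omega)
  obtain ⟨l, hl⟩ := h.out (insert k T) ((card_insert_le ..).trans (by omega))
  rw [mem_insert, not_or] at hl
  exact h.mon_of_two hg hl.1 (e l hl.2) (e k hk)

section

theorem sq_one {z : f.Isom} {i j : ι} {a : F} (e : z ⊳ 𝐞 i = a • 𝐞 j) : a * a = 1 := by
  simpa [e] using h.unit z i

theorem mon_of_comm {s s' z : f.Isom} {k l k' l' : ι} (e : Fl s k l) (e' : Fl s' k' l')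
    (kl : k' ≠ l') (hz : z ∈ X) (hc : z * s' = s * z) : z ∈ f.Mon :=
  h.mon_of_small hz (p := k') (T := {k, l}) (card_le_two.trans (by omega))
    (e.supp h.two e' kl hc fun j hj => single_eq_of_ne (by rintro rfl; simp at hj) _)

theorem pair {s z : f.Isom} {k l : ι} (e : Fl s k l) (kl : k ≠ l) (hz : z ∈ X)
    (hc : z * s = s * z) {i : ι} (hi : i ∈ ({k, l} : Finset ι)) :
    ∃ a : F, a * a = 1 ∧ (z ⊳ 𝐞 i = a • 𝐞 k ∨ z ⊳ 𝐞 i = a • 𝐞 l) := by
  obtain ⟨r, a, ha⟩ := h.mon_of_comm e e kl hz hc i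
  have h1 := h.sq_one ha
  have : r ∈ ({k, l} : Finset ι) := by_contra fun hr => by
    have := e.supp h.two e kl hc (v := 𝐞 i)
      (fun j hj => single_eq_of_ne (by rintro rfl; exact hj hi) _) r hr
    simp only [ha, Pi.smul_apply, single_eq_same, smul_eq_mul, mul_one] at this
    simp [this] at h1
  simp only [mem_insert, mem_singleton] at this
  exact ⟨a, h1, this.imp (fun e : r = k => e ▸ ha) fun e : r = l => e ▸ ha⟩

variable (hg : g ∈ X) (ng : g ∉ f.Mon) {s₀ : f.Isom} (hs₀ : s₀ ∈ X) {a b : ι} (ab : a ≠ b)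
  (e₀ : Fl s₀ a b) {m₁ m₂ : ι}
include hg ng hs₀ ab e₀

theorem even_case (hm : (g ⊳ 𝐞 a) m₁ * (g ⊳ 𝐞 b) m₂ - (g ⊳ 𝐞 a) m₂ * (g ⊳ 𝐞 b) m₁ ≠ 0)
    {s z : f.Isom} {k l : ι} (kl : k ≠ l) (e : Fl s k l)
    (h1 : m₁ ∉ ({k, l} : Finset ι)) (h2 : m₂ ∉ ({k, l} : Finset ι))
    (hz : z ∈ KK X (g ⊳ 𝐞 a) (g ⊳ 𝐞 b) {k, l}) (z1 : z ≠ 1) (zz : z * z = 1)
    (zh : z * (g * s₀ * g⁻¹) = g * s₀ * g⁻¹ * z) (zs : z * s = s * z) :
    ∃ (ε : F) (m r : ι), ε * ε = 1 ∧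
      ∀ j, j ∉ ({m, r} : Finset ι) → j ∉ ({k, l} : Finset ι) → (g ⊳ 𝐞 a) j + ε * (g ⊳ 𝐞 b) j = 0 := by
  have two := h.two
  have zm := h.mon_of_comm e e kl hz.1 zs
  have zz' : ∀ v, z ⊳ z ⊳ v = v := fun v => by rw [← isom_mul_apply, zz, isom_one_apply]
  have flp : ∀ {ε : F} {x y : ι → F}, ε * ε = 1 → z ⊳ x = ε • y → z ⊳ y = ε • x :=
    fun {ε x y} hε e1 => by rw [← zz' x, e1, map_smul, smul_smul, hε, one_smul]
  have hz' : g⁻¹ * z * g ∈ X := mul_mem (mul_mem (inv_mem hg) hz.1) hg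
  have c1 : g⁻¹ * z * g * s₀ = s₀ * (g⁻¹ * z * g) := by
    have := congrArg (fun t => g⁻¹ * t * g) zh
    simpa [mul_assoc] using this
  have tr : ∀ {i j : ι} {α : F}, (g⁻¹ * z * g) ⊳ 𝐞 i = α • 𝐞 j → z ⊳ g ⊳ 𝐞 i = α • g ⊳ 𝐞 j :=
    fun e => by simpa using congrArg g.1 e
  have ng1 : ∀ i, z ⊳ g ⊳ 𝐞 i ≠ (-1 : F) • g ⊳ 𝐞 i := fun i e => by
    obtain ⟨T, h3, h4⟩ := Mon.few zm fun m _ => hz.2 (𝐞 m)
    refine ng (h.mon_of_nine hg (p := i) (T := {k, l} ∪ T) ((card_union_le ..).trans (by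
      have := card_le_two (a := k) (b := l); omega)) fun m hm => ?_)
    rw [mem_union, not_or] at hm
    have := h.dot_map z (g ⊳ 𝐞 i) (𝐞 m)
    rw [h4 m hm.1 hm.2, e] at this
    simp only [dotProduct_single, Pi.smul_apply, smul_eq_mul] at this
    exact mul_left_cancel₀ two (by linear_combination -this)
  have dec : ∀ v, ∃ α β : F,
      (∀ j, j ∉ ({k, l} : Finset ι) → (z ⊳ v - v) j = α * (g ⊳ 𝐞 a) j + β * (g ⊳ 𝐞 b) j) ∧
      ∀ j, j ∉ ({k, l} : Finset ι) → α * ((g ⊳ 𝐞 a) j + (z ⊳ g ⊳ 𝐞 a) j) +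
        β * ((g ⊳ 𝐞 b) j + (z ⊳ g ⊳ 𝐞 b) j) = 0 := fun v => by
    obtain ⟨α, β, e1⟩ := hz.2 v
    refine ⟨α, β, e1, fun j hj => ?_⟩
    have k1 := e.supp two e kl zs (v := z ⊳ v - v - α • g ⊳ 𝐞 a - β • g ⊳ 𝐞 b)
      (fun j hj => by rw [Pi.sub_apply, Pi.sub_apply, e1 j hj]; simp) j hj
    have k2 := e1 j hj
    simp only [map_sub, map_smul, zz', Pi.sub_apply, Pi.smul_apply, smul_eq_mul] at k1 k2
    linear_combination -k1 - k2
  have sw : ∀ ε : F, ε * ε = 1 → z ⊳ g ⊳ 𝐞 a = ε • g ⊳ 𝐞 b → ∃ (ε : F) (m r : ι), ε * ε = 1 ∧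
      ∀ j, j ∉ ({m, r} : Finset ι) → j ∉ ({k, l} : Finset ι) →
        (g ⊳ 𝐞 a) j + ε * (g ⊳ 𝐞 b) j = 0 := fun ε hε e1 => by
    have e2 := flp hε e1
    by_cases H : ∃ m, m ∉ ({k, l} : Finset ι) ∧ z ⊳ 𝐞 m ≠ 𝐞 m
    · obtain ⟨m, k1, k2⟩ := H
      obtain ⟨r, d, hd⟩ := zm m
      obtain ⟨α, β, k3, k4⟩ := dec (𝐞 m)
      simp only [e1, e2, Pi.smul_apply, smul_eq_mul] at k4
      have k5 := (minor hm (α := α + β * ε) (β := α * ε + β) (by linear_combination k4 _ h1)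
        (by linear_combination k4 _ h2)).2
      have k6 : α ≠ 0 := fun k6 => k2 (Mon.diag hd (by
        rw [k3 m k1, k6, show β = 0 by linear_combination k5 - ε * k6]; simp))
      refine ⟨-ε, m, r, by linear_combination hε, fun j k7 k8 => mul_left_cancel₀ k6 ?_⟩
      have := k3 j k8
      simp only [mem_insert, mem_singleton, not_or] at k7
      simp only [hd, Pi.sub_apply, Pi.smul_apply, single_eq_of_ne k7.1, single_eq_of_ne k7.2,
        smul_zero, sub_zero] at this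
      linear_combination -this - (g ⊳ 𝐞 b) j * k5
    · push Not at H
      refine ⟨-ε, k, k, by linear_combination hε, fun j _ k8 => mul_left_cancel₀ two ?_⟩
      have k1 := h.dot_map z (g ⊳ 𝐞 a) (𝐞 j)
      rw [H j k8, e1] at k1
      simp only [dotProduct_single, Pi.smul_apply, smul_eq_mul] at k1
      linear_combination -2 * k1
  obtain ⟨α, a1, a2 | a2⟩ := h.pair e₀ ab hz' c1 (i := a) (by simp)
  swap
  · exact sw α a1 (tr a2)
  obtain ⟨β, b1, b2 | b2⟩ := h.pair e₀ ab hz' c1 (i := b) (by simp)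
  · exact sw β b1 (flp b1 (tr b2))
  replace a2 := tr a2
  replace b2 := tr b2
  obtain rfl := (mul_self_eq_one_iff.1 a1).resolve_right fun e => ng1 a (e ▸ a2)
  obtain rfl := (mul_self_eq_one_iff.1 b1).resolve_right fun e => ng1 b (e ▸ b2)
  rw [one_smul] at a2 b2
  exfalso
  have fx : ∀ m, m ∉ ({k, l} : Finset ι) → z ⊳ 𝐞 m = 𝐞 m := fun m hm' => by
    obtain ⟨r, d, hd⟩ := zm m
    obtain ⟨α, β, k3, k4⟩ := dec (𝐞 m)
    simp only [a2, b2] at k4
    obtain ⟨k5, k6⟩ := minor hm (α := 2 * α) (β := 2 * β) (by linear_combination k4 _ h1)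
        (by linear_combination k4 _ h2)
    simp only [mul_eq_zero, two, false_or] at k5 k6
    exact Mon.diag hd (by rw [k3 m hm', k5, k6]; simp)
  have ng2 : ∀ i, z ⊳ 𝐞 i ≠ (-1 : F) • 𝐞 i := fun i e => by
    have k1 := h.dot_map z (g ⊳ 𝐞 a) (𝐞 i)
    have k2 := h.dot_map z (g ⊳ 𝐞 b) (𝐞 i)
    rw [e, a2] at k1
    rw [e, b2] at k2
    simp only [dotProduct_smul, smul_eq_mul] at k1 k2
    refine ng (h.mon_of_conj hg ab e₀ (h.mon_of_fix (mul_mem (mul_mem hg hs₀) (inv_mem hg))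
      (i := i) (a := 1) ?_))
    rw [h.conj_flip g e₀, show 2 * ((g ⊳ 𝐞 a) ⬝ᵥ 𝐞 i) = 0 by linear_combination -k1,
      show 2 * ((g ⊳ 𝐞 b) ⬝ᵥ 𝐞 i) = 0 by linear_combination -k2]
    simp
  have ext : ∀ t : f.Isom, (∀ i, z ⊳ 𝐞 i = t ⊳ 𝐞 i) → z = t := fun t H => f.isom_ext fun v => by
    rw [pi_eq_sum_univ' v]
    simp only [map_sum, map_smul, H]
  have sw' : ∀ ε : F, ε * ε = 1 → z ⊳ 𝐞 k ≠ ε • 𝐞 l := fun ε hε e1 => by
    have e2 := flp hε e1
    have q : f.Q (𝐞 k - ε • 𝐞 l) = c * 2 := by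
      rw [h.Q_eq]; simp [kl, kl.symm]; exact .inl (by linear_combination hε)
    have hc := h.c_ne
    have : z = f.refl (𝐞 k - ε • 𝐞 l) := ext _ fun i => by
      rw [refl_apply, q, h.B_eq]
      by_cases i1 : i = k
      · rw [i1, e1]; simp [kl]; match_scalars <;> field_simp <;> ring
      by_cases i2 : i = l
      · rw [i2, e2]; simp [kl.symm]; match_scalars
        · field_simp
        · field_simp; linear_combination hε
      rw [fx i (by simp [i1, i2])]; simp [i1, i2]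
    have k1 := mem_SIsom.1 (h.det hz.1)
    rw [this, f.detHom_refl (q ▸ mul_ne_zero hc two)] at k1
    have k2 : (-1 : F) = 1 := by simpa using Units.ext_iff.1 k1
    exact two (by linear_combination -k2)
  obtain ⟨α, a1, a3 | a3⟩ := h.pair e kl hz.1 zs (i := k) (by simp)
  swap
  · exact sw' α a1 a3
  obtain ⟨β, b1, b3 | b3⟩ := h.pair e kl hz.1 zs (i := l) (by simp)
  · exact sw' β b1 (flp b1 b3)
  obtain rfl := (mul_self_eq_one_iff.1 a1).resolve_right fun e => ng2 k (e ▸ a3)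
  obtain rfl := (mul_self_eq_one_iff.1 b1).resolve_right fun e => ng2 l (e ▸ b3)
  refine z1 (ext 1 fun i => ?_)
  by_cases i1 : i = k
  · rw [i1, a3, one_smul]; rfl
  by_cases i2 : i = l
  · rw [i2, b3, one_smul]; rfl
  exact fx i (by simp [i1, i2])

theorem odd_case (hm : (g ⊳ 𝐞 a) m₁ * (g ⊳ 𝐞 b) m₂ - (g ⊳ 𝐞 a) m₂ * (g ⊳ 𝐞 b) m₁ ≠ 0)
    {s s' u u' : f.Isom} {k l k' l' : ι} (kl : k' ≠ l') (e : Fl s k l)
    (e' : Fl s' k' l') (hd : Disjoint ({k, l} : Finset ι) {k', l'})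
    (h1 : m₁ ∉ ({k, l} ∪ {k', l'} : Finset ι)) (h2 : m₂ ∉ ({k, l} ∪ {k', l'} : Finset ι))
    (hu : u ∈ KK X (g ⊳ 𝐞 a) (g ⊳ 𝐞 b) {k, l}) (hu' : u' ∈ KK X (g ⊳ 𝐞 a) (g ⊳ 𝐞 b) {k', l'})
    (eu : g * s₀ * g⁻¹ = u * s * u⁻¹) (eu' : g * s₀ * g⁻¹ = u' * s' * u'⁻¹) : False := by
  have two := h.two
  have hν := mul_mem (inv_mem (KK.mono subset_union_left hu)) (KK.mono subset_union_right hu')
  have c0 : ({k, l} ∪ {k', l'} : Finset ι).card ≤ 4 := by
    have := card_union_le ({k, l} : Finset ι) {k', l'}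
    have := card_le_two (a := k) (b := l)
    have := card_le_two (a := k') (b := l')
    omega
  obtain ⟨T, c1, c2⟩ | ⟨T, c1, c2⟩ := Mon.few15 (h.mon_of_comm e e' kl hν.1 (by
    have := congrArg (fun t => u⁻¹ * t * u') (eu'.symm.trans eu)
    simpa [mul_assoc] using this)) fun m _ => hν.2 (𝐞 m)
  swap
  · exact ng (h.mon_of_nine hg (p := a) (T := {k, l} ∪ {k', l'} ∪ T)
      ((card_union_le ..).trans (by omega)) fun j hj => c2 j (fun e => hj (mem_union_left _ e))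
        fun e => hj (mem_union_right _ e))
  have key : ∀ m, m ∉ ({k, l} ∪ {k', l'} ∪ T : Finset ι) →
      u ⊳ 𝐞 m = 𝐞 m - (g ⊳ 𝐞 a) m • g ⊳ 𝐞 a - (g ⊳ 𝐞 b) m • g ⊳ 𝐞 b := fun m hm' => by
    rw [mem_union, not_or] at hm'
    have k1 : u' ⊳ 𝐞 m = u ⊳ 𝐞 m := by simpa using congrArg u.1 (c2 m hm'.1 hm'.2)
    obtain ⟨α, β, k2⟩ := hu.2 (𝐞 m)
    obtain ⟨α', β', k3⟩ := hu'.2 (𝐞 m)
    rw [k1] at k3
    rw [mem_union, not_or] at h1 h2
    obtain ⟨k4, k5⟩ := minor hm (α := α - α') (β := β - β')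
      (by linear_combination k3 _ h1.2 - k2 _ h1.1) (by linear_combination k3 _ h2.2 - k2 _ h2.1)
    rw [sub_eq_zero] at k4 k5
    subst k4 k5
    have k6 : u ⊳ 𝐞 m = 𝐞 m + α • g ⊳ 𝐞 a + β • g ⊳ 𝐞 b := funext fun j => by
      have : (u ⊳ 𝐞 m - 𝐞 m) j = _ :=
        if hj : j ∈ ({k, l} : Finset ι) then k3 j (disjoint_left.1 hd hj) else k2 j hj
      simp only [Pi.sub_apply, Pi.add_apply, Pi.smul_apply, smul_eq_mul] at this ⊢
      linear_combination this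
    have k7 := h.conj_flip g e₀ (u ⊳ 𝐞 m)
    simp only [mem_union, mem_insert, mem_singleton, not_or] at hm'
    rw [eu, isom_mul_apply, isom_mul_apply, isom_inv_apply_apply, e,
      single_eq_of_ne (Ne.symm hm'.1.1.1), single_eq_of_ne (Ne.symm hm'.1.1.2)] at k7
    have k8 := congrArg ((g ⊳ 𝐞 a) ⬝ᵥ ·) k7
    have k9 := congrArg ((g ⊳ 𝐞 b) ⬝ᵥ ·) k7
    simp only [mul_zero, zero_smul, sub_zero, k6, dotProduct_add, dotProduct_sub, dotProduct_smul,
      h.dot_map, dotProduct_single, single_eq_same, single_eq_of_ne ab, single_eq_of_ne ab.symm,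
      smul_eq_mul] at k8 k9
    rw [k6, show α = -(g ⊳ 𝐞 a) m from mul_left_cancel₀ two (by linear_combination k8),
      show β = -(g ⊳ 𝐞 b) m from mul_left_cancel₀ two (by linear_combination k9)]
    module
  have c3 : ({k, l} ∪ {k', l'} ∪ T : Finset ι).card ≤ 6 := by
    have := card_union_le ({k, l} ∪ {k', l'}) T
    have := card_union_le ({k, l} : Finset ι) {k', l'}
    have := card_le_two (a := k) (b := l)
    have := card_le_two (a := k') (b := l')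
    omega
  generalize ({k, l} ∪ {k', l'} ∪ T : Finset ι) = R at key c3
  obtain ⟨m, hm₀⟩ := h.out R (by omega)
  have key' : ∀ j, j ∉ insert m R → ((g * s₀ * g⁻¹) ⊳ 𝐞 m) j = 0 := fun j hj => by
    rw [mem_insert, not_or] at hj
    have := h.dot_map u (𝐞 m) (𝐞 j)
    rw [key m hm₀, key j hj.2] at this
    rw [h.conj_flip g e₀]
    simp only [dotProduct_sub, sub_dotProduct, dotProduct_smul, smul_dotProduct, h.dot_map,
      dotProduct_single, single_dotProduct, single_eq_same, single_eq_of_ne ab,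
      single_eq_of_ne ab.symm, single_eq_of_ne hj.1, smul_eq_mul,
      Pi.sub_apply, Pi.smul_apply] at this ⊢
    linear_combination 2 * this
  exact ng (h.mon_of_conj hg ab e₀ (h.mon_of_nine (mul_mem (mul_mem hg hs₀) (inv_mem hg))
    ((card_insert_le ..).trans (by omega)) key'))

end

theorem claimA (hg : g ∈ X) (ng : g ∉ f.Mon) {a b : ι} (ab : a ≠ b) : ∃ (ε : F) (m r : ι),
    ε * ε = 1 ∧ ∀ j, j ∉ ({m, r} : Finset ι) → (g ⊳ 𝐞 a) j + ε * (g ⊳ 𝐞 b) j = 0 := by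
  have two := h.two
  obtain ⟨s₀, hs₀, e₀⟩ := h.flip_mem a b ab
  obtain ⟨m₁, n₁⟩ : ∃ m, (g ⊳ 𝐞 a) m ≠ 0 := by
    by_contra! H
    simpa [show g ⊳ 𝐞 a = 0 from funext H] using h.unit g a
  obtain ⟨m₂, hm⟩ : ∃ m, (g ⊳ 𝐞 a) m₁ * (g ⊳ 𝐞 b) m - (g ⊳ 𝐞 a) m * (g ⊳ 𝐞 b) m₁ ≠ 0 := by
    by_contra! H
    have : (g ⊳ 𝐞 a) m₁ • g ⊳ 𝐞 b = (g ⊳ 𝐞 b) m₁ • g ⊳ 𝐞 a := funext fun m => by
      simp only [Pi.smul_apply, smul_eq_mul]; linear_combination H m
    exact n₁ (by simpa [h.dot_map, ab.symm] using congrArg ((g ⊳ 𝐞 b) ⬝ᵥ ·) this)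
  have dih : ∀ k l, k ≠ l → m₁ ∉ ({k, l} : Finset ι) → m₂ ∉ ({k, l} : Finset ι) →
      (∃ s, Fl s k l ∧ ∃ u ∈ KK X (g ⊳ 𝐞 a) (g ⊳ 𝐞 b) {k, l}, g * s₀ * g⁻¹ = u * s * u⁻¹) ∨
      ∃ (ε : F) (m r : ι), ε * ε = 1 ∧ ∀ j, j ∉ ({m, r} : Finset ι) → j ∉ ({k, l} : Finset ι) →
        (g ⊳ 𝐞 a) j + ε * (g ⊳ 𝐞 b) j = 0 := fun k l kl h1 h2 => by
    obtain ⟨s, hs, e⟩ := h.flip_mem k l kl
    refine (CA.H12Tn.dihedral (KK X (g ⊳ 𝐞 a) (g ⊳ 𝐞 b) {k, l}) (x := g * s₀ * g⁻¹) (y := s)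
      ⟨mul_mem (mul_mem hg hs₀) (inv_mem hg), fun v => ⟨-(2 * ((g ⊳ 𝐞 a) ⬝ᵥ v)),
        -(2 * ((g ⊳ 𝐞 b) ⬝ᵥ v)), fun j _ => ?_⟩⟩ ⟨hs, fun v => ⟨0, 0, fun j hj => ?_⟩⟩ ?_
      (Fl.mul_self e kl)).imp (fun H => ⟨s, e, H⟩) fun ⟨z, hz, z1, zz, zh, zs, _⟩ =>
        h.even_case hg ng hs₀ ab e₀ hm kl e h1 h2 hz z1 zz zh zs
    · rw [h.conj_flip g e₀]; simp; ring
    · simp only [mem_insert, mem_singleton, not_or] at hj
      simp [e, hj.1, hj.2]
    · rw [conj_mul, Fl.mul_self e₀ ab, mul_one, mul_inv_cancel]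
  have ev : ∀ T : Finset ι, T.card ≤ 6 → m₁ ∈ T → m₂ ∈ T → ∃ k l, k ∉ T ∧ l ∉ T ∧
      ∃ (ε : F) (m r : ι), ε * ε = 1 ∧ ∀ j, j ∉ ({m, r} : Finset ι) → j ∉ ({k, l} : Finset ι) →
        (g ⊳ 𝐞 a) j + ε * (g ⊳ 𝐞 b) j = 0 := fun T hT h1 h2 => by
    obtain ⟨k, hk⟩ := h.out T (by omega)
    have c1 := card_insert_le k T
    obtain ⟨l, hl⟩ := h.out (insert k T) (by omega)
    have c2 := card_insert_le l (insert k T)
    obtain ⟨k', hk'⟩ := h.out (insert l (insert k T)) (by omega)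
    have c3 := card_insert_le k' (insert l (insert k T))
    obtain ⟨l', hl'⟩ := h.out (insert k' (insert l (insert k T))) (by omega)
    simp only [mem_insert, not_or] at hl hk' hl'
    have o : ∀ {m k l}, m ∈ T → k ∉ T → l ∉ T → m ∉ ({k, l} : Finset ι) := fun h1 h2 h3 => by
      simp only [mem_insert, mem_singleton, not_or]
      exact ⟨fun e => h2 (e ▸ h1), fun e => h3 (e ▸ h1)⟩
    rcases dih k l (Ne.symm hl.1) (o h1 hk hl.2) (o h2 hk hl.2) with ⟨s, e, u, hu, eu⟩ | H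
    swap
    · exact ⟨k, l, hk, hl.2, H⟩
    rcases dih k' l' (Ne.symm hl'.1) (o h1 hk'.2.2 hl'.2.2.2) (o h2 hk'.2.2 hl'.2.2.2) with
      ⟨s', e', u', hu', eu'⟩ | H
    swap
    · exact ⟨k', l', hk'.2.2, hl'.2.2.2, H⟩
    exact (h.odd_case hg ng hs₀ ab e₀ hm (Ne.symm hl'.1) e e'
      (by simp [hk'.1, hk'.2.1, hl'.2.1, hl'.2.2.1])
      (notMem_union.2 ⟨o h1 hk hl.2, o h1 hk'.2.2 hl'.2.2.2⟩)
      (notMem_union.2 ⟨o h2 hk hl.2, o h2 hk'.2.2 hl'.2.2.2⟩) hu hu' eu eu').elim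
  obtain ⟨k, l, -, -, ε, m, r, hε, e⟩ := ev {m₁, m₂} (card_le_two.trans (by omega)) (by simp)
    (by simp)
  have c1 := card_insert_le m₁ (insert m₂ ({m, r, k, l} : Finset ι))
  have c2 := card_insert_le m₂ ({m, r, k, l} : Finset ι)
  have c3 := card_le_four (a := m) (b := r) (c := k) (d := l)
  obtain ⟨k', l', h1, h2, ε', m', r', hε', e'⟩ := ev (insert m₁ (insert m₂ {m, r, k, l}))
    (by omega) (by simp) (by simp)
  simp only [mem_insert, mem_singleton, not_or] at h1 h2 e e'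
  rcases mul_self_eq_mul_self_iff.1 (hε.trans hε'.symm) with rfl | rfl
  · refine ⟨ε, m', r', hε, fun j hj => ?_⟩
    by_cases j1 : j = k'
    · exact j1 ▸ e k' ⟨h1.2.2.1, h1.2.2.2.1⟩ h1.2.2.2.2
    by_cases j2 : j = l'
    · exact j2 ▸ e l' ⟨h2.2.2.1, h2.2.2.2.1⟩ h2.2.2.2.2
    exact e' j (by simpa using hj) ⟨j1, j2⟩
  · refine (ng (h.mon_of_nine hg (p := a) (T := {m, r, k, l} ∪ {m', r', k', l'}) ?_
      fun j hj => mul_left_cancel₀ two ?_)).elim
    · have := card_union_le ({m, r, k, l} : Finset ι) {m', r', k', l'}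
      have := card_le_four (a := m') (b := r') (c := k') (d := l')
      omega
    · simp only [mem_union, mem_insert, mem_singleton, not_or] at hj
      linear_combination e j ⟨hj.1.1, hj.1.2.1⟩ hj.1.2.2 + e' j ⟨hj.2.1, hj.2.2.1⟩ hj.2.2.2

theorem cc_map {w v : ι → F} (hv : CC X w v) {s : f.Isom} (hs : s ∈ X) {ε : F} (hε : ε * ε = 1)
    (e : s ⊳ w = ε • w) : CC X w (s ⊳ v) := by
  obtain ⟨h1, h2, t, ht, h3⟩ := hv
  have h4 := h.dot_map s v w
  rw [e, dotProduct_smul, h2, smul_eq_mul] at h4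
  refine ⟨by rw [h.dot_map, h1], by linear_combination ε * h4 - (s ⊳ v) ⬝ᵥ w * hε, s * t * s⁻¹,
    mul_mem (mul_mem hs ht) (inv_mem hs), fun u => ?_⟩
  rw [isom_mul_apply, isom_mul_apply, h3, map_sub, map_sub, map_smul, map_smul,
    isom_apply_inv_apply, ← h.dot_inv, ← h.dot_inv, e, smul_dotProduct, smul_smul, smul_eq_mul,
    mul_right_comm, hε, one_mul]

theorem cc_or {w v : ι → F} {i j : ι} (hw : ∀ m, m ∉ ({i, j} : Finset ι) → w m = 0)
    (hv : CC X w v) :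
    (∃ T : Finset ι, T.card ≤ 4 ∧ ∀ m, m ∉ T → v m = 0) ∨ ∀ m m', v m ^ 2 = v m' ^ 2 := by
  obtain ⟨h1, h2, t, ht, h3⟩ := hv
  by_cases hm : t ∈ f.Mon
  · exact .inl (Mon.supp hm (z := v) (z' := w) one_ne_zero (h1 ▸ h.two) h2 fun m =>
      ⟨_, by rw [h3, dotProduct_single, mul_one, one_mul]⟩)
  refine .inr fun m m' => ?_
  by_cases e : m = m'
  · rw [e]
  obtain ⟨ε, i', j', hε, H⟩ := h.claimA ht hm e
  obtain ⟨k, hk⟩ := h.out ({m, m'} ∪ {i, j} ∪ {i', j'}) (by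
    have := card_union_le ({m, m'} ∪ {i, j}) ({i', j'} : Finset ι)
    have := card_union_le {m, m'} ({i, j} : Finset ι)
    have := card_le_two (a := m) (b := m')
    have := card_le_two (a := i) (b := j)
    have := card_le_two (a := i') (b := j')
    omega)
  simp only [mem_union, not_or] at hk
  have k1 := H k hk.2
  have k2 := hw k hk.1.2
  have k3 : v k ≠ 0 := fun k3 => hm (h.mon_of_fix ht (i := k) (a := 1) (by simp [h3, k2, k3]))
  have k4 := hk.1.1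
  simp only [mem_insert, mem_singleton, not_or] at k4
  simp only [h3, Pi.sub_apply, Pi.smul_apply, k2, single_eq_of_ne k4.1, single_eq_of_ne k4.2,
    dotProduct_single, smul_eq_mul] at k1
  have k5 : v m = -ε * v m' := mul_right_cancel₀ k3 (by linear_combination -k1)
  rw [k5]
  linear_combination v m' ^ 2 * hε

theorem le_mon : X ≤ f.Mon := fun g hg => by
  by_contra ng
  have two := h.two
  have big := h.big
  obtain ⟨a, b, ab⟩ := Fintype.exists_pair_of_one_lt_card (show 1 < Fintype.card ι by omega)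
  obtain ⟨ε, i, j, hε, e⟩ := h.claimA hg ng ab
  obtain ⟨s₀, hs₀, e₀⟩ := h.flip_mem a b ab
  have d1 := h.unit g a
  have d2 := h.unit g b
  have d3 : (g ⊳ 𝐞 a) ⬝ᵥ (g ⊳ 𝐞 b) = 0 := by simp [h.dot_map, ab]
  have e1 := h.conj_flip g e₀
  have ny := fun T hT => mt (h.mon_of_nine hg (p := a) (T := T) hT) ng
  generalize g ⊳ 𝐞 a = y at *
  generalize g ⊳ 𝐞 b = y' at *
  have d4 : y' ⬝ᵥ y = 0 := (dotProduct_comm ..).trans d3
  have hw : ∀ m, m ∉ ({i, j} : Finset ι) → (y + ε • y') m = 0 := e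
  have c0 : (y - ε • y') ⬝ᵥ (y - ε • y') = 2 := by
    simp [d1, d2, d3, d4]; linear_combination hε
  have c1 : (y - ε • y') ⬝ᵥ (y + ε • y') = 0 := by
    simp [d1, d2, d3, d4]; linear_combination -hε
  have c2 : (y + ε • y') ⬝ᵥ (y + ε • y') = 2 := by
    simp [d1, d2, d3, d4]; linear_combination hε
  have c3 : ∀ u, (g * s₀ * g⁻¹) ⊳ u =
      u - ((y - ε • y') ⬝ᵥ u) • (y - ε • y') - ((y + ε • y') ⬝ᵥ u) • (y + ε • y') := fun u => by
    rw [e1]
    simp only [sub_dotProduct, add_dotProduct, smul_dotProduct, smul_eq_mul]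
    match_scalars
    · ring
    · ring
    · linear_combination 2 * (y' ⬝ᵥ u) * hε
  have hh := mul_mem (mul_mem hg hs₀) (inv_mem hg)
  have c4 : CC X (y + ε • y') (y - ε • y') := ⟨c0, c1, _, hh, c3⟩
  have c5 : ∀ m, (y + ε • y') m + (y - ε • y') m = 2 * y m := fun m => by simp; ring
  generalize y + ε • y' = w at *
  generalize y - ε • y' = v at *
  have cij := card_le_two (a := i) (b := j)
  rcases h.cc_or hw c4 with ⟨T, h1, h2⟩ | hv
  · refine ny ({i, j} ∪ T) ((card_union_le ..).trans (by omega)) fun m hm => ?_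
    rw [mem_union, not_or] at hm
    exact mul_left_cancel₀ two (by rw [← c5, hw m hm.1, h2 m hm.2]; simp)
  have v0 : ∀ m, v m ≠ 0 := fun m hm => two (by
    have : v = 0 := funext fun m' => pow_eq_zero_iff two_ne_zero |>.1 (by rw [hv m' m, hm]; simp)
    rw [← c0, this]; simp)
  have key : ∀ n : ℕ, 0 < n → n ≤ 1 → n * (4 * v a ^ 2) = 1 ∨ n * (4 * v a ^ 2) = 2 :=
    fun n n0 n3 => by
    obtain ⟨A, hA, cA⟩ := exists_subset_card_eq (s := ({i, j} : Finset ι)ᶜ) (n := 2 * n)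
      (by rw [card_compl]; omega)
    obtain ⟨s, hs, es⟩ := h.flip n A cA
    have k1 := h.cc_map c4 hs (mul_one 1) (by
      rw [es]; ext m
      by_cases hm : m ∈ A <;> simp [rs, hm]
      exact .inr (hw m (mem_compl.1 (hA hm))))
    have k2 := h.cc_map k1 hh (ε := -1) (by simp) (by rw [c3, c1, c2]; module)
    have k3 : w ⬝ᵥ (s ⊳ v) = 0 := (dotProduct_comm ..).trans k1.2.1
    have k4 : v ⬝ᵥ (s ⊳ v) = 2 - n * (4 * v a ^ 2) := by
      rw [es, dotProduct_sub, dotProduct_smul, dot_rs, c0, sum_congr rfl fun m _ => hv m a,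
        sum_const, cA]
      simp; ring
    rw [c3, k3, k4, es] at k2
    rcases h.cc_or hw k2 with ⟨T, h1, h2⟩ | H
    · obtain ⟨m, hm⟩ := h.out (A ∪ T) ((card_union_le ..).trans (by omega))
      rw [mem_union, not_or] at hm
      have := h2 m hm.2
      simp only [Pi.sub_apply, Pi.smul_apply, rs, hm.1, if_false, smul_eq_mul] at this
      exact .inl (mul_right_cancel₀ (v0 m) (by linear_combination this))
    · obtain ⟨m, hm⟩ := h.out A (by omega)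
      obtain ⟨m', hm'⟩ := card_pos.1 (show 0 < A.card by omega)
      have := H m m'
      simp only [Pi.sub_apply, Pi.smul_apply, rs, hm, hm', if_false, if_true, smul_eq_mul] at this
      exact .inr (mul_right_cancel₀ (mul_ne_zero two (mul_ne_zero two (pow_ne_zero 2 (v0 m))))
        (by linear_combination this - (n * (4 * v a ^ 2) - 3) ^ 2 * hv m m'))
  have k1 := key 1 (by omega) (by omega)
  have k2 : 10 * v a ^ 2 = 2 := by
    rw [← c0, dotProduct, sum_congr rfl fun m _ => (sq (v m)).symm.trans (hv m a), sum_const,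
      card_univ, big]
    simp
  push_cast at k1
  rcases k1 with k1 | k1
  · exact two (by linear_combination 4 * k2 - 10 * k1)
  have k3 : (3 : F) = 0 := mul_left_cancel₀ (mul_ne_zero two two)
    (by linear_combination 4 * k2 - 10 * k1)
  have k4 : Fintype.card F = 3 := by
    by_contra k4
    obtain ⟨s, t, e⟩ := Nat.isCoprime_iff_coprime.2 ((Nat.coprime_primes h.prime Nat.prime_three).2 k4)
    have := congrArg (Int.cast (R := F)) e
    simp [k3] at this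
  have k5 := FiniteField.pow_card_sub_one_eq_one _ (v0 a)
  rw [k4] at k5
  exact two (by linear_combination k1 - 4 * k5)

end Fe15

theorem frame_std15 {c : F} (hc : c ≠ 0) (h2 : (2 : F) ≠ 0) (hp : (Fintype.card F).Prime)
    (h11 : Fintype.card ι = 10) (hB : ∀ u v, f.B u v = 2 * c * (u ⬝ᵥ v))
    (hX : ∀ g ∈ f.Eich, f.PermD (fun i => F ∙ 𝐞 i) g → g ∈ X) (hX' : X ≤ f.Eich) :
    (∀ g ∈ X, f.PermD (fun i => F ∙ 𝐞 i) g) ∨ f.Eich ≤ X := by
  have hQ : ∀ u, f.Q u = c * (u ⬝ᵥ u) := fun u =>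
    mul_left_cancel₀ h2 (by rw [← orth_B_self, hB, mul_assoc])
  have hf : f.Nondeg := fun x hx => funext fun i => by simpa [hB, h2, hc] using hx (𝐞 i)
  have hE := hf.commutator_eq_Eich (good_of_two_ne_zero _ h2) (by simp; omega)
  have pm : ∀ g ∈ f.Mon, f.PermD (fun i => F ∙ 𝐞 i) g := fun g hg i => by
    obtain ⟨j, a, e⟩ := hg i
    refine ⟨j, fun v hv => ?_⟩
    obtain ⟨b, rfl⟩ := Submodule.mem_span_singleton.1 hv
    exact Submodule.mem_span_singleton.2 ⟨b * a, by rw [map_smul, e, smul_smul]⟩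
  have rf : ∀ i v, f.refl (𝐞 i) ⊳ v = v - (2 * v i) • 𝐞 i := fun i v => by
    rw [refl_apply, hQ, hB]
    congr 2
    simp
    field_simp
  let ψ : Perm ι →* f.Isom :=
    { toFun σ := ⟨LinearEquiv.funCongrLeft F F σ⁻¹, (f.orth_mem_Isom).2 fun x => by
        rw [hQ, hQ]
        exact congrArg _ (comp_equiv_dotProduct_comp_equiv x x σ⁻¹)⟩
      map_one' := rfl
      map_mul' _ _ := rfl }
  refine or_iff_not_imp_right.2 fun H g hg => pm g (Fe15.le_mon ⟨hc, h2, hp, h11, hB, fun i j ij => ?_,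
    fun σ hσ => ⟨ψ σ⁻¹, hX _ (hE ▸ map_comm ψ ?_) (pm _ fun j => ⟨σ.symm j, 1,
      (single_comp j (1 : F) σ).trans (one_smul ..).symm⟩), fun _ => rfl⟩,
    hX'.trans f.Eich_le_SIsom, H⟩ hg)
  · have e : ∀ u, f.reflProd [𝐞 i, 𝐞 j] ⊳ u = u - (2 * u i) • 𝐞 i - (2 * u j) • 𝐞 j := fun u => by
      simp only [reflProd_cons, reflProd_nil, mul_one, isom_mul_apply, rf]
      simp [ij]
      module
    refine ⟨_, hX _ (hE ▸ hf.reflProd_mem_commutator (by simp [hQ, hc]) (by simp)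
      (by simp [hQ])) (pm _ fun k => ⟨k, if k = i ∨ k = j then -1 else 1, ?_⟩), e⟩
    rw [e]
    by_cases k1 : k = i
    · simp [k1, ij.symm]; module
    by_cases k2 : k = j
    · simp [k2, ij]; module
    simp [k1, k2, Ne.symm k1, Ne.symm k2]
  · rw [alternatingGroup.commutator_perm_eq (by simp; omega)]
    exact inv_mem (Perm.mem_alternatingGroup.2 hσ)
end

theorem ODec.frame_max15 {V : Type*} [AddCommGroup V] [Module F V] [FiniteDimensional F V]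
    {f : Form (Kind.orth F) V} {D : ι → Submodule F V} (h : f.ODec D) {X : Subgroup f.Isom}
    (hX : ∀ g ∈ f.Eich, f.PermD D g → g ∈ X) (hX' : X ≤ f.Eich) (h1 : ∀ i, finrank F (D i) = 1)
    (h2 : (2 : F) ≠ 0) (hp : (Fintype.card F).Prime) (h7 : Fintype.card ι = 10)
    (hV : Fintype.card ι = finrank F V) : (∀ g ∈ X, f.PermD D g) ∨ f.Eich ≤ X := by
  obtain ⟨i₀⟩ : Nonempty ι := Fintype.card_pos_iff.1 (by omega)
  obtain ⟨v, hv0, hv⟩ := finrank_eq_one_iff'.1 (h1 i₀)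
  choose e he using h.equiv i₀
  let b : ι → V := fun i => e i v
  have hb : ∀ i, D i = F ∙ b i := fun i => (Submodule.eq_of_le_of_finrank_eq
    ((Submodule.span_singleton_le_iff_mem _ _).2 (e i v).2) (by
      rw [h1, finrank_span_singleton (by simpa [b] using hv0)])).symm
  have hQ : ∀ i, f.Q (b i) = f.Q v := fun i => (he i).Q_eq v
  have hc : f.Q v ≠ 0 := fun c => hv0 (h.nondeg_restrict i₀ v fun w => by
    obtain ⟨a, rfl⟩ := hv w
    simp [orth_B_self, c])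
  have hO : ∀ i j, f.B (b i) (b j) = if i = j then 2 * f.Q v else 0 := fun i j => by
    split_ifs with c
    · rw [c, orth_B_self, hQ]
    · exact h.orth i j c (e j v).2 _ (e i v).2
  let B := basisOfTopLeSpanOfCardEqFinrank b (by
    rw [← h.top]
    exact iSup_le fun i => hb i ▸ Submodule.span_mono (by simp)) hV
  let J := B.equivFun.symm
  have hJ : ∀ u, J u = ∑ i, u i • b i := fun u => by simp [J, B]
  have J1 : ∀ i, J (single i 1) = b i := fun i => by simp [hJ, single_apply]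
  have hP : (f.comap J.toLinearMap).Pres f J := ⟨fun _ _ => rfl, fun _ => rfl⟩
  have hf : (f.comap J.toLinearMap).Nondeg := h.nondeg.comap_equiv J
  have E := h.nondeg.commutator_eq_Eich (good_of_two_ne_zero _ h2) (by omega)
  have E' := hf.commutator_eq_Eich (good_of_two_ne_zero _ h2) (by simp; omega)
  have key : ∀ g, (f.comap J.toLinearMap).PermD (fun i => F ∙ single i 1) g ↔
      f.PermD D (isomCongr J hP g) := fun g => forall_congr' fun i => exists_congr fun j => by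
    have : ∀ i v, v ∈ F ∙ (single i 1 : ι → F) ↔ J v ∈ D i := fun i v => by
      rw [hb, ← J1, Submodule.mem_span_singleton, Submodule.mem_span_singleton]
      exact exists_congr fun a => by rw [← map_smul, J.injective.eq_iff]
    simp only [this, isomCongr_apply]
    exact ⟨fun H v hv => H _ (by simpa using hv), fun H v hv => by simpa using H _ hv⟩
  rcases frame_std15 (f := f.comap J.toLinearMap) (X := X.comap (isomCongr J hP).toMonoidHom) hc h2 hp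
    h7 (fun u w => by
      simp [hJ, B_sum_left, hO, dotProduct, mul_sum, mul_comm, mul_left_comm, mul_assoc])
    (fun g hg H => hX _ (E ▸ map_comm _ (E' ▸ hg)) ((key g).1 H))
    (fun g hg => (isomCongr J hP).symm_apply_apply g ▸
      E' ▸ map_comm (isomCongr J hP).symm.toMonoidHom (E ▸ hX' hg)) with H | H
  · refine .inl fun g hg => ?_
    simpa using (key _).1 (H ((isomCongr J hP).symm g) (by simpa using hg))
  · refine .inr fun g hg => ?_
    exact (isomCongr J hP).apply_symm_apply g ▸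
      H (E' ▸ map_comm (isomCongr J hP).symm.toMonoidHom (E ▸ hg))

end Form
end CA.CForm

namespace CA.MaxGL

open CA.CForm CA.CForm.Form CA.AschFG CA.AschO1 CA.AschProp Cfsg Cfsg.Geo Module

theorem orth_max_frame10 {ι : Type} [Fintype ι] [DecidableEq ι] {F : Type*} [Field F] [Fintype F]
    {φ : Form (Kind.orth F) (ι → F)} (hφ : φ.Nondeg) (h2 : (2 : F) ≠ 0)
    (hp : (Fintype.card F).Prime) (h7 : Fintype.card ι = 10) {t : ℕ}
    {D : Fin t → Submodule F (ι → F)} (hD : IsOrthogonalMDecomposition φ.Q 1 D) :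
    IsMaximalIn (omegaGL φ.Q) (decompositionStabilizer D ⊓ omegaGL φ.Q) := by
  obtain ⟨h1, h3⟩ := orthDecomp_iff.1 hD
  have h4 := decomp_card h1.decomp
  rw [omega_eq hφ (by omega)]
  exact max_of (not_le_orth hφ (by omega) h1.decomp (.inl h2)) fun X a b =>
    ((odec hφ h1 h3).frame_max15 (fun g hg e => a ⟨(mem_comap_decomp h1.decomp).2 e, hg⟩) b
      h1.decomp.finrank_eq h2 hp (by simp; omega) (by simp [h4])).imp_left
        fun h g hg => (mem_comap_decomp h1.decomp).2 (h g hg)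

end CA.MaxGL
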