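import Cfsg.Agent.Lib.Lin.MaxGL5

/-!
Overgroups of the stabiliser of a non-degenerate subspace whose complement has Witt index one.
-/

set_option autoImplicit false
set_option linter.unusedSectionVars false

namespace CA.CForm

open Module

namespace Form
variable {F : Type*} [Field F] [Finite F] {V : Type*} [AddCommGroup V] [Module F V]
  [FiniteDimensional F V] {f : Form (Kind.orth F) V} {X : Subgroup f.Isom} {U : Submodule F V}

local notation:75 g:76 " ⊳ " v:75 => (g : V ≃ₗ[F] V) v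

theorem Nondeg.exists_hyp_in (hf : f.Nondeg) (hU : Disjoint U (f.perp U)) (h3 : 3 ≤ finrank F U)
    {x : V} (hx : x ∈ U) (h0 : x ≠ 0) (hQ : f.Q x = 0) : ∃ y ∈ U, f.IsHyp x y ∧ ∃ u ∈ U, ∃ u' ∈ U,
      f.B x u = 0 ∧ f.B y u = 0 ∧ f.B x u' = 0 ∧ f.B y u' = 0 ∧ f.B u u' ≠ 0 := by
  obtain ⟨y, hy, h⟩ := hf.exists_isHyp_mem hQ hx fun H => h0 (Submodule.disjoint_def.1 hU x hx H)
  have h' : (f.restrict U).IsHyp ⟨x, hx⟩ ⟨y, hy⟩ := ⟨h.Q_x, h.Q_y, h.B_xy⟩
  have : Nontrivial ((f.restrict U).perp (Submodule.span F {⟨x, hx⟩, ⟨y, hy⟩})) :=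
    Module.finrank_pos_iff.1 (by have := h'.finrank_perp; omega : 0 < finrank F _)
  obtain ⟨p, hp⟩ := exists_ne (0 : (f.restrict U).perp (Submodule.span F {⟨x, hx⟩, ⟨y, hy⟩}))
  obtain ⟨q, hq⟩ := (h'.nondeg_perp ((f.nondeg_restrict_iff U).2 hU)).exists_B_ne_zero hp
  have hp' := (f.restrict U).mem_perp_span_pair.1 p.2
  have hq' := (f.restrict U).mem_perp_span_pair.1 q.2
  exact ⟨y, hy, h, p.1, p.1.2, q.1, q.1.2, hp'.1, hp'.2, hq'.1, hq'.2, hq⟩

theorem Nondeg.le_of_eich (hf : f.Nondeg) (hU : Disjoint U (f.perp U)) (h3 : 3 ≤ finrank F U)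
    {Y : Submodule F V} (h : ∀ a ∈ U, ∀ w ∈ U, ∀ c hc, ∀ v ∈ Y, f.eichler a w c hc ⊳ v ∈ Y) {v : V}
    (hv : v ∈ U) (hvY : v ∈ Y) (h0 : v ≠ 0) : U ≤ Y := by
  obtain ⟨x₀, k1, k2, k3⟩ := f.iso_orth U h3
  obtain ⟨y₀, k4, k5, -⟩ := hf.exists_hyp_in hU h3 k1 k2 k3
  obtain ⟨x, hx, hQ, hB⟩ : ∃ x ∈ U, f.Q x = 0 ∧ f.B x v ≠ 0 := by
    by_contra H
    push Not at H
    exact h0 (Submodule.disjoint_def.1 hU v hv fun u hu => k5.induction_singular k1 k4
      (P := fun u => f.B u v = 0) (fun a b ha hb => by simp [ha, hb]) H hu)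
  obtain ⟨y, hy, hh, u, hu, u', hu', l1, -, l2, -, l3⟩ := hf.exists_hyp_in hU h3 hx
    (by rintro rfl; simp at hB) hQ
  have key : ∀ w ∈ U, f.B x w = 0 → ∃ c : F, f.B x v • w - c • x ∈ Y := fun w hw hB => ⟨_, by
    have := Y.sub_mem (h x hx w hw _ (f.orth_eichlerCond hQ hB) v hvY) hvY
    rwa [eichler_apply, add_sub_assoc, add_sub_cancel_left] at this⟩
  obtain ⟨c, hc⟩ := key u' hu' l2
  have hxY : x ∈ Y := by
    have := Y.sub_mem hc (h x hx u hu _ (f.orth_eichlerCond hQ l1) _ hc)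
    rw [eichler_apply_of_B _ _ _ _ _ (by simp [l2, hh.B_xx]), sub_sub_cancel] at this
    exact (Y.smul_mem_iff (by simp [hB, l3, f.eq_zero_symm l1])).1 this
  intro w hw
  obtain ⟨c', hc'⟩ := key (w - (f.B x w / f.B x v) • v) (U.sub_mem hw (U.smul_mem _ hv)) (by simp [hB])
  rw [Y.sub_mem_iff_left (Y.smul_mem _ hxY), Y.smul_mem_iff hB] at hc'
  exact (Y.sub_mem_iff_left (Y.smul_mem _ hvY)).1 hc'

theorem Base.ml_or (hb : f.Base X U) (hb' : f.Base X (f.perp U)) (hf : f.Nondeg)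
    (hU : Disjoint U (f.perp U)) (h3 : 3 ≤ finrank F U) (h3' : 3 ≤ finrank F (f.perp U)) :
    f.Eich ≤ X ∨ f.ML X U := by
  by_cases hM : f.ML X U
  · exact .inr hM
  left
  unfold ML at hM
  push Not at hM
  obtain ⟨x, hx, hx0, hQ, hn⟩ := hM
  obtain ⟨y, hy, hh, u, hu, u', hu', l1, l2, l3, l4, l5⟩ := hf.exists_hyp_in hU h3 hx hx0 hQ
  obtain ⟨w, hw, k1, k2, k3⟩ : ∃ w ∈ U, f.B x w = 0 ∧ f.B y w = 0 ∧ f.Q w ≠ 0 := by
    by_contra H
    push Not at H
    have := H _ (U.add_mem hu hu') (by simp [l1, l3]) (by simp [l2, l4])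
    rw [orth_Q_add, H u hu l1 l2, H u' hu' l3 l4] at this
    exact l5 (by simpa using this)
  have := Submodule.finrank_le U
  refine hf.Eich_le_of_Qgrp' (.inl (by omega)) hQ (Qgrp_le_of_lev (hb.Tgrp_le hx) fun w hw =>
    lev_of_mem_levS (hb.grow hf hU hx hn (fun v hv h0 hl => hf.le_of_eich (hf.disjoint_perp_perp hU) h3'
      (fun a ha w hw c hc v hv => map_mem_levS hv (hb' a ha w hw c hc) ?_) hv hl h0) w hw))
    (hb y hy w hw _ (f.orth_eichlerCond hh.Q_y k2)) ?_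
  · simp [eichler_apply, f.eq_zero_symm (ha x hx), f.eq_zero_symm (hw x hx)]
  · simp [eichler_apply, hh.B_xx, hh.B_xy, hh.B_yx, k1, k3, f.eq_zero_symm k1]

theorem ML.root_cases (hf : f.Nondeg) (hU : Disjoint U (f.perp U)) (hM : f.ML X U) (hb : f.Base X U)
    {S : Submodule F V} (hS : f.Base X S) {x y z : V} (hy : y ∈ S) (hz : z ∈ S) (qy : f.Q y = 0)
    (qz : f.Q z = 0) (hyz : f.B y z = 0) (hi : ∀ a b : F, a • y + b • z = 0 → a = 0 ∧ b = 0)
    (hx : x ∈ U) (x0 : x ≠ 0) (qx : f.Q x = 0) (h1 : f.B y x = 0) (h2 : f.B z x = 0) :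
    (∀ a b : F, a • y + b • z ∈ U → ¬(a = 0 ∧ b = 0) → y ∈ U ∧ z ∈ U) ∧
      ((y ∈ U ∧ z ∈ U) ∨ ∃ a b : F, y - a • x ∈ f.perp U ∧ z - b • x ∈ f.perp U) := by
  have A : ∀ a b : F, a • y + b • z ∈ U → ¬(a = 0 ∧ b = 0) → y ∈ U ∧ z ∈ U := fun a b h h0 => by
    have hQ : f.Q (a • y + b • z) = 0 := by simp [orth_Q_add, f.Q_smul_of_Q, qy, qz, hyz]
    have hm := S.add_mem (S.smul_mem a hy) (S.smul_mem b hz)
    exact ⟨hM _ h (mt (hi a b) h0) hQ (hS.mem_levS hm hQ hy (by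
        simp [f.B_self_of_Q qy, f.eq_zero_symm hyz])),
      hM _ h (mt (hi a b) h0) hQ (hS.mem_levS hm hQ hz (by simp [f.B_self_of_Q qz, hyz]))⟩
  refine ⟨A, or_iff_not_imp_left.2 fun H => ?_⟩
  have B : ∀ w ∈ U, f.B x w = 0 → f.B y w = 0 ∧ f.B z w = 0 := fun w hw hB => by
    have := hM.root hb (hS y hy z hz 0 (eichlerCond_sing qy qz hyz)) hx x0 qx hw hB h1 h2
    by_contra h
    refine H (A (-f.B z w) (f.B y w) (by simpa [neg_add_eq_sub] using this) fun h' => h ?_)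
    exact ⟨h'.2, neg_eq_zero.1 h'.1⟩
  obtain ⟨x', hx', hh⟩ := hf.exists_isHyp_mem qx hx fun H => x0 (Submodule.disjoint_def.1 hU x hx H)
  have C : ∀ y, (∀ w ∈ U, f.B x w = 0 → f.B y w = 0) → y - f.B y x' • x ∈ f.perp U := fun y h u hu => by
    have := h (u - f.B x u • x') (U.sub_mem hu (U.smul_mem _ hx')) (by simp [hh.B_xy])
    rw [map_sub, map_smul, smul_eq_mul] at this
    rw [map_sub, map_smul, smul_eq_mul, f.orth_symm y u, f.orth_symm x u]
    linear_combination this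
  exact ⟨_, _, C y fun w hw h => (B w hw h).1, C z fun w hw h => (B w hw h).2⟩

theorem Nondeg.max_nondeg_two (hf : f.Nondeg) (hU : Disjoint U (f.perp U)) (h3 : 3 ≤ finrank F U)
    (h3' : 3 ≤ finrank F (f.perp U))
    (hT : ∀ y ∈ U, f.Q y = 0 → y ≠ 0 → ∃ z ∈ U, f.Q z = 0 ∧ f.B y z = 0 ∧ z ∉ F ∙ y)
    (hW : ∀ T ≤ f.perp U, f.TS T → finrank F T ≤ 1)
    (hex : ∀ T, f.TS T → finrank F T = 2 → (∃ x ∈ U ⊓ f.perp T, x ≠ 0 ∧ f.Q x = 0) ∨
      ∃ x ∈ f.perp U ⊓ f.perp T, x ≠ 0 ∧ f.Q x = 0)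
    (hX : f.stab U ⊓ f.Eich ≤ X) : X ≤ f.stab U ∨ f.Eich ≤ X := by
  have hb := base_of_le hX
  have hb' := base_of_le (hf.stab_perp U ▸ hX)
  have hU' := hf.disjoint_perp_perp hU
  refine (hb.ml_or hb' hf hU h3 h3').elim .inr fun hM => ?_
  refine (hb'.ml_or (by rwa [hf.perp_perp]) hf hU' h3' (by rwa [hf.perp_perp])).elim .inr fun hM' => ?_
  have hW' : ∀ a ∈ f.perp U, ∀ b ∈ f.perp U, f.Q a = 0 → f.Q b = 0 → f.B a b = 0 → a ≠ 0 →
      ∃ c : F, c • a = b := fun a ha b hb qa qb h a0 => by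
    have h1 := (ts_span_singleton qa).sup_singleton qb (f.mem_perp_span_singleton.2 h)
    have h2 := hW _ (sup_le ((Submodule.span_singleton_le_iff_mem _ _).2 ha)
      ((Submodule.span_singleton_le_iff_mem _ _).2 hb)) h1
    exact Submodule.mem_span_singleton.1 ((Submodule.eq_of_le_of_finrank_le le_sup_left
      (by rwa [finrank_span_singleton a0])).ge
      (Submodule.mem_sup_right (Submodule.mem_span_singleton_self b)))
  refine .inl fun g hg => f.mem_stab_of_le fun v hv => ?_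
  obtain ⟨x₀, k1, k2, k3⟩ := f.iso_orth U h3
  obtain ⟨y₀, k4, k5, -⟩ := hf.exists_hyp_in hU h3 k1 k2 k3
  refine k5.induction_singular k1 k4 (P := fun v => g ⊳ v ∈ U) (fun a b ha hb => by
    rw [map_add]; exact U.add_mem ha hb) (fun y hy qy => ?_) hv
  by_cases y0 : y = 0
  · simp [y0]
  obtain ⟨z, hz, qz, hyz, hn⟩ := hT y hy qy y0
  replace hy := f.apply_mem_act (g := g).2 hy
  replace hz := f.apply_mem_act (g := g).2 hz
  rw [← f.Q_coe_map g] at qy qz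
  rw [← f.B_coe_map g] at hyz
  have hi : ∀ a b : F, a • g ⊳ y + b • g ⊳ z = 0 → a = 0 ∧ b = 0 := fun a b h => by
    rw [← map_smul, ← map_smul, ← map_add, map_eq_zero_iff _ (g : V ≃ₗ[F] V).injective] at h
    have b0 : b = 0 := by
      by_contra b0
      refine hn (Submodule.mem_span_singleton.2 ⟨-(a / b), ?_⟩)
      linear_combination (norm := skip) (-b⁻¹) • h
      match_scalars <;> field_simp <;> ring
    simpa [b0, y0] using h
  have hS := hb.act hg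
  generalize g ⊳ y = y at *
  generalize g ⊳ z = z at *
  have y0 : y ≠ 0 := by rintro rfl; simpa using hi 1 0
  have hn : z ∉ F ∙ y := fun h => by
    obtain ⟨c, rfl⟩ := Submodule.mem_span_singleton.1 h
    simpa using hi c (-1) (by simp)
  have ht := (ts_span_singleton qy).sup_singleton qz (f.mem_perp_span_singleton.2 hyz)
  have hd : finrank F ((F ∙ y) ⊔ F ∙ z : Submodule F V) = 2 := by
    have := finrank_sup_span_le (F ∙ y) z
    have := Submodule.finrank_lt_finrank_of_lt (lt_of_le_of_ne le_sup_left fun e =>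
      hn (e ▸ Submodule.mem_sup_right (Submodule.mem_span_singleton_self z)) : F ∙ y < (F ∙ y) ⊔ F ∙ z)
    rw [finrank_span_singleton y0] at *
    omega
  have hp : ∀ x ∈ f.perp ((F ∙ y) ⊔ F ∙ z), f.B y x = 0 ∧ f.B z x = 0 := fun x hx =>
    ⟨hx y (Submodule.mem_sup_left (Submodule.mem_span_singleton_self y)),
      hx z (Submodule.mem_sup_right (Submodule.mem_span_singleton_self z))⟩
  have hs : ∀ x (a : F) y, f.Q x = 0 → f.Q y = 0 → f.B y x = 0 → f.Q (y - a • x) = 0 :=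
    fun x a y h1 h2 h3 => by rw [sub_eq_add_neg, ← neg_smul, f.Q_add_smul_of_Q h1, h2, h3]; simp
  by_cases H : ∃ x ∈ U ⊓ f.perp ((F ∙ y) ⊔ F ∙ z), x ≠ 0 ∧ f.Q x = 0
  · obtain ⟨x, hx, x0, qx⟩ := H
    obtain ⟨l1, l2⟩ := hp x hx.2
    obtain ⟨A, B⟩ := hM.root_cases hf hU hb hS hy hz qy qz hyz hi hx.1 x0 qx l1 l2
    refine B.elim And.left fun ⟨a, b, ha, hb⟩ => ?_
    by_cases h0 : y - a • x = 0
    · exact sub_eq_zero.1 h0 ▸ U.smul_mem a hx.1
    obtain ⟨c, hc⟩ := hW' _ ha _ hb (hs x a y qx qy l1) (hs x b z qx qz l2) (by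
      simp [hyz, l1, f.eq_zero_symm l2, f.B_self_of_Q qx]) h0
    refine (A c (-1) ?_ (by simp)).1
    rw [show c • y + (-1 : F) • z = (c * a - b) • x by linear_combination (norm := module) hc]
    exact U.smul_mem _ hx.1
  obtain ⟨x, hx, x0, qx⟩ := (hex _ ht hd).resolve_left H
  obtain ⟨l1, l2⟩ := hp x hx.2
  obtain ⟨-, ⟨ha, hb⟩ | ⟨a, b, ha, hb⟩⟩ := hM'.root_cases hf hU' hb' hS hy hz qy qz hyz hi hx.1 x0 qx l1 l2
  · exact (hn (Submodule.mem_span_singleton.2 (hW' y ha z hb qy qz hyz y0))).elim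
  rw [hf.perp_perp] at ha hb
  push Not at H
  have k : ∀ (a : F) y', y' ∈ (F ∙ y) ⊔ F ∙ z → y' - a • x ∈ U → y' = a • x := fun a y' h1 h2 => by
    by_contra h
    exact H _ ⟨h2, Submodule.sub_mem _ (ht.le_perp h1) (Submodule.smul_mem _ _ hx.2)⟩ (sub_ne_zero.2 h)
      (hs x a y' qx (ht.Q_eq _ h1) (hx.2 _ h1))
  have e1 := k a y (Submodule.mem_sup_left (Submodule.mem_span_singleton_self y)) ha
  have e2 := k b z (Submodule.mem_sup_right (Submodule.mem_span_singleton_self z)) hb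
  have := hi b (-a) (by rw [e1, e2]; module)
  exact (y0 (by rw [e1, neg_eq_zero.1 this.2, zero_smul])).elim

theorem disjoint_of_aniso {A : Submodule F V} (h : ∀ v ∈ A, f.Q v = 0 → v = 0) (h2 : 2 ≤ finrank F A) :
    Disjoint A (f.perp A) := Submodule.disjoint_def.2 fun a ha ha' => by
  by_contra a0
  have hQ := mt (h a ha) a0
  have h3 : (2 : F) = 0 := by simpa [orth_B_self, hQ] using ha' a ha
  obtain ⟨b, hb, hn⟩ := exists_not_mem_of_lt (S := F ∙ a) (T := A) (by rw [finrank_span_singleton a0]; omega)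
  have : CharP F 2 := CharTwo.of_one_ne_zero_of_two_eq_zero one_ne_zero h3
  obtain ⟨t, ht⟩ := FiniteField.isSquare_of_char_two (ringChar.eq F 2) (f.Q b / f.Q a)
  have := h (b + t • a) (A.add_mem hb (A.smul_mem t ha)) (by
    rw [orth_Q_add, f.Q_smul, map_smul, ha' b hb]
    simp only [Kind.orth_σ, RingHom.id_apply, ← ht]
    field_simp
    linear_combination f.Q b * h3)
  exact hn (Submodule.mem_span_singleton.2 ⟨-t, by linear_combination (norm := module) -this⟩)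

end Form
end CA.CForm
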