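import Cfsg.Agent.Lib.Lin.H12Dc6
import Cfsg.Agent.Lib.Lin.MaxC5
import Cfsg.Agent.Lib.Lin.MaxGL5
import Cfsg.Agent.Lib.Lin.MaxGL4
import Cfsg.Agent.Lib.Lin.H15Fr10

/-!
Non-degenerate subspaces of ten-dimensional quadratic spaces.
-/

set_option autoImplicit false
set_option linter.unusedSectionVars false

namespace CA.H12Dc

open Module CA.CForm CA.CForm.Form

variable {F : Type*} [Field F] [Fintype F]

section
variable {V : Type*} [AddCommGroup V] [Module F V]
  [FiniteDimensional F V] {f : Form (Kind.orth F) V} {U : Submodule F V} {X : Subgroup f.Isom}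

local notation:75 g:76 " ⊳ " v:75 => (g : V ≃ₗ[F] V) v

theorem max_five (hf : f.Nondeg) (hU : Disjoint U (f.perp U)) (h5 : 5 ≤ finrank F U)
    (h5' : 3 ≤ finrank F (f.perp U)) (hsw : ∀ g : f.Isom, ¬f.act g U ≤ f.perp U)
    (hX : f.stab U ⊓ f.Eich ≤ X) : X ≤ f.stab U ∨ f.Eich ≤ X := by
  have hb := base_of_le hX
  have hb' := base_of_le (hf.stab_perp U ▸ hX)
  have hU' := hf.disjoint_perp_perp hU
  refine (hb.ml_or hb' hf hU (by omega) h5').elim .inr fun hM => ?_
  refine (hb'.ml_or (by rwa [hf.perp_perp]) hf hU' h5' (by rw [hf.perp_perp]; omega)).elim .inr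
    fun hM' => .inl fun g hg => ?_
  have hS := hb.act hg
  have dS := disjoint_act hU g
  have fS : 5 ≤ finrank F (f.act g U) := by rwa [finrank_act]
  have key : ∀ y ∈ f.act g U, y ≠ 0 → f.Q y = 0 → y ∈ U ∨ y ∈ f.perp U := fun y hy y0 qy => by
    have := f.finrank_le_inf_perp (f.act g U) y
    obtain ⟨z, ⟨hz, e⟩, n, qz⟩ := f.iso_orth.avoid' (W := f.act g U ⊓ f.perp (F ∙ y)) (Y := F ∙ y)
      (by rw [finrank_span_singleton y0]; omega)
    replace e := f.mem_perp_span_singleton.1 e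
    have hi : ∀ a b : F, a • y + b • z = 0 → a = 0 ∧ b = 0 := fun a b h => by
      have b0 : b = 0 := by
        by_contra b0
        exact n ((Submodule.smul_mem_iff _ b0).1 (eq_neg_of_add_eq_zero_right h ▸
          neg_mem (Submodule.smul_mem _ _ (Submodule.mem_span_singleton_self _))))
      simpa [b0, y0] using h
    have d1 := f.finrank_le_inf_perp U y
    have d2 := f.finrank_le_inf_perp (U ⊓ f.perp (F ∙ y)) z
    obtain ⟨x, ⟨⟨x1, x2⟩, x3⟩, x0, qx⟩ := f.iso_orth (U ⊓ f.perp (F ∙ y) ⊓ f.perp (F ∙ z)) (by omega)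
    rcases (hM.root_cases hf hU hb hS hy hz qy qz e hi x1 x0 qx (f.mem_perp_span_singleton.1 x2)
      (f.mem_perp_span_singleton.1 x3)).2 with c | ⟨a, b, c1, c2⟩
    · exact .inl c.1
    refine .inr (by_contra fun ny => ?_)
    have a0 : a ≠ 0 := by rintro rfl; exact ny (by simpa using c1)
    have m : a • z - b • y ∈ f.perp U := by
      convert sub_mem (Submodule.smul_mem _ a c2) (Submodule.smul_mem _ b c1) using 1; module
    have q : f.Q (a • z - b • y) = 0 := by simp [Q_sub, f.Q_smul_of_Q, qy, qz, f.eq_zero_symm e]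
    exact ny (hM' _ m (fun c => a0 (hi (-b) a (by rw [← c]; module)).2) q (hS.mem_levS
      (sub_mem (Submodule.smul_mem _ _ hz) (Submodule.smul_mem _ _ hy)) q hy
      (by simp [f.eq_zero_symm e, f.B_self_of_Q qy])))
  obtain ⟨y, hy, y0, qy⟩ := f.iso_orth (f.act g U) (by omega)
  obtain ⟨y', hy', hh⟩ := hf.exists_isHyp_mem qy hy fun c => y0 (Submodule.disjoint_def.1 dS y hy c)
  have fin : ∀ {W : Submodule F V}, f.ML X W → y ∈ W → y' ∈ W → f.act g U ≤ W := fun hW a b v hv => by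
    simpa using add_mem (hW y a y0 qy (hS.mem_levS hy qy (w := v - f.B y v • y')
      (sub_mem hv (Submodule.smul_mem _ _ hy')) (by simp [hh.B_xy]))) (Submodule.smul_mem _ (f.B y v) b)
  rcases key y hy y0 qy with a | a <;> rcases key y' hy' hh.y_ne_zero hh.Q_y with b | b
  · exact f.mem_stab_of_le fun v hv => fin hM a b (f.apply_mem_act.2 hv)
  · exact absurd (b y a) (by simp [hh.B_xy])
  · exact absurd (f.eq_zero_symm (a y' b)) (by simp [hh.B_xy])
  · exact absurd (fin hM' a b) (hsw g)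

end

open Cfsg Cfsg.Geo CA.AschBase CA.AschTForm CA.AschProp CA.AschFG CA.AschFG5 CA.AschFG7
  CA.AschO1 CA.MaxGL

variable {ι : Type} [Fintype ι] [DecidableEq ι] {φ : Form (Kind.orth F) (ι → F)} (hφ : φ.Nondeg)
include hφ

theorem halves_five {m : ℕ} {D : Fin 2 → Submodule F (ι → F)} (hm : 5 ≤ m)
    (hD : IsNondegenerateMDecomposition (QuadraticMap.polar φ.Q) m D)
    (hne : ¬AreIsometricFor φ.Q (D 0) (D 1)) :
    IsMaximalIn (omegaGL φ.Q) (decompositionStabilizer D ⊓ omegaGL φ.Q) := by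
  rw [polar_fn] at hD
  have h2 := hφ.finrank_perp (D 0)
  have h3 := decomp_card hD.decomp
  have h4 := hD.decomp.finrank_eq
  have h5 : 5 ≤ Fintype.card ι := by omega
  have e : D 1 = φ.perp (D 0) := Submodule.eq_of_le_of_finrank_le
    (orthFor_iff.1 (hD.orthogonal 1 0 (by decide))) (by rw [finrank_fun, h4] at h2; rw [h4]; omega)
  have e' : φ.stab (D 1) = φ.stab (D 0) := by rw [e, hφ.stab_perp]
  rw [omega_eq hφ h5]
  refine max_decomp hD.decomp (not_le_orth hφ h5 hD.decomp (.inr (by omega))) fun X hX =>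
    (max_five hφ (nondegOn_iff.1 (hD.nondegenerate 0)) (by rwa [h4]) (by rw [← e, h4]; omega)
      (fun g c => hne ⟨?_, ?_⟩) fun g hg =>
      hX g hg.2 (permD_of_stab (Fin.forall_fin_two.2 ⟨hg.1, e' ▸ hg.1⟩))).imp_left
    fun h g hg => permD_of_stab (Fin.forall_fin_two.2 ⟨h hg, e' ▸ h hg⟩)
  · exact (g.1.submoduleMap (D 0)).trans (.ofEq _ _ (Submodule.eq_of_le_of_finrank_le
      (c.trans e.ge) (by rw [h4]; exact ((φ.finrank_act g (D 0)).trans (h4 0)).ge)))
  · exact fun w => φ.Q_coe_map g w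

theorem ten_nondeg (h10 : Fintype.card ι = 10) {W : Submodule F (ι → F)} (h0 : W ≠ ⊥) (h1 : W ≠ ⊤)
    (h5 : finrank F W ≠ 5) (h8 : finrank F W ≠ 8)
    (hW : IsNondegenerateOn (QuadraticMap.polar φ.Q) W)
    (hex : ¬(Fintype.card F ≤ 3 ∧ finrank F W = 2 ∧ IsPlusTypeOn φ.Q W)) :
    IsMaximalIn (omegaGL φ.Q) (subspaceStabilizer W ⊓ omegaGL φ.Q) := by
  rw [omega_eq hφ (by omega)]
  rw [polar_fn, nondegOn_iff] at hW
  have e := hφ.finrank_perp W
  rw [finrank_fun, h10] at e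
  have hW' := hφ.disjoint_perp_perp hW
  refine max_stab hφ φ.iso_orth (by omega) (by omega) h0 h1 ?_
  by_cases h : finrank F W < 5
  · exact fun X hX => hφ.stab_perp W ▸ max_nondeg' hφ φ.iso_orth (by omega) hW' (by omega)
      (by rw [hφ.perp_perp]; omega) (by rw [hφ.perp_perp]; exact orth_irrI hW hex)
      (not_equiv_of_ne hφ (by omega)) X (by rwa [hφ.stab_perp])
  · exact max_nondeg' hφ φ.iso_orth (by omega) hW (by omega) (by omega)
      (orth_irrI hW' (by omega)) (not_equiv_of_ne hφ (by omega))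

theorem ten_nonsing (h8 : 8 ≤ Fintype.card ι) (hq : ¬Odd (Fintype.card F)) {v : ι → F}
    (hv : φ.Q v ≠ 0) : IsMaximalIn (omegaGL φ.Q) (subspaceStabilizer (F ∙ v) ⊓ omegaGL φ.Q) := by
  rw [omega_eq hφ (by omega)]
  refine max_nonsing hφ φ.iso_orth (by omega) (by omega) hv ?_
  rw [φ.B_self, Kind.orth_δ, not_not.1 (mt two_ne_zero_iff_odd.1 hq), zero_mul]

end CA.H12Dc
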