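import Cfsg.Agent.Lib.Lin.MaxBase

/-!
Minimal degree of the orthogonal groups, part 1: Eichler calculus, and subgroups containing all
Eichler maps `E(x, w)` with `w` in a hyperplane of `x^⊥`.
-/

set_option autoImplicit false
set_option linter.unusedSectionVars false

namespace CA.H12Om

open Module CA.CForm CA.CForm.Form

variable {F : Type*} [Field F] {V : Type*} [AddCommGroup V] [Module F V] {f : Form (Kind.orth F) V}

local notation:75 g:76 " ⊳ " v:75 => (g : V ≃ₗ[F] V) v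

theorem Bc (f : Form (Kind.orth F) V) (x y : V) : f.B x y = f.B y x := by
  rw [f.symm x y]; simp

theorem Qa (f : Form (Kind.orth F) V) (x y : V) : f.Q (x + y) = f.Q x + f.Q y + f.B x y := by
  rw [f.Q_add]; rfl

theorem Qs (f : Form (Kind.orth F) V) (a : F) (x : V) : f.Q (a • x) = a * a * f.Q x := by
  rw [f.Q_smul]; rfl

theorem Qsub (f : Form (Kind.orth F) V) (x y : V) : f.Q (x - y) = f.Q x + f.Q y - f.B x y := by
  rw [f.Q_sub]; rfl

theorem Bs (f : Form (Kind.orth F) V) (x : V) : f.B x x = 2 * f.Q x := by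
  rw [f.B_self]; rfl

theorem Bl (f : Form (Kind.orth F) V) (a : F) (x y : V) : f.B (a • x) y = a * f.B x y := by
  rw [f.B_smul_left]; rfl

open Classical in
/-- The Eichler map as a total function. -/
noncomputable def ee (f : Form (Kind.orth F) V) (x w : V) : f.Isom :=
  if h : f.Q x = 0 ∧ f.B x w = 0 then f.eichler x w (f.Q w) ⟨h.1, h.2, rfl⟩ else 1

theorem ee_eq {x w : V} (hx : f.Q x = 0) (hw : f.B x w = 0) :
    ee f x w = f.eichler x w (f.Q w) ⟨hx, hw, rfl⟩ := dif_pos ⟨hx, hw⟩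

theorem ee_apply {x w : V} (hx : f.Q x = 0) (hw : f.B x w = 0) (v : V) :
    ee f x w ⊳ v = v + f.B x v • w - (f.B w v + f.Q w * f.B x v) • x := by
  rw [ee_eq hx hw, eichler_apply]; simp

theorem ee_perp {x w v : V} (hx : f.Q x = 0) (hw : f.B x w = 0) (hv : f.B x v = 0) :
    ee f x w ⊳ v = v - f.B w v • x := by
  rw [ee_apply hx hw, hv]; simp

theorem ee_fix {x w v : V} (hx : f.Q x = 0) (hw : f.B x w = 0) (hv : f.B x v = 0) (hv' : f.B w v = 0) :
    ee f x w ⊳ v = v := by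
  rw [ee_perp hx hw hv, hv']; simp

theorem ee_mem (x w : V) : ee f x w ∈ f.Eich := by
  unfold ee; split_ifs
  · exact f.eichler_mem_Eich _ _ _ _
  · exact one_mem _

theorem ee_mem_Q (x w : V) : ee f x w ∈ f.Qgrp x := by
  unfold ee; split_ifs
  · exact f.eichler_mem_Qgrp _ _ _ _
  · exact one_mem _

theorem eichler_eq_ee {x w : V} {c : F} (h : f.EichlerCond x w c) : f.eichler x w c h = ee f x w := by
  rw [ee_eq h.1 h.2]; exact f.eichler_congr _ _ rfl rfl h.3

theorem lev_iff {X : Subgroup f.Isom} {x w : V} (hx : f.Q x = 0) (hw : f.B x w = 0) :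
    f.Lev X x w ↔ ee f x w ∈ X :=
  ⟨fun ⟨_, h, hc⟩ => eichler_eq_ee h ▸ hc, fun h => ⟨_, ⟨hx, hw, rfl⟩, ee_eq hx hw ▸ h⟩⟩

theorem ee_mul {x w w' : V} (hx : f.Q x = 0) (hw : f.B x w = 0) (hw' : f.B x w' = 0) :
    ee f x w * ee f x w' = ee f x (w + w') := by
  rw [ee_eq hx hw, ee_eq hx hw', eichler_mul, eichler_eq_ee]

theorem ee_zero (x : V) : ee f x 0 = 1 := by
  by_cases hx : f.Q x = 0
  · refine f.isom_ext fun v => ?_
    rw [ee_apply hx (map_zero _)]; simp
  · exact dif_neg fun h => hx h.1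

theorem ee_inv {x w : V} (hx : f.Q x = 0) (hw : f.B x w = 0) : (ee f x w)⁻¹ = ee f x (-w) := by
  rw [inv_eq_iff_mul_eq_one, ee_mul hx hw (by simp [hw]), add_neg_cancel, ee_zero]

theorem ee_conj (g : f.Isom) {x w : V} (hx : f.Q x = 0) (hw : f.B x w = 0) :
    g * ee f x w * g⁻¹ = ee f (g ⊳ x) (g ⊳ w) := by
  rw [ee_eq hx hw, conj_eichler, eichler_eq_ee]

theorem ee_smul {x w : V} (hx : f.Q x = 0) (hw : f.B x w = 0) (a : F) : ee f (a • x) w = ee f x (a • w) := by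
  refine f.isom_ext fun v => ?_
  rw [ee_apply (f.Q_smul_of_Q hx a) (by rw [Bl, hw, mul_zero]), ee_apply hx (by simp [hw])]
  simp only [Bl, Qs]; module

theorem ee_swap {x w : V} (hx : f.Q x = 0) (hw : f.B x w = 0) (hq : f.Q w = 0) : ee f x w = ee f w (-x) := by
  refine f.isom_ext fun v => ?_
  rw [ee_apply hx hw, ee_apply hq (by rw [map_neg, Bc, hw, neg_zero])]
  simp only [hq, f.Q_neg, hx, B_neg_left]; module

theorem ee_self {x : V} (hx : f.Q x = 0) (a : F) : ee f x (a • x) = 1 := by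
  refine f.isom_ext fun v => ?_
  rw [ee_apply hx (by simp [f.B_self_of_Q hx]), isom_one_apply]
  simp only [Bl, Qs, hx]; module

theorem lev_swap {X : Subgroup f.Isom} {x w : V} (hx : f.Q x = 0) (hq : f.Q w = 0) (h : f.Lev X x w) :
    f.Lev X w x := by
  have hw := h.B_eq
  have : f.Lev X w (-x) := by
    rw [lev_iff hq (by rw [map_neg, Bc, hw, neg_zero]), ← ee_swap hx hw hq]; exact (lev_iff hx hw).1 h
  simpa using this.neg

theorem mem_Q_iff {x : V} (hx : f.Q x = 0) {g : f.Isom} : g ∈ f.Qgrp x ↔ ∃ w, f.B x w = 0 ∧ g = ee f x w :=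
  ⟨fun h => by
    obtain ⟨w, c, hc, rfl⟩ := (mem_Qgrp hx).1 h
    exact ⟨w, hc.2, eichler_eq_ee hc⟩, fun ⟨_, _, e⟩ => e ▸ ee_mem_Q _ _⟩

theorem Q_le {X : Subgroup f.Isom} {x : V} (h : ∀ w, f.B x w = 0 → f.Lev X x w) : f.Qgrp x ≤ X :=
  Qgrp_le_of_lev (by rw [orth_Tgrp]; exact bot_le) h

variable [FiniteDimensional F V] [Finite F]

theorem exists_sing (U : Submodule F V) (h : 3 ≤ finrank F U) : ∃ v ∈ U, v ≠ 0 ∧ f.Q v = 0 := iso_orth f U h

theorem finrank_span_le (s : Finset V) : finrank F (Submodule.span F (s : Set V)) ≤ s.card :=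
  finrank_span_finset_le_card s

theorem fr1 (b : V) : finrank F (F ∙ b) ≤ 1 := by
  have := finrank_span_le (F := F) {b}
  rwa [Finset.coe_singleton, Finset.card_singleton] at this

theorem fr2 (a b : V) : finrank F (Submodule.span F ({a, b} : Set V)) ≤ 2 := by
  classical
  have := finrank_span_le (F := F) ({a, b} : Finset V)
  rw [Finset.coe_insert, Finset.coe_singleton] at this
  exact this.trans Finset.card_le_two

/-- A non-zero singular vector orthogonal to the members of a short list. -/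
theorem exists_sing_perp (hf : f.Nondeg) (l : List V) (h : l.length + 3 ≤ finrank F V) :
    ∃ v, v ≠ 0 ∧ f.Q v = 0 ∧ ∀ u ∈ l, f.B u v = 0 := by
  classical
  have h1 := finrank_span_le (F := F) l.toFinset
  have h2 := hf.finrank_perp (Submodule.span F (l.toFinset : Set V))
  have h3 := List.toFinset_card_le l
  obtain ⟨v, hv, h0, hq⟩ := exists_sing (f := f) (f.perp (Submodule.span F (l.toFinset : Set V))) (by omega)
  exact ⟨v, h0, hq, fun u hu => f.mem_perp_span.1 hv u (by simpa using hu)⟩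

/-- `H^⊥` is generated additively by its singular vectors. -/
theorem ind_perp (hf : f.Nondeg) {H : Submodule F V} {x : V} (hx : f.Q x = 0) (hxH : x ∉ H) (hx' : x ∈ f.perp H)
    {P : V → Prop} (hadd : ∀ a b, P a → P b → P (a + b)) (hP : ∀ v ∈ f.perp H, f.Q v = 0 → P v) {v : V}
    (hv : v ∈ f.perp H) : P v := by
  obtain ⟨y, hy, hq, hb⟩ := hf.exists_partner_perp hx hxH hx'
  exact IsHyp.induction_singular ⟨hx, hq, hb⟩ hx' hy hadd hP hv

theorem exists_sing_notMem (hf : f.Nondeg) {H : Submodule F V}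
    (h : finrank F (f.perp H ⊓ H : Submodule F V) + finrank F H + 3 ≤ finrank F V) :
    ∃ x, f.Q x = 0 ∧ x ∉ H ∧ x ∈ f.perp H := by
  have := hf.finrank_perp H
  obtain ⟨v, h1, h2, h3⟩ := (iso_orth f).avoid (W := f.perp H) (Y := H) (by omega)
  exact ⟨v, h3, h2, h1⟩

theorem exists_sing_one (hf : f.Nondeg) (h5 : 5 ≤ finrank F V) (b : V) :
    ∃ x, f.Q x = 0 ∧ x ∉ F ∙ b ∧ x ∈ f.perp (F ∙ b) := by
  have h1 := fr1 (F := F) b
  have h2 := Submodule.finrank_mono (inf_le_right : f.perp (F ∙ b) ⊓ (F ∙ b) ≤ F ∙ b)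
  exact exists_sing_notMem hf (by omega)

theorem ind_one (hf : f.Nondeg) (h5 : 5 ≤ finrank F V) (b : V) {P : V → Prop} (hadd : ∀ a b, P a → P b → P (a + b))
    (hP : ∀ v, f.B b v = 0 → f.Q v = 0 → P v) {v : V} (hv : f.B b v = 0) : P v := by
  obtain ⟨x, h1, h2, h3⟩ := exists_sing_one hf h5 b
  exact ind_perp hf h1 h2 h3 hadd (fun v hv => hP v (f.mem_perp_span_singleton.1 hv)) (f.mem_perp_span_singleton.2 hv)

theorem mem_span_of_perp (hf : f.Nondeg) {S : Set V} {v : V} (h : ∀ w, (∀ u ∈ S, f.B u w = 0) → f.B v w = 0) :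
    v ∈ Submodule.span F S := by
  rw [← hf.perp_perp (Submodule.span F S), mem_perp']
  exact fun w hw => h w (f.mem_perp_span.1 hw)

theorem mem_one_of_perp (hf : f.Nondeg) {b v : V} (h : ∀ w, f.B b w = 0 → f.B v w = 0) : ∃ a : F, v = a • b := by
  obtain ⟨a, ha⟩ := Submodule.mem_span_singleton.1 (mem_span_of_perp hf (S := {b}) (v := v) fun w hw => h w (hw b rfl))
  exact ⟨a, ha.symm⟩

/-- If `v` is not a multiple of `b`, some singular vector is orthogonal to `b` but not to `v`. -/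
theorem exists_sing_ne (hf : f.Nondeg) (h5 : 5 ≤ finrank F V) {b v : V} (h : ∀ a : F, v ≠ a • b) :
    ∃ x, f.Q x = 0 ∧ f.B b x = 0 ∧ f.B v x ≠ 0 := by
  by_contra hc
  push Not at hc
  obtain ⟨a, ha⟩ := mem_one_of_perp hf (b := b) (v := v) fun w hw =>
    ind_one hf h5 b (P := fun w => f.B v w = 0) (fun a b ha hb => by rw [map_add, ha, hb, add_zero])
      (fun v h1 h2 => hc v h2 h1) hw
  exact h a ha

/-- The Eichler group is transitive on the non-zero vectors of given length. -/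
theorem exists_vec (hf : f.Nondeg) (h5 : 5 ≤ finrank F V) {v v' : V} (hv : v ≠ 0) (hv' : v' ≠ 0)
    (hQ : f.Q v = f.Q v') : ∃ g ∈ f.Eich, g ⊳ v = v' := by
  obtain ⟨g, hg⟩ := hf.witt_one hv hv' hQ
  obtain ⟨x, h1, h2, h3⟩ := exists_sing_one hf h5 v
  obtain ⟨y, hy, hq, hb⟩ := hf.exists_partner_perp h1 h2 h3
  obtain ⟨t, ht, hE⟩ := IsHyp.exists_Eich_comp ⟨h1, hq, hb⟩ hf g
  refine ⟨_, hE, ?_⟩
  rw [isom_mul_apply, ht v, hg]
  exact f.mem_perp_span_pair.2 ⟨f.eq_zero_symm (f.mem_perp_span_singleton.1 h3),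
    f.eq_zero_symm (f.mem_perp_span_singleton.1 hy)⟩

theorem exists_hyp_perp (hf : f.Nondeg) {x y : V} (h : f.IsHyp x y) (h5 : 5 ≤ finrank F V) :
    ∃ u v, f.IsHyp u v ∧ f.B x u = 0 ∧ f.B y u = 0 ∧ f.B x v = 0 ∧ f.B y v = 0 := by
  obtain ⟨u, h0, hq, hu⟩ := exists_sing_perp hf [x, y] (by simpa using h5)
  have hx := hu x (by simp)
  have hy := hu y (by simp)
  have hm : u ∈ f.perp (Submodule.span F {x, y}) := f.mem_perp_span_pair.2 ⟨hx, hy⟩
  obtain ⟨v, hv, hq', hb⟩ := hf.exists_partner_perp hq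
    (fun hu => h0 (Submodule.disjoint_def.1 h.isCompl.disjoint u hu hm)) hm
  exact ⟨u, v, ⟨hq, hq', hb⟩, hx, hy, (f.mem_perp_span_pair.1 hv).1, (f.mem_perp_span_pair.1 hv).2⟩

theorem exists_tor (hf : f.Nondeg) {x y : V} (h : f.IsHyp x y) (h5 : 5 ≤ finrank F V) {a : F} (ha : a ≠ 0) :
    ∃ g ∈ f.Eich, g ⊳ x = a • x ∧ g ⊳ y = a⁻¹ • y := by
  obtain ⟨u, v, huv, h1, h2, h3, h4⟩ := exists_hyp_perp hf h h5
  obtain ⟨t, ht, hE⟩ := huv.exists_Eich_comp hf (h.torus (Units.mk0 a ha))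
  refine ⟨_, hE, ?_, ?_⟩
  · rw [isom_mul_apply, ht x (f.mem_perp_span_pair.2 ⟨f.eq_zero_symm h1, f.eq_zero_symm h3⟩), h.torus_apply_x]; rfl
  · rw [isom_mul_apply, ht y (f.mem_perp_span_pair.2 ⟨f.eq_zero_symm h2, f.eq_zero_symm h4⟩), h.torus_apply_y]; rfl

/-- `X` contains all `E(x, w)` with `w` orthogonal to `b`. -/
def Hy (X : Subgroup f.Isom) (x b : V) : Prop :=
  f.B x b = 0 ∧ ∀ w, f.B x w = 0 → f.B b w = 0 → f.Lev X x w

variable {X : Subgroup f.Isom}

theorem Hy.map {x b : V} (h : Hy X x b) {g : f.Isom} (hg : g ∈ X) : Hy X (g ⊳ x) (g ⊳ b) :=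
  ⟨by rw [B_coe_map, h.1], fun w h1 h2 => by
    have := (h.2 ((g⁻¹ : f.Isom) ⊳ w) (by rw [← B_isom_left]; exact h1) (by rw [← B_isom_left]; exact h2)).map hg
    rwa [isom_apply_inv_apply] at this⟩

theorem Hy.smul {x b : V} (h : Hy X x b) (hx : f.Q x = 0) {a : F} (ha : a ≠ 0) : Hy X (a • x) b :=
  ⟨by rw [Bl, h.1, mul_zero], fun w h1 h2 => by
    have h3 : f.B x w = 0 := by rw [Bl] at h1; exact (mul_eq_zero.1 h1).resolve_left ha
    rw [lev_iff (f.Q_smul_of_Q hx a) h1, ee_smul hx h3, ← lev_iff hx (by simp [h3])]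
    exact h.2 _ (by simp [h3]) (by simp [h2])⟩

theorem Hy.shift {x b : V} (h : Hy X x b) (hx : f.Q x = 0) (c : F) : Hy X x (b + c • x) :=
  ⟨by simp [h.1, f.B_self_of_Q hx], fun w h1 h2 => h.2 w h1 (by simpa [Bl, h1] using h2)⟩

theorem Hy.of_smul {x b : V} {c : F} (h : Hy X x (c • b)) (hc : c ≠ 0) : Hy X x b :=
  ⟨by simpa [hc] using h.1, fun w h1 h2 => h.2 w h1 (by rw [Bl, h2, mul_zero])⟩

theorem Hy.full (hf : f.Nondeg) {x b b' : V} (h : Hy X x b) (h' : Hy X x b') (hb : b' ∉ Submodule.span F {x, b}) :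
    f.Qgrp x ≤ X := by
  refine Q_le fun w hw => ?_
  obtain ⟨y, hy, e⟩ := hf.exists_perp_B_eq' hb (f.B b' w)
  obtain ⟨h1, h2⟩ := f.mem_perp_span_pair.1 hy
  have := (h.2 y h1 h2).add (h'.2 (w - y) (by rw [map_sub, hw, h1, sub_zero]) (by rw [map_sub, e, sub_self]))
  simpa using this

theorem Hy.full0 {x : V} (h : Hy X x 0) : f.Qgrp x ≤ X := Q_le fun w hw => h.2 w hw (by simp)

theorem Hy.key (hf : f.Nondeg) (h7 : 7 ≤ finrank F V) {x y b b' : V} (hxy : f.IsHyp x y) (h : Hy X x b)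
    (h' : Hy X y b') (hb : f.B y b = 0) (hb' : f.B x b' = 0) (hn : ¬ f.Qgrp x ≤ X) : ∃ c : F, b = c • b' := by
  by_contra hc
  push Not at hc
  have hyx : f.B y x = 1 := by rw [Bc, hxy.3]
  -- a singular `a'` orthogonal to `x, y, b'` but not to `b`
  obtain ⟨a', q', p1, p2, p3, p4⟩ : ∃ a', f.Q a' = 0 ∧ f.B x a' = 0 ∧ f.B y a' = 0 ∧ f.B b' a' = 0 ∧ f.B b a' ≠ 0 := by
    by_contra hd
    push Not at hd
    set H := Submodule.span F ({x, y, b'} : Set V) with hH
    have mp : ∀ v, v ∈ f.perp H ↔ f.B x v = 0 ∧ f.B y v = 0 ∧ f.B b' v = 0 := fun v => by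
      rw [hH, mem_perp_span]; simp
    have dec : ∀ v ∈ H, f.B x v = 0 → f.B y v = 0 → v ∈ F ∙ b' := fun v hv h1 h2 => by
      obtain ⟨α, β, γ, rfl⟩ := Submodule.mem_span_triple.1 hv
      simp only [map_add, map_smul, smul_eq_mul, hxy.B_xx, hxy.B_yy, hxy.3, hyx, hb', h'.1] at h1 h2
      have e1 : β = 0 := by simpa using h1
      have e2 : α = 0 := by simpa using h2
      simp [e1, e2, Submodule.smul_mem, Submodule.mem_span_singleton_self]
    have d1 : finrank F H ≤ 3 := by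
      classical
      have := finrank_span_le (F := F) ({x, y, b'} : Finset V)
      rw [Finset.coe_insert, Finset.coe_insert, Finset.coe_singleton] at this
      exact this.trans Finset.card_le_three
    have d2 : finrank F (f.perp H ⊓ H : Submodule F V) ≤ 1 := by
      refine (Submodule.finrank_mono (t := F ∙ b') fun v hv => ?_).trans (fr1 b')
      exact dec v hv.2 ((mp v).1 hv.1).1 ((mp v).1 hv.1).2.1
    obtain ⟨z, z1, z2, z3⟩ := exists_sing_notMem hf (H := H) (by omega)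
    have : b ∈ H := by
      refine mem_span_of_perp hf fun w hw => ?_
      refine ind_perp hf z1 z2 z3 (P := fun w => f.B b w = 0) (fun a b ha hb => by rw [map_add, ha, hb, add_zero])
        (fun v hv hq => hd v hq ((mp v).1 hv).1 ((mp v).1 hv).2.1 ((mp v).1 hv).2.2) (f.mem_perp_span.2 hw)
    obtain ⟨c, hc'⟩ := Submodule.mem_span_singleton.1 (dec b this h.1 hb)
    exact hc c hc'.symm
  obtain ⟨a, a0, q, ha⟩ := exists_sing_perp hf [x, y, b, a'] (by simpa using h7)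
  have r1 := ha x (by simp)
  have r2 := ha y (by simp)
  have r3 := ha b (by simp)
  have r4 := ha a' (by simp)
  have g1 : ee f x a ∈ X := (lev_iff hxy.1 r1).1 (h.2 a r1 r3)
  have l1 := h'.2 a' p2 p3
  have l2 := l1.map g1
  rw [ee_apply hxy.1 r1, ee_fix hxy.1 r1 p1 (by rw [Bc, r4])] at l2
  simp only [hxy.3, q, Bc f a y, r2, one_smul, zero_mul, add_zero, zero_smul, sub_zero] at l2
  have l3 := (lev_swap (by rw [Qa, hxy.2, q, r2]; simp) q' l2).sub (lev_swap hxy.2 q' l1)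
  rw [add_sub_cancel_left] at l3
  have l4 := lev_swap q' q l3
  have g2 : ee f a a' ∈ X := (lev_iff q l4.B_eq).1 l4
  have h2 := h.map g2
  rw [ee_fix q l4.B_eq (by rw [Bc, r1]) (by rw [Bc, p1]), ee_perp q l4.B_eq (by rw [Bc, r3])] at h2
  refine hn (h.full hf h2 fun hm => ?_)
  obtain ⟨α, β, e⟩ := Submodule.mem_span_pair.1 hm
  have e1 := congrArg (f.B y) e
  simp only [map_add, map_sub, map_smul, smul_eq_mul, hyx, hb, r2] at e1
  have e2 := congrArg (f.B a') e
  simp only [map_add, map_sub, map_smul, smul_eq_mul, Bc f a' x, p1, r4, Bc f a' b] at e2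
  have α0 : α = 0 := by simpa using e1
  have β1 : β = 1 := by
    have : (β - 1) * f.B b a' = 0 := by linear_combination e2
    exact sub_eq_zero.1 ((mul_eq_zero.1 this).resolve_right p4)
  rw [α0, β1, zero_smul, zero_add, one_smul, eq_comm, sub_eq_self, smul_eq_zero, Bc] at e
  exact e.elim p4 a0

end CA.H12Om
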