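import Cfsg.Agent.Lib.Lin.H12Om1

/-!
Minimal degree of the orthogonal groups, part 2: the structure theorem for subgroups with a large
level, complements to the unipotent radical, and the torus argument.
-/

set_option autoImplicit false
set_option linter.unusedSectionVars false

namespace CA.H12Om

open Module CA.CForm CA.CForm.Form

variable {F : Type*} [Field F] {V : Type*} [AddCommGroup V] [Module F V] {f : Form (Kind.orth F) V}
  [FiniteDimensional F V] [Finite F] {X : Subgroup f.Isom}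

local notation:75 g:76 " ⊳ " v:75 => (g : V ≃ₗ[F] V) v

theorem hyp_of_ne {x z : V} (hx : f.Q x = 0) (hz : f.Q z = 0) (h : f.B x z ≠ 0) : f.IsHyp x ((f.B x z)⁻¹ • z) :=
  ⟨hx, f.Q_smul_of_Q hz _, by rw [map_smul, smul_eq_mul, inv_mul_cancel₀ h]⟩

theorem Hy.pair (hf : f.Nondeg) (h7 : 7 ≤ finrank F V) {x z b b' : V} (hx : f.Q x = 0) (hz : f.Q z = 0)
    (hxz : f.B x z ≠ 0) (h : Hy X x b) (h' : Hy X z b') (hn : ¬ f.Qgrp x ≤ X) :
    ∃ α γ : F, b - (f.B b z / f.B x z) • x = α • z + γ • b' := by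
  have hp := hyp_of_ne hx hz hxz
  have h1 := h.shift hx (-(f.B b z / f.B x z))
  have h2 := (h'.shift hz (-(f.B x b' / f.B x z))).smul hz (inv_ne_zero hxz)
  obtain ⟨c, hc⟩ := h1.key hf h7 hp h2
    (by simp only [Bl, map_add, map_smul, smul_eq_mul, Bc f z b, Bc f z x]; field_simp; ring)
    (by simp only [map_add, map_smul, smul_eq_mul]; field_simp; ring) hn
  exact ⟨-(c * (f.B x b' / f.B x z)), c, by rw [sub_eq_add_neg, ← neg_smul, hc]; module⟩

theorem thmA (hf : f.Nondeg) (h7 : 7 ≤ finrank F V) {e b : V} (he : f.Q e = 0) (he0 : e ≠ 0) (h : Hy X e b) :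
    f.Eich ≤ X ∨ (∃ T, T ≠ ⊥ ∧ f.TS T ∧ X ≤ f.stab T) ∨ ∃ b', f.Q b' ≠ 0 ∧ X ≤ f.stab (F ∙ b') := by
  by_cases hp : ∀ g ∈ X, f.B e (g ⊳ e) = 0
  · refine Or.inr (Or.inl ⟨Submodule.span F {v | ∃ g ∈ X, v = g ⊳ e}, fun h0 => he0 ?_, ts_span ?_ ?_, fun g hg => ?_⟩)
    · exact (Submodule.span_eq_bot.1 h0) e ⟨1, one_mem _, rfl⟩
    · rintro _ ⟨g, -, rfl⟩; rw [Q_coe_map, he]
    · rintro _ ⟨g, hg, rfl⟩ _ ⟨g', hg', rfl⟩
      rw [B_isom_left, ← isom_mul_apply]; exact hp _ (mul_mem (inv_mem hg) hg')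
    · refine f.mem_stab_of_le fun v hv => ?_
      have : Submodule.span F {v | ∃ g ∈ X, v = g ⊳ e} ≤ (Submodule.span F {v | ∃ g ∈ X, v = g ⊳ e}).comap
          ((g : V ≃ₗ[F] V) : V →ₗ[F] V) := by
        rw [Submodule.span_le]
        rintro _ ⟨g', hg', rfl⟩
        exact Submodule.subset_span ⟨g * g', mul_mem hg hg', rfl⟩
      exact this hv
  push Not at hp
  obtain ⟨g0, hg0, hne⟩ := hp
  have hr : f.Rich := Or.inl (by omega)
  by_cases hfull : f.Qgrp e ≤ X
  · exact Or.inl (hf.Eich_le_of_Qgrp' hr he hfull hg0 hne)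
  right
  let O : V → Prop := fun v => f.Q v = 0 ∧ v ≠ 0 ∧ ¬ f.Qgrp v ≤ X ∧ ∃ c, Hy X v c
  have Om : ∀ v, O v → ∀ g ∈ X, O (g ⊳ v) := fun v ⟨h1, h2, h3, c, h4⟩ g hg =>
    ⟨by rw [Q_coe_map, h1], by simpa using h2, fun h5 => h3 (by simpa using Qgrp_map h5 (inv_mem hg)), _, h4.map hg⟩
  have Oe : O e := ⟨he, he0, hfull, b, h⟩
  obtain ⟨z1, z2, z3, b1, z4⟩ := Om e Oe g0 hg0
  have hy := hyp_of_ne he z1 hne
  set y := (f.B e (g0 ⊳ e))⁻¹ • g0 ⊳ e with hydef
  have hyx : f.B y e = 1 := by rw [Bc, hy.3]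
  have z5 : Hy X y b1 := z4.smul z1 (inv_ne_zero hne)
  have Oy : O y := ⟨hy.2, hy.y_ne_zero, by rw [hydef, f.Qgrp_smul (inv_ne_zero hne)]; exact z3, _, z5⟩
  have k1 := h.shift he (-f.B y b)
  set b0 := b + (-f.B y b) • e with hb0
  have yb0 : f.B y b0 = 0 := by simp [hb0, hyx]
  obtain ⟨c, hc⟩ := k1.key hf h7 hy (z5.shift hy.2 (-f.B e b1)) yb0 (by simp [hy.3]) hfull
  have b00 : b0 ≠ 0 := fun e0 => hfull (Hy.full0 (e0 ▸ k1))
  have c0 : c ≠ 0 := fun e0 => b00 (by rw [hc, e0, zero_smul])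
  have k2 : Hy X y b0 := by
    refine Hy.of_smul (c := c⁻¹) ?_ (inv_ne_zero c0)
    rw [hc, smul_smul, inv_mul_cancel₀ c0, one_smul]; exact z5.shift hy.2 _
  clear_value b0 y
  -- the images of `y` under the level of `e`
  have img : ∀ w, f.B e w = 0 → f.B y w = 0 → f.B b0 w = 0 →
      O (y + w - f.Q w • e) ∧ Hy X (y + w - f.Q w • e) b0 := fun w w1 w2 w3 => by
    have g1 : ee f e w ∈ X := (lev_iff he w1).1 (k1.2 w w1 w3)
    have e1 : ee f e w ⊳ y = y + w - f.Q w • e := by rw [ee_apply he w1, hy.3, Bc f w y, w2]; simp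
    have e2 := k2.map g1
    rw [ee_fix he w1 k1.1 (by rw [Bc, w3]), e1] at e2
    exact ⟨e1 ▸ Om y Oy _ g1, e2⟩
  have C : ∀ z, O z → f.B b0 z = 0 := fun z ⟨q1, q2, q3, bz, q4⟩ => by
    by_contra hz
    obtain ⟨x', y', Ox, Hx, Oy', Hy', n1, n2⟩ : ∃ x' y', O x' ∧ Hy X x' b0 ∧ O y' ∧ Hy X y' b0 ∧ f.B x' y' ≠ 0 ∧
        f.B x' z ≠ 0 := by
      by_contra hd
      push Not at hd
      have d1 := hd e y Oe k1 Oy k2 (by rw [hy.3]; exact one_ne_zero)
      have d2 := hd y e Oy k2 Oe k1 (by rw [hyx]; exact one_ne_zero)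
      have : z ∈ Submodule.span F ({e, y, b0} : Set V) := by
        refine mem_span_of_perp hf fun w hw => ?_
        have w1 := hw e (by simp)
        have w2 := hw y (by simp)
        obtain ⟨i1, i2⟩ := img w w1 w2 (hw b0 (by simp))
        have := hd _ e i1 i2 Oe k1 (by simp [hyx, Bc f w e, w1, f.B_self_of_Q he])
        simpa [Bl, d1, d2, Bc f w z] using this
      obtain ⟨α, β, γ, rfl⟩ := Submodule.mem_span_triple.1 this
      simp only [map_add, map_smul, smul_eq_mul, hy.B_xx, hy.B_yy, hy.3, hyx, k1.1, yb0] at d1 d2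
      have e1 : β = 0 := by simpa using d1
      have e2 : α = 0 := by simpa using d2
      subst e1 e2
      simp only [zero_smul, zero_add] at q1 q2 hz
      have γ0 : γ ≠ 0 := fun e0 => q2 (by rw [e0, zero_smul])
      rw [Qs] at q1
      rw [map_smul, Bs, (mul_eq_zero.1 q1).resolve_left (mul_ne_zero γ0 γ0)] at hz
      simp at hz
    obtain ⟨w, w0, qw, hw⟩ := exists_sing_perp hf [x', y', b0, z] (by simpa using h7)
    have w1 := hw x' (by simp)
    have w2 := hw y' (by simp)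
    have w3 := hw b0 (by simp)
    have w4 := hw z (by simp)
    have g1 : ee f y' w ∈ X := (lev_iff Oy'.1 w2).1 (Hy'.2 w w2 w3)
    have e1 : ee f y' w ⊳ x' = x' + f.B x' y' • w := by
      rw [ee_apply Oy'.1 w2, qw, Bc f w x', w1, Bc f y' x']; simp
    have e2 := Hx.map g1
    have e3 := Om x' Ox _ g1
    rw [ee_fix Oy'.1 w2 Hy'.1 (by rw [Bc, w3]), e1] at e2
    rw [e1] at e3
    have e4 : f.B (x' + f.B x' y' • w) z = f.B x' z := by simp [Bc f w z, w4]
    obtain ⟨α, γ, p1⟩ := Hx.pair hf h7 Ox.1 q1 n2 q4 Ox.2.2.1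
    obtain ⟨α', γ', p2⟩ := e2.pair hf h7 e3.1 q1 (by rwa [e4]) q4 e3.2.2.1
    rw [e4] at p2
    set s := f.B b0 z / f.B x' z with hs
    have s0 : s ≠ 0 := div_ne_zero hz n2
    have p3 : (s * f.B x' y') • w = (α - α') • z + (γ - γ') • bz := by
      have : (s * f.B x' y') • w = (b0 - s • x') - (b0 - s • (x' + f.B x' y' • w)) := by module
      rw [this, p1, p2]; module
    have t1 := congrArg (f.B x') p1
    have t2 := congrArg (f.B y') p1
    have t3 := congrArg (f.B x') p3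
    have t4 := congrArg (f.B y') p3
    simp only [map_add, map_sub, map_smul, smul_eq_mul, Hx.1, Hy'.1, f.B_self_of_Q Ox.1, w1, w2, Bc f y' x'] at t1 t2 t3 t4
    have u1 : ((γ - γ') * α - γ * (α - α')) * f.B x' z = 0 := by linear_combination (γ' - γ) * t1 + γ * t3
    have u2 := (mul_eq_zero.1 u1).resolve_right n2
    have u3 : (γ - γ') * (s * f.B x' y') = 0 := by
      linear_combination (γ' - γ) * t2 + γ * t4 - f.B y' z * u2
    have u4 := (mul_eq_zero.1 u3).resolve_right (mul_ne_zero s0 n1)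
    have u5 : (α - α') * f.B x' z = 0 := by linear_combination -t3 - f.B x' bz * u4
    rw [u4, (mul_eq_zero.1 u5).resolve_right n2, zero_smul, zero_smul, add_zero, smul_eq_zero] at p3
    exact p3.elim (mul_ne_zero s0 n1) w0
  have fin : X ≤ f.stab (F ∙ b0) := fun g hg => by
    obtain ⟨a, ha⟩ := mem_one_of_perp hf (b := b0) (v := g ⊳ b0) fun v hv => by
      obtain ⟨w, hw, e1⟩ := hy.exists_decomp v
      obtain ⟨w1, w2⟩ := f.mem_perp_span_pair.1 hw
      have w3 : f.B b0 w = 0 := by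
        rw [e1] at hv
        simpa [Bc f b0 e, Bc f b0 y, k1.1, yb0] using hv
      have i1 := C _ (Om _ (img w w1 w2 w3).1 _ (inv_mem hg))
      have i2 := C _ (Om _ Oe _ (inv_mem hg))
      have i3 := C _ (Om _ Oy _ (inv_mem hg))
      rw [← B_isom_left] at i1 i2 i3
      simp only [map_add, map_sub, map_smul, i2, i3, smul_zero, zero_add, sub_zero] at i1
      rw [e1]; simp [i1, i2, i3]
    refine f.mem_stab_of_le fun v hv => ?_
    obtain ⟨t, rfl⟩ := Submodule.mem_span_singleton.1 hv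
    rw [map_smul, ha, smul_smul]
    exact Submodule.smul_mem _ _ (Submodule.mem_span_singleton_self _)
  by_cases hq : f.Q b0 = 0
  · exact Or.inl ⟨_, by simpa using b00, ts_span_singleton hq, fin⟩
  · exact Or.inr ⟨b0, hq, fin⟩

/-- No complement to `Q_e` in the stabiliser of `e` avoids all Eichler maps. -/
theorem no_compl (hf : f.Nondeg) (h7 : 7 ≤ finrank F V) {e y : V} (hy : f.IsHyp e y)
    (hN : ∀ x w, f.Q x = 0 → x ≠ 0 → f.Lev X x w → ∃ a : F, w = a • x)
    (hT : ∀ g ∈ f.Eich, ∃ c, f.B e c = 0 ∧ f.B y c = 0 ∧ ee f e c * g ∈ X) : False := by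
  have he := hy.1
  have hyx : f.B y e = 1 := by rw [Bc, hy.3]
  let C : f.Isom → V → Prop := fun g c => f.B e c = 0 ∧ f.B y c = 0 ∧ ee f e c * g ∈ X
  have uniq : ∀ g c c', C g c → C g c' → c = c' := fun g c c' ⟨h1, h2, h3⟩ ⟨h4, h5, h6⟩ => by
    have := mul_mem h3 (inv_mem h6)
    rw [mul_inv_rev, ← mul_assoc, mul_inv_cancel_right, ee_inv he h4, ee_mul he h1 (by simp [h4]),
      ← lev_iff he (by simp [h1, h4])] at this
    obtain ⟨a, ha⟩ := hN _ _ he hy.x_ne_zero this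
    have h7 := congrArg (f.B y) ha
    simp only [map_add, map_neg, map_smul, h2, h5, hyx, smul_eq_mul, mul_one, neg_zero, add_zero] at h7
    rw [← h7, zero_smul] at ha
    exact add_neg_eq_zero.1 ha
  have mul : ∀ (g h : f.Isom) c c', g ⊳ e = e → g ⊳ y = y → C g c → C h c' → C (g * h) (c + g ⊳ c') :=
    fun g h c c' g1 g2 ⟨h1, h2, h3⟩ ⟨h4, h5, h6⟩ => by
      have e1 : f.B e (g ⊳ c') = 0 := by rw [← g1, B_coe_map, h4]
      have e2 : f.B y (g ⊳ c') = 0 := by rw [← g2, B_coe_map, h5]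
      refine ⟨by simp [h1, e1], by simp [h2, e2], ?_⟩
      have := ee_conj g he h4
      rw [g1] at this
      rw [← ee_mul he h1 e1, ← this]
      convert mul_mem h3 h6 using 1
      group
  choose! c0 hc0 using hT
  let c : V → V → V := fun x w => c0 (ee f x w)
  have hc : ∀ x w, C (ee f x w) (c x w) := fun x w => hc0 _ (ee_mem x w)
  let D : V → V → Prop := fun x w => f.B e w = 0 ∧ f.B y w = 0 ∧ f.B x w = 0
  let S : V → Prop := fun x => f.Q x = 0 ∧ f.B e x = 0 ∧ f.B y x = 0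
  have fe : ∀ x w, S x → D x w → ee f x w ⊳ e = e ∧ ee f x w ⊳ y = y := fun x w ⟨h1, h2, h3⟩ ⟨h4, h5, h6⟩ =>
    ⟨ee_fix h1 h6 (by rw [Bc, h2]) (by rw [Bc, h4]), ee_fix h1 h6 (by rw [Bc, h3]) (by rw [Bc, h5])⟩
  have com : ∀ x w x' w', S x → D x w → S x' → D x' w' → ee f x w * ee f x' w' = ee f x' w' * ee f x w →
      c x w + ee f x w ⊳ c x' w' = c x' w' + ee f x' w' ⊳ c x w := fun x w x' w' h1 h2 h3 h4 h5 =>
    uniq _ _ _ (mul _ _ _ _ (fe _ _ h1 h2).1 (fe _ _ h1 h2).2 (hc _ _) (hc _ _))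
      (h5 ▸ mul _ _ _ _ (fe _ _ h3 h4).1 (fe _ _ h3 h4).2 (hc _ _) (hc _ _))
  have com1 : ∀ x w w', S x → D x w → D x w' →
      c x w + ee f x w ⊳ c x w' = c x w' + ee f x w' ⊳ c x w := fun x w w' h1 h2 h3 =>
    com _ _ _ _ h1 h2 h1 h3 (by rw [ee_mul h1.1 h2.2.2 h3.2.2, ee_mul h1.1 h3.2.2 h2.2.2, add_comm])
  have F1 : ∀ x w, S x → D x w → f.B x (c x w) = 0 := fun x w h1 h2 => by
    obtain ⟨u, hu, hu'⟩ : ∃ u ∈ f.perp (Submodule.span F {x, w}), u ∉ Submodule.span F ({e, y, x} : Set V) := by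
      by_contra hd
      push Not at hd
      have d1 := Submodule.finrank_mono (show f.perp (Submodule.span F {x, w}) ≤ _ from hd)
      have d2 := hf.finrank_perp (Submodule.span F {x, w})
      have d3 := fr2 (F := F) x w
      have d4 : finrank F (Submodule.span F ({e, y, x} : Set V)) ≤ 3 := by
        classical
        have := finrank_span_le (F := F) ({e, y, x} : Finset V)
        rw [Finset.coe_insert, Finset.coe_insert, Finset.coe_singleton] at this
        exact this.trans Finset.card_le_three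
      omega
    obtain ⟨w', hw', e1⟩ := hf.exists_perp_B_eq' hu' 1
    have hD : D x w' := ⟨f.mem_perp_span.1 hw' e (by simp), f.mem_perp_span.1 hw' y (by simp),
      f.mem_perp_span.1 hw' x (by simp)⟩
    have := congrArg (f.B u) (com1 x w w' h1 h2 hD)
    rw [ee_apply h1.1 h2.2.2, ee_apply h1.1 hD.2.2] at this
    obtain ⟨u1, u2⟩ := f.mem_perp_span_pair.1 hu
    simp only [map_add, map_sub, map_smul, smul_eq_mul, Bc f u x, Bc f u w, u1, u2, e1] at this
    linear_combination -this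
  have F2 : ∀ x w w', S x → x ≠ 0 → D x w → D x w' → f.B w (c x w') = f.B w' (c x w) := fun x w w' h1 h0 h2 h3 => by
    have := com1 x w w' h1 h2 h3
    rw [ee_perp h1.1 h2.2.2 (F1 _ _ h1 h3), ee_perp h1.1 h3.2.2 (F1 _ _ h1 h2)] at this
    have h4 : (f.B w (c x w') - f.B w' (c x w)) • x = 0 := by linear_combination (norm := module) -this
    exact sub_eq_zero.1 ((smul_eq_zero.1 h4).resolve_right h0)
  have F3 : ∀ x w, S x → D x w → f.Q w = 0 → f.B w (c x w) = 0 := fun x w h1 h2 h3 => by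
    have e1 : c x w = c w (-x) := congrArg c0 (ee_swap h1.1 h2.2.2 h3)
    rw [e1]
    exact F1 _ _ ⟨h3, h2.1, h2.2.1⟩ ⟨by simp [h1.2.1], by simp [h1.2.2], by rw [map_neg, Bc, h2.2.2, neg_zero]⟩
  have fin : ∀ x w, S x → x ≠ 0 → D x w → (∀ a : F, w ≠ a • x) → ∀ l m : F, c x w ≠ l • w + m • x :=
    fun x w ⟨h1, h2, h3⟩ h0 ⟨h4, h5, h6⟩ hn l m e1 => by
      have q1 : f.Q (x + l • e) = 0 := by rw [Qa, Qs, h1, he, map_smul, Bc, h2]; simp
      have q2 : f.B (x + l • e) (w + (-m - f.Q w * l) • e) = 0 := by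
        simp [h6, h4, Bc f x e, h2, hy.B_xx]
      have q3 : ee f e (c x w) * ee f x w = ee f (x + l • e) (w + (-m - f.Q w * l) • e) := by
        refine f.isom_ext fun v => ?_
        rw [isom_mul_apply, ee_apply he (hc x w).1, ee_apply h1 h6, ee_apply q1 q2, e1]
        simp only [map_add, map_sub, map_smul, smul_eq_mul, B_add_left, Bl, Qa, Qs, h1, he, h2, h4, h6, Bc f w x,
          Bc f w e, Bs f w, f.B_self_of_Q h1]
        module
      obtain ⟨a, ha⟩ := hN _ _ q1 (fun e0 => h0 (by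
        have := congrArg (f.B y) e0
        simp only [map_add, map_smul, h3, hyx, smul_eq_mul, mul_one, zero_add, map_zero] at this
        simpa [this] using e0)) ((lev_iff q1 q2).2 (q3 ▸ (hc x w).2.2))
      have := congrArg (f.B y) ha
      simp only [map_add, map_smul, h3, h5, hyx, smul_eq_mul, mul_one, zero_add] at this
      refine hn a ?_
      rw [this] at ha
      linear_combination (norm := module) ha
  have dec : ∀ v x w : V, f.B e v = 0 → f.B y v = 0 → S x → D x w →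
      (∀ z, f.B e z = 0 → f.B y z = 0 → f.B x z = 0 → f.B w z = 0 → f.B v z = 0) → ∃ l m : F, v = l • w + m • x :=
    fun v x w v1 v2 h1 h2 h3 => by
      have : v ∈ Submodule.span F ({e, y, w, x} : Set V) := mem_span_of_perp hf fun z hz =>
        h3 z (hz e (by simp)) (hz y (by simp)) (hz x (by simp)) (hz w (by simp))
      obtain ⟨α, v', hv', rfl⟩ := Submodule.mem_span_insert.1 this
      obtain ⟨β, l, m, rfl⟩ := Submodule.mem_span_triple.1 hv'
      simp only [map_add, map_smul, smul_eq_mul, hy.B_xx, hy.B_yy, hy.3, hyx, h1.2.1, h1.2.2, h2.1, h2.2.1] at v1 v2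
      have e1 : β = 0 := by simpa using v1
      have e2 : α = 0 := by simpa using v2
      exact ⟨l, m, by simp [e1, e2]⟩
  obtain ⟨u, v, huv, a1, a2, a3, a4⟩ := exists_hyp_perp hf hy (by omega)
  obtain ⟨x, x0, qx, hx⟩ := exists_sing_perp hf [e, y, u, v] (by simpa using h7)
  have Sx : S x := ⟨qx, hx e (by simp), hx y (by simp)⟩
  have xu : f.B x u = 0 := by rw [Bc]; exact hx u (by simp)
  have xv : f.B x v = 0 := by rw [Bc]; exact hx v (by simp)
  have Du : D x u := ⟨a1, a2, xu⟩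
  have Dv : D x v := ⟨a3, a4, xv⟩
  have vu : f.B v u = 1 := by rw [Bc, huv.3]
  have uu := F3 _ _ Sx Du huv.1
  have vv := F3 _ _ Sx Dv huv.2
  have uv := F2 _ _ _ Sx x0 Du Dv
  by_cases h2 : (2 : F) = 0
  · have Dw : D x (u + v) := ⟨by simp [a1, a3], by simp [a2, a4], by simp [xu, xv]⟩
    have qw : f.Q (u + v) = 1 := by rw [Qa, huv.1, huv.2, huv.3]; simp
    have R : f.B (u + v) (c x (u + v)) = 0 := by
      rw [B_add_left, F2 _ _ _ Sx x0 Du Dw, F2 _ _ _ Sx x0 Dv Dw, B_add_left, B_add_left, uu, vv, uv]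
      linear_combination f.B v (c x u) * h2
    generalize u + v = w at Dw qw R
    obtain ⟨l, m, e1⟩ := dec (c x w) x w (hc x w).1 (hc x w).2.1 Sx Dw fun z z1 z2 z3 z4 => by
      have hch : ringChar F = 2 := by
        have := CharP.ringChar_of_prime_eq_zero Nat.prime_two (R := F) (by exact_mod_cast h2)
        exact this
      obtain ⟨s, hs⟩ := FiniteField.isSquare_of_char_two hch (f.Q z)
      have ww : f.B w w = 0 := by rw [Bs, h2, zero_mul]
      have Sz : S (z + s • w) := ⟨by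
        rw [Qa, Qs, qw, map_smul, Bc, z4, hs]; simp only [smul_eq_mul]; linear_combination s * s * h2,
        by simp [z1, Dw.1], by simp [z2, Dw.2.1]⟩
      have Dz : D (z + s • w) w := ⟨Dw.1, Dw.2.1, by simp [Bc f z w, z4, ww]⟩
      have xz : f.B x (z + s • w) = 0 := by simp [z3, Dw.2.2]
      have e2 : f.B (c x w) z = f.B (z + s • w) (c x w) := by simp [R, Bc f z]
      rw [e2]
      generalize z + s • w = z' at Sz Dz xz
      have := com x w z' w Sx Dw Sz Dz (f.isom_ext fun t => by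
        rw [isom_mul_apply, isom_mul_apply, ee_apply qx Dw.2.2, ee_apply Sz.1 Dz.2.2, ee_apply Sz.1 Dz.2.2,
          ee_apply qx Dw.2.2]
        simp only [map_add, map_sub, map_smul, smul_eq_mul, Dw.2.2, Dz.2.2, xz, ww, Bc f w x, Bc f w z', Bc f z' x]
        module)
      rw [ee_apply qx Dw.2.2, ee_apply Sz.1 Dz.2.2, R, qw] at this
      by_contra hβ
      have e3 : f.B z' (c x w) • z' = (f.B z' (c x w) - f.B x (c z' w)) • w +
          (f.B w (c z' w) + f.B x (c z' w)) • x := by linear_combination (norm := module) this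
      have e4 := congrArg (fun t => f.B t (c x w)) e3
      simp only [B_add_left, Bl, R, F1 _ _ Sx Dw, mul_zero, add_zero] at e4
      exact hβ (mul_self_eq_zero.1 e4)
    refine fin x w Sx x0 Dw (fun a ha => ?_) l m e1
    rw [ha, Qs, qx, mul_zero] at qw
    exact zero_ne_one qw
  · let Z : V → Prop := fun z => D x z ∧ f.B u z = 0 ∧ f.B v z = 0
    have key : ∀ z, Z z → f.B z (c x u) = f.Q z * f.B z (c x v) := fun z ⟨Dz, z1, z2⟩ => by
      have one : ∀ s : F, s * s = 1 → f.B z (c x z) + 2 * s * (f.B z (c x u) - f.Q z * f.B z (c x v)) -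
          2 * f.Q z * f.B v (c x u) = 0 := fun s hs => by
        have Dt : D x (z + s • (u - f.Q z • v)) :=
          ⟨by simp [Dz.1, a1, a3], by simp [Dz.2.1, a2, a4], by simp [Dz.2.2, xu, xv]⟩
        have := F3 _ _ Sx Dt (by
          rw [Qa, Qs, Qsub, Qs, huv.1, huv.2, hs]; simp [Bc f z u, Bc f z v, z1, z2, huv.3])
        simp only [B_add_left, B_sub_left, Bl] at this
        rw [F2 _ _ _ Sx x0 Dz Dt, F2 _ _ _ Sx x0 Du Dt, F2 _ _ _ Sx x0 Dv Dt] at this
        simp only [B_add_left, B_sub_left, Bl, uu, vv, uv, F2 _ _ _ Sx x0 Du Dz, F2 _ _ _ Sx x0 Dv Dz] at this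
        linear_combination this + 2 * f.Q z * f.B v (c x u) * hs
      have h4 : (2 * 2) * (f.B z (c x u) - f.Q z * f.B z (c x v)) = 0 := by
        linear_combination one 1 (by simp) - one (-1) (by simp)
      exact sub_eq_zero.1 ((mul_eq_zero.1 h4).resolve_left (mul_ne_zero h2 h2))
    obtain ⟨κ, hκ⟩ : ∃ κ : F, ∀ z, Z z → f.B z (c x u) = κ * f.B z (c x v) := by
      by_cases hγ : ∀ z, Z z → f.B z (c x v) = 0
      · exact ⟨0, fun z hz => by rw [key z hz, hγ z hz]; simp⟩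
      push Not at hγ
      obtain ⟨z0, hz0, γ0⟩ := hγ
      refine ⟨f.Q z0, fun z hz => ?_⟩
      have := key (z - (f.B z (c x v) / f.B z0 (c x v)) • z0)
        ⟨⟨by simp [hz.1.1, hz0.1.1], by simp [hz.1.2.1, hz0.1.2.1], by simp [hz.1.2.2, hz0.1.2.2]⟩,
          by simp [hz.2.1, hz0.2.1], by simp [hz.2.2, hz0.2.2]⟩
      simp only [B_sub_left, Bl, div_mul_cancel₀ _ γ0, sub_self, mul_zero, key z0 hz0] at this
      field_simp at this
      linear_combination this
    have Dw : D x (u - κ • v) := ⟨by simp [a1, a3], by simp [a2, a4], by simp [xu, xv]⟩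
    obtain ⟨l, m, e1⟩ := dec (c x (u - κ • v) - f.B v (c x u) • (u - κ • v)) x 0
      (by simp [(hc _ _).1, a1, a3]) (by simp [(hc _ _).2.1, a2, a4]) Sx ⟨by simp, by simp, by simp⟩
      fun z z1 z2 z3 _ => by
        obtain ⟨t, ht, e2⟩ := huv.exists_decomp z
        obtain ⟨t1, t2⟩ := f.mem_perp_span_pair.1 ht
        have Dt : D x t := by
          rw [e2] at z1 z2 z3
          exact ⟨by simpa [a1, a3] using z1, by simpa [a2, a4] using z2, by simpa [xu, xv] using z3⟩
        have e3 := hκ t ⟨Dt, t1, t2⟩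
        rw [Bc, e2]
        simp only [B_add_left, map_sub, map_smul, Bl, smul_eq_mul, F2 _ _ _ Sx x0 Du Dw, F2 _ _ _ Sx x0 Dv Dw,
          F2 _ _ _ Sx x0 Dt Dw, B_sub_left, uu, vv, uv, huv.B_xx, huv.B_yy, huv.3, vu, Bc f t u, Bc f t v, t1, t2,
          F2 _ _ _ Sx x0 Du Dt, F2 _ _ _ Sx x0 Dv Dt, e3]
        ring
    refine fin x _ Sx x0 Dw (fun a ha => ?_) (f.B v (c x u)) m (by linear_combination (norm := module) e1)
    have := congrArg (f.B v) ha
    simp [vu, huv.B_yy, Bc f v x, xv] at this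

/-- The torus argument. -/
theorem tor_full (hf : f.Nondeg) (h7 : 7 ≤ finrank F V) {e y : V} (hy : f.IsHyp e y)
    (h : ∀ x, f.Q x = 0 → f.B e x = 0 → f.B y x = 0 → f.Lev X e x ∨ f.Lev X y x) :
    (∃ b, Hy X e b) ∨ ∃ b, Hy X y b := by
  have hyx : f.B y e = 1 := by rw [Bc, hy.3]
  have gen : ∀ b, f.Q b = 0 → f.B e b = 0 → f.B y b = 0 → ∀ P : V → Prop, (∀ a b, P a → P b → P (a + b)) →
      (∀ x, f.Q x = 0 → f.B e x = 0 → f.B y x = 0 → f.B b x = 0 → P x) →
      ∀ w, f.B e w = 0 → f.B y w = 0 → f.B b w = 0 → P w := fun b q b1 b2 P hadd hP w w1 w2 w3 => by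
    set H := Submodule.span F ({e, y, b} : Set V) with hH
    have mp : ∀ v, v ∈ f.perp H ↔ f.B e v = 0 ∧ f.B y v = 0 ∧ f.B b v = 0 := fun v => by
      rw [hH, mem_perp_span]; simp
    have d1 : finrank F H ≤ 3 := by
      classical
      have := finrank_span_le (F := F) ({e, y, b} : Finset V)
      rw [Finset.coe_insert, Finset.coe_insert, Finset.coe_singleton] at this
      exact this.trans Finset.card_le_three
    have d2 : finrank F (f.perp H ⊓ H : Submodule F V) ≤ 1 := by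
      refine (Submodule.finrank_mono (t := F ∙ b) fun v hv => ?_).trans (fr1 b)
      obtain ⟨h1, h2, -⟩ := (mp v).1 hv.1
      obtain ⟨α, β, γ, rfl⟩ := Submodule.mem_span_triple.1 hv.2
      simp only [map_add, map_smul, smul_eq_mul, hy.B_xx, hy.B_yy, hy.3, hyx, b1, b2] at h1 h2
      have e1 : β = 0 := by simpa using h1
      have e2 : α = 0 := by simpa using h2
      simp [e1, e2, Submodule.smul_mem, Submodule.mem_span_singleton_self]
    obtain ⟨z, z1, z2, z3⟩ := exists_sing_notMem hf (H := H) (by omega)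
    exact ind_perp hf z1 z2 z3 hadd (fun v hv hq => hP v hq ((mp v).1 hv).1 ((mp v).1 hv).2.1 ((mp v).1 hv).2.2)
      ((mp w).2 ⟨w1, w2, w3⟩)
  by_cases h1 : ∀ x, f.Q x = 0 → f.B e x = 0 → f.B y x = 0 → f.Lev X e x
  · refine Or.inl ⟨0, by simp, fun w w1 _ => ?_⟩
    have := (gen 0 (by simp) (by simp) (by simp) _ (fun _ _ => Lev.add) (fun x q x1 x2 _ => h1 x q x1 x2)
      (w - f.B y w • e) (by simp [w1, hy.B_xx]) (by simp [hyx]) (by simp)).add (lev_smul_self hy.1 (f.B y w))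
    simpa using this
  push Not at h1
  obtain ⟨x, q, x1, x2, hn⟩ := h1
  refine Or.inr ⟨x, x2, fun w w1 w2 => ?_⟩
  have := (gen x q x1 x2 (f.Lev X y) (fun _ _ => Lev.add) (fun z qz z1 z2 z3 => by
    rcases h z qz z1 z2 with l | l
    · rcases h (z + x) (by rw [Qa, qz, q, Bc, z3]; simp) (by simp [z1, x1]) (by simp [z2, x2]) with l' | l'
      · exact absurd (by simpa using l'.sub l) hn
      · simpa using l'.sub ((h x q x1 x2).resolve_left hn)
    · exact l) (w - f.B e w • y) (by simp [hy.3]) (by simp [w1, hy.B_yy]) (by simp [w2, Bc f x y, x2])).add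
      (lev_smul_self hy.2 (f.B e w))
  simpa using this

end CA.H12Om
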