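import Cfsg.Agent.Lib.Lin.H12Om1

/-!
Minimal degree of the orthogonal groups, part 3: counting in invariant families of additive subgroups.
-/

set_option autoImplicit false
set_option linter.unusedSectionVars false

namespace CA.H12Om

open Module CA.CForm CA.CForm.Form

universe u

variable {F : Type*} [Field F] [Finite F]

theorem cnt_eq (d : ℕ) : ∀ (m : ℕ) {V : Type u} [AddCommGroup V] [Module F V] [FiniteDimensional F V]
    {f : Form (Kind.orth F) V}, f.IsIndex m → f.Nondeg → finrank F V = 2 * m + d →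
    ∃ (U : Type u) (_ : AddCommGroup U) (_ : Module F U) (_ : FiniteDimensional F U) (p : Form (Kind.orth F) U),
      p.Nondeg ∧ p.IsIndex 0 ∧ finrank F U = d ∧ ∀ c, Nat.card F * Nat.card {v // f.Q v = c} + Nat.card F ^ (m + d) =
        Nat.card F ^ (2 * m + d) + Nat.card F ^ (m + 1) * Nat.card {v // p.Q v = c} := by
  intro m
  induction m with
  | zero =>
    intro V _ _ _ f h hf hd
    exact ⟨V, _, _, inferInstance, f, hf, h, by simpa using hd, fun c => by simp [add_comm]⟩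
  | succ m ih =>
    intro V _ _ _ f h hf hd
    obtain ⟨x, y, hy⟩ := h.exists_isHyp hf (by omega)
    obtain ⟨U, _, _, _, p, h1, h2, h3, h4⟩ :=
      ih (hy.isIndex_perp hf h) (hy.nondeg_perp hf) (by have := hy.finrank_perp; omega)
    refine ⟨U, _, _, inferInstance, p, h1, h2, h3, fun c => ?_⟩
    have h5 := h4 c
    rw [hy.card_Q_eq hf (c := c) ⟨c, rfl⟩ (r := 2 * m + d) (by omega), card_ker_π_orth]
    obtain ⟨q, hq⟩ : ∃ q, Nat.card F = q + 1 := ⟨Nat.card F - 1, by have := one_lt_natCard (F := F); omega⟩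
    rw [hq] at h5 ⊢
    rw [Nat.add_sub_cancel]
    zify at h5 ⊢
    linear_combination (q + 1) * h5

variable {V : Type u} [AddCommGroup V] [Module F V] [FiniteDimensional F V] {f : Form (Kind.orth F) V}

local notation:75 g:76 " ⊳ " v:75 => (g : V ≃ₗ[F] V) v
local notation "𝔮" => Nat.card F

theorem cnt_ge {m d : ℕ} (h : f.IsIndex m) (hf : f.Nondeg) (hd : finrank F V = 2 * m + d) (c : F) :
    𝔮 ^ (2 * m + d) ≤ 𝔮 * Nat.card {v // f.Q v = c} + 𝔮 ^ (m + d) := by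
  obtain ⟨U, _, _, _, p, -, -, -, h4⟩ := cnt_eq d m h hf hd
  rw [h4]; exact Nat.le_add_right _ _

theorem cnt_minus {m : ℕ} (h : f.IsIndex m) (hf : f.Nondeg) (hd : finrank F V = 2 * m + 2) {c : F} (hc : c ≠ 0) :
    𝔮 ^ (2 * m + 1) ≤ Nat.card {v // f.Q v = c} := by
  obtain ⟨U, _, _, _, p, h1, h2, h3, h4⟩ := cnt_eq 2 m h hf hd
  have h5 := h4 c
  rw [card_Q_eq_of_aniso_two h1 h3 (isIndex_zero_iff.1 h2) hc] at h5
  refine Nat.le_of_mul_le_mul_left ?_ (Nat.card_pos (α := F))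
  have : 𝔮 ^ (m + 1) * (𝔮 + 1) = 𝔮 ^ (m + 2) + 𝔮 ^ (m + 1) := by ring
  have : 𝔮 * 𝔮 ^ (2 * m + 1) = 𝔮 ^ (2 * m + 2) := by ring
  omega

theorem cnt_plus {m : ℕ} (h : f.IsIndex m) (hf : f.Nondeg) (hd : finrank F V = 2 * m) {c : F} (hc : c ≠ 0) :
    𝔮 * Nat.card {v // f.Q v = c} + 𝔮 ^ m = 𝔮 ^ (2 * m) := by
  obtain ⟨U, _, _, _, p, h1, h2, h3, h4⟩ := cnt_eq 0 m h hf hd
  have h5 := h4 c
  have : IsEmpty {v // p.Q v = c} := ⟨fun v => hc (by
    have := finrank_zero_iff_forall_zero.1 h3 v.1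
    rw [← v.2, this, p.Q_zero])⟩
  simpa using h5

theorem cnt_odd {m : ℕ} (h : f.IsIndex m) (hf : f.Nondeg) (hd : finrank F V = 2 * m + 1) (h3 : ¬ IsSquare (-1 : F)) :
    ∃ c, c ≠ 0 ∧ 𝔮 * Nat.card {v // f.Q v = c} + 𝔮 ^ (m + 1) = 𝔮 ^ (2 * m + 1) := by
  obtain ⟨U, _, _, _, p, h1, h2, h3', h4⟩ := cnt_eq 1 m h hf hd
  obtain ⟨u, u0, hu⟩ := finrank_eq_one_iff'.1 h3'
  have q0 : p.Q u ≠ 0 := fun e => u0 (isIndex_zero_iff.1 h2 u e)
  refine ⟨-p.Q u, neg_ne_zero.2 q0, ?_⟩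
  have : IsEmpty {v // p.Q v = -p.Q u} := ⟨fun v => h3 (by
    obtain ⟨t, ht⟩ := hu v.1
    have := v.2
    rw [← ht, Qs] at this
    exact ⟨t, mul_right_cancel₀ q0 (by linear_combination -this)⟩)⟩
  simpa using h4 (-p.Q u)

/-- The image of an additive subgroup under an isometry. -/
def mv (g : f.Isom) (B : AddSubgroup V) : AddSubgroup V :=
  B.comap (((g⁻¹ : f.Isom) : V ≃ₗ[F] V) : V →ₗ[F] V).toAddMonoidHom

theorem mem_mv {g : f.Isom} {B : AddSubgroup V} {v : V} : v ∈ mv g B ↔ (g⁻¹ : f.Isom) ⊳ v ∈ B := Iff.rfl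

theorem ap_mv {g : f.Isom} {B : AddSubgroup V} {v : V} : g ⊳ v ∈ mv g B ↔ v ∈ B := by
  rw [mem_mv, isom_inv_apply_apply]

theorem mv_mul (g h : f.Isom) (B : AddSubgroup V) : mv (g * h) B = mv g (mv h B) := by
  ext v; simp only [mem_mv, mul_inv_rev, isom_mul_apply]

theorem mv_one (B : AddSubgroup V) : mv (1 : f.Isom) B = B := by
  ext v; rw [mem_mv, inv_one, isom_one_apply]

theorem card_mv (g : f.Isom) (B : AddSubgroup V) : Nat.card (mv g B) = Nat.card B :=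
  (Nat.card_congr (Equiv.subtypeEquiv (g : V ≃ₗ[F] V).toEquiv fun _ => ap_mv.symm)).symm

/-- The span of an additive subgroup. -/
def sp (F : Type*) [Field F] {V : Type*} [AddCommGroup V] [Module F V] (B : AddSubgroup V) : Submodule F V :=
  Submodule.span F (B : Set V)

theorem le_sp {B : AddSubgroup V} {v : V} (h : v ∈ B) : v ∈ sp F B := Submodule.subset_span h

theorem sp_mv (g : f.Isom) (B : AddSubgroup V) : sp F (mv g B) = f.act g (sp F B) := by
  rw [act, sp, sp, Submodule.map_span]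
  congr 1
  ext v
  exact ⟨fun h => ⟨_, mem_mv.1 h, f.isom_apply_inv_apply g v⟩, fun ⟨w, hw, e⟩ => e ▸ ap_mv.2 hw⟩

theorem sp_sub (T : Submodule F V) : sp F T.toAddSubgroup = T := Submodule.span_eq T

theorem mv_sub (g : f.Isom) (T : Submodule F V) : mv g T.toAddSubgroup = (f.act g T).toAddSubgroup := by
  ext v; exact f.mem_act.symm

theorem card_sub (T : Submodule F V) : Nat.card T = 𝔮 ^ finrank F T := by
  rw [Module.natCard_eq_pow_finrank (K := F)]

theorem card_le_sp (B : AddSubgroup V) : Nat.card B ≤ 𝔮 ^ finrank F (sp F B) := by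
  have : Finite V := Module.finite_of_finite F
  rw [← card_sub]
  exact Nat.card_le_card_of_injective (fun v => ⟨v.1, le_sp v.2⟩) fun a b e => Subtype.ext (congrArg Subtype.val e :)

/-- Invariance under the Eichler group. -/
def Inv (f : Form (Kind.orth F) V) (𝓑 : Finset (AddSubgroup V)) : Prop := ∀ g ∈ f.Eich, ∀ B ∈ 𝓑, mv g B ∈ 𝓑

open Classical in
/-- The number of members through a vector. -/
noncomputable def mu (𝓑 : Finset (AddSubgroup V)) (v : V) : ℕ := (𝓑.filter (v ∈ ·)).card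

variable {𝓑 : Finset (AddSubgroup V)}

theorem mu_le {φ : V → V} (h : ∀ B ∈ 𝓑, ∃ B' ∈ 𝓑, ∀ v, φ v ∈ B' ↔ v ∈ B) (v : V) : mu 𝓑 v ≤ mu 𝓑 (φ v) := by
  classical
  choose! β h1 h2 using h
  refine Finset.card_le_card_of_injOn β (fun B hB => ?_) fun B hB B' hB' e => ?_
  · simp only [Finset.coe_filter, Set.mem_ofPred_eq] at hB ⊢
    exact ⟨h1 B hB.1, (h2 B hB.1 v).2 hB.2⟩
  · simp only [Finset.coe_filter, Set.mem_ofPred_eq] at hB hB'
    ext w; rw [← h2 B hB.1, e, h2 B' hB'.1]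

theorem Inv.mu_le (h : Inv f 𝓑) {g : f.Isom} (hg : g ∈ f.Eich) (v : V) : mu 𝓑 v ≤ mu 𝓑 (g ⊳ v) :=
  H12Om.mu_le (φ := fun v => g ⊳ v) (fun B hB => ⟨_, h g hg B hB, fun _ => ap_mv⟩) v

open Classical in
theorem dbl (O : Finset V) {c : ℕ} (h : ∀ v ∈ O, c ≤ mu 𝓑 v) : O.card * c ≤ ∑ B ∈ 𝓑, (O.filter (· ∈ B)).card := by
  have := Finset.sum_card_bipartiteAbove_eq_sum_card_bipartiteBelow (s := O) (t := 𝓑) (fun v B => v ∈ B)
  refine le_trans ?_ this.le
  rw [← smul_eq_mul]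
  exact Finset.card_nsmul_le_sum _ _ _ h

open Classical in
theorem filter_lt [Finite V] (O : Finset V) (h0 : (0 : V) ∉ O) (B : AddSubgroup V) :
    (O.filter (· ∈ B)).card + 1 ≤ Nat.card B := by
  rw [← Finset.card_insert_of_notMem (a := 0) (by simp [h0]), ← Nat.card_eq_finsetCard]
  refine Nat.card_le_card_of_injective (fun v => ⟨v.1, ?_⟩) fun a b e => Subtype.ext (congrArg Subtype.val e :)
  rcases Finset.mem_insert.1 v.2 with e | e
  · rw [e]; exact zero_mem _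
  · exact (Finset.mem_filter.1 e).2

/-- The stabiliser of `B` among the Eichler maps `E(x, y)`, `y ∈ Y`. -/
def St {x : V} (hx : f.Q x = 0) {Y : Submodule F V} (hY : ∀ y ∈ Y, f.B x y = 0) (B : AddSubgroup V) : AddSubgroup V where
  carrier := {y | y ∈ Y ∧ mv (ee f x y) B = B}
  zero_mem' := ⟨zero_mem _, by rw [ee_zero, mv_one]⟩
  add_mem' {a b} ha hb := ⟨add_mem ha.1 hb.1, by rw [← ee_mul hx (hY a ha.1) (hY b hb.1), mv_mul, hb.2, ha.2]⟩
  neg_mem' {a} ha := ⟨neg_mem ha.1, by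
    conv_lhs => rw [← ha.2]
    rw [← mv_mul, ← ee_inv hx (hY a ha.1), inv_mul_cancel, mv_one]⟩

theorem St.ap {x : V} {hx : f.Q x = 0} {Y : Submodule F V} {hY : ∀ y ∈ Y, f.B x y = 0} {B : AddSubgroup V} {y v : V}
    (h : y ∈ St hx hY B) (hv : v ∈ B) : ee f x y ⊳ v ∈ B := by
  have : ee f x y ⊳ v ∈ mv (ee f x y) B := ap_mv.2 hv
  rwa [h.2] at this

theorem mv_eq_of_le {g : f.Isom} {B : AddSubgroup V} (h : ∀ v ∈ B, g ⊳ v ∈ B) : mv g B = B := by
  have : Finite V := Module.finite_of_finite F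
  refine AddSubgroup.eq_of_le_of_card_ge (fun v hv => ?_) (card_mv g B).ge
  have := h _ (mem_mv.1 hv)
  rwa [isom_apply_inv_apply] at this

theorem orb {x : V} (hx : f.Q x = 0) {Y : Submodule F V} (hY : ∀ y ∈ Y, f.B x y = 0) (B : AddSubgroup V)
    (𝓒 : Finset (AddSubgroup V)) (h : ∀ y ∈ Y, mv (ee f x y) B ∈ 𝓒) :
    𝔮 ^ finrank F Y ≤ Nat.card (St hx hY B) * 𝓒.card := by
  classical
  have : Finite V := Module.finite_of_finite F
  have := Fintype.ofFinite V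
  rw [← card_sub, Nat.card_eq_fintype_card, Fintype.card_subtype]
  refine Finset.card_le_mul_card_image_of_maps_to (f := fun y => mv (ee f x y) B)
    (fun y hy => h y (Finset.mem_filter.1 hy).2) _ fun C _ => ?_
  by_cases hne : ((Finset.univ.filter (· ∈ Y)).filter fun y => mv (ee f x y) B = C).Nonempty
  · obtain ⟨y0, hy0⟩ := hne
    simp only [Finset.mem_filter, Finset.mem_univ, true_and] at hy0
    rw [← Nat.card_eq_finsetCard]
    refine Nat.card_le_card_of_injective (fun y => ⟨-y0 + y.1, ?_⟩) fun a b e =>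
      Subtype.ext (add_left_cancel (congrArg Subtype.val e :))
    have hy := y.2
    simp only [Finset.mem_filter, Finset.mem_univ, true_and] at hy
    refine ⟨add_mem (neg_mem hy0.1) hy.1, ?_⟩
    rw [← ee_mul hx (hY _ (neg_mem hy0.1)) (hY _ hy.1), mv_mul, hy.2, ← hy0.2, ← mv_mul, ← ee_inv hx (hY _ hy0.1),
      inv_mul_cancel, mv_one]
  · rw [Finset.not_nonempty_iff_eq_empty.1 hne]; simp

/-- `B` spans a totally singular subspace of dimension `k`. -/
def Ts (f : Form (Kind.orth F) V) (k : ℕ) (B : AddSubgroup V) : Prop := f.TS (sp F B) ∧ finrank F (sp F B) = k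

theorem Ts.mv {k : ℕ} {B : AddSubgroup V} (h : Ts f k B) (g : f.Isom) : Ts f k (mv g B) :=
  ⟨by rw [sp_mv]; exact h.1.act g, by rw [sp_mv, finrank_act, h.2]⟩

/-- Lower bound for invariant families of totally singular subspaces. -/
def LB (f : Form (Kind.orth F) V) (k c : ℕ) : Prop :=
  ∀ 𝓑 : Finset (AddSubgroup V), 𝓑.Nonempty → Inv f 𝓑 → (∀ B ∈ 𝓑, Ts f k B ∧ (sp F B).toAddSubgroup = B) → c ≤ 𝓑.card

theorem lb_one (k : ℕ) : LB f k 1 := fun _ h _ _ => h.card_pos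

theorem LB.mu_ge {x y : V} (hy : f.IsHyp x y) {k c : ℕ}
    (h : LB (f.restrict (f.perp (Submodule.span F {x, y}))) k c) (hI : Inv f 𝓑) (hT : ∀ B ∈ 𝓑, Ts f (k + 1) B)
    (hx : ∃ B ∈ 𝓑, x ∈ B) : c ≤ mu 𝓑 x := by
  classical
  set W := f.perp (Submodule.span F {x, y}) with hW
  let r : AddSubgroup V → AddSubgroup W := fun B => ((sp F B).comap W.subtype).toAddSubgroup
  refine (h ((𝓑.filter (x ∈ ·)).image r) ?_ ?_ ?_).trans (Finset.card_image_le.trans (by rw [mu]))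
  · obtain ⟨B, h1, h2⟩ := hx
    exact ⟨r B, Finset.mem_image_of_mem _ (Finset.mem_filter.2 ⟨h1, h2⟩)⟩
  · intro g hg C hC
    obtain ⟨B, hB, rfl⟩ := Finset.mem_image.1 hC
    obtain ⟨h1, h2⟩ := Finset.mem_filter.1 hB
    refine Finset.mem_image.2 ⟨mv (f.extRight hy.isCompl g) B, Finset.mem_filter.2
      ⟨hI _ (extRight_mem_Eich _ hg) _ h1, ?_⟩, ?_⟩
    · have := (ap_mv (g := f.extRight hy.isCompl g)).2 h2
      rwa [f.extRight_apply_left hy.isCompl g (x := x) (Submodule.subset_span (by simp))] at this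
    · ext w
      change (w : V) ∈ sp F _ ↔ _
      rw [sp_mv, mem_act, ← map_inv, f.extRight_apply_right hy.isCompl g⁻¹ w]
      rfl
  · intro C hC
    obtain ⟨B, hB, rfl⟩ := Finset.mem_image.1 hC
    obtain ⟨h1, h2⟩ := Finset.mem_filter.1 hB
    obtain ⟨t1, t2⟩ := hT B h1
    refine ⟨⟨?_, ?_⟩, by rw [sp_sub]⟩
    · rw [sp_sub]; exact t1.comap (pres_comap f W.subtype)
    · rw [sp_sub, ← Submodule.finrank_map_subtype_eq, Submodule.map_comap_subtype]
      have e1 : W ⊓ sp F B ⊔ F ∙ x = sp F B := by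
        refine le_antisymm (sup_le inf_le_right ((Submodule.span_singleton_le_iff_mem _ _).2 (le_sp h2))) fun v hv => ?_
        have e2 : f.B x v = 0 := t1.2 x (le_sp h2) v hv
        refine Submodule.mem_sup.2 ⟨v - f.B y v • x, ⟨f.mem_perp_span_pair.2 ⟨by simp [e2, hy.B_xx], by
          simp [Bc f y x, hy.3]⟩, sub_mem hv (Submodule.smul_mem _ _ (le_sp h2))⟩, f.B y v • x,
          Submodule.smul_mem _ _ (Submodule.mem_span_singleton_self x), by simp⟩
      have e2 : (W ⊓ sp F B) ⊓ F ∙ x = ⊥ := by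
        refine eq_bot_iff.2 fun v hv => ?_
        obtain ⟨a, rfl⟩ := Submodule.mem_span_singleton.1 hv.2
        have := (f.mem_perp_span_pair.1 hv.1.1).2
        simp only [map_smul, Bc f y x, hy.3, smul_eq_mul, mul_one] at this
        simp [this]
      have e3 := Submodule.finrank_sup_add_finrank_inf_eq (W ⊓ sp F B) (F ∙ x)
      rw [e1, e2, finrank_bot, finrank_span_singleton hy.x_ne_zero, t2] at e3
      omega

/-- Counting the singular vectors in the members of a family. -/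
theorem sum_sing {m d c : ℕ} (hi : f.IsIndex (m + 1)) (hf : f.Nondeg) (hd : finrank F V = 2 * (m + 1) + d)
    (h : ∀ x, x ≠ 0 → f.Q x = 0 → c ≤ mu 𝓑 x) :
    (𝔮 ^ (m + 1) - 1) * (𝔮 ^ (m + d) + 1) * c + 𝓑.card ≤ ∑ B ∈ 𝓑, Nat.card B := by
  classical
  have : Finite V := Module.finite_of_finite F
  have := Fintype.ofFinite V
  have h1 := dbl (𝓑 := 𝓑) (Finset.univ.filter fun v => v ≠ 0 ∧ f.Q v = 0) (c := c) fun v hv =>
    h v (Finset.mem_filter.1 hv).2.1 (Finset.mem_filter.1 hv).2.2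
  have h2 := natCard_subtype_ne (fun v => f.Q v = 0) 0 f.Q_zero
  rw [← hi.card_singular_sub_one hf hd, ← h2, Nat.add_sub_cancel, Nat.card_eq_fintype_card, Fintype.card_subtype,
    Finset.card_eq_sum_ones 𝓑]
  refine (Nat.add_le_add_right h1 _).trans ?_
  rw [← Finset.sum_add_distrib]
  exact Finset.sum_le_sum fun B _ => filter_lt _ (by simp) B

theorem LB.step {m d k c c' : ℕ} (hi : f.IsIndex (m + 1)) (hf : f.Nondeg) (hd : finrank F V = 2 * (m + 1) + d)
    (h3 : 1 ≤ m + d) (h : ∀ x y, f.IsHyp x y → LB (f.restrict (f.perp (Submodule.span F {x, y}))) k c')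
    (hc : c * (𝔮 ^ (k + 1) - 1) ≤ (𝔮 ^ (m + 1) - 1) * (𝔮 ^ (m + d) + 1) * c') : LB f (k + 1) c := by
  intro 𝓑 ⟨B, hB⟩ hI hT
  have h1 := sum_sing (𝓑 := 𝓑) (c := c') hi hf hd fun x x0 hx => by
    obtain ⟨y, hy⟩ := hf.exists_isHyp hx x0
    refine (h x y hy).mu_ge hy hI (fun B hB => (hT B hB).1) ?_
    obtain ⟨⟨t1, t2⟩, t3⟩ := hT B hB
    obtain ⟨b, hb, b0⟩ := Submodule.exists_mem_ne_zero_of_ne_bot (p := sp F B) fun e => by
      rw [e, finrank_bot] at t2; omega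
    obtain ⟨g, hg, a, a0, e⟩ := hf.exists_Eich_smul (Or.inl (by omega)) (t1.1 b hb) b0 hx x0
    refine ⟨_, hI g hg B hB, ?_⟩
    have : x = g ⊳ (a⁻¹ • b) := by rw [map_smul, e, smul_smul, inv_mul_cancel₀ a0, one_smul]
    rw [this, ap_mv, ← t3]
    exact Submodule.smul_mem _ _ hb
  have h2 : ∑ B ∈ 𝓑, Nat.card B = 𝓑.card * 𝔮 ^ (k + 1) := by
    rw [← smul_eq_mul, ← Finset.sum_const]
    refine Finset.sum_congr rfl fun B hB => ?_
    rw [← (hT B hB).1.2, ← card_sub, ← (hT B hB).2, sp_sub]; rfl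
  have h4 : 1 < 𝔮 ^ (k + 1) := Nat.one_lt_pow (by omega) one_lt_natCard
  refine Nat.le_of_mul_le_mul_right (c := 𝔮 ^ (k + 1) - 1) ?_ (by omega)
  rw [Nat.mul_sub_one 𝓑.card]
  omega

end CA.H12Om
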