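import Cfsg.Agent.Lib.Lin.H12Om3

/-!
Minimal degree of the orthogonal groups, part 4: members containing a non-singular vector.
-/

set_option autoImplicit false
set_option linter.unusedSectionVars false

namespace CA.H12Om

open Module CA.CForm CA.CForm.Form

universe u

variable {F : Type*} [Field F] [Finite F] {V : Type u} [AddCommGroup V] [Module F V] [FiniteDimensional F V]
  {f : Form (Kind.orth F) V} {𝓑 : Finset (AddSubgroup V)} {B : AddSubgroup V}

local notation:75 g:76 " ⊳ " v:75 => (g : V ≃ₗ[F] V) v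
local notation "𝔮" => Nat.card F

theorem card_le_of_le {S : AddSubgroup V} {T : Submodule F V} (h : ∀ v ∈ S, v ∈ T) {k : ℕ} (hk : finrank F T ≤ k) :
    Nat.card S ≤ 𝔮 ^ k := by
  have : Finite V := Module.finite_of_finite F
  refine le_trans ?_ (Nat.pow_le_pow_right Nat.card_pos hk)
  rw [← card_sub]
  exact Nat.card_le_card_of_injective (fun v => ⟨v.1, h v v.2⟩) fun a b e => Subtype.ext (congrArg Subtype.val e :)

theorem le_of_orb {s c k j : ℕ} (h : 𝔮 ^ (k + j) ≤ s * c) (hs : s ≤ 𝔮 ^ k) : 𝔮 ^ j ≤ c := by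
  refine Nat.le_of_mul_le_mul_left (c := 𝔮 ^ k) ?_ (pow_pos Nat.card_pos _)
  rw [← pow_add]
  exact h.trans (Nat.mul_le_mul_right _ hs)

theorem case_hyp (hf : f.Nondeg) (h5 : 5 ≤ finrank F V) (hI : Inv f 𝓑) (hB : B ∈ 𝓑) (hB' : B ≠ ⊤) {z : V} (hz : z ≠ 0)
    (h : ∀ v, f.B z v = 0 → v ∈ B) : 2 * 𝔮 ^ finrank F V ≤ ∑ B ∈ 𝓑, Nat.card B := by
  classical
  have : Finite V := Module.finite_of_finite F
  obtain ⟨x, hx, -, hxz⟩ := exists_sing_ne hf h5 (b := 0) (v := z) (by simpa using hz)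
  have x0 : x ≠ 0 := fun e => hxz (by simp [e])
  have hY : ∀ y ∈ f.perp (F ∙ x), f.B x y = 0 := fun y hy => f.mem_perp_span_singleton.1 hy
  have h1 := orb hx hY B (𝓑.filter fun C => Nat.card C = Nat.card B) fun y _ =>
    Finset.mem_filter.2 ⟨hI _ (ee_mem _ _) _ hB, card_mv _ _⟩
  have h2 : Nat.card (St hx hY B) ≤ 𝔮 ^ 1 := card_le_of_le (T := F ∙ x) (fun y hy => by
    have y1 := hY y hy.1
    by_cases hc : ee f x y ⊳ z ∈ F ∙ z
    · obtain ⟨a, ha⟩ := Submodule.mem_span_singleton.1 hc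
      rw [ee_apply hx y1] at ha
      have e1 := congrArg (f.B x) ha
      simp only [map_add, map_sub, map_smul, smul_eq_mul, y1, f.B_self_of_Q hx, mul_zero, add_zero, sub_zero] at e1
      have xz : f.B x z ≠ 0 := by rwa [Bc]
      have a1 : a = 1 := mul_right_cancel₀ xz (by rw [e1, one_mul])
      refine Submodule.mem_span_singleton.2 ⟨(f.B x z)⁻¹ * (f.B y z + f.Q y * f.B x z), ?_⟩
      have e2 : f.B x z • y = (f.B y z + f.Q y * f.B x z) • x := by
        rw [a1] at ha; linear_combination (norm := module) -ha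
      rw [mul_smul, ← e2, smul_smul, inv_mul_cancel₀ xz, one_smul]
    · refine absurd (eq_top_iff.2 fun v _ => ?_) hB'
      obtain ⟨u, hu, e⟩ := hf.exists_perp_B_eq' hc (f.B (ee f x y ⊳ z) v)
      have e1 := St.ap hy (h (((ee f x y)⁻¹ : f.Isom) ⊳ (v - u)) (by rw [← B_isom_left, map_sub, e, sub_self]))
      rw [isom_apply_inv_apply] at e1
      simpa using add_mem e1 (h u (f.mem_perp_span_singleton.1 hu))) (fr1 x)
  have d1 := hf.finrank_perp (F ∙ x)
  have d2 := hf.finrank_perp (F ∙ z)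
  rw [finrank_span_singleton x0] at d1
  rw [finrank_span_singleton hz] at d2
  obtain ⟨r, hr⟩ : ∃ r, finrank F V = r + 5 := ⟨_, (Nat.sub_add_cancel h5).symm⟩
  rw [show finrank F (f.perp (F ∙ x)) = 1 + (r + 3) by omega] at h1
  have h3 := le_of_orb h1 h2
  have h4 : 𝔮 ^ (r + 4) ≤ Nat.card B := by
    rw [show r + 4 = finrank F (f.perp (F ∙ z)) by omega, ← card_sub]
    exact Nat.card_le_card_of_injective (fun v => ⟨v.1, h v (f.mem_perp_span_singleton.1 v.2)⟩)
      fun a b e => Subtype.ext (congrArg Subtype.val e :)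
  refine le_trans ?_ (Finset.sum_le_sum_of_subset (Finset.filter_subset (fun C : AddSubgroup V => Nat.card C = Nat.card B) 𝓑))
  rw [Finset.sum_congr rfl fun C hC => (Finset.mem_filter.1 hC).2, Finset.sum_const, smul_eq_mul, hr]
  refine le_trans ?_ (Nat.mul_le_mul h3 h4)
  have q2 : 2 ≤ 𝔮 := one_lt_natCard
  calc 2 * 𝔮 ^ (r + 5) ≤ 𝔮 ^ (r + 2) * 𝔮 ^ (r + 5) :=
        Nat.mul_le_mul_right _ (q2.trans (Nat.le_self_pow (by omega) _))
    _ = _ := by ring

theorem fr_pair (hf : f.Nondeg) {b x : V} (hb : f.Q b ≠ 0) (hx : f.Q x = 0) (x0 : x ≠ 0) :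
    finrank F (f.perp (Submodule.span F {b, x})) + 2 = finrank F V := by
  have h1 := hf.finrank_perp (Submodule.span F {b, x})
  have h2 : LinearIndependent F ![b, x] := LinearIndependent.pair_iff.2 fun s t e => by
    have e1 : s • b = -(t • x) := eq_neg_of_add_eq_zero_left e
    have e2 := congrArg f.Q e1
    rw [f.Q_neg, Qs, Qs, hx, mul_zero] at e2
    have s0 : s = 0 := mul_self_eq_zero.1 ((mul_eq_zero.1 e2).resolve_right hb)
    rw [s0, zero_smul, zero_add] at e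
    exact ⟨s0, (smul_eq_zero.1 e).resolve_right x0⟩
  have h3 := finrank_span_eq_card h2
  rw [Matrix.range_cons_cons_empty] at h3
  simp only [Fintype.card_fin] at h3
  omega

theorem case_inv (hf : f.Nondeg) (h5 : 5 ≤ finrank F V) {b v : V} (hb : f.Q b ≠ 0) (hv : v ∈ B) (hn : ∀ a : F, v ≠ a • b)
    (h : ∀ x y, f.Q x = 0 → f.B b x = 0 → f.B b y = 0 → f.B x y = 0 → ∀ u ∈ B, ee f x y ⊳ u ∈ B) (w : V)
    (hw : f.B b w = 0) : w ∈ B := by
  have step : ∀ v x, v ∈ B → f.Q x = 0 → f.B b x = 0 → f.B x v ≠ 0 → ∀ y, f.B b y = 0 → f.B x y = 0 → y ∈ B :=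
    fun v x hv hx bx xv => by
      have x0 : x ≠ 0 := fun e => xv (by simp [e])
      have s1 : ∀ y, f.B b y = 0 → f.B x y = 0 → ∃ c : F, y + c • x ∈ B := fun y y1 y2 => by
        have := sub_mem (h x ((f.B x v)⁻¹ • y) hx bx (by simp [y1]) (by simp [y2]) v hv) hv
        rw [ee_apply hx (by simp [y2]), smul_smul, mul_inv_cancel₀ xv, one_smul] at this
        exact ⟨_, by convert this using 1; rw [neg_smul]; abel⟩
      have s2 : ∀ c : F, c • x ∈ B := fun c => by
        obtain ⟨y0, hy0, hy0'⟩ : ∃ y0 ∈ f.perp (Submodule.span F {b, x}), y0 ∉ Submodule.span F ({b, x} : Set V) := by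
          by_contra hd
          push Not at hd
          have d1 := Submodule.finrank_mono (show f.perp (Submodule.span F {b, x}) ≤ _ from hd)
          have d2 := fr_pair hf hb hx x0
          have d3 := fr2 (F := F) b x
          omega
        obtain ⟨y1, y2⟩ := f.mem_perp_span_pair.1 hy0
        obtain ⟨y, hy, e⟩ := hf.exists_perp_B_eq hy0' c
        obtain ⟨y3, y4⟩ := f.mem_perp_span_pair.1 hy
        obtain ⟨t, ht⟩ := s1 y0 y1 y2
        have := sub_mem ht (h x y hx bx y3 y4 _ ht)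
        rw [ee_perp hx y4 (by simp [y2, f.B_self_of_Q hx])] at this
        simpa [e, Bc f y x, y4] using this
      intro y y1 y2
      obtain ⟨c, hc⟩ := s1 y y1 y2
      simpa using sub_mem hc (s2 c)
  obtain ⟨x, hx, bx, vx⟩ := exists_sing_ne hf h5 hn
  have s1 := step v x hv hx bx (by rwa [Bc])
  obtain ⟨x', hx', q', e⟩ := hf.exists_partner_perp (H := F ∙ b) hx (fun hm => by
    obtain ⟨a, rfl⟩ := Submodule.mem_span_singleton.1 hm
    rw [Qs] at hx
    rw [mul_self_eq_zero.1 ((mul_eq_zero.1 hx).resolve_right hb)] at vx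
    simp at vx) (f.mem_perp_span_singleton.2 bx)
  have bx' := f.mem_perp_span_singleton.1 hx'
  have s2 := step x x' (s1 x bx (f.B_self_of_Q hx)) q' bx' (by rw [Bc, e]; exact one_ne_zero) (f.B x w • x')
    (by simp [bx']) (by simp [f.B_self_of_Q q'])
  simpa using add_mem (s1 (w - f.B x w • x') (by simp [hw, bx']) (by simp [e])) s2

open Classical in
theorem orb_mu (hf : f.Nondeg) (hI : Inv f 𝓑) (hB : B ∈ 𝓑) {b x : V} (hbB : b ∈ B) (hb : f.Q b ≠ 0) (hx : f.Q x = 0)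
    (x0 : x ≠ 0) (bx : f.B b x = 0) (hY : ∀ y ∈ f.perp (Submodule.span F {b, x}), f.B x y = 0) {r : ℕ}
    (hr : finrank F V = r + 2) : 𝔮 ^ r ≤ Nat.card (St hx hY B) * (𝓑.filter fun C => b ∈ C ∧ (x ∈ C ↔ x ∈ B)).card := by
  have := fr_pair hf hb hx x0
  rw [show r = finrank F (f.perp (Submodule.span F {b, x})) by omega]
  refine orb hx hY B _ fun y hy => Finset.mem_filter.2 ⟨hI _ (ee_mem _ _) _ hB, ?_, ?_⟩
  · have := (ap_mv (g := ee f x y)).2 hbB
    rwa [ee_fix hx (hY y hy) (by rw [Bc, bx]) (by rw [Bc, (f.mem_perp_span_pair.1 hy).1])] at this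
  · rw [← ap_mv (g := ee f x y) (B := B), ee_fix hx (hY y hy) (f.B_self_of_Q hx) (by rw [Bc, hY y hy])]

open Classical in
theorem filt_le (b x : V) : (𝓑.filter fun C => b ∈ C ∧ (x ∈ C ↔ x ∈ B)).card ≤ mu 𝓑 b :=
  Finset.card_le_card fun C hC => by
    rw [Finset.mem_filter] at hC ⊢
    exact ⟨hC.1, hC.2.1⟩

theorem pY {b x : V} : ∀ y ∈ f.perp (Submodule.span F {b, x}), f.B x y = 0 :=
  fun _ hy => (f.mem_perp_span_pair.1 hy).2

theorem mu_fac (hf : f.Nondeg) (h5 : 5 ≤ finrank F V) (hI : Inv f 𝓑) (hB : B ∈ 𝓑) {b v : V} (hbB : b ∈ B)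
    (hb : f.Q b ≠ 0) (hv : v ∈ B) (hn : ∀ a : F, v ≠ a • b) (hh : ¬ ∀ w, f.B b w = 0 → w ∈ B) :
    (𝔮).minFac ≤ mu 𝓑 b := by
  have : Finite V := Module.finite_of_finite F
  obtain ⟨x, y, hx, bx, by', xy, u, hu, hu'⟩ : ∃ x y, f.Q x = 0 ∧ f.B b x = 0 ∧ f.B b y = 0 ∧ f.B x y = 0 ∧
      ∃ u ∈ B, ee f x y ⊳ u ∉ B := by
    by_contra hc
    push Not at hc
    exact hh (case_inv hf h5 hb hv hn hc)
  have x0 : x ≠ 0 := fun e => hu' (by rw [ee_apply hx xy, e]; simpa using hu)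
  obtain ⟨r, hr⟩ : ∃ r, finrank F V = r + 2 := ⟨_, (Nat.sub_add_cancel (by omega)).symm⟩
  have h1 := (orb_mu hf hI hB hbB hb hx x0 bx pY hr).trans (Nat.mul_le_mul_left _ (filt_le b x))
  have hle : St hx pY B ≤ (f.perp (Submodule.span F {b, x})).toAddSubgroup := fun y hy => hy.1
  obtain ⟨j, hj⟩ := AddSubgroup.card_dvd_of_le hle
  have h2 : Nat.card (f.perp (Submodule.span F {b, x})).toAddSubgroup = 𝔮 ^ r := by
    have := fr_pair hf hb hx x0
    rw [show r = finrank F (f.perp (Submodule.span F {b, x})) by omega, ← card_sub]; rfl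
  have j1 : j ≠ 1 := fun e => by
    rw [e, mul_one] at hj
    have := AddSubgroup.eq_of_le_of_card_ge hle hj.le
    refine hu' (St.ap (hx := hx) (hY := pY (b := b)) ?_ hu)
    rw [this]; exact f.mem_perp_span_pair.2 ⟨by', xy⟩
  rw [h2] at hj
  rw [hj] at h1
  have j0 : 0 < j := Nat.pos_of_ne_zero fun e => by
    rw [e, mul_zero] at hj; exact (pow_pos Nat.card_pos _).ne' hj
  refine le_trans ?_ (Nat.le_of_mul_le_mul_left h1 Nat.card_pos)
  exact (Nat.minFac_le_of_dvd (Nat.minFac_prime j1).two_le ((Nat.minFac_prime j1).dvd_of_dvd_pow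
    ((Nat.minFac_dvd j).trans (hj ▸ dvd_mul_left j _ : j ∣ 𝔮 ^ r)))).trans (Nat.minFac_le j0)

theorem sub_of_prime (hp : ∀ a : F, ∃ n : ℕ, (n : F) = a) (a : F) {v : V} (hv : v ∈ B) : a • v ∈ B := by
  obtain ⟨n, rfl⟩ := hp a
  rw [Nat.cast_smul_eq_nsmul]; exact nsmul_mem hv n

theorem mem_sp (hp : ∀ a : F, ∃ n : ℕ, (n : F) = a) {v : V} (hv : v ∈ sp F B) : v ∈ B :=
  Submodule.span_induction (fun _ h => h) (zero_mem _) (fun _ _ _ _ => add_mem) (fun a _ _ => sub_of_prime hp a) hv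

theorem mu_four (hf : f.Nondeg) (h5 : 5 ≤ finrank F V) (hp : ∀ a : F, ∃ n : ℕ, (n : F) = a) (hI : Inv f 𝓑)
    (hB : B ∈ 𝓑) {b v0 : V} (hbB : b ∈ B) (hb : f.Q b ≠ 0) (hv : v0 ∈ B) (hn : ∀ a : F, v0 ≠ a • b) (hB' : B ≠ ⊤)
    (hh : ∀ z, z ≠ 0 → ¬ ∀ w, f.B z w = 0 → w ∈ B) : 4 ≤ mu 𝓑 b := by
  classical
  have q2 : 2 ≤ 𝔮 := one_lt_natCard
  have b0 : b ≠ 0 := fun e => hb (by rw [e, f.Q_zero])
  have h6 : (2 : F) = 0 → 6 ≤ finrank F V := fun h2 => by
    by_contra h
    exact hf.two_ne_zero_of_odd ⟨2, by omega⟩ h2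
  obtain ⟨r, hr⟩ : ∃ r, finrank F V = r + 2 + 2 := ⟨finrank F V - 4, by omega⟩
  have small : ∀ {x} (hx : f.Q x = 0), x ≠ 0 → f.B b x = 0 → ∀ T : Submodule F V, finrank F T ≤ r →
      (∀ y ∈ St hx (pY (b := b)) B, y ∈ T) → 4 ≤ mu 𝓑 b := fun hx x0 bx T hT h =>
    le_trans (le_trans (by nlinarith) (le_of_orb (orb_mu hf hI hB hbB hb hx x0 bx pY hr) (card_le_of_le h hT)))
      (filt_le b _)
  by_cases hA : ∃ v ∈ B, f.B b v = 0 ∧ ∀ a : F, v ≠ a • b
  swap
  · push Not at hA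
    have h2 : (2 : F) = 0 := by
      by_contra h2
      have bb : f.B b b ≠ 0 := by rw [Bs]; exact mul_ne_zero h2 hb
      obtain ⟨a, ha⟩ := hA (v0 - (f.B b v0 / f.B b b) • b) (sub_mem hv (sub_of_prime hp _ hbB)) (by simp [bb])
      exact hn (a + f.B b v0 / f.B b b) (by rw [add_smul, ← ha]; abel)
    obtain ⟨x, hx, bx, vx⟩ := exists_sing_ne hf h5 hn
    refine small hx (fun e => vx (by simp [e])) bx (Submodule.span F {b, x}) ((fr2 _ _).trans (by have := h6 h2; omega))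
      fun y hy => ?_
    have y1 := f.mem_perp_span_pair.1 hy.1
    have := sub_mem (St.ap hy hv) hv
    rw [ee_apply hx y1.2] at this
    obtain ⟨a, ha⟩ := hA _ this (by simp [y1.1, bx])
    have xv : f.B x v0 ≠ 0 := by rwa [Bc]
    refine Submodule.mem_span_pair.2 ⟨(f.B x v0)⁻¹ * a, (f.B x v0)⁻¹ * (f.B y v0 + f.Q y * f.B x v0), ?_⟩
    rw [mul_smul, mul_smul, ← smul_add, inv_smul_eq_iff₀ xv]
    linear_combination (norm := module) -ha
  obtain ⟨v, hvB, bv, hvn⟩ := hA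
  by_cases hx : ∃ x, f.Q x = 0 ∧ f.B b x = 0 ∧ f.B x v ≠ 0 ∧ x ∉ B
  swap
  · push Not at hx
    obtain ⟨x, qx, bx, vx⟩ := exists_sing_ne hf h5 hvn
    have xv : f.B x v ≠ 0 := by rwa [Bc]
    have xB := hx x qx bx xv
    by_cases h2 : (2 : F) = 0
    · exfalso
      refine hh b b0 fun w hw => ?_
      have hch : ringChar F = 2 := CharP.ringChar_of_prime_eq_zero Nat.prime_two (R := F) (by exact_mod_cast h2)
      have one : ∀ u, f.B b u = 0 → f.B u v ≠ 0 → u ∈ B := fun u u1 u2 => by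
        obtain ⟨s, hs⟩ := FiniteField.isSquare_of_char_two hch (f.Q u / f.Q b)
        have := hx (u + s • b) (by
          rw [Qa, Qs, map_smul, Bc, u1, ← hs, div_mul_cancel₀ _ hb]; simp only [smul_eq_mul]
          linear_combination f.Q u * h2) (by simp [u1, Bs, h2]) (by simpa [bv] using u2)
        simpa using sub_mem this (sub_of_prime hp s hbB)
      by_cases hwv : f.B w v = 0
      · simpa using sub_mem (one (w + x) (by simp [hw, bx]) (by simpa [hwv] using xv)) xB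
      · exact one w hw hwv
    have d1 : finrank F (sp F B) ≤ r + 2 := by
      by_contra hd
      have d2 := hf.finrank_perp (sp F B)
      have d3 : f.perp (sp F B) ≠ ⊥ := fun e => hB' (eq_top_iff.2 fun w _ =>
        mem_sp hp (by rw [hf.perp_eq_bot_iff.1 e]; trivial))
      obtain ⟨z, hz, z0⟩ := Submodule.exists_mem_ne_zero_of_ne_bot d3
      have d4 : F ∙ z = f.perp (sp F B) := Submodule.eq_of_le_of_finrank_le
        ((Submodule.span_singleton_le_iff_mem _ _).2 hz) (by rw [finrank_span_singleton z0]; omega)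
      refine hh z z0 fun w hw => mem_sp hp ?_
      rw [← hf.perp_perp (sp F B), ← d4]
      exact f.mem_perp_span_singleton.2 hw
    have l1 : sp F B ⊓ f.perp (F ∙ b) < sp F B := lt_of_le_of_ne inf_le_left fun e => by
      have : b ∈ sp F B ⊓ f.perp (F ∙ b) := by rw [e]; exact le_sp hbB
      have := f.mem_perp_span_singleton.1 this.2
      rw [Bs] at this
      exact mul_ne_zero h2 hb this
    have l2 : sp F B ⊓ f.perp (Submodule.span F {b, x}) < sp F B ⊓ f.perp (F ∙ b) :=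
      lt_of_le_of_ne (inf_le_inf_left _ (f.perp_anti (Submodule.span_mono (by simp)))) fun e => by
        have : v ∈ sp F B ⊓ f.perp (Submodule.span F {b, x}) := by
          rw [e]; exact ⟨le_sp hvB, f.mem_perp_span_singleton.2 bv⟩
        exact xv (f.mem_perp_span_pair.1 this.2).2
    have := Submodule.finrank_lt_finrank_of_lt l1
    have := Submodule.finrank_lt_finrank_of_lt l2
    refine small qx (fun e => xv (by simp [e])) bx (sp F B ⊓ f.perp (Submodule.span F {b, x})) (by omega)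
      fun y hy => ⟨le_sp ?_, hy.1⟩
    have := sub_mem (St.ap hy hvB) hvB
    rw [ee_apply qx (pY y hy.1)] at this
    have := sub_of_prime hp (f.B x v)⁻¹ (add_mem this (sub_of_prime hp (f.B y v + f.Q y * f.B x v) xB))
    convert this using 1
    rw [eq_inv_smul_iff₀ xv]; abel
  obtain ⟨x, qx, bx, xv, xB⟩ := hx
  have x0 : x ≠ 0 := fun e => xv (by simp [e])
  have nx : ∀ c : F, c • x ∈ B → c = 0 := fun c hc => by
    by_contra c0
    exact xB (by simpa [smul_smul, c0] using sub_of_prime hp c⁻¹ hc)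
  set S := St qx (pY (b := b)) B with hS
  have s1 : ∀ y ∈ S, ∀ u ∈ B, f.B x u = 0 → f.B y u = 0 := fun y hy u hu xu => by
    have := sub_mem hu (St.ap hy hu)
    rw [ee_perp qx (pY y hy.1) xu] at this
    exact nx _ (by simpa using this)
  have s2 : ∀ y ∈ S, y - ((f.B x v)⁻¹ * (f.B y v + f.Q y * f.B x v)) • x ∈ B := fun y hy => by
    have := sub_mem (St.ap hy hvB) hvB
    rw [ee_apply qx (pY y hy.1)] at this
    convert sub_of_prime hp (f.B x v)⁻¹ this using 1
    rw [eq_inv_smul_iff₀ xv, smul_sub, smul_smul, mul_inv_cancel_left₀ xv]; abel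
  have s3 : ∀ y ∈ S, ∀ y' ∈ S, f.B y y' = 0 := fun y hy y' hy' => by
    have := s1 y hy _ (s2 y' hy') (by simp [pY y' hy'.1, f.B_self_of_Q qx])
    simpa [Bc f y x, pY y hy.1] using this
  have s4 : b ∉ S := fun h => by
    have := nx _ (by simpa using sub_mem hbB (s2 b h))
    simp [bv, hb, xv] at this
  have d1 : finrank F (sp F S ⊔ F ∙ b : Submodule F V) = finrank F (sp F S) + 1 := by
    have e3 := Submodule.finrank_sup_add_finrank_inf_eq (sp F S) (F ∙ b)
    rw [((Submodule.disjoint_span_singleton' b0).2 fun h => s4 (mem_sp hp h)).eq_bot, finrank_bot,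
      finrank_span_singleton b0] at e3
    omega
  have d2 : sp F S ≤ f.perp (sp F S ⊔ F ∙ b) := fun y hy => by
    rw [perp_sup]
    exact ⟨fun y' hy' => s3 _ (mem_sp hp hy') _ (mem_sp hp hy),
      f.mem_perp_span_singleton.2 (f.mem_perp_span_pair.1 (mem_sp hp hy).1).1⟩
  have d3 := Submodule.finrank_mono d2
  have d4 := hf.finrank_perp (sp F S ⊔ F ∙ b)
  by_cases hσ : finrank F (sp F S) ≤ r
  · exact small qx x0 bx _ hσ fun y hy => le_sp hy
  have h2 : (2 : F) ≠ 0 := fun h2 => by have := h6 h2; omega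
  have r1 : r = 1 := by omega
  obtain ⟨y, hy, hy'⟩ : ∃ y ∈ sp F S, y ∉ F ∙ x := by
    by_contra hd
    push Not at hd
    have := (Submodule.finrank_mono (show sp F S ≤ _ from hd)).trans (fr1 x)
    omega
  have yS := mem_sp hp hy
  obtain ⟨w, wB, w1, w2, w3, w4⟩ : ∃ w ∈ B, f.B b w = 0 ∧ f.B x w = 0 ∧ f.Q w = 0 ∧ w ∉ F ∙ x := by
    refine ⟨_, s2 y yS, by simp [(f.mem_perp_span_pair.1 yS.1).1, bx], by simp [pY y yS.1, f.B_self_of_Q qx], ?_,
      fun h => hy' ?_⟩
    · have := s3 y yS y yS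
      rw [Bs] at this
      rw [Qsub, Qs, qx, (mul_eq_zero.1 this).resolve_left h2, map_smul, Bc f y x, pY y yS.1]; simp
    · simpa using add_mem h (Submodule.smul_mem _ ((f.B x v)⁻¹ * (f.B y v + f.Q y * f.B x v))
        (Submodule.mem_span_singleton_self x))
  obtain ⟨z, hz, qz, xz⟩ := hf.exists_partner_perp (H := Submodule.span F {b, x - w}) qx (fun hm => by
    obtain ⟨α, β, e⟩ := Submodule.mem_span_pair.1 hm
    have e1 := congrArg (f.B b) e
    simp only [map_add, map_smul, map_sub, bx, w1, Bs, smul_eq_mul, sub_self, mul_zero, add_zero] at e1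
    rw [(mul_eq_zero.1 e1).resolve_right (mul_ne_zero h2 hb), zero_smul, zero_add] at e
    have β0 : β ≠ 0 := fun e0 => x0 (by rw [← e, e0, zero_smul])
    refine w4 (Submodule.mem_span_singleton.2 ⟨β⁻¹ * (β - 1), ?_⟩)
    rw [mul_smul, inv_smul_eq_iff₀ β0]
    linear_combination (norm := module) e)
    (f.mem_perp_span_pair.2 ⟨bx, by simp [f.B_self_of_Q qx, Bc f w x, w2]⟩)
  obtain ⟨z1, z2⟩ := f.mem_perp_span_pair.1 hz
  have z3 : f.B z (x - w) = 0 := by rwa [Bc]
  have z4 : f.B z w = 1 := by rw [map_sub, Bc, xz] at z3; exact (sub_eq_zero.1 z3).symm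
  have m1 := (ap_mv (g := ee f z (x - w))).2 hbB
  have m2 := (ap_mv (g := ee f z (x - w))).2 wB
  rw [ee_fix qz z3 (by rw [Bc, z1]) (by simp [Bc f x b, Bc f w b, bx, w1])] at m1
  rw [ee_apply qz z3, z4, Qsub, qx, w3, w2] at m2
  simp only [B_sub_left, w2, f.B_self_of_Q w3, one_smul, add_sub_cancel, sub_self, add_zero, zero_mul, zero_smul,
    sub_zero] at m2
  have h3 := le_of_orb (k := 2) (j := 1) (orb_mu hf hI hB hbB hb qx x0 bx pY (by omega))
    (card_le_of_le (T := sp F S) (fun y hy => le_sp hy) (by omega))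
  have h4 : (𝓑.filter fun C => b ∈ C ∧ (x ∈ C ↔ x ∈ B)).card < mu 𝓑 b := by
    refine Finset.card_lt_card ⟨fun C hC => ?_, fun h => ?_⟩
    · rw [Finset.mem_filter] at hC ⊢
      exact ⟨hC.1, hC.2.1⟩
    · have := h (Finset.mem_filter.2 ⟨hI _ (ee_mem z (x - w)) _ hB, m1⟩)
      exact xB ((Finset.mem_filter.1 this).2.2.1 m2)
  have q3 : 𝔮 ≠ 2 := fun e => h2 (by
    have := Fintype.ofFinite F
    have h := FiniteField.cast_card_eq_zero F
    rw [← Nat.card_eq_fintype_card, e] at h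
    exact_mod_cast h)
  rw [pow_one] at h3
  omega

end CA.H12Om
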