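import Cfsg.Agent.Lib.Lin.H12Om4

/-!
Minimal degree of the orthogonal groups, part 5: the analysis of small invariant families.
-/

set_option autoImplicit false
set_option linter.unusedSectionVars false

namespace CA.H12Om

open Module CA.CForm CA.CForm.Form

universe u

/-- The numerical hypotheses on the bound `M`, for Witt index `ν + 1` and dimension `2 (ν + 1) + d`. -/
structure Bd (q ν d M : ℕ) : Prop where
  hν : 2 ≤ ν
  hd : 3 ≤ ν + d
  h1 : M * (q - 1) ≤ (q ^ (ν + 1) - 1) * (q ^ (ν + d) + 1)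
  h2 : q ≤ 3 → d ≠ 2 → M * (q - 1) + q ^ (ν + d) ≤ q ^ (2 * ν + d + 1)

theorem Bd.par {q ν d M : ℕ} (h : Bd q ν d M) (hq : 2 ≤ q) : ∃ a c : ℕ, 1 ≤ a ∧ 1 ≤ c ∧ q ^ ν = a * q ^ 2 ∧
    q ^ (ν + d) = c * q ^ 3 ∧ q ^ (2 * ν + d) = a * c * q ^ 5 ∧ q ^ (ν - 1 + d) = c * q ^ 2 ∧
    q ^ (ν - 2 + d) = c * q ∧ (M : ℤ) * (q - 1) ≤ (a * q ^ 3 - 1) * (c * q ^ 3 + 1) := by
  obtain ⟨i, rfl⟩ := Nat.exists_eq_add_of_le' h.hν
  obtain ⟨j, hj⟩ := Nat.exists_eq_add_of_le' h.hd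
  have e1 : q ^ (i + 2 + d) = q ^ j * q ^ 3 := by rw [hj, pow_add]
  refine ⟨q ^ i, q ^ j, Nat.one_le_pow _ _ (by omega), Nat.one_le_pow _ _ (by omega), pow_add _ _ _, e1,
    by rw [show 2 * (i + 2) + d = i + j + 5 by omega]; ring, by rw [show i + 2 - 1 + d = j + 2 by omega]; ring,
    by rw [show i + 2 - 2 + d = j + 1 by omega]; ring, ?_⟩
  have h1 := h.h1
  have h3 : 1 ≤ q ^ (i + 2 + 1) := Nat.one_le_pow _ _ (by omega)
  rw [e1] at h1
  zify [h3, (by omega : 1 ≤ q)] at h1 ⊢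
  convert h1 using 3
  ring

theorem Bd.small {q ν d M : ℕ} (h : Bd q ν d M) (hq : 2 ≤ q) (h3 : q ≤ 3) : M * (q - 1) ≤ q ^ (2 * ν + d + 1) := by
  by_cases hd : d = 2
  · subst hd
    refine h.h1.trans ?_
    have h4 : 1 ≤ q ^ (ν + 1) := Nat.one_le_pow _ _ (by omega)
    have h5 : q ^ (ν + 1) ≤ q ^ (ν + 2) := Nat.pow_le_pow_right (by omega) (by omega)
    rw [show 2 * ν + 2 + 1 = (ν + 1) + (ν + 2) by omega, pow_add q (ν + 1)]
    zify [h4] at h5 ⊢
    nlinarith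
  · exact le_trans (Nat.le_add_right _ _) (h.h2 h3 hd)

theorem Bd.two {q ν d M : ℕ} (h : Bd q ν d M) (hq : 2 ≤ q) : M ≤ 2 * q ^ (2 * ν + d) := by
  by_cases h3 : q ≤ 3
  · have := h.small hq h3
    rw [pow_succ] at this
    interval_cases q <;> omega
  obtain ⟨a, c, ha, hc, -, -, e3, -, -, h1⟩ := h.par hq
  rw [e3]
  have hq' : (4 : ℤ) ≤ q := by omega
  zify at ha hc ⊢
  refine le_of_mul_le_mul_right (h1.trans ?_) (by omega : (0 : ℤ) < q - 1)
  have h4 : (0 : ℤ) ≤ a * q ^ 3 := by positivity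
  have h5 : (1 : ℤ) ≤ c * q ^ 2 := one_le_mul_of_one_le_of_one_le hc (one_le_pow₀ (by omega))
  have h6 : (0 : ℤ) ≤ c * q ^ 3 := by positivity
  nlinarith [mul_nonneg h4 (by nlinarith : (0 : ℤ) ≤ c * q ^ 2 * (q - 2) - 1)]

variable {F : Type*} [Field F] [Finite F] {V : Type u} [AddCommGroup V] [Module F V] [FiniteDimensional F V]
  {f : Form (Kind.orth F) V} {𝓑 : Finset (AddSubgroup V)} {B : AddSubgroup V}

local notation:75 g:76 " ⊳ " v:75 => (g : V ≃ₗ[F] V) v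
local notation "𝔮" => Nat.card F

theorem prime_cast (h : 𝔮 ≤ 3) (a : F) : ∃ n : ℕ, (n : F) = a := by
  have := Fintype.ofFinite F
  have q2 : 2 ≤ 𝔮 := one_lt_natCard
  have hp : (𝔮).Prime := by interval_cases 𝔮 <;> norm_num
  obtain ⟨z, rfl⟩ := (ZMod.ringEquivOfPrime F hp Nat.card_eq_fintype_card.symm).surjective a
  have : NeZero 𝔮 := ⟨by omega⟩
  exact ⟨z.val, by rw [← map_natCast (ZMod.ringEquivOfPrime F hp Nat.card_eq_fintype_card.symm), ZMod.natCast_zmod_val]⟩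

theorem cast_q : ((𝔮 : ℕ) : F) = 0 := by
  have := Fintype.ofFinite F
  rw [Nat.card_eq_fintype_card]; exact FiniteField.cast_card_eq_zero F

theorem two_eq_zero_iff : (2 : F) = 0 ↔ Even 𝔮 := by
  have := Fintype.ofFinite F
  rw [Nat.card_eq_fintype_card, Nat.even_iff, ← FiniteField.even_card_iff_char_two]
  exact ⟨fun h2 => CharP.ringChar_of_prime_eq_zero Nat.prime_two (R := F) (by exact_mod_cast h2), fun h => by
    have := ringChar.Nat.cast_ringChar (R := F)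
    rw [h] at this; exact_mod_cast this⟩

open Classical in
theorem ratio [Finite V] {r : ℕ} (O : Finset V) (t : Fin (r + 1) → V) (ht : ∀ i, t i ∈ B)
    (h : ∀ v ∈ B, ∃ i, v + t i ∉ O) : (r + 1) * (O.filter (· ∈ B)).card ≤ r * Nat.card B := by
  have := Fintype.ofFinite V
  have h1 := Finset.sum_card_bipartiteAbove_eq_sum_card_bipartiteBelow (s := (Finset.univ : Finset (Fin (r + 1))))
    (t := Finset.univ.filter (· ∈ B)) (fun i v => v + t i ∈ O)
  rw [Nat.card_eq_fintype_card, Fintype.card_subtype, mul_comm r]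
  refine le_trans (le_trans ?_ h1.le) ?_
  · rw [← smul_eq_mul]
    refine le_trans (by simp) (Finset.card_nsmul_le_sum _ _ (O.filter (· ∈ B)).card fun i _ => ?_)
    refine Finset.card_le_card_of_injOn (fun v => v - t i) (fun v hv => ?_) fun a _ b _ e => sub_left_injective e
    simp only [Finset.coe_filter, Set.mem_ofPred_eq] at hv
    simp [hv.1, sub_mem hv.2 (ht i)]
  · rw [← smul_eq_mul]
    refine Finset.sum_le_card_nsmul _ _ _ fun v hv => ?_
    obtain ⟨i, hi⟩ := h v (Finset.mem_filter.1 hv).2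
    have : (Finset.univ.bipartiteBelow (fun i v => v + t i ∈ O) v) ⊆ Finset.univ.erase i := fun j hj =>
      Finset.mem_erase.2 ⟨fun e => hi (e ▸ ((Finset.mem_bipartiteBelow _).1 hj).2), Finset.mem_univ _⟩
    simpa using Finset.card_le_card this

theorem exists_Ob (b : V) (hb : f.Q b ≠ 0) {n : ℕ} (hn : ∀ c, c ≠ 0 → n ≤ Nat.card {v // f.Q v = c}) :
    ∃ O : Finset V, (∀ v, v ∈ O ↔ ∃ a : F, a ≠ 0 ∧ f.Q v = a * a * f.Q b) ∧ (𝔮 - 1) * n ≤ 2 * O.card ∧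
      ((2 : F) = 0 → (𝔮 - 1) * n ≤ O.card) := by
  classical
  have : Finite V := Module.finite_of_finite F
  have := Fintype.ofFinite V
  have := Fintype.ofFinite F
  let C := (Finset.univ.filter (· ≠ (0 : F))).image fun a => a * a * f.Q b
  have hc : (Finset.univ.filter (· ≠ (0 : F))).card = 𝔮 - 1 := by
    rw [Finset.filter_ne', Finset.card_erase_of_mem (Finset.mem_univ _), Nat.card_eq_fintype_card]; rfl
  have h1 : C.card * n ≤ (Finset.univ.filter fun v => f.Q v ∈ C).card := by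
    rw [Finset.card_eq_sum_card_fiberwise (f := f.Q) (s := Finset.univ.filter fun v => f.Q v ∈ C) (t := C)
      fun v hv => (Finset.mem_filter.1 hv).2, ← smul_eq_mul]
    refine Finset.card_nsmul_le_sum _ _ _ fun c hc => ?_
    obtain ⟨a, ha, e⟩ := Finset.mem_image.1 hc
    have a0 := (Finset.mem_filter.1 ha).2
    refine (hn c (e ▸ mul_ne_zero (mul_ne_zero a0 a0) hb)).trans ?_
    rw [Nat.card_eq_fintype_card, Fintype.card_subtype]
    exact Finset.card_le_card fun v hv => by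
      simp only [Finset.mem_filter, Finset.mem_univ, true_and] at hv ⊢
      exact ⟨hv ▸ hc, hv⟩
  refine ⟨Finset.univ.filter fun v => f.Q v ∈ C, fun v => by simp [C, eq_comm], ?_, fun h2 => ?_⟩
  · refine le_trans ?_ (Nat.mul_le_mul_left 2 h1)
    rw [← mul_assoc, ← hc]
    refine Nat.mul_le_mul_right _ (Finset.card_le_mul_card_image _ 2 fun c hc => ?_)
    obtain ⟨a, -, rfl⟩ := Finset.mem_image.1 hc
    refine le_trans (Finset.card_le_card (t := {a, -a}) fun x hx => ?_) Finset.card_le_two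
    simpa using mul_self_eq_mul_self_iff.1 (mul_right_cancel₀ hb (Finset.mem_filter.1 hx).2)
  · refine le_trans ?_ h1
    rw [← hc, Finset.card_image_of_injective _ fun x a e => ?_]
    rcases mul_self_eq_mul_self_iff.1 (mul_right_cancel₀ hb e) with e | e
    · exact e
    · linear_combination e - a * h2

theorem case_ns {ν d M : ℕ} (hi : f.IsIndex ν) (hf : f.Nondeg) (hd : finrank F V = 2 * ν + d) (hM : Bd 𝔮 ν d M)
    (hI : Inv f 𝓑) (hT : ∀ a : F, a ≠ 0 → ∃ t : f.Isom, ∀ B ∈ 𝓑, ∃ B' ∈ 𝓑, ∀ v, a • t ⊳ v ∈ B' ↔ v ∈ B)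
    (hB : B ∈ 𝓑) (hB' : B ≠ ⊤) {b v0 : V} (hbB : b ∈ B) (hb : f.Q b ≠ 0) (hv : v0 ∈ B) (hn : ∀ a : F, v0 ≠ a • b) :
    M ≤ ∑ B ∈ 𝓑, Nat.card B := by
  classical
  have : Finite V := Module.finite_of_finite F
  have := Fintype.ofFinite V
  have q2 : 2 ≤ 𝔮 := one_lt_natCard
  have h5 : 5 ≤ finrank F V := by have := hM.hν; have := hM.hd; omega
  have b0 : b ≠ 0 := fun e => hb (by rw [e, f.Q_zero])
  by_cases hh : ∃ z, z ≠ 0 ∧ ∀ w, f.B z w = 0 → w ∈ B
  · obtain ⟨z, z0, hz⟩ := hh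
    exact (hM.two q2).trans (hd ▸ case_hyp hf h5 hI hB hB' z0 hz)
  have hh' : ∀ z, z ≠ 0 → ¬ ∀ w, f.B z w = 0 → w ∈ B := fun z z0 h => hh ⟨z, z0, h⟩
  obtain ⟨a, c, ha, hc, e1, e2, e3, e4, e5, h1⟩ := hM.par q2
  have hn0 : ∀ t, c * 𝔮 ^ 2 * (a * 𝔮 ^ 2 - 1) ≤ Nat.card {v // f.Q v = t} := fun t => by
    have := cnt_ge hi hf hd t
    rw [e2, e3] at this
    refine Nat.le_of_mul_le_mul_left (c := 𝔮) ?_ (by omega)
    have h3 : 1 ≤ a * 𝔮 ^ 2 := Nat.mul_pos ha (by positivity)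
    zify [h3] at this ⊢
    linarith
  have ne0 : ∀ v (t : F), t ≠ 0 → f.Q v = t * t * f.Q b → v ≠ 0 := fun v t t0 e e' =>
    mul_ne_zero (mul_ne_zero t0 t0) hb (by rw [← e, e', f.Q_zero])
  by_cases h3 : 𝔮 ≤ 3
  · have hp := prime_cast h3
    have m4 := mu_four hf h5 hp hI hB hbB hb hv hn hB' hh'
    have s1 := dbl (𝓑 := 𝓑) (Finset.univ.filter fun v => f.Q v = f.Q b) (c := 4) fun v hv => by
      have e := (Finset.mem_filter.1 hv).2
      obtain ⟨g, hg, rfl⟩ := exists_vec hf h5 b0 (ne0 v 1 one_ne_zero (by simpa using e)) e.symm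
      exact m4.trans (hI.mu_le hg b)
    have s2 := hn0 (f.Q b)
    rw [Nat.card_eq_fintype_card (α := {v // f.Q v = f.Q b}), Fintype.card_subtype] at s2
    have s3 := hM.small q2 h3
    rw [pow_succ, e3] at s3
    set O := Finset.univ.filter fun v => f.Q v = f.Q b with hO
    have mO : ∀ v, v ∈ O ↔ f.Q v = f.Q b := fun v => by simp [hO]
    rcases (by omega : 𝔮 = 2 ∨ 𝔮 = 3) with e | e
    · have h2 : (2 : F) = 0 := by have := cast_q (F := F); rw [e] at this; exact_mod_cast this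
      have s4 : ∀ C ∈ 𝓑, 4 * (O.filter (· ∈ C)).card ≤ 3 * Nat.card C := fun C _ => by
        by_cases hC : ∃ u ∈ C, ∃ w ∈ C, f.B u w ≠ 0
        · obtain ⟨u, hu, w, hw, huw⟩ := hC
          refine ratio O ![0, u, w, u + w] (fun i => by fin_cases i <;> simp [hu, hw, add_mem]) fun v _ => ?_
          by_contra hcon
          push Not at hcon
          have k0 := (mO _).1 (hcon 0)
          have k1 := (mO _).1 (hcon 1)
          have k2 := (mO _).1 (hcon 2)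
          have k3 := (mO _).1 (hcon 3)
          simp only [Matrix.cons_val, Qa, map_add, add_zero] at k0 k1 k2 k3
          exact huw (by linear_combination k0 + k3 - k1 - k2)
        · push Not at hC
          by_cases hne : (O.filter (· ∈ C)).Nonempty
          · obtain ⟨u, hu⟩ := hne
            rw [Finset.mem_filter, mO] at hu
            have := ratio (B := C) O ![0, u] (fun i => by fin_cases i <;> simp [hu.2]) fun v hv => by
              by_contra hcon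
              push Not at hcon
              have k0 := (mO _).1 (hcon 0)
              have k1 := (mO _).1 (hcon 1)
              simp only [Matrix.cons_val, Qa, add_zero, hC v hv u hu.2] at k0 k1
              exact hb (by linear_combination k1 - k0 - hu.1)
            omega
          · rw [Finset.not_nonempty_iff_eq_empty.1 hne]; simp
      have s5 := Finset.sum_le_sum s4
      rw [← Finset.mul_sum, ← Finset.mul_sum] at s5
      rw [e] at s2 s3
      have : c * 2 ^ 2 * (a * 2 ^ 2 - 1) + 4 * c = 16 * (a * c) := by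
        zify [(by omega : 1 ≤ a * 2 ^ 2)]; ring
      have : c ≤ a * c := Nat.le_mul_of_pos_left _ ha
      omega
    · have h3 : (3 : F) = 0 := by have := cast_q (F := F); rw [e] at this; exact_mod_cast this
      have s4 : ∀ C ∈ 𝓑, 3 * (O.filter (· ∈ C)).card ≤ 2 * Nat.card C := fun C _ => by
        by_cases hne : (O.filter (· ∈ C)).Nonempty
        · obtain ⟨u, hu⟩ := hne
          rw [Finset.mem_filter, mO] at hu
          refine ratio (B := C) O ![0, u, -u] (fun i => by fin_cases i <;> simp [hu.2]) fun v hv => ?_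
          by_contra hcon
          push Not at hcon
          have k0 := (mO _).1 (hcon 0)
          have k1 := (mO _).1 (hcon 1)
          have k2 := (mO _).1 (hcon 2)
          simp only [Matrix.cons_val, Qa, add_zero, map_neg, f.Q_neg] at k0 k1 k2
          exact hb (by linear_combination 2 * k0 - k1 - k2 + 2 * hu.1 + f.Q b * h3)
        · rw [Finset.not_nonempty_iff_eq_empty.1 hne]; simp
      have s5 := Finset.sum_le_sum s4
      rw [← Finset.mul_sum, ← Finset.mul_sum] at s5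
      rw [e] at s2 s3
      have : c * 3 ^ 2 * (a * 3 ^ 2 - 1) + 9 * c = 81 * (a * c) := by
        zify [(by omega : 1 ≤ a * 3 ^ 2)]; ring
      have : c ≤ a * c := Nat.le_mul_of_pos_left _ ha
      omega
  have m1 := mu_fac hf h5 hI hB hbB hb hv hn (hh' b b0)
  obtain ⟨O, hO, o1, o2⟩ := exists_Ob b hb fun t _ => hn0 t
  have s1 := dbl (𝓑 := 𝓑) O (c := (𝔮).minFac) fun v hv => by
    obtain ⟨t, t0, e⟩ := (hO v).1 hv
    obtain ⟨s, hs⟩ := hT t t0
    obtain ⟨g, hg, rfl⟩ := exists_vec hf h5 (v := t • s ⊳ b) (by simp [t0, b0]) (ne0 v t t0 e)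
      (by rw [Qs, Q_coe_map, e])
    exact (m1.trans (mu_le hs b)).trans (hI.mu_le hg _)
  refine le_trans ?_ (s1.trans (Finset.sum_le_sum fun C _ => (Nat.le_succ _).trans (filter_lt O (fun h => ?_) C)))
  swap
  · obtain ⟨t, t0, e⟩ := (hO 0).1 h
    exact ne0 0 t t0 e rfl
  have h4 : 1 ≤ a * 𝔮 ^ 2 := Nat.mul_pos ha (by positivity)
  have key : (𝔮 ^ 2 + 2) * (c * 𝔮 ^ 2 * (a * 𝔮 ^ 2 - 1)) ≤ O.card * (𝔮).minFac * (𝔮 - 1) := by
    set n := c * 𝔮 ^ 2 * (a * 𝔮 ^ 2 - 1)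
    obtain ⟨p, hp⟩ : ∃ p, 𝔮 = p + 4 := ⟨𝔮 - 4, by omega⟩
    have f2 : 2 ≤ (𝔮).minFac := (Nat.minFac_prime (by omega)).two_le
    by_cases h2 : (2 : F) = 0
    · have := Nat.mul_le_mul (Nat.mul_le_mul (o2 h2) f2) (le_refl (𝔮 - 1))
      refine le_trans ?_ this
      rw [hp, show p + 4 - 1 = p + 3 by omega]
      nlinarith [Nat.zero_le (p * n), Nat.zero_le (p * p * n)]
    · have ho : ¬ 2 ∣ 𝔮 := fun h => h2 (two_eq_zero_iff.2 (even_iff_two_dvd.2 h))
      have f3 : 3 ≤ (𝔮).minFac := by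
        by_contra h
        exact ho ((by omega : (𝔮).minFac = 2) ▸ Nat.minFac_dvd _)
      refine Nat.le_of_mul_le_mul_left (c := 2) ?_ (by omega)
      by_cases h5 : 𝔮 = 5
      · have := Nat.mul_le_mul (Nat.mul_le_mul o1 (le_refl (𝔮).minFac)) (le_refl (𝔮 - 1))
        rw [h5] at this ⊢
        norm_num at this ⊢
        omega
      · have := Nat.mul_le_mul (Nat.mul_le_mul o1 f3) (le_refl (𝔮 - 1))
        refine le_trans (le_trans ?_ this) (le_of_eq (by ring))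
        obtain ⟨p', rfl⟩ : ∃ p', p = p' + 3 := ⟨p - 3, by omega⟩
        rw [hp, show p' + 3 + 4 - 1 = p' + 6 by omega]
        nlinarith [Nat.zero_le (p' * n), Nat.zero_le (p' * p' * n)]
  refine Nat.le_of_mul_le_mul_right (c := 𝔮 - 1) (le_trans ?_ key) (by omega)
  zify [h4, (by omega : 1 ≤ 𝔮)] at ha hc ⊢
  refine h1.trans ?_
  have hq : (4 : ℤ) ≤ 𝔮 := by omega
  generalize (𝔮 : ℤ) = q at *
  have k1 : 0 ≤ (a - 1 : ℤ) * (c * q ^ 2) := by positivity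
  have k2 : 0 ≤ (c - 1 : ℤ) * (a * q ^ 3) := by positivity
  have k3 : 0 ≤ (a - 1 : ℤ) * (c * q ^ 4) := by positivity
  have k4 : 0 ≤ (a * c * q ^ 2 : ℤ) * (q ^ 2 - q - 2) := mul_nonneg (by positivity) (by nlinarith)
  have k5 : 0 ≤ (c * q ^ 3 : ℤ) := by positivity
  nlinarith

theorem lb1 {m d k c : ℕ} (hi : f.IsIndex (m + 1)) (hf : f.Nondeg) (hd : finrank F V = 2 * (m + 1) + d)
    (h3 : 1 ≤ m + d) (hc : c * (𝔮 ^ (k + 1) - 1) ≤ (𝔮 ^ (m + 1) - 1) * (𝔮 ^ (m + d) + 1)) : LB f (k + 1) c :=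
  LB.step hi hf hd h3 (fun _ _ _ => lb_one k) (by simpa using hc)

theorem pow_sub_le {q k m : ℕ} (hq : 1 ≤ q) (h : k < m) : q * (q ^ k - 1) ≤ q ^ m - 1 := by
  rw [Nat.mul_sub_one, ← pow_succ']
  have : q ^ (k + 1) ≤ q ^ m := Nat.pow_le_pow_right hq h
  omega

theorem sum_ts {m d k c : ℕ} (hi : f.IsIndex (m + 2)) (hf : f.Nondeg) (hd : finrank F V = 2 * (m + 2) + d)
    (h3 : 1 ≤ m + d) (hI : Inv f 𝓑) (hne : 𝓑.Nonempty) (hT : ∀ B ∈ 𝓑, Ts f (k + 2) B)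
    (hc : c * (𝔮 ^ (k + 1) - 1) ≤ (𝔮 ^ (m + 1) - 1) * (𝔮 ^ (m + d) + 1)) :
    (𝔮 ^ (m + 2) - 1) * (𝔮 ^ (m + 1 + d) + 1) * c + 𝓑.card ≤ ∑ B ∈ 𝓑, Nat.card B := by
  refine sum_sing hi hf hd fun x x0 hx => ?_
  obtain ⟨y, hy⟩ := hf.exists_isHyp hx x0
  refine (lb1 (hy.isIndex_perp hf hi) (hy.nondeg_perp hf) (d := d) (by have := hy.finrank_perp; omega) h3 hc).mu_ge
    hy hI hT ?_
  obtain ⟨B, hB⟩ := hne
  obtain ⟨b, hb, b0⟩ : ∃ b ∈ B, b ≠ 0 := by
    by_contra h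
    push Not at h
    have := (hT B hB).2
    rw [show sp F B = ⊥ from Submodule.span_eq_bot.2 h, finrank_bot] at this
    omega
  obtain ⟨g, hg, rfl⟩ := exists_vec hf (by omega) b0 x0 (((hT B hB).1.1 b (le_sp hb)).trans hx.symm)
  exact ⟨_, hI g hg B hB, ap_mv.2 hb⟩

theorem Inv.ts (hI : Inv f 𝓑) (k : ℕ) [DecidablePred (Ts f k)] : Inv f (𝓑.filter (Ts f k)) := fun g hg B hB => by
  rw [Finset.mem_filter] at hB ⊢
  exact ⟨hI g hg B hB.1, hB.2.mv g⟩

theorem exc_a {q ν d a c : ℕ} (hq : 2 ≤ q) (h : ν + d = 3) (hν : 2 ≤ ν) (e1 : q ^ ν = a * q ^ 2)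
    (e2 : q ^ (ν + d) = c * q ^ 3) : c = 1 ∧ a ≤ q := by
  refine ⟨Nat.eq_of_mul_eq_mul_right (m := q ^ 3) (by positivity) (by rw [← e2, h, one_mul]), ?_⟩
  refine Nat.le_of_mul_le_mul_right (c := q ^ 2) ?_ (by positivity)
  rw [← e1, ← pow_succ']
  exact Nat.pow_le_pow_right (by omega) (by omega)

theorem sum_exc {ν d : ℕ} (hi : f.IsIndex ν) (hf : f.Nondeg) (hd : finrank F V = 2 * ν + d) (hν : 2 ≤ ν)
    (h3 : ν + d = 3) (hI : Inv f 𝓑) (hne : 𝓑.Nonempty) (hT : ∀ B ∈ 𝓑, Ts f ν B) :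
    (𝔮 + 1) * (𝔮 ^ 2 + 1) ≤ 𝓑.card ∧ (𝔮 + 1) * (𝔮 ^ 2 + 1) * (𝔮 ^ ν - 1) + 𝓑.card ≤ ∑ B ∈ 𝓑, Nat.card B := by
  obtain ⟨m, rfl⟩ := Nat.exists_eq_add_of_le' hν
  have h1 := sum_ts (c := 𝔮 + 1) hi hf hd (by omega) hI hne hT (by
    rw [show m + d = 1 by omega, pow_one, mul_comm])
  rw [show m + 1 + d = 2 by omega] at h1
  have h2 : ∑ B ∈ 𝓑, Nat.card B ≤ 𝓑.card * 𝔮 ^ (m + 2) := by
    rw [← smul_eq_mul]
    exact Finset.sum_le_card_nsmul _ _ _ fun B hB => (hT B hB).2 ▸ card_le_sp B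
  have h4 : 1 < 𝔮 ^ (m + 2) := Nat.one_lt_pow (by omega) one_lt_natCard
  refine ⟨Nat.le_of_mul_le_mul_right (c := 𝔮 ^ (m + 2) - 1) ?_ (by omega), le_trans (le_of_eq (by ring)) h1⟩
  rw [Nat.mul_sub_one 𝓑.card]
  have : (𝔮 + 1) * (𝔮 ^ 2 + 1) * (𝔮 ^ (m + 2) - 1) = (𝔮 ^ (m + 2) - 1) * (𝔮 ^ 2 + 1) * (𝔮 + 1) := by ring
  omega

theorem fam {ν d M : ℕ} (hi : f.IsIndex ν) (hf : f.Nondeg) (hd : finrank F V = 2 * ν + d) (hM : Bd 𝔮 ν d M)
    (hI : Inv f 𝓑) (hT : ∀ a : F, a ≠ 0 → ∃ t : f.Isom, ∀ B ∈ 𝓑, ∃ B' ∈ 𝓑, ∀ v, a • t ⊳ v ∈ B' ↔ v ∈ B)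
    (hH : ∀ B ∈ 𝓑, ∀ b, ∃ v ∈ B, ∀ a : F, v ≠ a • b) (hlt : ∑ B ∈ 𝓑, Nat.card B < M) :
    (∀ B ∈ 𝓑, B = ⊤) ∨ (ν + d = 3 ∧ 4 ≤ 𝔮 ∧ ∀ B ∈ 𝓑, Ts f ν B) := by
  classical
  have q2 : 2 ≤ 𝔮 := one_lt_natCard
  obtain ⟨a, c, ha, hc, e1, e2, e3, e4, e5, h1⟩ := hM.par q2
  have h4 : 1 ≤ a * 𝔮 ^ 2 := Nat.mul_pos ha (by positivity)
  have each : ∀ B ∈ 𝓑, B ≠ ⊤ → ν + d = 3 ∧ Ts f ν B := fun B hB hB' => by
    have sing : ∀ b ∈ B, f.Q b = 0 := fun b hb => by
      by_contra hq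
      obtain ⟨v, hv, hn⟩ := hH B hB b
      exact hlt.not_ge (case_ns hi hf hd hM hI hT hB hB' hb hq hv hn)
    have ts : f.TS (sp F B) := ts_span sing fun x hx y hy => by
      have := sing _ (add_mem hx hy)
      rwa [Qa, sing x hx, sing y hy, zero_add, zero_add] at this
    obtain ⟨k, hk⟩ : ∃ k, finrank F (sp F B) = k + 2 := by
      refine Nat.exists_eq_add_of_le' ?_
      by_contra h
      obtain ⟨b, hb⟩ := (finrank_le_one_iff (K := F) (V := sp F B)).1 (by omega)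
      obtain ⟨v, hv, hn⟩ := hH B hB b
      obtain ⟨t, ht⟩ := hb ⟨v, le_sp hv⟩
      exact hn t (congrArg Subtype.val ht).symm
    have hle := hi.2 _ ts
    by_contra hcon
    obtain ⟨m, rfl⟩ := Nat.exists_eq_add_of_le' hM.hν
    have hd3 := hM.hd
    have s1 := sum_ts (c := 𝔮 ^ 2 + 1) (k := k) hi hf hd (by omega) (hI.ts (k + 2))
      ⟨B, Finset.mem_filter.2 ⟨hB, ts, hk⟩⟩ (fun C hC => (Finset.mem_filter.1 hC).2) (by
        by_cases hkm : k < m
        · refine le_trans ?_ (Nat.mul_le_mul_right _ (pow_sub_le (by omega) (Nat.succ_lt_succ hkm)))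
          have : 𝔮 ≤ 𝔮 ^ (m + d) := Nat.le_self_pow (by omega) _
          have : 𝔮 ^ 2 + 1 ≤ 𝔮 * (𝔮 ^ (m + d) + 1) := by nlinarith
          calc _ ≤ 𝔮 * (𝔮 ^ (m + d) + 1) * (𝔮 ^ (k + 1) - 1) := Nat.mul_le_mul_right _ this
            _ = _ := by ring
        · obtain rfl : k = m := by omega
          have : 2 ≤ k + d := by
            by_contra h
            exact hcon ⟨by omega, ts, hk⟩
          rw [mul_comm]
          exact Nat.mul_le_mul_left _ (Nat.succ_le_succ (Nat.pow_le_pow_right (by omega) this)))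
    have s2 := (Finset.sum_le_sum_of_subset (f := fun B : AddSubgroup V => Nat.card B)
      (Finset.filter_subset (Ts f (k + 2)) 𝓑)).trans_lt hlt
    have s3 := ((Nat.le_add_right _ _).trans s1).trans_lt s2
    rw [e1, show m + 1 + d = m + 2 - 1 + d by omega, e4] at s3
    zify [h4] at s3 ha hc
    have hq : (2 : ℤ) ≤ 𝔮 := by omega
    generalize (𝔮 : ℤ) = q at *
    have k1 : 0 ≤ (a - 1 : ℤ) * (q ^ 2 * (c * q ^ 2 + 1)) := by positivity
    have k2 : 0 ≤ (a * q ^ 3 + c * q ^ 2 : ℤ) * (q - 1) := mul_nonneg (by positivity) (by omega)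
    have k3 : 0 ≤ (M : ℤ) * (q - 2) := mul_nonneg (by positivity) (by omega)
    nlinarith
  by_cases hall : ∀ B ∈ 𝓑, B = ⊤
  · exact Or.inl hall
  push Not at hall
  obtain ⟨B, hB, hB'⟩ := hall
  obtain ⟨h3, hts⟩ := each B hB hB'
  obtain ⟨rfl, haq⟩ := exc_a q2 h3 hM.hν e1 e2
  obtain ⟨s1, s2⟩ := sum_exc hi hf hd hM.hν h3 (hI.ts ν) ⟨B, Finset.mem_filter.2 ⟨hB, hts⟩⟩
    fun C hC => (Finset.mem_filter.1 hC).2
  have s3 : (𝔮 + 1) * (𝔮 ^ 2 + 1) * (a * 𝔮 ^ 2) ≤ ∑ B ∈ 𝓑.filter (Ts f ν), Nat.card B := by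
    rw [e1, Nat.mul_sub_one] at s2
    have : (𝔮 + 1) * (𝔮 ^ 2 + 1) ≤ (𝔮 + 1) * (𝔮 ^ 2 + 1) * (a * 𝔮 ^ 2) := Nat.le_mul_of_pos_right _ h4
    omega
  refine Or.inr ⟨h3, ?_, fun C hC => (each C hC fun e => ?_).2⟩
  · by_contra h
    have := hM.h2 (by omega) (by have := hM.hν; omega)
    have s4 := s3.trans_lt ((Finset.sum_le_sum_of_subset (f := fun B : AddSubgroup V => Nat.card B)
      (Finset.filter_subset (Ts f ν) 𝓑)).trans_lt hlt)
    rw [pow_succ, e2, e3] at this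
    rcases (by omega : 𝔮 = 2 ∨ 𝔮 = 3) with e | e <;> rw [e] at this s4 haq <;> omega
  · subst e
    have hn : ⊤ ∉ 𝓑.filter (Ts f ν) := fun h => by
      have := (Finset.mem_filter.1 h).2.2
      rw [show sp F (⊤ : AddSubgroup V) = ⊤ from sp_sub ⊤, finrank_top] at this
      have := hM.hν
      omega
    have s4 := (Finset.sum_le_sum_of_subset (f := fun B : AddSubgroup V => Nat.card B)
      (Finset.insert_subset hC (Finset.filter_subset (Ts f ν) 𝓑))).trans_lt hlt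
    rw [Finset.sum_insert hn, AddSubgroup.card_top, Module.natCard_eq_pow_finrank (K := F), hd, e3] at s4
    have s5 := (Nat.add_le_add_left s3 _).trans_lt s4
    zify at s5 ha
    have hq : (2 : ℤ) ≤ 𝔮 := by omega
    generalize (𝔮 : ℤ) = q at *
    have k1 := mul_lt_mul_of_pos_right s5 (by omega : (0 : ℤ) < q - 1)
    have k2 : 0 ≤ (a * q ^ 2 : ℤ) * (q ^ 3 * (q - 1) - q - 1) :=
      mul_nonneg (by positivity) (by nlinarith [pow_le_pow_left₀ (by norm_num) hq 3])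
    have k3 : 0 ≤ q ^ 3 := by positivity
    simp only [Nat.cast_one] at h1
    linarith

end CA.H12Om
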