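import Cfsg.Agent.Lib.Lin.H12Om2
import Cfsg.Agent.Lib.Lin.H12Om5

/-!
Minimal degree of the orthogonal groups, part 6: the action of the unipotent radical of a point stabiliser.
-/

set_option autoImplicit false
set_option linter.unusedSectionVars false

namespace CA.H12Om

open Module CA.CForm CA.CForm.Form

universe u

theorem reps {W Z : Type*} [AddCommGroup W] [Finite W] [AddAction W Z] (Ω : Finset Z)
    (hΩ : ∀ w : W, ∀ ω ∈ Ω, w +ᵥ ω ∈ Ω) : ∃ R : Finset Z, R ⊆ Ω ∧ (∀ ω ∈ Ω, ∃ ρ ∈ R, ∃ w : W, ω = w +ᵥ ρ) ∧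
      (∀ ρ ∈ R, ∀ ρ' ∈ R, ∀ w : W, ρ' = w +ᵥ ρ → ρ' = ρ) ∧ Ω.card = ∑ ρ ∈ R, (AddAction.stabilizer W ρ).index := by
  classical
  let r : Z → Z := fun ω => (Quotient.mk (AddAction.orbitRel W Z) ω).out
  have r1 : ∀ ω, r ω ∈ AddAction.orbit W ω := fun ω => Quotient.mk_out (s := AddAction.orbitRel W Z) ω
  have r2 : ∀ ω ω', r ω = r ω' ↔ ω ∈ AddAction.orbit W ω' := fun ω ω' =>
    ⟨fun h => Quotient.exact (Quotient.out_injective h), fun h => congrArg Quotient.out (Quotient.sound h)⟩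
  have r3 : ∀ ω, r (r ω) = r ω := fun ω => (r2 _ _).2 (r1 ω)
  refine ⟨Ω.image r, fun ρ h => ?_, fun ω h => ⟨r ω, Finset.mem_image_of_mem _ h, ?_⟩, fun ρ h ρ' h' w e => ?_, ?_⟩
  · obtain ⟨ω, hω, rfl⟩ := Finset.mem_image.1 h
    obtain ⟨w, e⟩ := r1 ω
    exact e ▸ hΩ w ω hω
  · obtain ⟨w, e⟩ := (r2 _ _).1 (r3 ω).symm
    exact ⟨w, e.symm⟩
  · obtain ⟨ω, -, rfl⟩ := Finset.mem_image.1 h
    obtain ⟨ω', -, rfl⟩ := Finset.mem_image.1 h'
    rw [← r3 ω, ← r3 ω']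
    exact (r2 _ _).2 ⟨w, e.symm⟩
  · rw [Finset.card_eq_sum_card_image r]
    refine Finset.sum_congr rfl fun ρ h => ?_
    obtain ⟨ω, hω, rfl⟩ := Finset.mem_image.1 h
    rw [AddAction.index_stabilizer, ← Set.ncard_coe_finset]
    congr 1
    ext z
    simp only [Finset.coe_filter, Set.mem_ofPred_eq]
    refine ⟨fun h => (r2 _ _).1 (h.2.trans (r3 ω).symm), fun h => ⟨?_, ((r2 _ _).2 h).trans (r3 ω)⟩⟩
    obtain ⟨w, rfl⟩ := h
    obtain ⟨w', e⟩ := r1 ω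
    exact hΩ _ _ (e ▸ hΩ w' ω hω)

variable {F : Type*} [Field F] [Finite F] {V : Type u} [AddCommGroup V] [Module F V] [FiniteDimensional F V]
  {f : Form (Kind.orth F) V}

local notation:75 g:76 " ⊳ " v:75 => (g : V ≃ₗ[F] V) v
local notation "𝔮" => Nat.card F
local notation "𝛙" => AddChar.FiniteField.primitiveChar_to_Complex F

/-- The annihilator of an additive subgroup. -/
def dual (f : Form (Kind.orth F) V) (A : AddSubgroup V) : AddSubgroup V where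
  carrier := {b | ∀ a ∈ A, 𝛙 (f.B b a) = 1}
  zero_mem' a _ := by simp
  add_mem' {b c} hb hc a ha := by rw [B_add_left, AddChar.map_add_eq_mul, hb a ha, hc a ha, one_mul]
  neg_mem' {b} hb a ha := by rw [B_neg_left, ← map_neg]; exact hb _ (neg_mem ha)

theorem card_dual (hf : f.Nondeg) (A : AddSubgroup V) : Nat.card (dual f A) * Nat.card A = Nat.card V := by
  classical
  have : Finite V := Module.finite_of_finite F
  have := Fintype.ofFinite V
  have h1 : ∀ a : A, ∑ b : V, 𝛙 (f.B b a) = if a = 0 then (Fintype.card V : ℂ) else 0 := fun a => by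
    split_ifs with h
    · simp [h]
    · have := (AddChar.sum_eq_zero_iff_ne_zero (ψ := AddChar.compAddMonoidHom 𝛙 (f.B a).toAddMonoidHom)).2 (by
        obtain ⟨t, ht⟩ := AddChar.ne_one_iff.1 (AddChar.FiniteField.primitiveChar_to_Complex_isPrimitive F one_ne_zero)
        obtain ⟨y, hy⟩ := hf.exists_B_ne_zero (x := (a : V)) fun e => h (Subtype.ext e)
        refine AddChar.ne_zero_iff.2 ⟨(t / f.B a y) • y, ?_⟩
        simpa [hy] using ht)
      simpa [Bc f _ (a : V)] using this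
  have h2 : ∀ b : V, ∑ a : A, 𝛙 (f.B b a) = if b ∈ dual f A then (Fintype.card A : ℂ) else 0 := fun b => by
    split_ifs with h
    · rw [Finset.sum_congr rfl fun a _ => h a.1 a.2]; simp
    · have := (AddChar.sum_eq_zero_iff_ne_zero
        (ψ := AddChar.compAddMonoidHom 𝛙 ((f.B b).toAddMonoidHom.comp A.subtype))).2 (by
        by_contra h0
        exact h fun a ha => DFunLike.congr_fun h0 ⟨a, ha⟩)
      simpa using this
  have h3 := Finset.sum_comm (s := Finset.univ) (t := Finset.univ) (f := fun (b : V) (a : A) => 𝛙 (f.B b a))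
  simp only [h1, h2, Finset.sum_ite_eq', Finset.mem_univ, if_true, ← Finset.sum_filter, Finset.sum_const,
    nsmul_eq_mul] at h3
  rw [Nat.card_eq_fintype_card, Nat.card_eq_fintype_card, Nat.card_eq_fintype_card, Fintype.card_subtype]
  exact_mod_cast h3

theorem dual_dual (hf : f.Nondeg) (A : AddSubgroup V) : dual f (dual f A) = A := by
  have : Finite V := Module.finite_of_finite F
  refine (AddSubgroup.eq_of_le_of_card_ge (fun a ha b hb => by rw [Bc]; exact hb a ha) (le_of_eq ?_)).symm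
  refine Nat.eq_of_mul_eq_mul_right (Nat.card_pos (α := dual f A)) ?_
  rw [card_dual hf, mul_comm, card_dual hf]

theorem mem_of_perp (hf : f.Nondeg) {A : AddSubgroup V} {w : V} (h : ∀ b ∈ dual f A, f.B w b = 0) : w ∈ A := by
  rw [← dual_dual hf A]
  intro b hb
  rw [h b hb, AddChar.map_zero_eq_one]

theorem index_eq (hf : f.Nondeg) (A : AddSubgroup V) : A.index = Nat.card (dual f A) := by
  have : Finite V := Module.finite_of_finite F
  refine Nat.eq_of_mul_eq_mul_right (Nat.card_pos (α := A)) ?_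
  rw [card_dual hf, A.index_mul_card]

variable {Z : Type*} [MulAction f.Isom Z] {e y : V}

local notation "𝐖" e "," y:max => f.perp (Submodule.span F {e, y})

theorem We (w : 𝐖 e,y) : f.B e w = 0 := (f.mem_perp_span_pair.1 w.2).1
theorem Wy (w : 𝐖 e,y) : f.B y w = 0 := (f.mem_perp_span_pair.1 w.2).2

variable (Z) in
/-- The action of the unipotent radical. -/
@[reducible] noncomputable def qa (hy : f.IsHyp e y) : AddAction (𝐖 e,y) Z where
  vadd w ω := ee f e w • ω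
  zero_vadd ω := by change ee f e 0 • ω = ω; rw [ee_zero, one_smul]
  add_vadd w w' ω := by
    change ee f e (w + w') • ω = ee f e w • ee f e w' • ω
    rw [← ee_mul hy.1 (We w) (We w'), mul_smul]

/-- The point stabiliser in the unipotent radical. -/
noncomputable def al (hy : f.IsHyp e y) (ω : Z) : AddSubgroup (𝐖 e,y) := @AddAction.stabilizer _ Z _ (qa Z hy) ω

theorem mem_al (hy : f.IsHyp e y) {ω : Z} {w : 𝐖 e,y} : w ∈ al hy ω ↔ ee f e w • ω = ω := Iff.rfl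

/-- Its annihilator. -/
noncomputable def be (hy : f.IsHyp e y) (ω : Z) : AddSubgroup (𝐖 e,y) := dual (f.restrict _) (al hy ω)

theorem be_tr (hy : f.IsHyp e y) {g : f.Isom} {a : F} (ha : a ≠ 0) (hg : g ⊳ e = a • e) {t : (f.restrict (𝐖 e,y)).Isom}
    (ht : ∀ w : 𝐖 e,y, g ⊳ w = t.1 w) (ω : Z) (v : 𝐖 e,y) : a⁻¹ • t.1 v ∈ be hy (g • ω) ↔ v ∈ be hy ω := by
  have h1 : ∀ w : 𝐖 e,y, a • t.1 w ∈ al hy (g • ω) ↔ w ∈ al hy ω := fun w => by
    have := ee_conj g hy.1 (We w)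
    rw [hg, ht, ee_smul hy.1 (We _)] at this
    rw [mem_al, mem_al, Submodule.coe_smul, ← this, mul_smul, mul_smul, inv_smul_smul, smul_left_cancel_iff]
  have h2 : ∀ w : 𝐖 e,y, (f.restrict _).B (a⁻¹ • t.1 v) (a • t.1 w) = (f.restrict _).B v w := fun w => by
    rw [Bl, map_smul, B_coe_map, smul_eq_mul, inv_mul_cancel_left₀ ha]
  refine ⟨fun h w hw => h2 w ▸ h _ ((h1 w).2 hw), fun h w hw => ?_⟩
  obtain ⟨w', rfl⟩ : ∃ w', w = a • t.1 w' := ⟨a⁻¹ • t.1.symm w, by simp [smul_smul, ha]⟩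
  rw [h2]; exact h _ ((h1 w').1 hw)

theorem exists_res {g : f.Isom} {a : F} (ha : a ≠ 0) (hg : g ⊳ e = a • e) (hg' : g ⊳ y = a⁻¹ • y) :
    ∃ t : (f.restrict (𝐖 e,y)).Isom, ∀ w : 𝐖 e,y, g ⊳ w = t.1 w :=
  ⟨f.resIsom _ ⟨g, f.mem_stab_of_le fun w hw => by
    obtain ⟨h1, h2⟩ := f.mem_perp_span_pair.1 hw
    rw [← f.B_coe_map g, hg, Bl] at h1
    rw [← f.B_coe_map g, hg', Bl] at h2
    exact f.mem_perp_span_pair.2 ⟨(mul_eq_zero.1 h1).resolve_left ha,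
      (mul_eq_zero.1 h2).resolve_left (inv_ne_zero ha)⟩⟩, fun _ => rfl⟩

theorem be_vadd (hy : f.IsHyp e y) (w : 𝐖 e,y) (ω : Z) : be hy (ee f e w • ω) = be hy ω := by
  unfold be
  congr 1
  ext v
  rw [mem_al, mem_al, ← mul_smul, ee_mul hy.1 (We v) (We w), add_comm, ← ee_mul hy.1 (We w) (We v), mul_smul,
    smul_left_cancel_iff]

theorem lev_dec (hy : f.IsHyp e y) {X : Subgroup f.Isom} {w : V} (hw : f.B e w = 0) :
    ∃ w' : 𝐖 e,y, w = w' + f.B y w • e ∧ (f.Lev X e w ↔ ee f e w' ∈ X) := by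
  refine ⟨⟨w - f.B y w • e, f.mem_perp_span_pair.2 ⟨by simp [hw, hy.B_xx], by simp [Bc f y e, hy.3]⟩⟩, by simp, ?_⟩
  rw [← lev_iff hy.1 (We _)]
  exact ⟨fun h => h.sub (lev_smul_self hy.1 _), fun h => by simpa using h.add (lev_smul_self hy.1 (f.B y w))⟩

variable {Ω : Finset Z} {ν d M : ℕ}

theorem inv_be [DecidableEq (AddSubgroup (𝐖 e,y))] (hy : f.IsHyp e y) (hΩ : ∀ g ∈ f.Eich, ∀ ω ∈ Ω, g • ω ∈ Ω) :
    Inv (f.restrict _) (Ω.image (be hy)) := fun t ht B hB => by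
  obtain ⟨ω, hω, rfl⟩ := Finset.mem_image.1 hB
  refine Finset.mem_image.2 ⟨_, hΩ _ (extRight_mem_Eich hy.isCompl ht) ω hω, ?_⟩
  ext v
  have := be_tr hy (g := f.extRight hy.isCompl t) one_ne_zero
    (by rw [one_smul]; exact f.extRight_apply_left _ _ (Submodule.subset_span (by simp)))
    (f.extRight_apply_right hy.isCompl t) ω ((t⁻¹).1 v)
  rw [inv_one, one_smul, isom_apply_inv_apply] at this
  exact this

theorem exists_R [DecidableEq (AddSubgroup (𝐖 e,y))] (hf : f.Nondeg) (hy : f.IsHyp e y)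
    (hΩ : ∀ g ∈ f.Eich, ∀ ω ∈ Ω, g • ω ∈ Ω) : ∃ R : Finset Z, R ⊆ Ω ∧
      (∀ ω ∈ Ω, ∃ ρ ∈ R, ∃ w : 𝐖 e,y, ω = ee f e w • ρ) ∧
      (∀ ρ ∈ R, ∀ ρ' ∈ R, ∀ w : 𝐖 e,y, ρ' = ee f e w • ρ → ρ' = ρ) ∧ Ω.card = ∑ ρ ∈ R, Nat.card (be hy ρ) ∧
      Ω.image (be hy) = R.image (be hy) := by
  have : Finite V := Module.finite_of_finite F
  obtain ⟨R, h1, h2, h3, h4⟩ := @reps _ Z _ _ (qa Z hy) Ω fun w ω h => hΩ _ (ee_mem _ _) ω h
  refine ⟨R, h1, h2, h3, h4.trans (Finset.sum_congr rfl fun ρ _ => index_eq (hy.nondeg_perp hf) (al hy ρ)),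
    Finset.Subset.antisymm (fun B hB => ?_) (Finset.image_subset_image h1)⟩
  obtain ⟨ω, hω, rfl⟩ := Finset.mem_image.1 hB
  obtain ⟨ρ, hρ, w, rfl⟩ := h2 ω hω
  exact Finset.mem_image.2 ⟨ρ, hρ, (be_vadd hy w ρ).symm⟩

theorem tri (hi : f.IsIndex (ν + 1)) (hf : f.Nondeg) (hd : finrank F V = 2 * (ν + 1) + d) (hM : Bd 𝔮 ν d M)
    (hΩ : ∀ g ∈ f.Eich, ∀ ω ∈ Ω, g • ω ∈ Ω) (hlt : Ω.card < M)
    (hH : ∀ ω ∈ Ω, ∀ b, ¬ Hy (MulAction.stabilizer f.Isom ω) e b) (hy : f.IsHyp e y) :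
    (∀ ω ∈ Ω, be hy ω = ⊤) ∨ (ν + d = 3 ∧ 4 ≤ 𝔮 ∧ ∀ ω ∈ Ω, Ts (f.restrict _) ν (be hy ω)) := by
  classical
  obtain ⟨R, -, -, -, h4, h5⟩ := exists_R hf hy hΩ
  have h7 : 7 ≤ finrank F V := by have := hM.hν; have := hM.hd; omega
  have := fam (𝓑 := Ω.image (be hy)) (hy.isIndex_perp hf hi) (hy.nondeg_perp hf) (by have := hy.finrank_perp; omega) hM
    (inv_be hy hΩ) (fun a ha => ?_) (fun B hB b => ?_) ?_
  · simpa only [Finset.forall_mem_image] using this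
  · obtain ⟨g, hg, g1, g2⟩ := exists_tor hf hy (by omega) (inv_ne_zero ha)
    obtain ⟨t, ht⟩ := exists_res (inv_ne_zero ha) g1 g2
    refine ⟨t, fun B hB => ?_⟩
    obtain ⟨ω, hω, rfl⟩ := Finset.mem_image.1 hB
    refine ⟨_, Finset.mem_image_of_mem _ (hΩ g hg ω hω), fun v => ?_⟩
    have := be_tr hy (inv_ne_zero ha) g1 ht ω v
    rwa [inv_inv] at this
  · obtain ⟨ω, hω, rfl⟩ := Finset.mem_image.1 hB
    by_contra hc
    push Not at hc
    refine hH ω hω b ⟨We b, fun w w1 w2 => ?_⟩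
    obtain ⟨w', e1, e2⟩ := lev_dec hy (X := MulAction.stabilizer f.Isom ω) w1
    refine e2.2 (mem_of_perp (hy.nondeg_perp hf) (A := al hy ω) (w := w') fun v hv => ?_)
    obtain ⟨a, rfl⟩ := hc v hv
    rw [e1, map_add, map_smul, Bc f b e, We b, smul_zero, add_zero, Bc] at w2
    simp [w2]
  · rw [h5]
    exact (Finset.sum_image_le_of_nonneg fun _ _ => Nat.zero_le _).trans_lt (h4 ▸ hlt)

end CA.H12Om
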