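import Cfsg.Agent.Lib.Lin.H12Om6

/-!
Minimal degree of the orthogonal groups, part 7: the main theorem.
-/

set_option autoImplicit false
set_option linter.unusedSectionVars false

namespace CA.H12Om

open Module CA.CForm CA.CForm.Form

universe u

variable {F : Type*} [Field F] [Finite F] {V : Type u} [AddCommGroup V] [Module F V] [FiniteDimensional F V]
  {f : Form (Kind.orth F) V} {Z : Type*} [MulAction f.Isom Z] {e y : V} {Ω : Finset Z} {ν d M : ℕ}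

local notation:75 g:76 " ⊳ " v:75 => (g : V ≃ₗ[F] V) v
local notation "𝔮" => Nat.card F
local notation "𝐖" e "," y:max => f.perp (Submodule.span F {e, y})

theorem case_R (hf : f.Nondeg) (hd : finrank F V = 2 * (ν + 1) + d) (hM : Bd 𝔮 ν d M)
    (hΩ : ∀ g ∈ f.Eich, ∀ ω ∈ Ω, g • ω ∈ Ω) (hlt : Ω.card < M) (hne : Ω.Nonempty) (hy : f.IsHyp e y)
    (h : ∀ ω ∈ Ω, be hy ω = ⊤) : False := by
  classical
  have h7 : 7 ≤ finrank F V := by have := hM.hν; have := hM.hd; omega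
  obtain ⟨ω0, h0⟩ := hne
  have hal : ∀ ω ∈ Ω, ∀ w : 𝐖 e,y, ee f e w • ω = ω → w = 0 := fun ω hω w hw => by
    have h1 := index_eq (hy.nondeg_perp hf) (al hy ω)
    have h2 : dual (f.restrict _) (al hy ω) = ⊤ := h ω hω
    have : Finite V := Module.finite_of_finite F
    rw [h2, AddSubgroup.card_top, ← (al hy ω).index_mul_card] at h1
    have h3 : Nat.card (al hy ω) = 1 :=
      (Nat.eq_of_mul_eq_mul_left (Nat.pos_of_ne_zero AddSubgroup.index_ne_zero_of_finite) (by rw [← h1, mul_one])).symm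
    have h4 : w ∈ al hy ω := hw
    rwa [AddSubgroup.eq_bot_of_card_eq _ h3] at h4
  refine no_compl (X := MulAction.stabilizer f.Isom ω0) hf h7 hy (fun x w hx x0 hl => ?_) fun g hg => ?_
  · obtain ⟨g, hg, a, a0, e1⟩ := hf.exists_Eich_smul (Or.inl (by omega)) hx x0 hy.1 hy.x_ne_zero
    have h1 : ee f x w • ω0 = ω0 := (lev_iff hx hl.B_eq).1 hl
    have h2 : f.B e (g ⊳ w) = 0 := by
      have := hl.B_eq
      rw [← f.B_coe_map g, e1, Bl] at this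
      exact (mul_eq_zero.1 this).resolve_left a0
    have h3 : f.Lev (MulAction.stabilizer f.Isom (g • ω0)) e (a • g ⊳ w) := by
      rw [lev_iff hy.1 (by simp [h2]), ← ee_smul hy.1 h2, ← e1, ← ee_conj g hx hl.B_eq, MulAction.mem_stabilizer_iff,
        mul_smul, mul_smul, inv_smul_smul, h1]
    obtain ⟨w', e2, e3⟩ := lev_dec hy (X := MulAction.stabilizer f.Isom (g • ω0)) h3.B_eq
    rw [hal _ (hΩ g hg _ h0) w' (e3.1 h3), Submodule.coe_zero, zero_add] at e2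
    refine ⟨a⁻¹ * f.B y (a • g ⊳ w) * a⁻¹, (g : V ≃ₗ[F] V).injective ?_⟩
    rw [map_smul (g : V ≃ₗ[F] V), e1, smul_smul, inv_mul_cancel_right₀ a0, mul_smul, ← e2, smul_smul, inv_mul_cancel₀ a0,
      one_smul]
  · obtain ⟨R, h1, h2, -, h4, -⟩ := exists_R hf hy hΩ
    have h5 : Ω.card = R.card * 𝔮 ^ (2 * ν + d) := by
      rw [h4, ← smul_eq_mul, ← Finset.sum_const]
      refine Finset.sum_congr rfl fun ρ hρ => ?_
      rw [h ρ (h1 hρ), AddSubgroup.card_top, card_sub]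
      congr 1
      have := hy.finrank_perp; omega
    have h6 : R.card ≤ 1 := by
      have := hlt.trans_le (hM.two one_lt_natCard)
      rw [h5] at this
      have := Nat.lt_of_mul_lt_mul_right this
      omega
    obtain ⟨ρ, hρ, w, e1⟩ := h2 _ h0
    obtain ⟨ρ', hρ', w', e2⟩ := h2 _ (hΩ g hg _ h0)
    rw [Finset.card_le_one.1 h6 _ hρ' _ hρ] at e2
    refine ⟨w - w', We (w - w'), Wy (w - w'), ?_⟩
    rw [MulAction.mem_stabilizer_iff, mul_smul, e2, ← mul_smul, ee_mul hy.1 (w := (w : V) - w') (We (w - w')) (We w'),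
      sub_add_cancel, ← e1]

theorem fr_sup {U : Submodule F V} {v : V} (h : v ∉ U) : finrank F (U ⊔ F ∙ v : Submodule F V) = finrank F U + 1 := by
  have v0 : v ≠ 0 := fun e => h (e ▸ zero_mem _)
  have e3 := Submodule.finrank_sup_add_finrank_inf_eq U (F ∙ v)
  rw [((Submodule.disjoint_span_singleton' v0).2 h).eq_bot, finrank_bot, finrank_span_singleton v0] at e3
  omega

theorem sum_pred {W α : Type*} [AddCommGroup W] [Finite W] (S : Finset α) (g : α → AddSubgroup W) :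
    ∑ x ∈ S, Nat.card (g x) = ∑ x ∈ S, (Nat.card (g x) - 1) + S.card := by
  rw [Finset.card_eq_sum_ones, ← Finset.sum_add_distrib]
  exact Finset.sum_congr rfl fun x _ => (Nat.sub_add_cancel Nat.card_pos).symm

theorem exists_fixed (hi : f.IsIndex (ν + 1)) (hf : f.Nondeg) (hd : finrank F V = 2 * (ν + 1) + d) (hM : Bd 𝔮 ν d M)
    (hΩ : ∀ g ∈ f.Eich, ∀ ω ∈ Ω, g • ω ∈ Ω) (hlt : Ω.card < M) (hne : Ω.Nonempty) (hy : f.IsHyp e y) (h3 : ν + d = 3)
    (h : ∀ ω ∈ Ω, Ts (f.restrict _) ν (be hy ω)) {a : Fˣ} (ha : (a : F) ≠ 1) (ht : hy.torus a ∈ f.Eich) :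
    ∃ ω ∈ Ω, hy.torus a • ω = ω := by
  classical
  have tw : ∀ w : 𝐖 e,y, hy.torus a ⊳ w = w := fun w => hy.torus_apply_of_B a (We w) (Wy w)
  suffices H : ∃ ω ∈ Ω, ∃ w : 𝐖 e,y, hy.torus a • ω = ee f e w • ω by
    obtain ⟨ω, hω, w, e1⟩ := H
    have a1 : (1 - a : F) ≠ 0 := sub_ne_zero.2 ha.symm
    refine ⟨ee f e ((1 - a : F)⁻¹ • w : 𝐖 e,y) • ω, hΩ _ (ee_mem _ _) _ hω, ?_⟩
    have := ee_conj (hy.torus a) hy.1 (We ((1 - a : F)⁻¹ • w))
    rw [tw, hy.torus_apply_x, ee_smul hy.1 (We _), mul_inv_eq_iff_eq_mul] at this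
    rw [← mul_smul, this, mul_smul, e1, ← mul_smul, ee_mul hy.1 (by simp [We w]) (We w)]
    congr 2
    rw [Submodule.coe_smul, smul_smul]
    nth_rewrite 2 [← one_smul F (w : V)]
    rw [← add_smul]
    congr 1
    field_simp
    ring
  by_contra hc
  push Not at hc
  obtain ⟨R, h1, h2, h4, h5, h6⟩ := exists_R hf hy hΩ
  have hI := inv_be hy hΩ
  have i1 := hy.isIndex_perp hf hi
  have i2 := hy.nondeg_perp hf
  have i3 : finrank F (𝐖 e,y) = 2 * ν + d := by have := hy.finrank_perp; omega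
  obtain ⟨-, s1⟩ := sum_exc i1 i2 i3 hM.hν h3 hI (hne.image _) (by simpa only [Finset.forall_mem_image] using h)
  obtain ⟨s2, -⟩ := sum_exc (𝓑 := (Ω.image (be hy)).image fun B => (sp F B).toAddSubgroup) i1 i2 i3 hM.hν h3
    (fun g hg C hC => by
      obtain ⟨B, hB, rfl⟩ := Finset.mem_image.1 hC
      exact Finset.mem_image.2 ⟨_, hI g hg B hB, by rw [sp_mv, mv_sub]⟩) ((hne.image _).image _) fun C hC => by
      obtain ⟨B, hB, rfl⟩ := Finset.mem_image.1 hC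
      obtain ⟨ω, hω, rfl⟩ := Finset.mem_image.1 hB
      unfold Ts
      rw [sp_sub]; exact h ω hω
  rw [h6] at s1 s2
  rw [Finset.image_image] at s2
  have s3 := Finset.mul_card_image_le_card (f := (fun B => (sp F B).toAddSubgroup) ∘ be hy) R 2 fun C hC => by
    obtain ⟨ρ, hρ, rfl⟩ := Finset.mem_image.1 hC
    obtain ⟨ρ', hρ', w, e1⟩ := h2 _ (hΩ _ ht _ (h1 hρ))
    refine Finset.one_lt_card.2 ⟨ρ, Finset.mem_filter.2 ⟨hρ, rfl⟩, ρ', Finset.mem_filter.2 ⟨hρ', ?_⟩,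
      fun e2 => hc ρ (h1 hρ) w (e2 ▸ e1)⟩
    have k := be_tr hy (g := hy.torus a) a.ne_zero (hy.torus_apply_x a) (t := 1) tw ρ
    rw [e1, be_vadd] at k
    simp only [Function.comp]
    congr 1
    refine le_antisymm (Submodule.span_le.2 fun v hv => ?_) (Submodule.span_le.2 fun v hv => ?_)
    · have := Submodule.smul_mem (sp F (be hy ρ)) (a : F)⁻¹ (le_sp ((k ((a : F) • v)).1 (by simpa using hv)))
      simpa using this
    · have := Submodule.smul_mem (sp F (be hy ρ')) (a : F) (le_sp ((k v).2 hv))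
      simpa using this
  have : Finite V := Module.finite_of_finite F
  have s4 := Finset.sum_image_le_of_nonneg (s := R) (g := be hy) (f := fun B => Nat.card B - 1) fun _ _ => Nat.zero_le _
  have s6 := sum_pred R (be hy)
  have s7 := sum_pred (R.image (be hy)) id
  simp only [id] at s7
  have q2 : 2 ≤ 𝔮 := one_lt_natCard
  obtain ⟨a', c, ha', hc', e1, e2, -, -, -, k1⟩ := hM.par q2
  obtain ⟨rfl, haq⟩ := exc_a q2 h3 hM.hν e1 e2
  have s8 : (𝔮 + 1) * (𝔮 ^ 2 + 1) * (𝔮 ^ ν - 1) + 2 * ((𝔮 + 1) * (𝔮 ^ 2 + 1)) < M := by omega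
  have k2 : 1 ≤ a' * 𝔮 ^ 2 := Nat.mul_pos ha' (by positivity)
  rw [e1] at s8
  zify [k2] at s8 haq
  have hq : (2 : ℤ) ≤ 𝔮 := by omega
  generalize (𝔮 : ℤ) = q at *
  have k3 := mul_lt_mul_of_pos_right s8 (by omega : (0 : ℤ) < q - 1)
  have k4 : 0 ≤ (q - a') * (q ^ 3 + q ^ 2) := mul_nonneg (by omega) (by positivity)
  simp only [Nat.cast_one] at k1
  linarith

theorem exists_Hy (hi : f.IsIndex (ν + 1)) (hf : f.Nondeg) (hd : finrank F V = 2 * (ν + 1) + d) (hM : Bd 𝔮 ν d M)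
    (hΩ : ∀ g ∈ f.Eich, ∀ ω ∈ Ω, g • ω ∈ Ω) (hlt : Ω.card < M) (hne : Ω.Nonempty) :
    ∃ ω ∈ Ω, ∃ e b, f.Q e = 0 ∧ e ≠ 0 ∧ Hy (MulAction.stabilizer f.Isom ω) e b := by
  by_contra hc
  push Not at hc
  have h7 : 7 ≤ finrank F V := by have := hM.hν; have := hM.hd; omega
  have all : ∀ {e y} (hy : f.IsHyp e y), ν + d = 3 ∧ 4 ≤ 𝔮 ∧ ∀ ω ∈ Ω, Ts (f.restrict _) ν (be hy ω) := fun hy =>
    (tri hi hf hd hM hΩ hlt (fun ω hω b => hc ω hω _ b hy.1 hy.x_ne_zero) hy).resolve_left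
      (case_R hf hd hM hΩ hlt hne hy)
  obtain ⟨e, y, hy⟩ := hi.exists_isHyp hf (by omega)
  obtain ⟨h3, h4, h5⟩ := all hy
  obtain ⟨m, hm⟩ : ∃ m : Fˣ, ((m * m : Fˣ) : F) ≠ 1 := by
    classical
    by_contra h
    push Not at h
    have := Fintype.ofFinite F
    have h1 : (Finset.univ : Finset F) ⊆ {0, 1, -1} := fun x _ => by
      by_cases x0 : x = 0
      · simp [x0]
      · rcases mul_self_eq_one_iff.1 (h (Units.mk0 x x0)) with e | e <;> simp_all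
    have := (Finset.card_le_card h1).trans Finset.card_le_three
    rw [Finset.card_univ, ← Nat.card_eq_fintype_card] at this
    omega
  obtain ⟨ω, hω, ht⟩ := exists_fixed hi hf hd hM hΩ hlt hne hy h3 h5 hm (hy.torus_mul_self_mem_Eich hf (by omega) m)
  generalize m * m = a at hm ht
  refine (tor_full (X := MulAction.stabilizer f.Isom ω) hf h7 hy fun x qx ex yx => ?_).elim
    (fun ⟨b, hb⟩ => hc ω hω e b hy.1 hy.x_ne_zero hb) fun ⟨b, hb⟩ => hc ω hω y b hy.2 hy.y_ne_zero hb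
  by_cases x0 : x = 0
  · exact Or.inl (x0 ▸ lev_zero hy.1)
  have hm' : x ∈ 𝐖 e,y := f.mem_perp_span_pair.2 ⟨ex, yx⟩
  obtain ⟨x', hx', qx', bx⟩ := hf.exists_partner_perp qx
    (fun hu => x0 (Submodule.disjoint_def.1 hy.isCompl.disjoint x hu hm')) hm'
  obtain ⟨ex', yx'⟩ := f.mem_perp_span_pair.1 hx'
  have hp : f.IsHyp x x' := ⟨qx, qx', bx⟩
  obtain ⟨t1, t2⟩ := (all hp).2.2 ω hω
  have tx : hy.torus a ⊳ x = (1 : F) • x := by rw [one_smul]; exact hy.torus_apply_of_B a ex yx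
  obtain ⟨t, htw⟩ := exists_res one_ne_zero tx (y := x') (by rw [inv_one, one_smul]; exact hy.torus_apply_of_B a ex' yx')
  have k := be_tr hp one_ne_zero tx htw ω
  simp only [inv_one, one_smul, ht] at k
  obtain ⟨v, hv, hne'⟩ : ∃ v ∈ be hp ω, ¬ (f.B e v = 0 ∧ f.B y v = 0) := by
    by_contra h
    push Not at h
    set T := (sp F (be hp ω)).map (𝐖 x,x').subtype with hT
    have p1 : ∀ v ∈ T, f.B x v = 0 ∧ f.B x' v = 0 ∧ f.B e v = 0 ∧ f.B y v = 0 := by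
      rintro _ ⟨v, hv, rfl⟩
      refine ⟨We v, Wy v, ?_⟩
      exact Submodule.span_induction (p := fun v _ => f.B e (v : 𝐖 x,x') = 0 ∧ f.B y (v : 𝐖 x,x') = 0) h (by simp)
        (fun _ _ _ _ h1 h2 => by simp [h1.1, h1.2, h2.1, h2.2]) (fun _ _ _ h1 => by simp [h1.1, h1.2]) hv
    have p2 : f.TS T := t1.map (pres_comap f _)
    have p3 := (p2.sup_singleton qx fun v hv => f.eq_zero_symm (p1 v hv).1).sup_singleton hy.1 (by
      rw [perp_sup]
      exact ⟨fun v hv => f.eq_zero_symm (p1 v hv).2.2.1, f.mem_perp_span_singleton.2 (f.eq_zero_symm ex)⟩)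
    have p4 := hi.2 _ p3
    rw [fr_sup fun hm => ?_, fr_sup fun hm => ?_, hT, Submodule.finrank_map_subtype_eq, t2] at p4
    · omega
    · have := (p1 x hm).2.1
      rw [Bc, bx] at this; exact one_ne_zero this
    · obtain ⟨v, hv, w, hw, e1⟩ := Submodule.mem_sup.1 hm
      obtain ⟨s, rfl⟩ := Submodule.mem_span_singleton.1 hw
      have := congrArg (f.B y) e1
      simp [(p1 v hv).2.2.2, yx, Bc f y e, hy.3] at this
  have eW : e ∈ 𝐖 x,x' := f.mem_perp_span_pair.2 ⟨f.eq_zero_symm ex, f.eq_zero_symm ex'⟩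
  have yW : y ∈ 𝐖 x,x' := f.mem_perp_span_pair.2 ⟨f.eq_zero_symm yx, f.eq_zero_symm yx'⟩
  have u1 := sub_mem ((k v).2 hv) hv
  have u2 : ((t.1 v - v : 𝐖 x,x') : V) = (((a : F) - 1) * f.B y v) • e + (((a : F)⁻¹ - 1) * f.B e v) • y := by
    rw [Submodule.coe_sub, ← htw, hy.torus_apply]; simp; abel
  have u3 := t1.1 _ (le_sp u1)
  rw [restrict_Q, u2, hy.Q_comb] at u3
  have a1 : (a : F) - 1 ≠ 0 := sub_ne_zero.2 hm
  have a2 : (a : F)⁻¹ - 1 ≠ 0 := sub_ne_zero.2 fun h => hm (inv_eq_one.1 h)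
  have fin : ∀ (z : V) (hz : z ∈ 𝐖 x,x') (c : F), f.Q z = 0 → c ≠ 0 → ((t.1 v - v : 𝐖 x,x') : V) = c • z →
      f.Lev (MulAction.stabilizer f.Isom ω) z x := fun z hz c qz c0 e1 => by
    refine lev_swap qx qz ((lev_iff qx (We ⟨z, hz⟩)).2 (mem_of_perp (hp.nondeg_perp hf) (A := al hp ω) (w := ⟨z, hz⟩)
      fun b hb => ?_))
    have := t1.2 _ (le_sp u1) _ (le_sp hb)
    rw [restrict_B, e1, Bl] at this
    exact (mul_eq_zero.1 this).resolve_left c0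
  by_cases h0 : f.B e v = 0
  · exact Or.inl (fin e eW _ hy.1 (mul_ne_zero a1 fun h => hne' ⟨h0, h⟩) (by rw [u2, h0]; simp))
  · have h1 : f.B y v = 0 := by simpa [a1, a2, h0] using u3
    exact Or.inr (fin y yW _ hy.2 (mul_ne_zero a2 h0) (by rw [u2, h1]; simp))

theorem lb_ts (hi : f.IsIndex (ν + 1)) (hf : f.Nondeg) (hd : finrank F V = 2 * (ν + 1) + d) (hM : Bd 𝔮 ν d M) {k : ℕ}
    (hk : k ≤ ν) : LB f (k + 1) M := by
  have q2 : 2 ≤ 𝔮 := one_lt_natCard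
  have h3 := hM.hd
  have red : ∀ c, 𝔮 ^ (k + 1) - 1 ≤ (𝔮 - 1) * c →
      M * (𝔮 ^ (k + 1) - 1) ≤ (𝔮 ^ (ν + 1) - 1) * (𝔮 ^ (ν + d) + 1) * c := fun c hc =>
    (Nat.mul_le_mul_left _ hc).trans (by rw [← mul_assoc]; exact Nat.mul_le_mul_right _ hM.h1)
  obtain ⟨m, rfl⟩ := Nat.exists_eq_add_of_le' hM.hν
  rcases k with _ | k
  · exact LB.step hi hf hd (by omega) (fun _ _ _ => lb_one 0) (red 1 (by simp))
  by_cases hkm : k ≤ m
  · refine LB.step hi hf hd (by omega) (fun x y hy => lb1 (c := 𝔮 * (𝔮 ^ (m + 1 + d) + 1)) (d := d)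
      (hy.isIndex_perp hf hi) (hy.nondeg_perp hf) (by have := hy.finrank_perp; omega) (by omega) ?_) (red _ ?_)
    · refine le_trans (le_of_eq (by ring)) (Nat.mul_le_mul_right _ (pow_sub_le (k := k + 1) (by omega) (by omega)))
    · have : 𝔮 ^ (k + 1 + 1) ≤ 𝔮 ^ (m + 1 + d + 1) := Nat.pow_le_pow_right (by omega) (by omega)
      refine le_trans ?_ (Nat.le_mul_of_pos_left _ (by omega))
      rw [mul_add, ← pow_succ']
      omega
  obtain rfl : k = m + 1 := by omega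
  refine LB.step hi hf hd (by omega) (fun x y hy => LB.step (c := (𝔮 ^ (m + 1 + d) + 1) * (𝔮 ^ (m + d) + 1)) (d := d)
    (hy.isIndex_perp hf hi) (hy.nondeg_perp hf) (by have := hy.finrank_perp; omega) (by omega)
    (fun x' y' hy' => lb1 (c := 𝔮 ^ (m + d) + 1) (d := d) (hy'.isIndex_perp (hy.nondeg_perp hf) (hy.isIndex_perp hf hi))
      (hy'.nondeg_perp (hy.nondeg_perp hf)) (by have := hy.finrank_perp; have := hy'.finrank_perp; omega) (by omega)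
      (le_of_eq (mul_comm _ _))) (le_of_eq (by ring))) (red _ ?_)
  obtain ⟨s, hs⟩ : ∃ s, m + d = s + 1 := ⟨m + d - 1, by omega⟩
  have e1 : 𝔮 ^ (m + 1 + 1 + 1) ≤ 𝔮 ^ s * 𝔮 ^ 4 := by rw [← pow_add]; exact Nat.pow_le_pow_right (by omega) (by omega)
  rw [show m + 1 + d = s + 2 by omega, hs, pow_add 𝔮 s, pow_add 𝔮 s]
  have e2 : 1 ≤ 𝔮 ^ s := Nat.one_le_pow _ _ (by omega)
  refine (Nat.sub_le_sub_right e1 1).trans ?_
  generalize 𝔮 ^ s = a at *
  zify [(by omega : 1 ≤ 𝔮), (Nat.mul_pos e2 (by positivity) : 1 ≤ a * 𝔮 ^ 4)] at e2 ⊢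
  have hq : (2 : ℤ) ≤ 𝔮 := by omega
  generalize (𝔮 : ℤ) = q at *
  have k1 : 0 ≤ (a - 1 : ℤ) * (a * q ^ 3 * (q - 1) - q) := mul_nonneg (by omega) (by
    have : q ≤ q ^ 3 := le_self_pow₀ (by omega) (by omega)
    have : q ^ 3 ≤ a * q ^ 3 := le_mul_of_one_le_left (by positivity) e2
    nlinarith)
  linarith

theorem card_fam {X : Subgroup f.Isom} (B : AddSubgroup V) (hX : ∀ g ∈ X, mv g B = B) {α : Type*} (φ : f.Isom → α)
    (S : Finset α) (hS : ∀ g ∈ f.Eich, φ g ∈ S) (hφ : ∀ g h, φ g = φ h → h⁻¹ * g ∈ X) :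
    ∃ 𝓑 : Finset (AddSubgroup V), (∀ C, C ∈ 𝓑 ↔ ∃ g ∈ f.Eich, C = mv g B) ∧ Inv f 𝓑 ∧ 𝓑.card ≤ S.card := by
  classical
  have := Fintype.ofFinite f.Isom
  have h1 : ∀ C, C ∈ (Finset.univ.filter (· ∈ f.Eich)).image (fun g => mv g B) ↔ ∃ g ∈ f.Eich, C = mv g B :=
    fun C => by simp [eq_comm]
  refine ⟨_, h1, fun g hg C hC => ?_, ?_⟩
  · obtain ⟨h, hh, rfl⟩ := (h1 C).1 hC
    exact (h1 _).2 ⟨g * h, mul_mem hg hh, (mv_mul _ _ _).symm⟩
  · choose! γ h2 h3 using fun C => (h1 C).1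
    refine Finset.card_le_card_of_injOn (fun C => φ (γ C)) (fun C hC => hS _ (h2 C hC)) fun C hC C' hC' e => ?_
    rw [h3 C hC, h3 C' hC', ← mul_inv_cancel_left (γ C') (γ C), mv_mul, hX _ (hφ _ _ e)]

theorem pt_count {𝓑 : Finset (AddSubgroup V)} (hf : f.Nondeg) (h5 : 5 ≤ finrank F V) {b : V} (b0 : b ≠ 0)
    (h : ∀ C, C ∈ 𝓑 ↔ ∃ g ∈ f.Eich, C = mv g (F ∙ b).toAddSubgroup) (O : Finset V)
    (hO : ∀ v, v ∈ O ↔ v ≠ 0 ∧ ∃ a : F, a ≠ 0 ∧ f.Q v = a * a * f.Q b) : O.card = 𝓑.card * (𝔮 - 1) := by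
  classical
  have := Fintype.ofFinite F
  have m1 : ∀ v ∈ O, (F ∙ v).toAddSubgroup ∈ 𝓑 := fun v hv => by
    obtain ⟨v0, a, a0, e⟩ := (hO v).1 hv
    obtain ⟨g, hg, rfl⟩ := exists_vec hf h5 (v := a • b) (smul_ne_zero a0 b0) v0 (by rw [Qs, e])
    refine (h _).2 ⟨g, hg, ?_⟩
    rw [mv_sub, act_span_singleton, map_smul, Submodule.span_singleton_smul_eq a0.isUnit]
  rw [Finset.card_eq_sum_card_fiberwise (f := fun v => (F ∙ v).toAddSubgroup) (t := 𝓑) m1, ← smul_eq_mul,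
    ← Finset.sum_const]
  refine Finset.sum_congr rfl fun C hC => ?_
  obtain ⟨g, hg, rfl⟩ := (h C).1 hC
  have g0 : g ⊳ b ≠ 0 := by simpa using b0
  rw [mv_sub, act_span_singleton, Nat.card_eq_fintype_card, ← Finset.card_univ,
    ← Finset.card_erase_of_mem (Finset.mem_univ (0 : F))]
  refine (Finset.card_bij (fun a _ => a • g ⊳ b) (fun a ha => ?_) (fun a _ a' _ e => smul_left_injective F g0 e)
    fun v hv => ?_).symm
  · have a0 := (Finset.mem_erase.1 ha).1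
    exact Finset.mem_filter.2 ⟨(hO _).2 ⟨smul_ne_zero a0 g0, a, a0, by rw [Qs, Q_coe_map]⟩,
      by rw [Submodule.span_singleton_smul_eq a0.isUnit]⟩
  · obtain ⟨h1, h2⟩ := Finset.mem_filter.1 hv
    have : v ∈ F ∙ g ⊳ b := by
      rw [← Submodule.toAddSubgroup_injective h2]; exact Submodule.mem_span_singleton_self v
    obtain ⟨a, rfl⟩ := Submodule.mem_span_singleton.1 this
    exact ⟨a, Finset.mem_erase.2 ⟨fun e => ((hO _).1 h1).1 (by rw [e, zero_smul]), Finset.mem_univ _⟩, rfl⟩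

/-- The main theorem. -/
theorem main (hi : f.IsIndex (ν + 1)) (hf : f.Nondeg) (hd : finrank F V = 2 * (ν + 1) + d) (hM : Bd 𝔮 ν d M)
    (hΩ : ∀ g ∈ f.Eich, ∀ ω ∈ Ω, g • ω ∈ Ω) (hne : Ω.Nonempty)
    (hp : ∀ ω ∈ Ω, ¬ f.Eich ≤ MulAction.stabilizer f.Isom ω) : M ≤ Ω.card := by
  by_contra hlt
  have h7 : 7 ≤ finrank F V := by have := hM.hν; have := hM.hd; omega
  have q2 : 2 ≤ 𝔮 := one_lt_natCard
  obtain ⟨ω, hω, e, b, he, e0, hy⟩ := exists_Hy hi hf hd hM hΩ (not_le.1 hlt) hne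
  have fm : ∀ T : Submodule F V, MulAction.stabilizer f.Isom ω ≤ f.stab T → ∃ 𝓑 : Finset (AddSubgroup V),
      (∀ C, C ∈ 𝓑 ↔ ∃ g ∈ f.Eich, C = mv g T.toAddSubgroup) ∧ Inv f 𝓑 ∧ 𝓑.card ≤ Ω.card := fun T hT =>
    card_fam (X := MulAction.stabilizer f.Isom ω) _ (fun g hg => by rw [mv_sub, f.mem_stab_iff_act.1 (hT hg)])
      (fun g => g • ω) Ω (fun g hg => hΩ g hg ω hω) fun g h e => by
        rw [MulAction.mem_stabilizer_iff, mul_smul, e, inv_smul_smul]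
  rcases thmA hf h7 he e0 hy with h | ⟨T, T0, hT, h⟩ | ⟨b, hb, h⟩
  · exact hp ω hω h
  · obtain ⟨𝓑, h1, h2, h3⟩ := fm T h
    obtain ⟨k, hk⟩ : ∃ k, finrank F T = k + 1 := Nat.exists_eq_succ_of_ne_zero fun e => T0 (Submodule.finrank_eq_zero.1 e)
    have := hi.2 T hT
    refine hlt ((lb_ts hi hf hd hM (k := k) (by omega) 𝓑 ⟨_, (h1 _).2 ⟨1, one_mem _, rfl⟩⟩ h2 fun C hC => ?_).trans h3)
    obtain ⟨g, -, rfl⟩ := (h1 C).1 hC
    exact ⟨Ts.mv ⟨by rwa [sp_sub], by rwa [sp_sub]⟩ g, by rw [mv_sub, sp_sub]⟩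
  · obtain ⟨𝓑, h1, -, h3⟩ := fm _ h
    have b0 : b ≠ 0 := fun e => hb (by rw [e, f.Q_zero])
    obtain ⟨n, n1, n2, n3⟩ : ∃ n, (∀ c, c ≠ 0 → n ≤ Nat.card {v // f.Q v = c}) ∧ (𝔮 ≤ 3 → M * (𝔮 - 1) ≤ n) ∧
        (4 ≤ 𝔮 → 2 * M ≤ n) := by
      have gen : ∀ c, 𝔮 ^ (2 * ν + d + 1) - 𝔮 ^ (ν + d) ≤ Nat.card {v // f.Q v = c} := fun c => by
        have := cnt_ge hi hf hd c
        rw [show 2 * (ν + 1) + d = 2 * ν + d + 1 + 1 by omega, show ν + 1 + d = ν + d + 1 by omega, pow_succ' 𝔮 (ν + d),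
          pow_succ' 𝔮 (2 * ν + d + 1), ← mul_add] at this
        have := Nat.le_of_mul_le_mul_left this (by omega)
        omega
      by_cases h4 : 4 ≤ 𝔮
      · refine ⟨_, fun c _ => gen c, by omega, fun _ => Nat.le_sub_of_add_le ?_⟩
        obtain ⟨a, c, ha, hc, -, e2, e3, -, -, k1⟩ := hM.par q2
        rw [pow_succ, e2, e3]
        zify at ha hc h4 ⊢
        generalize (𝔮 : ℤ) = q at *
        have k2 : 0 ≤ (M : ℤ) * (q - 4) := mul_nonneg (by positivity) (by omega)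
        have k3 : 0 ≤ (a * c * q ^ 3 : ℤ) * (q ^ 3 - 5) :=
          mul_nonneg (by positivity) (by nlinarith [pow_le_pow_left₀ (by norm_num) h4 3])
        have k4 : 0 ≤ (a - 1 : ℤ) * (c * q ^ 3) := mul_nonneg (by omega) (by positivity)
        have k5 : 0 ≤ (c - 1 : ℤ) * (a * q ^ 3) := mul_nonneg (by omega) (by positivity)
        have k6 : 0 ≤ (c * q ^ 3 : ℤ) := by positivity
        linarith
      by_cases h2 : d = 2
      · subst h2
        exact ⟨_, fun c hc => cnt_minus hi hf hd hc, fun h3 => hM.small q2 h3, fun h => absurd h h4⟩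
      · exact ⟨_, fun c _ => gen c, fun h3 => Nat.le_sub_of_add_le (hM.h2 h3 h2), fun h => absurd h h4⟩
    obtain ⟨O, hO, o1, o2⟩ := exists_Ob b hb n1
    rw [pt_count hf (by omega) b0 h1 O fun v => by
      rw [hO]
      exact ⟨fun ⟨a, a0, e⟩ => ⟨fun v0 => mul_ne_zero (mul_ne_zero a0 a0) hb (by rw [← e, v0, f.Q_zero]), a, a0, e⟩,
        fun h => h.2⟩] at o1 o2
    rw [← mul_assoc, mul_comm] at o1
    have o3 := Nat.le_of_mul_le_mul_right o1 (by omega)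
    by_cases h4 : 4 ≤ 𝔮
    · have := n3 h4; omega
    have n4 := n2 (by omega)
    rcases (by omega : 𝔮 = 2 ∨ 𝔮 = 3) with e | e
    · have := o2 (two_eq_zero_iff.2 (by rw [e]; decide))
      rw [e] at n4 this; omega
    · rw [e] at n4; omega

end CA.H12Om
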