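import Cfsg.Agent.Lib.Lin.H12Om7
import Cfsg.Agent.Lib.Lin.CFormOBr

/-!
Minimal degree of the orthogonal groups, part 8: transfer to the matrix groups `PΩ`.
-/

set_option autoImplicit false
set_option linter.unusedSectionVars false

namespace CA.H12Om

open Module CA.CForm CA.CForm.Form

variable {F : Type*} [Field F] [Finite F] {ι : Type} [Fintype ι] [DecidableEq ι] {f : Form (Kind.orth F) (ι → F)}
  {ν d M : ℕ}

local notation "𝔮" => Nat.card F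

variable (f) in
/-- The projection of `Ω` onto `PΩ`. -/
noncomputable def pr : commutator f.Isom →* Cfsg.POmega F f.Q :=
  (pOmegaEquiv f).symm.toMonoidHom.comp (QuotientGroup.mk' _)

theorem pr_surj : Function.Surjective (pr f) :=
  (pOmegaEquiv f).symm.surjective.comp (QuotientGroup.mk'_surjective _)

theorem index_ge (hi : f.IsIndex (ν + 1)) (hf : f.Nondeg) (hd : finrank F (ι → F) = 2 * (ν + 1) + d) (hM : Bd 𝔮 ν d M)
    (H : Subgroup (Cfsg.POmega F f.Q)) (hH : H ≠ ⊤) : M ≤ H.index := by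
  classical
  have h7 : 7 ≤ finrank F (ι → F) := by have := hM.hν; have := hM.hd; omega
  have hE := hf.commutator_eq_Eich (good_of_five_le (by omega)) (by omega)
  rw [← H.index_comap_of_surjective pr_surj]
  set K := H.comap (pr f) with hK
  have := Fintype.ofFinite (commutator f.Isom ⧸ K)
  let φ : commutator f.Isom ⧸ K → f.Isom ⧸ K.map (commutator f.Isom).subtype := fun c => (c.out : f.Isom)
  have hφ : ∀ g : commutator f.Isom, φ g = (g : f.Isom) := fun g => by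
    refine QuotientGroup.eq.2 ⟨_, QuotientGroup.eq.1 (QuotientGroup.out_eq' (g : commutator f.Isom ⧸ K)), rfl⟩
  refine (main (Ω := Finset.univ.image φ) hi hf hd hM (fun g hg ω hω => ?_) (Finset.univ_nonempty.image _)
    fun ω hω h => hH ?_).trans (Finset.card_image_le.trans (by
      rw [Finset.card_univ, ← Nat.card_eq_fintype_card]; rfl))
  · obtain ⟨c, -, rfl⟩ := Finset.mem_image.1 hω
    exact Finset.mem_image.2 ⟨(⟨g, hE ▸ hg⟩ * c.out : commutator f.Isom), Finset.mem_univ _, hφ _⟩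
  · obtain ⟨c, -, rfl⟩ := Finset.mem_image.1 hω
    refine eq_top_iff.2 fun x _ => ?_
    obtain ⟨g, rfl⟩ := pr_surj x
    have h1 := h (hE.le (c.out * g⁻¹ * c.out⁻¹).2)
    obtain ⟨k, hk, e⟩ := QuotientGroup.eq.1 (h1 : (((c.out * g⁻¹ * c.out⁻¹ : commutator f.Isom) * c.out : f.Isom) :
      f.Isom ⧸ K.map (commutator f.Isom).subtype) = (c.out : f.Isom))
    have : k = g := Subtype.ext (by simpa using e)
    exact this ▸ hk

theorem exists_index (hf : f.Nondeg) (h5 : 5 ≤ finrank F (ι → F)) {b : ι → F} (b0 : b ≠ 0) :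
    ∃ H : Subgroup (Cfsg.POmega F f.Q),
      H.index * (𝔮 - 1) = Nat.card {v // v ≠ 0 ∧ ∃ a : F, a ≠ 0 ∧ f.Q v = a * a * f.Q b} := by
  classical
  have hE := hf.commutator_eq_Eich (good_of_five_le h5) (by omega)
  have := Fintype.ofFinite F
  letI := f.submoduleAction
  refine ⟨(MulAction.stabilizer (commutator f.Isom) (F ∙ b)).map (pr f), ?_⟩
  rw [Subgroup.index_map_eq _ pr_surj fun g hg => ?_, MulAction.index_stabilizer, Nat.card_eq_fintype_card (α := {v // _}),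
    Fintype.card_subtype]
  · have hfin : (MulAction.orbit (commutator f.Isom) (F ∙ b)).Finite := Set.finite_range _
    rw [pt_count (𝓑 := hfin.toFinset.image Submodule.toAddSubgroup) hf h5 b0 (fun C => ?_) _ (by simp),
      Finset.card_image_of_injective _ Submodule.toAddSubgroup_injective, Set.ncard_eq_toFinset_card _ hfin]
    simp only [Finset.mem_image, Set.Finite.mem_toFinset]
    exact ⟨fun ⟨_, ⟨g, e⟩, e'⟩ => ⟨g, hE ▸ g.2, by rw [← e', ← e, mv_sub]; rfl⟩,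
      fun ⟨g, hg, e⟩ => ⟨_, ⟨⟨g, hE ▸ hg⟩, rfl⟩, by rw [e, mv_sub]; rfl⟩⟩
  · have h1 : g ∈ Subgroup.center (commutator f.Isom) :=
      (QuotientGroup.eq_one_iff g).1 ((pOmegaEquiv f).symm.map_eq_one_iff.1 hg)
    rw [hf.omega_center_eq (good_of_five_le h5) (by omega) le_rfl] at h1
    obtain ⟨a, ha⟩ := h1
    refine f.mem_stab_iff_act.1 (f.mem_stab_of_le fun v hv => ?_)
    rw [show ((g : f.Isom) : (ι → F) ≃ₗ[F] (ι → F)) v = a • v from ha v]
    exact Submodule.smul_mem _ _ hv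

theorem exists_sing_index (hi : f.IsIndex (ν + 1)) (hf : f.Nondeg) (hd : finrank F (ι → F) = 2 * (ν + 1) + d)
    (h5 : 3 ≤ 2 * ν + d) : ∃ H : Subgroup (Cfsg.POmega F f.Q),
      H.index * (𝔮 - 1) = (𝔮 ^ (ν + 1) - 1) * (𝔮 ^ (ν + d) + 1) := by
  obtain ⟨b, b0, hb⟩ := hi.exists_singular (by omega)
  obtain ⟨H, hH⟩ := exists_index hf (by omega) b0
  refine ⟨H, ?_⟩
  rw [hH, ← hi.card_singular_sub_one hf hd, ← natCard_subtype_ne (fun v => f.Q v = 0) 0 f.Q_zero, Nat.add_sub_cancel]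
  exact Nat.card_congr (Equiv.subtypeEquivRight fun v => and_congr_right fun _ =>
    ⟨fun ⟨a, _, e⟩ => by rw [e, hb, mul_zero], fun e => ⟨1, one_ne_zero, by rw [e, hb, mul_zero]⟩⟩)

theorem exists_ns_index (hf : f.Nondeg) (h5 : 5 ≤ finrank F (ι → F)) (h3 : 𝔮 ≤ 3) {c : F} (hc : c ≠ 0) :
    ∃ H : Subgroup (Cfsg.POmega F f.Q), H.index * (𝔮 - 1) = Nat.card {v // f.Q v = c} := by
  obtain ⟨x, x0, hx⟩ := exists_singular' f (by omega)
  obtain ⟨y, hy⟩ := hf.exists_isHyp hx x0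
  have hb := hy.Q_add_smul c
  obtain ⟨H, hH⟩ := exists_index hf h5 (b := x + c • y) fun e => hc (by rw [← hb, e, f.Q_zero])
  refine ⟨H, hH.trans (Nat.card_congr (Equiv.subtypeEquivRight fun v => ?_))⟩
  rw [hb]
  refine ⟨fun ⟨_, a, a0, e⟩ => ?_, fun e => ⟨fun v0 => hc (by rw [← e, v0, f.Q_zero]), 1, one_ne_zero, by simp [e]⟩⟩
  have := Fintype.ofFinite F
  have h1 := FiniteField.pow_card_sub_one_eq_one a a0
  rw [← Nat.card_eq_fintype_card] at h1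
  have q2 : 2 ≤ 𝔮 := one_lt_natCard
  rcases (by omega : 𝔮 = 2 ∨ 𝔮 = 3) with h | h <;> rw [h] at h1
  · rw [e, show a = 1 by simpa using h1]; simp
  · rw [e, show a * a = 1 by rw [← h1]; ring]; simp

theorem sing_result (hi : f.IsIndex (ν + 1)) (hf : f.Nondeg) (hd : finrank F (ι → F) = 2 * (ν + 1) + d) (hν : 2 ≤ ν)
    (h3 : 3 ≤ ν + d) (hq : 4 ≤ 𝔮 ∨ d = 2) {N : ℕ} (hN : N = (𝔮 ^ (ν + 1) - 1) * (𝔮 ^ (ν + d) + 1)) :
    (∀ H : Subgroup (Cfsg.POmega F f.Q), H ≠ ⊤ → N / (𝔮 - 1) ≤ H.index) ∧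
      ∃ H : Subgroup (Cfsg.POmega F f.Q), H.index = N / (𝔮 - 1) := by
  have q2 : 2 ≤ 𝔮 := one_lt_natCard
  refine ⟨index_ge hi hf hd ⟨hν, h3, hN ▸ Nat.div_mul_le_self _ _, fun _ _ => by omega⟩, ?_⟩
  obtain ⟨H, hH⟩ := exists_sing_index hi hf hd (by omega)
  exact ⟨H, by rw [hN, ← hH, Nat.mul_div_cancel _ (by omega)]⟩

theorem ns_result (hi : f.IsIndex (ν + 1)) (hf : f.Nondeg) (hd : finrank F (ι → F) = 2 * (ν + 1) + d) (hν : 2 ≤ ν)
    (h3 : 3 ≤ ν + d) (hq : 𝔮 ≤ 3) (h1 : d ≤ 1) {c : F} (hc : c ≠ 0)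
    (hn : 𝔮 * Nat.card {v // f.Q v = c} + 𝔮 ^ (ν + 1 + d) = 𝔮 ^ (2 * (ν + 1) + d))
    (hM : M * (𝔮 - 1) + 𝔮 ^ (ν + d) = 𝔮 ^ (2 * ν + d + 1)) :
    (∀ H : Subgroup (Cfsg.POmega F f.Q), H ≠ ⊤ → M ≤ H.index) ∧ ∃ H : Subgroup (Cfsg.POmega F f.Q), H.index = M := by
  have q2 : 2 ≤ 𝔮 := one_lt_natCard
  refine ⟨index_ge hi hf hd ⟨hν, h3, ?_, fun _ _ => hM.le⟩, ?_⟩
  · have k1 : 1 ≤ 𝔮 ^ (ν + 1) := Nat.one_le_pow _ _ (by omega)
    rw [show 2 * ν + d + 1 = (ν + 1) + (ν + d) by omega, pow_add 𝔮 (ν + 1)] at hM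
    zify [k1] at hM ⊢
    zify at k1
    linarith
  obtain ⟨H, hH⟩ := exists_ns_index hf (by omega) hq hc
  refine ⟨H, Nat.eq_of_mul_eq_mul_right (m := 𝔮 - 1) (by omega) ?_⟩
  rw [show 2 * (ν + 1) + d = 2 * ν + d + 1 + 1 by omega, show ν + 1 + d = ν + d + 1 by omega, pow_succ' 𝔮 (ν + d),
    pow_succ' 𝔮 (2 * ν + d + 1), ← mul_add] at hn
  have := Nat.eq_of_mul_eq_mul_left (by omega) hn
  omega

end CA.H12Om
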