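import Cfsg.Agent.Lib.Lin.MaxGL2

/-!
Overgroups of the stabiliser of a pair of complementary totally isotropic subspaces of a
symplectic space in odd characteristic: the small dimensions.
-/

set_option autoImplicit false
set_option linter.unusedSectionVars false

namespace CA.H12Pair

open CA.CForm CA.CForm.Form Module

variable {F : Type*} [Field F] {V : Type*} [AddCommGroup V] [Module F V] [FiniteDimensional F V]
  {f : Form (Kind.symp F) V} {X : Subgroup f.Isom} {W W' : Submodule F V}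

theorem lemA (h : f.TSPair W W') (hb : f.PBase X W W') (hM : f.PML X W W') (two : (2 : F) ≠ 0)
    {y₁ y₂ z₁ z₂ : V} (h1 : y₁ ∈ W) (h2 : y₂ ∈ W') (h3 : z₁ ∈ W) (h4 : z₂ ∈ W')
    {hc : f.EichlerCond (y₁ + y₂) (z₁ + z₂) 0} (hR : f.eichler _ _ 0 hc ∈ X) {x : V} (hx : x ∈ W)
    (h0 : x ≠ 0) (b1 : f.B y₂ x = 0) (b2 : f.B z₂ x = 0) : y₁ ∈ F ∙ x ∨ z₁ ∈ F ∙ x := by
  by_cases hn : y₁ ∈ F ∙ x
  · exact .inl hn
  obtain ⟨w, w1, w2, w3⟩ := h.exists_dual ((Submodule.span_singleton_le_iff_mem _ _).2 hx) h1 hn 1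
  have w4 := f.mem_perp_span_singleton.1 w2
  have := h.root hb hM hR hx h0 w1 w4 (by rw [B_add_left, b1, h.ts.B_eq _ h1 x hx, add_zero])
    (by rw [B_add_left, b2, h.ts.B_eq _ h3 x hx, add_zero])
  rw [B_add_left, B_add_left, w3, h.ts'.B_eq _ h2 w w1, h.ts'.B_eq _ h4 w w1, add_zero, add_zero,
    one_smul] at this
  have e : z₁ + z₂ - ((Kind.symp F).ε * f.B z₁ w) • (y₁ + y₂) =
      (z₁ + f.B z₁ w • y₁) + (z₂ + f.B z₁ w • y₂) := by
    simp only [Kind.symp_ε]; module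
  rw [e] at this
  have hm := h.mem_span hx (W.add_mem h3 (W.smul_mem _ h1)) (W'.add_mem h4 (W'.smul_mem _ h2)) this
  obtain ⟨t, ht⟩ := Submodule.mem_span_singleton.1 hm
  have e2 := congrArg (fun v => f.B v w) ht
  simp only [B_add_left, B_smul_left, w3, w4, Kind.symp_σ, mul_zero, mul_one] at e2
  have e3 : f.B z₁ w = 0 := by
    have : 2 * f.B z₁ w = 0 := by linear_combination -e2
    exact (mul_eq_zero.1 this).resolve_left two
  rw [e3, zero_smul, add_zero] at hm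
  exact .inr hm

theorem exists_perp (h3 : 3 ≤ finrank F W) (a b : V) :
    ∃ x ∈ W, x ≠ 0 ∧ f.B a x = 0 ∧ f.B b x = 0 := by
  have d1 := f.finrank_le_inf_perp W a
  have d2 := f.finrank_le_inf_perp (W ⊓ f.perp (F ∙ a)) b
  obtain ⟨x, hx, h0⟩ := (W ⊓ f.perp (F ∙ a) ⊓ f.perp (F ∙ b)).exists_mem_ne_zero_of_ne_bot (by
    intro e; rw [e, finrank_bot] at d2; omega)
  exact ⟨x, hx.1.1, h0, f.mem_perp_span_singleton.1 hx.1.2, f.mem_perp_span_singleton.1 hx.2⟩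

theorem mem_span_symm {a b : V} (h : a ∈ F ∙ b) (h0 : a ≠ 0) : b ∈ F ∙ a := by
  obtain ⟨s, rfl⟩ := Submodule.mem_span_singleton.1 h
  have hs : s ≠ 0 := by rintro rfl; simp at h0
  exact Submodule.mem_span_singleton.2 ⟨s⁻¹, by rw [smul_smul, inv_mul_cancel₀ hs, one_smul]⟩

theorem exists_not_span {S : Submodule F V} (h : 2 ≤ finrank F S) (a : V) :
    ∃ x ∈ S, x ∉ F ∙ a := by
  have := finrank_sup_span_le (⊥ : Submodule F V) a
  rw [bot_sup_eq, finrank_bot] at this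
  exact exists_not_mem_of_lt (by omega)

theorem beta (h : f.TSPair W W') (hb : f.PBase X W W') (hb' : f.PBase X W' W)
    (hM : f.PML X W W') (hM' : f.PML X W' W) (two : (2 : F) ≠ 0) (h3 : 3 ≤ finrank F W)
    {U U' : Submodule F V} (hU : f.TSPair U U') (hUb : f.PBase X U U') {y₁ y₂ : V} (h1 : y₁ ∈ W)
    (h2 : y₂ ∈ W') (hy : y₁ + y₂ ∈ U) : f.B y₁ y₂ = 0 := by
  by_contra hβ
  have h3' : 3 ≤ finrank F W' := h.finrank_eq ▸ h3
  set Z := U' ⊓ f.perp (F ∙ (y₁ + y₂)) with hZ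
  have dZ : 2 ≤ finrank F Z := by
    have d1 := f.finrank_le_inf_perp U' (y₁ + y₂)
    have d3 := h.two_mul
    have d4 := hU.symm.two_mul
    rw [← hZ] at d1
    omega
  have A1 : ∀ z₁ ∈ W, ∀ z₂ ∈ W', z₁ + z₂ ∈ Z → ∀ x ∈ W, x ≠ 0 → f.B y₂ x = 0 → f.B z₂ x = 0 →
      z₁ ∈ F ∙ x := fun z₁ g1 z₂ g2 hz x hx h0 b1 b2 => by
    refine (lemA h hb hM two h1 h2 g1 g2 (hUb _ hy _ hz.1
      (hU.cond hy hz.1 (f.mem_perp_span_singleton.1 hz.2))) hx h0 b1 b2).resolve_left fun e => ?_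
    obtain ⟨s, rfl⟩ := Submodule.mem_span_singleton.1 e
    exact hβ (by rw [B_smul_left, f.eq_zero_symm b1, mul_zero])
  have A2 : ∀ z₁ ∈ W, ∀ z₂ ∈ W', z₁ + z₂ ∈ Z → ∀ x ∈ W', x ≠ 0 → f.B y₁ x = 0 → f.B z₁ x = 0 →
      z₂ ∈ F ∙ x := fun z₁ g1 z₂ g2 hz x hx h0 b1 b2 => by
    have hc := hU.cond hy hz.1 (f.mem_perp_span_singleton.1 hz.2)
    have hR := hUb _ hy _ hz.1 hc
    revert hc hR
    rw [add_comm y₁, add_comm z₁]
    intro _ hR
    refine (lemA h.symm hb' hM' two h2 h1 g2 g1 hR hx h0 b1 b2).resolve_left fun e => ?_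
    obtain ⟨s, rfl⟩ := Submodule.mem_span_singleton.1 e
    exact hβ (by rw [map_smul, b1, smul_zero])
  have B1 : ∀ z₁ ∈ W, ∀ z₂ ∈ W', z₁ + z₂ ∈ Z → f.B y₂ z₁ = 0 ∧ f.B z₂ z₁ = 0 :=
    fun z₁ g1 z₂ g2 hz => by
    obtain ⟨x, hx, h0, b1, b2⟩ := exists_perp (f := f) h3 y₂ z₂
    obtain ⟨s, rfl⟩ := Submodule.mem_span_singleton.1 (A1 _ g1 _ g2 hz x hx h0 b1 b2)
    simp [b1, b2]
  have B2 : ∀ z₁ ∈ W, ∀ z₂ ∈ W', z₁ + z₂ ∈ Z → ∀ v₁ ∈ W, ∀ v₂ ∈ W', v₁ + v₂ ∈ Z →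
      f.B z₂ v₁ = 0 := fun z₁ g1 z₂ g2 hz v₁ g3 v₂ g4 hv => by
    have e1 := (B1 _ (W.add_mem g1 g3) _ (W'.add_mem g2 g4) (by
      rw [add_add_add_comm]; exact Z.add_mem hz hv)).2
    have e2 := hU.ts'.B_eq _ hz.1 _ hv.1
    simp only [B_add_left, map_add, (B1 _ g1 _ g2 hz).2, (B1 _ g3 _ g4 hv).2,
      h.ts.B_eq _ g1 _ g3, h.ts'.B_eq _ g2 _ g4] at e1 e2
    rw [f.symp_symm v₂ z₁] at e2
    have : 2 * f.B z₂ v₁ = 0 := by linear_combination e1 + e2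
    exact (mul_eq_zero.1 this).resolve_left two
  have C : ∃ z ∈ Z, z ≠ 0 ∧ z ∈ W' := by
    obtain ⟨z, hz, z0⟩ := exists_not_span dZ (0 : V)
    replace z0 : z ≠ 0 := by rintro rfl; simp at z0
    obtain ⟨v, hv, vz⟩ := exists_not_span dZ z
    obtain ⟨z₁, g1, z₂, g2, rfl⟩ := h.exists_add z
    obtain ⟨v₁, g3, v₂, g4, rfl⟩ := h.exists_add v
    by_cases e : v₁ = 0
    · exact ⟨_, hv, by rintro e'; exact vz (e' ▸ Submodule.zero_mem _), by simpa [e] using g4⟩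
    obtain ⟨s, rfl⟩ := Submodule.mem_span_singleton.1 (A1 _ g1 _ g2 hz v₁ g3 e
      (B1 _ g3 _ g4 hv).1 (B2 _ g1 _ g2 hz _ g3 _ g4 hv))
    refine ⟨_, Z.sub_mem hz (Z.smul_mem s hv), fun e' => vz (mem_span_symm ?_ z0), ?_⟩
    · exact Submodule.mem_span_singleton.2 ⟨s, (sub_eq_zero.1 e').symm⟩
    · rw [show s • v₁ + z₂ - s • (v₁ + v₂) = z₂ - s • v₂ by module]
      exact W'.sub_mem g2 (W'.smul_mem _ g4)
  obtain ⟨z, hz, z0, g2⟩ := C
  obtain ⟨x, hx, xz⟩ := exists_not_span (S := W' ⊓ f.perp (F ∙ y₁)) (by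
    have := f.finrank_le_inf_perp W' y₁; omega) z
  exact xz (mem_span_symm (A2 0 W.zero_mem z g2 (by rwa [zero_add]) x hx.1
    (by rintro rfl; exact xz (Submodule.zero_mem _)) (f.mem_perp_span_singleton.1 hx.2)
    (by simp)) z0)

theorem split (h : f.TSPair W W') (hb : f.PBase X W W') (hb' : f.PBase X W' W)
    (hM : f.PML X W W') (hM' : f.PML X W' W) (two : (2 : F) ≠ 0) (h3 : 3 ≤ finrank F W)
    {U U' : Submodule F V} (hU : f.TSPair U U') (hUb : f.PBase X U U') {y₁ y₂ : V} (h1 : y₁ ∈ W)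
    (h2 : y₂ ∈ W') (hy : y₁ + y₂ ∈ U) : y₁ ∈ U := by
  rw [← hU.perp_eq]
  intro v hv
  obtain ⟨v₁, g1, v₂, g2, rfl⟩ := h.exists_add v
  have e0 := beta h hb hb' hM hM' two h3 hU hUb h1 h2 hy
  have e0' := beta h hb hb' hM hM' two h3 hU hUb g1 g2 hv
  have e1 := beta h hb hb' hM hM' two h3 hU hUb (W.add_mem h1 g1) (W'.add_mem h2 g2) (by
    rw [add_add_add_comm]; exact U.add_mem hy hv)
  have e2 := hU.ts.B_eq _ hy _ hv
  simp only [B_add_left, map_add, e0, e0', h.ts.B_eq _ h1 _ g1, h.ts'.B_eq _ h2 _ g2] at e1 e2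
  rw [f.symp_symm v₁ y₂] at e2
  have : 2 * f.B y₁ v₂ = 0 := by linear_combination e1 + e2
  rw [B_add_left, h.ts.B_eq _ g1 _ h1, zero_add]
  exact f.eq_zero_symm ((mul_eq_zero.1 this).resolve_left two)

theorem le_or_le (h : f.TSPair W W') (hb : f.PBase X W W') (hb' : f.PBase X W' W)
    (hM : f.PML X W W') (hM' : f.PML X W' W) (two : (2 : F) ≠ 0) (h3 : 3 ≤ finrank F W)
    {U U' : Submodule F V} (hU : f.TSPair U U') (hUb : f.PBase X U U') (hUb' : f.PBase X U' U) :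
    U ≤ W ∨ U ≤ W' := by
  refine le_or_le_of_forall fun y hy => ?_
  obtain ⟨y₁, h1, y₂, h2, rfl⟩ := h.exists_add y
  by_contra hc
  have n1 : y₁ ≠ 0 := by rintro rfl; exact hc (.inr (by simpa using h2))
  have n2 : y₂ ≠ 0 := by rintro rfl; exact hc (.inl (by simpa using h1))
  have u1 := split h hb hb' hM hM' two h3 hU hUb h1 h2 hy
  have u2 : y₂ ∈ U := by simpa using U.sub_mem hy u1
  obtain ⟨z, hz, -, e⟩ := hU.exists_dual bot_le u2 (by simpa using n2) 1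
  obtain ⟨z₁, g1, z₂, g2, rfl⟩ := h.exists_add z
  have u3 := split h hb hb' hM hM' two h3 hU.symm hUb' g1 g2 hz
  rw [map_add, h.ts'.B_eq _ h2 _ g2, add_zero] at e
  have hc := hU.cond u1 u3 (h.ts.B_eq _ h1 _ g1)
  have := h.mem_span h1 g1 W'.zero_mem (by
    rw [add_zero]; exact hM y₁ h1 n1 z₁ ⟨0, hc, hUb _ u1 _ u3 hc⟩)
  have := hU.eq_zero ((Submodule.span_singleton_le_iff_mem _ _).2 u1 this) u3
  simp [this] at e

end CA.H12Pair
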