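import Cfsg.Agent.Lib.Lin.H12Ru2
import Cfsg.Agent.Lib.Lin.MaxGL5

/-! Maximal subgroups of four-dimensional symplectic groups: subfield subgroups in characteristic
two and the stabiliser of an orthogonal pair of planes. -/

set_option autoImplicit false
set_option linter.unusedSectionVars false

namespace CA.H12Sp4

open Module CA.CForm CA.CForm.Form CA.H12Ru

variable {F : Type*} [Field F] {V : Type*} [AddCommGroup V] [Module F V]
  {f : Form (Kind.symp F) V} {X : Subgroup f.Isom}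

local notation:75 g:76 " ⊳ " v:75 => (g : V ≃ₗ[F] V) v

/-- The element of `X` given by a symmetric tensor on the span of `v, y`. -/
def Sg (X : Subgroup f.Isom) (v y : V) (a b c : F) : Prop := ∃ g ∈ X, ∀ x,
  g ⊳ x = x + (a * f.B v x + b * f.B y x) • v + (b * f.B v x + c * f.B y x) • y

theorem Sg.add {v y : V} (h0 : f.B v y = 0) {a b c a' b' c' : F} (h : Sg X v y a b c)
    (h' : Sg X v y a' b' c') : Sg X v y (a + a') (b + b') (c + c') := by
  obtain ⟨g, hg, e⟩ := h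
  obtain ⟨g', hg', e'⟩ := h'
  refine ⟨g * g', X.mul_mem hg hg', fun x => ?_⟩
  simp only [isom_mul_apply, e, e', map_add, map_smul, h0, f.eq_zero_symm h0, symp_B_self]
  module

theorem Sg.map {v y : V} {a b c : F} (h : Sg X v y a b c) {k : f.Isom} (hk : k ∈ X) :
    Sg X (k ⊳ v) (k ⊳ y) a b c := by
  obtain ⟨g, hg, e⟩ := h
  refine ⟨k * g * k⁻¹, X.mul_mem (X.mul_mem hk hg) (X.inv_mem hk), fun x => ?_⟩
  obtain ⟨x, rfl⟩ : ∃ x', x = k ⊳ x' := ⟨_, (f.isom_apply_inv_apply k x).symm⟩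
  simp only [isom_mul_apply, isom_inv_apply_apply, e, map_add, map_smul, B_coe_map]

theorem Sg.congr {v y : V} {a b c a' b' c' : F} (h : Sg X v y a b c) (e1 : a = a') (e2 : b = b')
    (e3 : c = c') : Sg X v y a' b' c' := e1 ▸ e2 ▸ e3 ▸ h

theorem tr_iff (v y : V) (s m : F) : Tr X 1 (s • v + m • y) ↔ Sg X v y (s * s) (s * m) (m * m) := by
  have e : ∀ x, f.eichler (s • v + m • y) 0 1 (f.symp_eichlerCond (map_zero _) 1) ⊳ x =
      x + (s * s * f.B v x + s * m * f.B y x) • v + (s * m * f.B v x + m * m * f.B y x) • y :=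
    fun x => by simp [eichler_apply]; module
  refine ⟨fun ⟨_, h⟩ => ⟨_, h, e⟩, fun ⟨g, hg, e'⟩ => ⟨f.symp_eichlerCond (map_zero _) 1, ?_⟩⟩
  rwa [f.isom_ext fun x => (e x).trans (e' x).symm]

theorem tr_tv {u w : V} (hu : Tr X 1 u) (hw : Tr X 1 w) : Tr X 1 (w + f.B u w • u) := by
  obtain ⟨g, hg, e⟩ := hu.act
  simpa [e] using hw.map hg

theorem sq_mem [Finite F] {F₀ : Subfield F} (h2 : (2 : F) = 0) {a : F} (h : a * a ∈ F₀) : a ∈ F₀ := by
  obtain ⟨b, hb⟩ := isSquare_of_two_eq_zero (F := F₀) (Subtype.ext h2) ⟨_, h⟩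
  have : (a - b) ^ 2 = 0 := by
    have := congrArg Subtype.val hb
    simp only [Subfield.coe_mul] at this
    linear_combination this + (b * b - a * b) * h2
  rw [sub_eq_zero.1 (pow_eq_zero_iff two_ne_zero |>.1 this)]
  exact b.2

theorem top_of_quad {F₀ : Subfield F}
    (hmax : ∀ L : Subring F, F₀.toSubring ≤ L → L ≤ F₀.toSubring ∨ L = ⊤) {l : F}
    (h : l + l * l ∈ F₀) (hl : l ∉ F₀) (a : F) : ∃ s ∈ F₀, ∃ t ∈ F₀, a = s + t * l := by
  let L : Subring F :=
    { carrier := {a | ∃ s ∈ F₀, ∃ t ∈ F₀, a = s + t * l}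
      mul_mem' := by
        rintro _ _ ⟨s, hs, t, ht, rfl⟩ ⟨s', hs', t', ht', rfl⟩
        exact ⟨s * s' + t * t' * (l + l * l), add_mem (mul_mem hs hs') (mul_mem (mul_mem ht ht') h),
          s * t' + t * s' - t * t', sub_mem (add_mem (mul_mem hs ht') (mul_mem ht hs'))
            (mul_mem ht ht'), by ring⟩
      one_mem' := ⟨1, one_mem _, 0, zero_mem _, by ring⟩
      add_mem' := by
        rintro _ _ ⟨s, hs, t, ht, rfl⟩ ⟨s', hs', t', ht', rfl⟩
        exact ⟨s + s', add_mem hs hs', t + t', add_mem ht ht', by ring⟩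
      zero_mem' := ⟨0, zero_mem _, 0, zero_mem _, by ring⟩
      neg_mem' := by
        rintro _ ⟨s, hs, t, ht, rfl⟩
        exact ⟨-s, neg_mem hs, -t, neg_mem ht, by ring⟩ }
  rcases hmax L fun c hc => ⟨c, hc, 0, zero_mem _, by ring⟩ with e | e
  · exact absurd (e ⟨0, zero_mem _, 1, one_mem _, by ring⟩) hl
  · exact e.ge (Subring.mem_top a)

theorem sub_four [Finite F] [FiniteDimensional F V] (hf : f.Nondeg) (h3 : 3 ≤ finrank F V)
    (h2 : (2 : F) = 0) {F₀ : Subfield F}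
    (hmax : ∀ L : Subring F, F₀.toSubring ≤ L → L ≤ F₀.toSubring ∨ L = ⊤) {v v' y y' : V}
    (b1 : f.B v v' = 1) (b2 : f.B y y' = 1) (b3 : f.B v y = 0) (b4 : f.B v y' = 0)
    (b5 : f.B v' y = 0) (b6 : f.B v' y' = 0)
    (hs : ∀ w, f.B v w = 0 → ∃ a b c : F, w = a • v + b • y + c • y') (hv : Tr X 1 v)
    (hR : ∀ a ∈ F₀, ∀ b ∈ F₀, ∀ c ∈ F₀, ∀ d ∈ F₀, a ≠ 0 ∨ b ≠ 0 ∨ c ≠ 0 ∨ d ≠ 0 →
      ∃ h ∈ X, h ⊳ v = a • v + b • v' + c • y + d • y') :
    f.Eich ≤ X ∨ ∀ u, Tr X 1 u → f.B u v ∈ F₀ := by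
  have sy : ∀ a b, f.B a b = f.B b a := fun a b => by
    rw [f.symp_symm]; linear_combination (-f.B b a) * h2
  have c1 := (sy _ _).trans b1
  have c2 := (sy _ _).trans b2
  have c3 := (sy _ _).trans b3
  have c4 := (sy _ _).trans b4
  have c5 := (sy _ _).trans b5
  have c6 := (sy _ _).trans b6
  have o := F₀.one_mem
  have z := F₀.zero_mem
  have hD : ∀ a ∈ F₀, ∀ b ∈ F₀, ∀ c ∈ F₀, ∀ d ∈ F₀, Tr X 1 (a • v + b • v' + c • y + d • y') :=
    fun a ha b hb c hc d hd => by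
      by_cases e : a ≠ 0 ∨ b ≠ 0 ∨ c ≠ 0 ∨ d ≠ 0
      · obtain ⟨h, hh, e⟩ := hR a ha b hb c hc d hd e
        exact e ▸ hv.map hh
      · push Not at e
        exact ⟨f.symp_eichlerCond (map_zero _) 1, by
          convert X.one_mem using 1
          exact f.isom_ext fun x => by simp [e, eichler_apply]⟩
  have hE : ∀ {p q : V}, f.B p q = 0 → Tr X 1 p → Tr X 1 q → Tr X 1 (p + q) → Sg X p q 0 1 0 :=
    fun {p q} e h1 h3 h4 => (((tr_iff p q 1 0).1 (by simpa using h1)).add e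
      (((tr_iff p q 0 1).1 (by simpa using h3)).add e
        ((tr_iff p q 1 1).1 (by simpa using h4)))).congr (by linear_combination h2)
      (by ring) (by linear_combination h2)
  have tv' : Tr X 1 v' := by simpa using hD 0 z 1 o 0 z 0 z
  have ty : Tr X 1 y := by simpa using hD 0 z 0 z 1 o 0 z
  have ty' : Tr X 1 y' := by simpa using hD 0 z 0 z 0 z 1 o
  obtain ⟨σ, hσ, eσ⟩ := (show Tr X 1 (y + y') by simpa using hD 0 z 0 z 1 o 1 o).act
  have σ1 : σ ⊳ v = v := by simp [eσ, c3, c4]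
  have σ2 : σ ⊳ y = y' := by
    simp only [eσ, B_add_left, symp_B_self, c2, Kind.symp_ε]
    match_scalars <;> simp [← two_mul, h2]
  have σ3 : σ ⊳ y' = y := by
    simp only [eσ, B_add_left, symp_B_self, b2, Kind.symp_ε]
    match_scalars <;> simp [← two_mul, h2]
  have swap : ∀ {a b c}, Sg X v y a b c → Sg X v y c b a := fun {a b c} h => by
    obtain ⟨k, hk, e⟩ := hE (p := v + y) (q := v' + y') (by simp [b1, b2, b4, c5, ← two_mul, h2])
      (by simpa using hD 1 o 0 z 1 o 0 z) (by simpa using hD 0 z 1 o 0 z 1 o)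
      (by convert hD 1 o 1 o 1 o 1 o using 1; module)
    have k1 : k ⊳ v = y := by
      simp only [e, B_add_left, symp_B_self, c1, c3, c4]; match_scalars <;> simp [← two_mul, h2]
    have k2 : k ⊳ y = v := by
      simp only [e, B_add_left, symp_B_self, c2, b3, b5]; match_scalars <;> simp [← two_mul, h2]
    obtain ⟨g, hg, e⟩ := h.map hk
    exact ⟨g, hg, fun x => by rw [e, k1, k2]; module⟩
  have shear : ∀ {a b c}, Sg X v y a b c → Sg X v y (a + c) (b + c) c := fun {a b c} h => by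
    obtain ⟨k, hk, e⟩ := hE b4 hv ty' (by simpa using hD 1 o 0 z 0 z 1 o)
    have k1 : k ⊳ v = v := by simp [e, symp_B_self, c4]
    have k2 : k ⊳ y = y + v := by simp [e, b3, c2]
    obtain ⟨g, hg, e⟩ := h.map hk
    refine ⟨g, hg, fun x => ?_⟩
    rw [e, k1, k2, B_add_left]
    match_scalars
    · ring
    · linear_combination (b * f.B v x) * h2
    · ring
  have sqrt : ∀ l : F, ∃ b, l = b * b := isSquare_of_two_eq_zero h2
  have K : ∀ {a α l}, Sg X v y a α 0 → Sg X v y l 0 0 → Sg X v y (l * α * α) (l * α) 0 :=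
    fun {a α l} h hl => by
      obtain ⟨b, rfl⟩ := sqrt l
      have t1 : Tr X 1 ((0 : F) • v + b • y) := (tr_iff v y _ _).2 ((swap hl).congr (by ring) (by ring) rfl)
      obtain ⟨g, hg, e⟩ := h
      have t2 := ((t1.map hσ).map hg).map hσ
      simp only [map_add, map_smul, σ1, σ2, σ3, e, b2, b4, symp_B_self, b3, c3] at t2
      have t3 := (tr_iff v y (b * α) (b)).1 (by convert t2 using 1; module)
      exact (t3.add b3 ((tr_iff v y _ _).1 t1)).congr (by ring) (by ring) (by linear_combination b * b * h2)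
  have l0 : ∀ c ∈ F₀, Sg X v y c 0 0 := fun c hc => by
    obtain ⟨b, rfl⟩ := sqrt c
    simpa using (tr_iff v y (b) (0)).1 (by simpa using hD b (sq_mem h2 hc) 0 z 0 z 0 z)
  have R1 : ∀ {a α}, Sg X v y a α 0 → Sg X v y (a + α * α) 0 0 := fun {a α} h =>
    (h.add b3 (K h (l0 1 o))).congr (by ring) (by linear_combination α * h2) (by ring)
  have mid : ∀ {l}, Sg X v y l 0 0 → Sg X v y 0 l 0 := fun {l} h =>
    ((h.add b3 (swap h)).add b3 (shear (swap h))).congr (by linear_combination l * h2) (by ring)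
      (by linear_combination l * h2)
  let L : AddSubgroup F :=
    { carrier := {l | Sg X v y l 0 0}
      add_mem' := fun h h' => (Sg.add b3 h h').congr rfl (by ring) (by ring)
      zero_mem' := l0 0 z
      neg_mem' := fun {l} h => Sg.congr h (by linear_combination l * h2) rfl rfl }
  have fin : (∀ l, l ∈ L) → f.Eich ≤ X := fun H => by
    have l1 : ∀ b : F, f.Lev X v (b • y) := fun b => by
      obtain ⟨g, hg, e⟩ := mid (H b)
      refine ⟨0, f.symp_eichlerCond (by simp [b3]) 0, ?_⟩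
      convert hg using 1
      exact f.isom_ext fun x => by simp [e, eichler_apply]; module
    obtain ⟨h, hh, e⟩ := hR 0 z 1 o 0 z 0 z (by simp)
    refine hf.Eich_le_of_Qgrp' (.inl h3) (f.symp_Q v) (Qgrp_le_of_lev ?_ fun w hw => ?_) hh
      (by simp [e, b1])
    · rw [Tgrp_le_iff (f.symp_Q v)]
      intro c _
      obtain ⟨b, rfl⟩ := sqrt c
      have := (tr_iff v y (b) (0)).2 (Sg.congr (H (b * b)) rfl (by ring) (by ring))
      rw [zero_smul, add_zero] at this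
      simpa using this.of_smul (f.symp_Q v)
    · obtain ⟨a, b, c, rfl⟩ := hs w hw
      have := (l1 c).fix hσ σ1
      rw [map_smul, σ2] at this
      exact ((lev_smul_self (f.symp_Q v) a).add (l1 b)).add this
  have sq : ∀ l ∈ L, l * l ∈ L := fun l h => (R1 (mid h)).congr (by ring) rfl rfl
  have sq' : ∀ l ∈ L, ∃ m ∈ L, l = m * m := fun l h => by
    have : Function.Surjective fun m : L => (⟨m * m, sq _ m.2⟩ : L) :=
      Finite.surjective_of_injective fun m m' e => Subtype.ext (sub_eq_zero.1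
        (pow_eq_zero_iff two_ne_zero |>.1 (by
          have : (m : F) * m = m' * m' := congrArg Subtype.val e
          linear_combination this + (m' * m' - m * m' : F) * h2)))
    obtain ⟨m, e⟩ := this ⟨l, h⟩
    exact ⟨m, m.2, (congrArg Subtype.val e).symm⟩
  have k0 : F₀.toSubring ≤ mulSt L := fun c hc l hl => by
    obtain ⟨b, rfl⟩ := sqrt l
    obtain ⟨d, rfl⟩ := sqrt c
    by_cases d0 : d = 0
    · simpa [d0] using L.zero_mem
    obtain ⟨h, hh, e⟩ := hR d (sq_mem h2 hc) 0 z 0 z 0 z (.inl d0)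
    have := ((tr_iff v y (b) (0)).2 (Sg.congr hl rfl (by ring) (by ring))).map hh
    rw [zero_smul, add_zero, map_smul, e] at this
    exact ((tr_iff v y (b * d) (0)).1 (by convert this using 1; module)).congr (by ring)
      (by ring) (by ring)
  rcases hmax _ k0 with k1 | k1
  swap
  · exact .inl (fin (mem_of_mulSt k1 (l0 1 o) one_ne_zero))
  by_cases hL : ∀ l ∈ L, l ∈ F₀
  swap
  · push Not at hL
    obtain ⟨l, hl, hl'⟩ := hL
    refine .inl (fin fun a => ?_)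
    obtain ⟨s, hs, t, ht, rfl⟩ := top_of_quad hmax (k1 fun m hm => by
      obtain ⟨n, hn, rfl⟩ := sq' m hm
      exact (R1 (K (mid hn) hl)).congr (by ring) rfl rfl) hl' a
    exact L.add_mem (l0 s hs) (k0 ht l hl)
  by_cases hW : ∀ a α, Sg X v y a α 0 → α ∈ F₀
  · refine .inr fun u hu => ?_
    obtain ⟨k, hk, e⟩ := hE b3 hv ty (by simpa using hD 1 o 0 z 1 o 0 z)
    have t1 := tr_tv hu ((tr_tv hu hv).map hk)
    simp only [e, map_add, map_smul, symp_B_self, b3, c3, sy v u, sy y u, smul_eq_mul] at t1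
    have t2 := (tr_iff v y (1 + f.B u v * f.B u y) (f.B u v * f.B u v)).1 (by
      convert t1 using 1
      match_scalars
      · ring
      · ring
      · linear_combination (-f.B u v - f.B u v ^ 2 * f.B u y) * h2)
    exact sq_mem h2 (sq_mem h2 (hW _ _ ((t2.add b3 (shear t2)).congr rfl
      (by linear_combination (1 + f.B u v * f.B u y) * (f.B u v * f.B u v) * h2)
      (by linear_combination (f.B u v * f.B u v) ^ 2 * h2))))
  push Not at hW
  obtain ⟨a, α, h, hα⟩ := hW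
  have diag : ∀ {a μ}, Sg X v y a μ 0 → Sg X v y (μ * μ) 0 (μ * μ) := fun {a μ} h =>
    ((K h (l0 1 o)).add b3 (swap (K h (l0 1 o)))).congr (by ring) (by linear_combination μ * h2)
      (by ring)
  have hα' : α + α * α ∈ F₀ := sq_mem h2 (hL _ ((R1 (((diag h).add b3 (shear (diag h))).congr rfl
    rfl (by linear_combination α * α * h2))).congr (by linear_combination (-α ^ 3 + α * α) * h2)
      rfl rfl))
  have all : ∀ ν : F, ∃ g ∈ X, g ⊳ v' = v' + ν • v := fun ν => by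
    obtain ⟨μ, rfl⟩ := sqrt ν
    obtain ⟨s, hs, t, ht, rfl⟩ := top_of_quad hmax hα' hα μ
    obtain ⟨g, hg, e⟩ := diag (((mid (l0 s hs)).add b3 (K h (l0 t ht))).congr rfl rfl (by ring))
    exact ⟨g, hg, by simp [e, b1, c5]⟩
  refine .inl (fin fun l => ?_)
  obtain ⟨b, rfl⟩ := sqrt l
  by_cases b0 : b = 0
  · simpa [b0] using L.zero_mem
  obtain ⟨g, hg, e⟩ := all (b + 1)
  obtain ⟨g', hg', e'⟩ := all ((b + 1) / b)
  obtain ⟨k, hk, e''⟩ := hR 0 z 1 o 0 z 0 z (by simp)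
  have t1 := (tr_tv tv' (e ▸ tv'.map hg)).map (X.inv_mem (X.mul_mem hg' hk))
  rw [show v' + (b + 1) • v + f.B v' (v' + (b + 1) • v) • v' = (g' * k : f.Isom) ⊳ (b • v) by
    simp only [isom_mul_apply, map_smul, e'', map_add, zero_smul, one_smul, zero_add, add_zero, e',
      symp_B_self, c1, map_zero, smul_eq_mul]
    match_scalars
    · linear_combination h2
    · field_simp, isom_inv_apply_apply] at t1
  exact ((tr_iff v y (b) (0)).1 (by simpa using t1)).congr rfl (by ring) (by ring)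

theorem four_hyp {k : Kind F} {f : Form k V} [FiniteDimensional F V] (h4 : finrank F V = 4)
    {v v' y y' : V} (h : f.IsHyp v v') (h' : f.IsHyp y y') (b3 : f.B v y = 0) (b4 : f.B v y' = 0)
    (b5 : f.B v' y = 0) (b6 : f.B v' y' = 0) (w : V) :
    ∃ a c d : F, w = a • v + f.B v w • v' + c • y + d • y' := by
  obtain ⟨u, hu, e⟩ := h.exists_decomp w
  have : Submodule.span F {y, y'} = f.perp (Submodule.span F {v, v'}) :=
    Submodule.eq_of_le_of_finrank_eq (Submodule.span_le.2 (Set.pair_subset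
      (f.mem_perp_span_pair.2 ⟨b3, b5⟩) (f.mem_perp_span_pair.2 ⟨b4, b6⟩)))
      (by have := h.finrank_perp; rw [h'.finrank_span]; omega)
  obtain ⟨c, d, rfl⟩ := Submodule.mem_span_pair.1 (this.ge hu)
  exact ⟨_, c, d, e.trans (add_assoc _ _ _).symm⟩

theorem rat_four [Finite F] {ι : Type*} [Fintype ι] {b : Basis ι F V} {F₀ : Subfield F}
    {f₀ : Form (Kind.symp F₀) (ι → F₀)} {ζ : F} (h : f.Rat b f₀ ζ) (hb : f.RBase b f₀ ζ X)
    (h4 : Fintype.card ι = 4) (h2 : (2 : F) = 0)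
    (hmax : ∀ L : Subring F, F₀.toSubring ≤ L → L ≤ F₀.toSubring ∨ L = ⊤) :
    (∀ g ∈ X, f.PresR b F₀ g) ∨ f.Eich ≤ X := by
  have := h.fd
  obtain ⟨l, rfl⟩ := isSquare_of_two_eq_zero h2 ζ
  have l0 : l ≠ 0 := left_ne_zero_of_mul h.ζ_ne
  have hf₀ := h.nondeg₀
  have d4 : finrank F₀ (ι → F₀) = 4 := by rw [finrank_fintype_fun_eq_card, h4]
  have d4' : finrank F V = 4 := by rw [finrank_eq_card_basis b, h4]
  have : Nontrivial (ι → F₀) := Module.nontrivial_of_finrank_pos (R := F₀) (by omega)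
  obtain ⟨x, x0⟩ := exists_ne (0 : ι → F₀)
  obtain ⟨x', hx⟩ := hf₀.exists_isHyp (f₀.symp_Q x) x0
  obtain ⟨z, z1, z2, z3⟩ := f₀.iso_symp (f₀.perp (Submodule.span F₀ {x, x'}))
    (by have := hx.finrank_perp; omega)
  obtain ⟨z', z4, hz⟩ := hf₀.exists_isHyp_mem z3 z1 fun hp => z2
    (Submodule.disjoint_def.1 (hf₀.disjoint_perp_perp hx.isCompl.disjoint) z z1 hp)
  rw [mem_perp_span_pair] at z1 z4
  have hB : ∀ u u', f.B (l • emb b F₀ u) (l • emb b F₀ u') = f₀.B u u' := fun u u' => by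
    rw [← h.B_eq]; simp [mul_assoc]
  have tr : ∀ u, u ≠ 0 → ∃ g ∈ X, g ⊳ (l • emb b F₀ x) = l • emb b F₀ u := fun u u0 => by
    obtain ⟨e, he, e1⟩ := hf₀.exists_Eich_eq f₀.iso_symp (by omega) x0 (f₀.symp_Q _) u0 (f₀.symp_Q _)
    obtain ⟨g, hg, e2⟩ := h.lift hb he
    exact ⟨g, hg, by rw [map_smul, e2, e1]⟩
  have t1 : Tr X 1 (l • emb b F₀ x) := Tr.smul (mem_congr
    (hb x 0 1 (f₀.symp_eichlerCond (map_zero _) 1) (h.cond (f₀.symp_eichlerCond (map_zero _) 1)))
    (by simp) (by simp)) rfl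
  have hy : ∀ {u u'}, f₀.IsHyp u u' → f.IsHyp (l • emb b F₀ u) (l • emb b F₀ u') := fun e =>
    ⟨f.symp_Q _, f.symp_Q _, by rw [hB, e.B_xy]; rfl⟩
  have p0 : ∀ {u u'}, f₀.B u u' = 0 → f.B (l • emb b F₀ u) (l • emb b F₀ u') = 0 := fun e => by
    rw [hB, e]; rfl
  refine (sub_four h.nondeg (by omega) h2 hmax (hy hx).B_xy (hy hz).B_xy (p0 z1.1) (p0 z4.1) (p0 z1.2)
    (p0 z4.2) (fun w hw => ?_) t1 fun a ha c hc d hd e he hne => ?_).symm.imp_left
      fun H g hg => ⟨1, one_ne_zero, fun u => ?_⟩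
  · obtain ⟨a, c, d, e⟩ := four_hyp d4' (hy hx) (hy hz) (p0 z1.1) (p0 z4.1) (p0 z1.2) (p0 z4.2) w
    exact ⟨a, c, d, by simpa [hw] using e⟩
  · obtain ⟨g, hg, e1⟩ := tr ((⟨a, ha⟩ : F₀) • x + (⟨c, hc⟩ : F₀) • x' + (⟨d, hd⟩ : F₀) • z +
      (⟨e, he⟩ : F₀) • z') fun e0 => by
      have a1 := congrArg (f₀.B x) e0
      have a2 := congrArg (f₀.B x') e0
      have a3 := congrArg (f₀.B z) e0
      have a4 := congrArg (f₀.B z') e0
      simp [symp_B_self, hx.B_xy, hx.B_yx, hz.B_xy, hz.B_yx, z1.1, z1.2, z4.1, z4.2,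
        f₀.eq_zero_symm z1.1, f₀.eq_zero_symm z1.2, f₀.eq_zero_symm z4.1, f₀.eq_zero_symm z4.2]
        at a1 a2 a3 a4
      simp [Subtype.ext_iff] at a1 a2 a3 a4
      tauto
    exact ⟨g, hg, by rw [e1]; simp only [map_add, emb_smul]; module⟩
  · by_cases u0 : u = 0
    · exact ⟨0, by simp [u0]⟩
    obtain ⟨k, hk, e1⟩ := tr u u0
    obtain ⟨w, hw⟩ := h.mem_range (a := g ⊳ emb b F₀ u) fun w => by
      by_cases w0 : w = 0
      · simp [w0]
      obtain ⟨k', hk', e2⟩ := tr w w0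
      have := H _ (((e1 ▸ t1.map hk).map hg).map (X.inv_mem hk'))
      rw [← f.B_coe_map k', isom_apply_inv_apply, e2, f.symp_symm] at this
      simpa [mul_assoc] using neg_mem this
    exact ⟨w, by rw [one_smul, hw]⟩

theorem two_max [FiniteDimensional F V] {D : Fin 2 → Submodule F V} (h : f.ODec D)
    (hX : ∀ g ∈ f.Eich, f.PermD D g → g ∈ X) : (∀ g ∈ X, f.PermD D g) ∨ f.Eich ≤ X := by
  have t0 : ∀ i, ∀ x ∈ D i, f.Tgrp x ≤ X := fun i x hx => f.Tgrp_le fun c hc =>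
    hX _ (f.eichler_mem_Eich _ _ _ _) fun j => ⟨j, fun v hv => by
      by_cases e : i = j
      · subst e; simpa [eichler_apply] using (D i).add_mem hv ((D i).smul_mem _ hx)
      · simpa [eichler_apply, h.orth i j e hv x hx] using hv⟩
  have step : ∀ i, ∀ a ∈ D i, ∀ a' ∈ D i, ∀ b ∈ f.perp (D i), f.B a' a ≠ 0 → f.Tgrp (a + b) ≤ X →
      f.Tgrp (a' + b) ≤ X := fun i a ha a' ha' b hb e H => by
    have hc : f.EichlerCond (a' - a) 0 (f.B a' a)⁻¹ := f.symp_eichlerCond (map_zero _) _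
    convert Tgrp_map H (t0 i _ ((D i).sub_mem ha' ha) (f.eichler_mem_Tgrp _ _ hc)) using 2
    simp [eichler_apply, symp_B_self, hb a ha, hb a' ha', e]
    abel
  have move : ∀ i, ∀ a ∈ D i, ∀ a' ∈ D i, ∀ b ∈ f.perp (D i), a ≠ 0 → a' ≠ 0 →
      f.Tgrp (a + b) ≤ X → f.Tgrp (a' + b) ≤ X := fun i a ha a' ha' b hb a0 a0' H => by
    have ex : ∀ a ∈ D i, a ≠ 0 → ∃ c ∈ D i, f.B c a ≠ 0 := fun a ha a0 => by
      by_contra! hc
      exact a0 (Submodule.disjoint_def.1 (h.disj i) a ha hc)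
    obtain ⟨c, hc, e⟩ := ex a ha a0
    obtain ⟨c', hc', e'⟩ := ex a' ha' a0'
    have fin : ∀ c ∈ D i, f.B c a ≠ 0 → f.B c a' ≠ 0 → f.Tgrp (a' + b) ≤ X := fun c hc e e' =>
      step i c hc a' ha' b hb (fun e => e' (f.eq_zero_symm e)) (step i a ha c hc b hb e H)
    by_cases e1 : f.B c a' = 0
    · by_cases e2 : f.B c' a = 0
      · exact fin _ ((D i).add_mem hc hc') (by simpa [e2]) (by simpa [e1])
      · exact fin _ hc' e2 e'
    · exact fin _ hc e e1
  have dec : ∀ v, ∃ a ∈ D 0, ∃ b ∈ D 1, a + b = v := fun v => Submodule.mem_sup.1 (by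
    refine (h.top.ge.trans (iSup_le fun i => ?_) : ⊤ ≤ D 0 ⊔ D 1) trivial
    fin_cases i
    exacts [le_sup_left, le_sup_right])
  refine or_iff_not_imp_left.2 fun hn => ?_
  simp only [PermD, not_forall, not_exists] at hn
  obtain ⟨g, hg, i, hi⟩ := hn
  obtain ⟨v0, h0, n0⟩ := hi 0
  obtain ⟨v1, h1, n1⟩ := hi 1
  obtain ⟨v, hv, m0, m1⟩ : ∃ v ∈ D i, g ⊳ v ∉ D 0 ∧ g ⊳ v ∉ D 1 := by
    by_cases e0 : g ⊳ v0 ∈ D 1
    · by_cases e1 : g ⊳ v1 ∈ D 0
      · exact ⟨v0 + v1, (D i).add_mem h0 h1, fun e => n0 (by simpa using (D 0).sub_mem e e1),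
          fun e => n1 (by simpa using (D 1).sub_mem e e0)⟩
      · exact ⟨v1, h1, e1, n1⟩
    · exact ⟨v0, h0, n0, e0⟩
  have t1 := Tgrp_map (t0 i v hv) hg
  obtain ⟨a, ha, b, hb, e⟩ := dec (g ⊳ v)
  have all : ∀ z, f.Tgrp z ≤ X := fun z => by
    obtain ⟨a', ha', b', hb', rfl⟩ := dec z
    by_cases a0 : a' = 0
    · simpa [a0] using t0 1 b' hb'
    by_cases b0 : b' = 0
    · simpa [b0] using t0 0 a' ha'
    have := move 0 a ha a' ha' b (h.orth 0 1 (by decide) hb) (fun e' => m1 (by simpa [← e, e']))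
      a0 (e ▸ t1)
    rw [add_comm] at this ⊢
    exact move 1 b hb b' hb' a' (h.orth 1 0 (by decide) ha') (fun e' => m0 (by simpa [← e, e']))
      b0 this
  refine f.Eich_le fun x w c hc => Qgrp_le_of_lev (all x) (fun u hu => ?_) (f.eichler_mem_Qgrp _ _ _ hc)
  have e := symp_eichler_add hu 1 (f.symp_eichlerCond (map_zero _) _)
    (f.symp_eichlerCond (by simpa using hu) _) (f.symp_eichlerCond (map_zero _) _)
  have := X.mul_mem (all _ (f.eichler_mem_Tgrp (u + x) 1 (f.symp_eichlerCond (map_zero _) _)))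
    (X.inv_mem (all _ (f.eichler_mem_Tgrp u 1 (f.symp_eichlerCond (map_zero _) _))))
  rw [e, mul_inv_cancel_right] at this
  exact ⟨_, mem_congr this (one_smul _ _) rfl⟩

end CA.H12Sp4
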