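import Cfsg.Agent.Lib.Lin.H12Ss1

/-!
Overgroups of the tensor product of two symplectic groups, part two: root elements and the
elements acting trivially on the flag of `u ⊗ W`.
-/

set_option autoImplicit false
set_option linter.unusedSectionVars false

namespace CA.H12Ss

open CA.CForm CA.CForm.Form Module
open CA.H12Tn (tv tv_apply symp_eichler_apply finrank_pair_le)

local notation:75 g:76 " ⊳ " v:75 => (Subtype.val g) v

variable {F : Type*} [Field F] {U W V : Type*} [AddCommGroup U] [Module F U]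
  [AddCommGroup W] [Module F W] [AddCommGroup V] [Module F V] [FiniteDimensional F U]
  [FiniteDimensional F W] [FiniteDimensional F V]
  {f₁ : Form (Kind.symp F) U} {f₂ : Form (Kind.symp F) W} {f : Form (Kind.orth F) V}

theorem exists_hyp (hf : f₁.Nondeg) {S : Submodule F U} (h : 2 * finrank F S < finrank F U) :
    ∃ p ∈ f₁.perp S, ∃ r ∈ f₁.perp S, f₁.B p r = 1 := by
  have d := hf.finrank_perp S
  obtain ⟨r, h1, h2⟩ := exists_not_mem_of_lt (S := S) (T := f₁.perp S) (by omega)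
  obtain ⟨p, h3, h4⟩ := hf.exists_perp_B_eq h2 1
  exact ⟨p, h3, r, h1, h4⟩

theorem scalar_of {r : W →ₗ[F] W} (h : ∀ w, r w ∈ F ∙ w) : ∃ c : F, ∀ w, r w = c • w := by
  obtain ⟨a, ha⟩ := LinearMap.exists_eq_smul_id_of_forall_notLinearIndependent (f := r)
    fun u hu => by
      obtain ⟨c, hc⟩ := Submodule.mem_span_singleton.1 (h u)
      simpa using (LinearIndependent.pair_iff.1 hu c (-1) (by simp [hc])).2
  exact ⟨a, fun w => LinearMap.congr_fun ha w⟩

theorem orth_eichler_apply {x y : V} (h : f.EichlerCond x y 0) (z : V) :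
    f.eichler x y 0 h ⊳ z = z + f.B x z • y - f.B y z • x := by
  rw [eichler_apply]; simp

/-- `X` is a proper overgroup of the isometry groups of the two factors. -/
structure Ov (T : Ss f₁ f₂ f) (X : Subgroup f.Isom) : Prop where
  kL : ∀ g, T.kL g ∈ X
  kR : ∀ h, T.kR h ∈ X
  ne : ¬f.Eich ≤ X
  a6 : 6 ≤ finrank F U
  b2 : 2 ≤ finrank F W
  ab : finrank F W < finrank F U
  hq : 4 ≤ finrank F W ∨ ∃ c : F, c ≠ 0 ∧ c ≠ 1

variable {T : Ss f₁ f₂ f} {X : Subgroup f.Isom}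

theorem Lev.root {x y : V} (h : f.Lev X x y) (hy : f.Q y = 0) :
    ∃ h' : f.EichlerCond x y 0, f.eichler x y 0 h' ∈ X := by
  obtain ⟨c, h1, h2⟩ := h
  obtain rfl : c = 0 := h1.π_c.trans hy
  exact ⟨h1, h2⟩

namespace Ov
variable (O : Ov T X)
include O

theorem ntU : Nontrivial U := finrank_pos_iff.1 (by have := O.a6; omega : 0 < finrank F U)

theorem ntW : Nontrivial W := finrank_pos_iff.1 (by have := O.b2; omega : 0 < finrank F W)

theorem move {u u' : U} {w w' : W} (hu : u ≠ 0) (hu' : u' ≠ 0) (hw : w ≠ 0) (hw' : w' ≠ 0) :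
    ∃ (g : f₁.Isom) (h : f₂.Isom), g ⊳ u = u' ∧ h ⊳ w = w' :=
  let ⟨g, hg⟩ := T.n₁.witt_one hu hu' (by rw [f₁.symp_Q, f₁.symp_Q])
  let ⟨h, hh⟩ := T.n₂.witt_one hw hw' (by rw [f₂.symp_Q, f₂.symp_Q])
  ⟨g, h, hg, hh⟩

/-- No root subgroup in the direction of the first factor lies in `X`. -/
theorem not_lev {u v : U} {w : W} (hu : u ≠ 0) (hw : w ≠ 0) (hv : v ∉ F ∙ u) :
    T.t v w ∉ levS X (T.Q_t u w) := fun h => by
  set Y := levS X (T.Q_t u w) with hY
  obtain ⟨v₀, h₀⟩ := T.exists_one hu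
  obtain ⟨w₀, k₀⟩ := T.swap.exists_one hw
  have s1 : ∀ v', f₁.B u v' = 0 → T.t v' w ∈ Y := by
    have k : ∀ v', f₁.B u v' = 0 → f₁.B v' v ≠ 0 → T.t v' w ∈ Y := fun v' e e' => by
      have := Y.sub_mem (map_mem_levS h (O.kL (tv f₁ v' (f₁.B v' v)⁻¹))
        (by simp [tv_apply, f₁.eq_zero_symm e])) h
      simpa [tv_apply, e'] using this
    obtain ⟨p, h1, h2⟩ := T.n₁.exists_perp_B_eq hv 1
    rw [f₁.mem_perp_span_singleton] at h1
    intro v' e
    by_cases e' : f₁.B v' v = 0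
    · simpa using Y.sub_mem (k (v' + p) (by simp [e, h1]) (by simp [e', h2])) (k p h1 (by simp [h2]))
    · exact k v' e e'
  have rule : ∀ p p' r z s, f₁.B p p' = 0 → (f₂.B z w = 0 ∨ (f₁.B u p = 0 ∧ f₁.B u p' = 0)) →
      f₁.B p r = 1 → f₁.B p' r = 0 → f₂.B z s ≠ 0 → T.t r s ∈ Y → T.t p' z ∈ Y := by
    intro p p' r z s e1 e2 e3 e4 e5 hy
    obtain ⟨g, k, rfl, rfl⟩ := O.move hu (u' := p) (by rintro rfl; simp at e3) hw (w' := z)
      (by rintro rfl; simp at e5)
    obtain ⟨p', rfl⟩ := g.1.surjective p'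
    have := (lev_of_mem_levS (s1 p' (by simpa using e1))).map (X.mul_mem (O.kL g) (O.kR k))
    simp only [isom_mul_apply, T.kR_t, T.kL_t] at this
    obtain ⟨hc, hR⟩ := Lev.root this (T.Q_t ..)
    have := Y.sub_mem (map_mem_levS hy hR (by
      rw [orth_eichler_apply, T.B_t, T.B_t]
      rcases e2 with e | e
      · simp [e]
      · simp [f₁.eq_zero_symm e.1, f₁.eq_zero_symm e.2])) hy
    rw [orth_eichler_apply, T.B_t, T.B_t, e3, e4] at this
    simp only [one_mul, zero_mul, zero_smul, sub_zero, add_sub_cancel_left] at this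
    exact (Y.smul_mem_iff e5).1 this
  have hyp : ∀ p', ∃ p r, f₁.B u p = 0 ∧ f₁.B p' p = 0 ∧ f₁.B u r = 0 ∧ f₁.B p' r = 0 ∧
      f₁.B p r = 1 := fun p' => by
    obtain ⟨p, h1, r, h2, h3⟩ := exists_hyp T.n₁ (S := Submodule.span F {u, p'}) (by
      have := finrank_pair_le (F := F) u p'; have := O.a6; omega)
    rw [f₁.mem_perp_span_pair] at h1 h2
    exact ⟨p, r, h1.1, h1.2, h2.1, h2.2, h3⟩
  have s2 : ∀ p' z, f₁.B u p' = 0 → T.t p' z ∈ Y := by
    have k : ∀ p' z, f₁.B u p' = 0 → f₂.B z w ≠ 0 → T.t p' z ∈ Y := fun p' z e e' => by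
      obtain ⟨p, r, h1, h2, h3, h4, h5⟩ := hyp p'
      exact rule p p' r z w (f₁.eq_zero_symm h2) (.inr ⟨h1, e⟩) h5 h4 e' (s1 r h3)
    intro p' z e
    have k1 : f₂.B w₀ w ≠ 0 := by rw [f₂.symp_symm, k₀]; simp
    by_cases e' : f₂.B z w = 0
    · simpa using Y.sub_mem (k p' (z + w₀) e (by simpa [e'] using k1)) (k p' w₀ e k1)
    · exact k p' z e e'
  have s3 : ∀ p' z, f₂.B w z = 0 → T.t p' z ∈ Y := fun p' z e => by
    by_cases z0 : z = 0
    · simp [z0]
    obtain ⟨s, hs⟩ := T.n₂.exists_B_ne_zero z0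
    obtain ⟨p, r, h1, h2, h3, h4, h5⟩ := hyp p'
    exact rule p p' r z s (f₁.eq_zero_symm h2) (.inl (f₂.eq_zero_symm e)) h5 h4 hs (s2 r s h3)
  obtain ⟨g, k, e1, e2⟩ := O.move hu (u' := v₀) (by rintro rfl; simp at h₀) hw (w' := w₀)
    (by rintro rfl; simp at k₀)
  have d : finrank F (T.M u) ≤ finrank F V := Submodule.finrank_le _
  refine O.ne (T.n.Eich_le_of_Qgrp' (.inl ?_) (T.Q_t u w) (Qgrp_le_of_lev (f.Tgrp_le fun c hc => ?_)
    fun y hy => lev_of_mem_levS (hx := T.Q_t u w) ?_) (X.mul_mem (O.kL g) (O.kR k)) ?_)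
  · have := Submodule.finrank_le (T.L w)
    rw [T.finrank_L hw] at this
    have := O.a6
    omega
  · obtain rfl : c = 0 := hc.π_eq_zero
    convert X.one_mem
    exact f.isom_ext fun x => by simp [orth_eichler_apply]
  · rw [T.B_cu] at hy
    simpa using Y.add_mem (T.ker_ind hu (x := y - T.t v₀ (T.cu u y)) (fun v w e => s2 v w e)
      (by simp [h₀])) (s3 v₀ _ hy)
  · simp [e1, e2, T.B_t, h₀, k₀]

/-- No root subgroup in the direction of the second factor lies in `X`. -/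
theorem not_lev' {u : U} {w w' : W} (hu : u ≠ 0) (hw : w ≠ 0) (ww : f₂.B w w' = 0)
    (hw' : w' ∉ F ∙ w) : T.t u w' ∉ levS X (T.Q_t u w) := fun h => by
  set Y := levS X (T.Q_t u w) with hY
  obtain ⟨z, h1, h2⟩ := T.n₂.exists_perp_B_eq hw' 1
  rw [f₂.mem_perp_span_singleton] at h1
  have k : ∀ v, f₁.B v u ≠ 0 → T.t v w ∈ Y := fun v hv => by
    obtain ⟨g, -, rfl, -⟩ := O.move hu (u' := v) (by rintro rfl; simp at hv) hw hw
    have := (lev_of_mem_levS h).map (X.mul_mem (O.kL g) (O.kR (tv f₂ z 1)))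
    simp only [isom_mul_apply, T.kR_t, T.kL_t, tv_apply, f₂.eq_zero_symm h1, h2, mul_zero,
      zero_smul, add_zero, mul_one, one_smul] at this
    obtain ⟨hc, hR⟩ := Lev.root this (T.Q_t ..)
    have := Y.sub_mem h (map_mem_levS h hR (by
      simp [orth_eichler_apply, T.B_t, f₂.symp_B_self, f₂.eq_zero_symm ww, f₂.eq_zero_symm h1]))
    rw [orth_eichler_apply, T.B_t, T.B_t, ww, B_add_left, h2, f₂.symp_B_self] at this
    simp only [mul_zero, zero_smul, add_zero, zero_add, mul_one, sub_sub_cancel] at this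
    exact (Y.smul_mem_iff hv).1 this
  obtain ⟨v₀, h₀⟩ := T.exists_one hu
  obtain ⟨v, h3, h4⟩ := exists_not_mem_of_lt (S := F ∙ u) (T := f₁.perp (F ∙ u)) (by
    have := T.n₁.finrank_perp (F ∙ u)
    rw [finrank_span_singleton hu] at this ⊢
    have := O.a6
    omega)
  rw [f₁.mem_perp_span_singleton] at h3
  have k1 : f₁.B v₀ u ≠ 0 := by rw [f₁.symp_symm, h₀]; simp
  refine O.not_lev hu hw h4 ?_
  simpa using Y.sub_mem (k (v + v₀) (by simpa [f₁.eq_zero_symm h3] using k1)) (k v₀ k1)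

/-- The elements of `X` fixing `(u ⊗ W)^⊥` pointwise are the transvections of the first factor. -/
theorem H1 {u : U} (hu : u ≠ 0) {g : f.Isom} (hg : g ∈ X) (h : ∀ x, T.cu u x = 0 → g ⊳ x = x) :
    ∃ c : F, ∀ x, g ⊳ x = x + c • T.t u (T.cu u x) := by
  obtain ⟨v, hv⟩ := T.exists_one hu
  let σ : W →ₗ[F] W := -T.cu v ∘ₗ ((g.1 : V →ₗ[F] V) - LinearMap.id) ∘ₗ T.t v
  have e : ∀ x, g ⊳ x = x + T.t u (σ (T.cu u x)) := fun x => by
    have e1 := h (x - T.t v (T.cu u x)) (by simp [hv])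
    have e2 := sub_mem_perp (M := f.perp (T.M u)) (k := g) (fun m hm => h m (T.mem_perp_M.1 hm))
      (T.t v (T.cu u x))
    rw [T.n.perp_perp] at e2
    obtain ⟨w, e2⟩ := e2
    have e3 : σ (T.cu u x) = w := by
      simp only [σ, LinearMap.neg_apply, LinearMap.comp_apply, LinearMap.sub_apply,
        LinearEquiv.coe_coe, LinearMap.id_apply, ← e2, T.cu_t, f₁.symp_symm u v, hv]
      simp
    rw [e3, e2, ← sub_eq_zero, ← sub_eq_zero.2 e1, map_sub]; abel
  suffices H : ∀ w, σ w ∈ F ∙ w by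
    obtain ⟨c, hc⟩ := scalar_of H
    exact ⟨c, fun x => by rw [e, hc, map_smul]⟩
  have alt : ∀ w, f₂.B w (σ w) = 0 := fun w => by
    have := f.Q_coe_map g (T.t v w)
    rw [e, f.orth_Q_add, T.B_t, f₁.symp_symm, T.cu_t, hv] at this
    simpa using this
  have sk : ∀ w w', f₂.B w (σ w') = f₂.B (σ w) w' := fun w w' => by
    have := alt (w + w')
    simp only [map_add, B_add_left, alt, f₂.symp_symm (σ w) w'] at this
    linear_combination this
  intro w
  by_contra hn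
  have w0 : w ≠ 0 := by rintro rfl; simp at hn
  refine O.not_lev' hu w0 (alt w) hn (mem_levS.2 fun a => ⟨0, ⟨T.Q_t .., by
    simp [T.B_t, f₁.symp_B_self], by rw [← map_smul]; exact (T.Q_t ..).symm⟩, ?_⟩)
  obtain ⟨k, hk, ek⟩ := (Act.mul (S := fun x => x + T.t u (σ (T.cu u x))) ⟨g, hg, e⟩
    ((Act.conj (S := fun x => x + T.t u (σ (T.cu u x))) ⟨g, hg, e⟩ (O.kR (tv f₂ w a))).inv
      (S' := fun x => x - T.t u (σ (T.cu u x) - (a * f₂.B w (T.cu u x)) • σ w +
        (a * f₂.B (σ w) (T.cu u x)) • w)) fun x => by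
      have e1 : ∀ y, T.cu u ((T.kR (tv f₂ w a))⁻¹ ⊳ y) = T.cu u y - (a * f₂.B w (T.cu u y)) • w :=
        fun y => by
          rw [← map_inv, T.cu_kR, eq_sub_iff_add_eq]
          conv_rhs => rw [← f₂.isom_apply_inv_apply (tv f₂ w a) (T.cu u y), tv_apply]
          congr 3
          rw [f₂.B_isom_right, inv_inv, tv_apply]; simp [f₂.symp_B_self]
      rw [map_add, isom_apply_inv_apply, e1, T.kR_t, tv_apply]
      simp only [map_sub, map_add, map_smul, T.cu_t, f₁.symp_B_self, zero_smul, smul_zero,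
        sub_zero, add_zero, sk w, smul_eq_mul, mul_zero, f₂.eq_zero_symm (alt w)]
      module))
  convert hk
  refine f.isom_ext fun x => ?_
  rw [ek, orth_eichler_apply]
  simp only [map_sub, map_add, map_smul, T.cu_t, f₁.symp_B_self, zero_smul, smul_zero,
    sub_zero, add_zero, B_smul_left, T.B_cu, Kind.orth_σ]
  module

end Ov

end CA.H12Ss
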