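import Cfsg.Agent.Lib.Lin.H12Ss2

/-!
Overgroups of the tensor product of two symplectic groups, part three: the elements acting
trivially on the flag of `u ⊗ W` and the stabiliser of `u ⊗ W`.
-/

set_option autoImplicit false
set_option linter.unusedSectionVars false

namespace CA.H12Ss

open CA.CForm CA.CForm.Form Module
open CA.H12Tn (tv tv_apply symp_eichler_apply finrank_pair_le)

local notation:75 g:76 " ⊳ " v:75 => (Subtype.val g) v

variable {F : Type*} [Field F] {U W V : Type*} [AddCommGroup U] [Module F U]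
  [AddCommGroup W] [Module F W] [AddCommGroup V] [Module F V] [FiniteDimensional F U]
  [FiniteDimensional F W] [FiniteDimensional F V]
  {f₁ : Form (Kind.symp F) U} {f₂ : Form (Kind.symp F) W} {f : Form (Kind.orth F) V}

/-- The level of an element fixing `u ⊗ W` and its orthogonal complement modulo `u ⊗ W`. -/
def Lv (T : Ss f₁ f₂ f) (X : Subgroup f.Isom) (u : U) (α : W →ₗ[F] V) : Prop :=
  ∃ k ∈ X, (∀ w, k ⊳ T.t u w = T.t u w) ∧ ∀ x, k ⊳ x - x - α (T.cu u x) ∈ T.M u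

/-- The endomorphisms of the second factor occurring in levels. -/
def Sl (T : Ss f₁ f₂ f) (X : Subgroup f.Isom) (s : W →ₗ[F] W) : Prop :=
  ∀ u v, u ≠ 0 → f₁.B u v = 0 → Lv T X u (T.t v ∘ₗ s)

/-- the map `x ↦ B(a, x) b` -/
def ro (f₂ : Form (Kind.symp F) W) (a b : W) : W →ₗ[F] W := (f₂.B a).smulRight b

@[simp] theorem ro_apply (a b x : W) : ro f₂ a b x = f₂.B a x • b := rfl

theorem tv_inv (z : W) (c : F) : (tv f₂ z c)⁻¹ = tv f₂ z (-c) :=
  inv_eq_of_mul_eq_one_right (f₂.isom_ext fun x => by simp [tv_apply, f₂.symp_B_self])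

variable {T : Ss f₁ f₂ f} {X : Subgroup f.Isom}

theorem Lv.sub {u : U} {α β : W →ₗ[F] V} (h : Lv T X u α) (h' : Lv T X u β) : Lv T X u (α - β) := by
  obtain ⟨k, hk, e1, e2⟩ := h
  obtain ⟨k', hk', e1', e2'⟩ := h'
  refine ⟨k * k'⁻¹, X.mul_mem hk (X.inv_mem hk'), fun w => ?_, fun x => ?_⟩
  · conv_lhs => rw [← e1', isom_mul_apply, isom_inv_apply_apply, e1]
  · obtain ⟨y, rfl⟩ := k'.1.surjective x
    rw [isom_mul_apply, isom_inv_apply_apply, T.cu_fix e1']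
    convert (T.M u).sub_mem (e2 y) (e2' y) using 1
    rw [LinearMap.sub_apply]; abel

theorem Lv.conj {u u' : U} {α β : W →ₗ[F] V} (h : Lv T X u α) {s : f.Isom} (hs : s ∈ X)
    (g : f₂.Isom) (e : ∀ w, s ⊳ T.t u w = T.t u' (g ⊳ w)) (e' : ∀ w, β (g ⊳ w) = s ⊳ α w) :
    Lv T X u' β := by
  obtain ⟨k, hk, e1, e2⟩ := h
  refine ⟨s * k * s⁻¹, X.mul_mem (X.mul_mem hs hk) (X.inv_mem hs), fun w => ?_, fun x => ?_⟩
  · obtain ⟨w, rfl⟩ := g.1.surjective w
    rw [← e, isom_mul_apply, isom_mul_apply, isom_inv_apply_apply, e1]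
  · obtain ⟨y, rfl⟩ := s.1.surjective x
    obtain ⟨w, hw⟩ := e2 y
    rw [isom_mul_apply, isom_mul_apply, isom_inv_apply_apply, T.cu_isom e, e', ← map_sub, ← map_sub,
      ← hw, e]
    exact T.t_mem_M ..

theorem Lv.congr {u : U} {α β : W →ₗ[F] V} (h : Lv T X u α) (e : ∀ w, α w = β w) : Lv T X u β :=
  LinearMap.ext e ▸ h

/-- An element with a given level at `v₁` fixes the vectors orthogonal to its level. -/
theorem fix_of_lv {v₁ v₂ : U} (h0 : v₁ ≠ 0) (h12 : f₁.B v₁ v₂ = 0) {k : f.Isom} {κ : W →ₗ[F] W}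
    (e2 : ∀ x, k ⊳ x - x - T.t v₂ (κ (T.cu v₁ x)) ∈ T.M v₁) {y : V} (hy : T.cu v₁ y = 0)
    (h : T.cu v₂ y = 0) : k ⊳ y = y := by
  obtain ⟨p, hp⟩ := T.exists_one h0
  obtain ⟨m, hm⟩ := e2 y
  rw [hy, map_zero, map_zero, sub_zero, eq_sub_iff_add_eq] at hm
  have : m = 0 := T.n₂.eq_of_B_eq fun w => by
    obtain ⟨m', hm'⟩ := e2 (T.t p w)
    rw [eq_sub_iff_add_eq, eq_sub_iff_add_eq] at hm'
    have e := f.B_coe_map k y (T.t p w)
    rw [← hm, ← hm'] at e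
    simp only [map_add, B_add_left, T.B_t, f₁.symp_B_self, hp, h12, f.orth_symm (T.t v₁ _) y,
      f.orth_symm (T.t v₂ _) y, T.B_cu _ _ y, h, hy, map_zero] at e
    simpa using e
  rw [← hm, this]; simp

theorem Sl.sub {s s' : W →ₗ[F] W} (h : Sl T X s) (h' : Sl T X s') : Sl T X (s - s') :=
  fun u v hu uv => ((h u v hu uv).sub (h' u v hu uv)).congr fun w => by simp

theorem Sl.smul {s : W →ₗ[F] W} (h : Sl T X s) (c : F) : Sl T X (c • s) :=
  fun u v hu uv => (h u (c • v) hu (by simp [uv])).congr fun w => by simp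

theorem Sl.congr {s s' : W →ₗ[F] W} (h : Sl T X s) (e : ∀ w, s w = s' w) : Sl T X s' :=
  LinearMap.ext e ▸ h

namespace Ov
variable (O : Ov T X)
include O

theorem lv_E {u v : U} (h : f₁.B u v = 0) : Lv T X u (T.t v) :=
  ⟨T.E h, O.kL _, fun w => by simp [T.E_apply, f₁.symp_B_self, f₁.eq_zero_symm h], fun x => by
    rw [T.E_apply]; exact ⟨T.cu v x, by abel⟩⟩

theorem lv_tv {u v : U} (h : f₁.B u v = 0) (c : F) {α : W →ₗ[F] V} (hα : Lv T X u α) :
    Lv T X u (c • T.t v ∘ₗ T.cu v ∘ₗ α) :=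
  ((hα.conj (O.kL (tv f₁ v c)) 1 (β := α + c • T.t v ∘ₗ T.cu v ∘ₗ α)
    (fun w => by simp [tv_apply, f₁.eq_zero_symm h]) fun w => by simp [T.kL_tv]).sub hα).congr
    fun w => by simp

theorem sl_of {u v : U} (hu : u ≠ 0) (hv : v ∉ F ∙ u) {s : W →ₗ[F] W}
    (hs : Lv T X u (T.t v ∘ₗ s)) : Sl T X s := by
  have k : ∀ v', f₁.B u v' = 0 → f₁.B v' v ≠ 0 → Lv T X u (T.t v' ∘ₗ s) := fun v' e e' =>
    (O.lv_tv e (f₁.B v' v)⁻¹ hs).congr fun w => by simp [smul_smul, e']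
  obtain ⟨p, h1, h2⟩ := T.n₁.exists_perp_B_eq hv 1
  rw [f₁.mem_perp_span_singleton] at h1
  have k' : ∀ v', f₁.B u v' = 0 → Lv T X u (T.t v' ∘ₗ s) := fun v' e => by
    by_cases e' : f₁.B v' v = 0
    · exact ((k (v' + p) (by simp [e, h1]) (by simp [e', h2])).sub (k p h1 (by simp [h2]))).congr
        fun w => by simp
    · exact k v' e e'
  intro u' v' hu' e
  obtain ⟨g, rfl⟩ := T.n₁.witt_one hu hu' (by rw [f₁.symp_Q, f₁.symp_Q])
  obtain ⟨v', rfl⟩ := g.1.surjective v'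
  exact (k' v' (by simpa using e)).conj (O.kL g) 1 (by simp) (by simp)

theorem sl_one : Sl T X 1 := fun _ _ _ h => O.lv_E h

theorem sl_conj {s s' : W →ₗ[F] W} (h : Sl T X s) (g : f₂.Isom)
    (e : ∀ w, s' (g ⊳ w) = g ⊳ s w) : Sl T X s' :=
  fun u v hu uv => (h u v hu uv).conj (O.kR g) g (by simp) (by simp [e])

theorem sl_mul {κ s : W →ₗ[F] W} (hκ : Sl T X κ) (hs : Sl T X s) : Sl T X (κ * s) := by
  have := O.ntU
  have a6 := O.a6
  obtain ⟨u, hu⟩ := exists_ne (0 : U)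
  obtain ⟨v₁, h1, v, h2, h3⟩ := exists_hyp T.n₁ (S := F ∙ u) (by
    rw [finrank_span_singleton hu]; omega)
  have d : finrank F (Submodule.span F {v₁, v} ⊔ F ∙ u : Submodule F U) ≤ 3 :=
    (finrank_sup_span_le _ u).trans (Nat.succ_le_succ (finrank_pair_le (F := F) v₁ v))
  have d1 := T.n₁.finrank_perp (Submodule.span F {v₁, v})
  have d2 := f₁.finrank_le_inf_perp (f₁.perp (Submodule.span F {v₁, v})) u
  obtain ⟨v₂, h4, h5⟩ := exists_not_mem_of_lt (S := F ∙ u)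
    (T := f₁.perp (Submodule.span F {v₁, v}) ⊓ f₁.perp (F ∙ u)) (by
      have := finrank_pair_le (F := F) v₁ v
      rw [finrank_span_singleton hu]; omega)
  obtain ⟨h4, h6⟩ := h4
  rw [SetLike.mem_coe, f₁.mem_perp_span_pair] at h4
  rw [SetLike.mem_coe, f₁.mem_perp_span_singleton] at h6
  rw [f₁.mem_perp_span_singleton] at h1 h2
  obtain ⟨p, h7, h8⟩ := T.n₁.exists_perp_B_eq h5 1
  rw [f₁.mem_perp_span_singleton] at h7
  have h0 : v₁ ≠ 0 := by rintro rfl; simp at h3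
  obtain ⟨k, hk, -, e2⟩ := hκ v₁ v₂ h0 h4.1
  have k1 := (hs u v hu h2).conj hk 1 (β := (k.1 : V →ₗ[F] V) ∘ₗ T.t v ∘ₗ s)
    (fun w => fix_of_lv h0 h4.1 e2 (by simp [f₁.eq_zero_symm h1]) (by simp [f₁.eq_zero_symm h6]))
    fun w => rfl
  set q := p - f₁.B p v • v₁ + f₁.B p v₁ • v with hq
  have q1 : f₁.B q v₁ = 0 := by simp [hq, f₁.symp_B_self, f₁.symp_symm v₁ v, h3]
  have q2 : f₁.B q v = 0 := by simp [hq, f₁.symp_B_self, h3]
  have q3 : f₁.B q v₂ = 1 := by simp [hq, h4.1, h4.2, h8]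
  have q4 : f₁.B u q = 0 := by simp [hq, h1, h2, h7]
  refine O.sl_of hu (v := q) (fun e => ?_) ((O.lv_tv q4 1 k1).congr fun w => ?_)
  · obtain ⟨a, ha⟩ := Submodule.mem_span_singleton.1 e
    simp [← ha, h6] at q3
  · obtain ⟨m, hm⟩ := e2 (T.t v (s w))
    rw [eq_sub_iff_add_eq, eq_sub_iff_add_eq] at hm
    simp [← hm, q1, q2, q3, h3]

theorem sl_adj {s : W →ₗ[F] W} (hs : Sl T X s) :
    ∃ c : F, ∀ w w', f₂.B (s w) w' + f₂.B w (s w') = c * f₂.B w w' := by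
  have := O.ntU
  have a6 := O.a6
  obtain ⟨u, hu⟩ := exists_ne (0 : U)
  obtain ⟨v', h', v, h, hv⟩ := exists_hyp T.n₁ (S := F ∙ u) (by
    rw [finrank_span_singleton hu]; omega)
  rw [f₁.mem_perp_span_singleton] at h h'
  obtain ⟨k, hk, e1, e2⟩ := hs u v hu h
  obtain ⟨k', hk', e1', e2'⟩ := O.lv_E h'
  have m1 : ∀ m ∈ T.M u, k ⊳ m = m := by rintro _ ⟨w, rfl⟩; exact e1 w
  have m2 : ∀ m ∈ T.M u, k' ⊳ m = m := by rintro _ ⟨w, rfl⟩; exact e1' w
  have p1 : ∀ x ∈ f.perp (T.M u), k ⊳ x - x ∈ T.M u := fun x hx => by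
    simpa [T.mem_perp_M.1 hx] using e2 x
  have p2 : ∀ x ∈ f.perp (T.M u), k' ⊳ x - x ∈ T.M u := fun x hx => by
    simpa [T.mem_perp_M.1 hx] using e2' x
  obtain ⟨c, hc⟩ := O.H1 hu (X.mul_mem (X.inv_mem (X.mul_mem hk' hk)) (X.mul_mem hk hk'))
    fun x hx => comm_fix m1 m2 p1 p2 (T.mem_perp_M.2 hx)
  obtain ⟨v₀, h₀⟩ := T.exists_one hu
  refine ⟨-c, fun w w' => ?_⟩
  have k1 := comm_B m1 m2 p1 p2 (T.t v₀ w) (T.t v₀ w')
  have k2 := congrArg (fun x => (k' * k) ⊳ x) (hc (T.t v₀ w'))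
  simp only [isom_mul_apply _ (k' * k)⁻¹, isom_apply_inv_apply, map_add, map_smul] at k2
  simp only [isom_mul_apply, e1, e1', T.cu_t, h₀, one_smul] at k2
  obtain ⟨a1, f1⟩ := e2 (T.t v₀ w)
  obtain ⟨a2, f2⟩ := e2 (T.t v₀ w')
  obtain ⟨a3, f3⟩ := e2' (T.t v₀ w)
  obtain ⟨a4, f4⟩ := e2' (T.t v₀ w')
  rw [k2, ← eq_sub_iff_add_eq.1 f1, ← eq_sub_iff_add_eq.1 f2, ← eq_sub_iff_add_eq.1 f3,
    ← eq_sub_iff_add_eq.1 f4] at k1
  simp only [T.cu_t, h₀, one_smul, LinearMap.comp_apply, map_add, map_smul, B_add_left, T.B_t,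
    f₁.symp_B_self, h, h', f₁.eq_zero_symm h, f₁.eq_zero_symm h', hv, f₁.symp_symm v' v,
    f₁.symp_symm u v₀, smul_eq_mul] at k1
  linear_combination -k1

theorem not_sl {w : W} (hw : w ≠ 0) : ¬Sl T X (ro f₂ w w) := fun hs => by
  have := O.ntU
  have a6 := O.a6
  obtain ⟨u, hu⟩ := exists_ne (0 : U)
  obtain ⟨v', h', v, h, hv⟩ := exists_hyp T.n₁ (S := F ∙ u) (by
    rw [finrank_span_singleton hu]; omega)
  rw [f₁.mem_perp_span_singleton] at h h'
  obtain ⟨k, hk, e1, e2⟩ := hs u v hu h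
  refine O.not_lev hu hw (v := v') (fun e => ?_) (mem_levS.2 fun c => ?_)
  · obtain ⟨a, rfl⟩ := Submodule.mem_span_singleton.1 e
    simp [h] at hv
  have c1 : f.EichlerCond (T.t u w) (T.t v w) 0 := ⟨T.Q_t .., by simp [T.B_t, h], (T.Q_t ..).symm⟩
  have c2 : f.EichlerCond (T.t u w) (T.t v w + c • T.t v' w) 0 := ⟨T.Q_t .., by simp [T.B_t, h, h'],
    by rw [← LinearMap.smul_apply, ← map_smul, ← LinearMap.add_apply, ← map_add, T.Q_t]; rfl⟩
  set R := f.eichler _ _ 0 c1 with hR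
  set τ := T.kL (tv f₁ v' c) with hτ
  have m : ∀ x, (k * R⁻¹) ⊳ x - x ∈ T.M u := fun x => by
    obtain ⟨x, rfl⟩ := R.1.surjective x
    rw [isom_mul_apply, isom_inv_apply_apply, hR, orth_eichler_apply]
    convert (T.M u).add_mem (e2 x) ((T.M u).smul_mem (f.B (T.t v w) x) (T.t_mem_M u w)) using 1
    simp only [LinearMap.comp_apply, ro_apply, map_smul, T.B_cu u]
    abel
  have cm : τ * (k * R⁻¹) = k * R⁻¹ * τ := f.isom_ext fun x => by
    obtain ⟨a, ha⟩ := m x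
    have e3 := fix_of_lv (T := T) hu (v₂ := 0) (κ := 0) (k := k * R⁻¹) (by simp)
      (fun x => by simpa using m x) (y := c • T.t v' (T.cu v' x)) (by simp [h']) (by
        rw [← zero_smul F (0 : U), T.cu_smul, zero_smul])
    rw [f.isom_mul_apply τ, f.isom_mul_apply _ τ, hτ, T.kL_tv v' c x, map_add, e3,
      ← eq_sub_iff_add_eq.1 ha, map_add, T.kL_t, T.kL_tv, tv_apply, f₁.eq_zero_symm h']
    simp [add_assoc]
  have e3 : τ * R * τ⁻¹ = f.eichler _ _ 0 c2 := by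
    rw [hR, conj_eichler]
    exact f.eichler_congr _ _ (by simp [hτ, tv_apply, f₁.eq_zero_symm h'])
      (by simp [hτ, tv_apply, hv]) rfl
  have e4 : R⁻¹ * (τ * R * τ⁻¹) ∈ X := by
    have : R⁻¹ * (τ * R * τ⁻¹) = k⁻¹ * (τ * k * τ⁻¹) := by
      calc R⁻¹ * (τ * R * τ⁻¹) = k⁻¹ * (k * R⁻¹ * τ) * R * τ⁻¹ := by group
        _ = k⁻¹ * (τ * k * τ⁻¹) := by rw [← cm]; group
    rw [this]
    exact X.mul_mem (X.inv_mem hk) (X.mul_mem (X.mul_mem (O.kL _) hk) (X.inv_mem (O.kL _)))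
  rw [e3, hR, eichler_inv, eichler_mul] at e4
  have : f.Lev X _ _ := ⟨_, _, e4⟩
  simpa using this

theorem sl_D {r : W →ₗ[F] W} (hr : Sl T X r) {c : F}
    (hc : ∀ w w', f₂.B (r w) w' + f₂.B w (r w') = c * f₂.B w w') (z : W) (l : F) :
    Sl T X (l • (c • ro f₂ z z - (ro f₂ z (r z) + ro f₂ (r z) z)) -
      (l * l * f₂.B z (r z)) • ro f₂ z z) := by
  refine ((O.sl_conj hr (tv f₂ z l) (s' := (tv f₂ z l).1.toLinearMap * r *
    (tv f₂ z l)⁻¹.1.toLinearMap) fun w => by simp).sub hr).congr fun w => ?_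
  have := hc z w
  simp only [tv_inv, LinearMap.sub_apply, Module.End.mul_apply, LinearEquiv.coe_coe, tv_apply,
    map_add, map_smul, LinearMap.smul_apply, LinearMap.add_apply, ro_apply,
    eq_sub_of_add_eq' this]
  module

theorem sl_scalar {s : W →ₗ[F] W} (hs : Sl T X s) : ∃ c : F, ∀ w, s w = c • w := by
  refine scalar_of fun w => ?_
  by_contra hn
  have w0 : w ≠ 0 := by rintro rfl; simp at hn
  obtain ⟨c, hc⟩ := O.sl_adj hs
  have fin : ∀ (l : F) z z', f₂.B z z' = 0 → z' ∉ F ∙ z → z ≠ 0 →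
      ¬Sl T X (l • ro f₂ z z + (ro f₂ z z' + ro f₂ z' z)) := fun l z z' e1 e2 z0 h => by
    obtain ⟨p, h1, h2⟩ := T.n₂.exists_perp_B_eq e2 1
    rw [f₂.mem_perp_span_singleton] at h1
    have h3 := O.sl_conj h (tv f₂ p 1)
      (s' := l • ro f₂ z z + (ro f₂ z (z' + p) + ro f₂ (z' + p) z)) fun x => by
        simp [tv_apply, h1, f₂.eq_zero_symm h1, h2, f₂.symp_B_self, f₂.symp_symm p z']
        abel
    refine O.not_sl z0 ((O.sl_mul (h3.sub h) h).congr fun x => ?_)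
    simp [f₂.symp_B_self, e1, f₂.eq_zero_symm e1, f₂.eq_zero_symm h1, h2]
  by_cases hμ : f₂.B w (s w) = 0
  · refine fin (-c) w (s w) hμ hn w0 (((O.sl_D hs hc w 1).smul (-1)).congr fun x => ?_)
    simp only [hμ, LinearMap.sub_apply, LinearMap.smul_apply, LinearMap.add_apply]
    module
  rcases O.hq with h4 | ⟨a, a0, a1⟩
  · have d1 := T.n₂.finrank_perp (Submodule.span F {w, s w})
    have d2 := finrank_pair_le (F := F) w (s w)
    obtain ⟨y, h1, y0⟩ := Submodule.exists_mem_ne_zero_of_ne_bot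
      (p := f₂.perp (Submodule.span F {w, s w})) fun e => by rw [e, finrank_bot] at d1; omega
    rw [f₂.mem_perp_span_pair] at h1
    have hne : ∀ a b : F, a • w + b • y = 0 → a = 0 := fun a b e => by
      simpa [h1.2, f₂.symp_symm w (s w), hμ] using congrArg (f₂.B (s w)) e
    refine fin 0 (w + y) w (by simp [f₂.symp_B_self, f₂.eq_zero_symm h1.1]) (fun e => ?_)
      (fun e => one_ne_zero (hne 1 1 (by simpa using e)))
      (((O.sl_D (O.sl_D hs hc w 1) (c := 0) (fun x x' => ?_) (w + y) 1).smul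
        (-(f₂.B w (s w))⁻¹)).congr fun x => ?_)
    · obtain ⟨b, hb⟩ := Submodule.mem_span_singleton.1 e
      have := hne (b - 1) b (by linear_combination (norm := module) hb)
      rw [sub_eq_zero.1 this, one_smul, add_eq_left] at hb
      exact y0 hb
    · simp only [LinearMap.sub_apply, LinearMap.smul_apply, LinearMap.add_apply, ro_apply,
        B_sub_left, B_smul_left, B_add_left, map_sub, map_smul, map_add, Kind.symp_σ, smul_eq_mul,
        f₂.symp_symm w x, f₂.symp_symm (s w) x]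
      ring
    · simp only [LinearMap.sub_apply, LinearMap.smul_apply, LinearMap.add_apply, ro_apply,
        B_sub_left, B_smul_left, B_add_left, map_sub, map_smul, map_add, Kind.symp_σ, smul_eq_mul,
        f₂.symp_B_self, h1.1, h1.2, f₂.eq_zero_symm h1.1, f₂.symp_symm w (s w)]
      match_scalars <;> field_simp <;> ring
  · refine O.not_sl w0 ((((O.sl_D hs hc w a).sub ((O.sl_D hs hc w 1).smul a)).smul
      ((a - a * a) * f₂.B w (s w))⁻¹).congr fun x => ?_)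
    have : a - a * a ≠ 0 := by
      rw [← mul_one_sub]; exact mul_ne_zero a0 (sub_ne_zero.2 a1.symm)
    simp only [LinearMap.sub_apply, LinearMap.smul_apply, LinearMap.add_apply, ro_apply]
    match_scalars <;> field_simp <;> ring

/-- The elements of `X` acting trivially on the flag `u ⊗ W ≤ (u ⊗ W)^⊥`. -/
theorem H2 {u : U} (hu : u ≠ 0) {k : f.Isom} (hk : k ∈ X) (e1 : ∀ w, k ⊳ T.t u w = T.t u w)
    (e2 : ∀ x, T.cu u x = 0 → k ⊳ x - x ∈ T.M u) : ∃ v c, ∃ h : f₁.B u v = 0,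
      k = T.E h * T.kL (tv f₁ u c) := by
  obtain ⟨v₀, h₀⟩ := T.exists_one hu
  let α : W →ₗ[F] V := ((k.1 : V →ₗ[F] V) - LinearMap.id) ∘ₗ T.t v₀
  have hα : Lv T X u α := ⟨k, hk, e1, fun x => by
    convert e2 (x - T.t v₀ (T.cu u x)) (by simp [h₀]) using 1
    simp only [α, LinearMap.comp_apply, LinearMap.sub_apply, LinearEquiv.coe_coe,
      LinearMap.id_apply, map_sub]; abel⟩
  have a0 : ∀ w, T.cu u (α w) = 0 := fun w => by simp [α, T.cu_fix e1]
  have := O.ntW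
  obtain ⟨y', hy'⟩ := exists_ne (0 : W)
  obtain ⟨y, hy⟩ := T.swap.exists_one hy'
  let v := T.cw y' (α y)
  have hv : ∀ v₁, f₁.B u v₁ = 0 → ∀ w, T.cu v₁ (α w) = f₁.B v₁ v • w := fun v₁ h₁ => by
    obtain ⟨c, hc⟩ : ∃ c : F, ∀ w, T.cu v₁ (α w) = c • w := by
      by_cases h : v₁ ∈ F ∙ u
      · obtain ⟨a, rfl⟩ := Submodule.mem_span_singleton.1 h
        exact ⟨0, fun w => by simp [T.cu_smul, a0]⟩
      · exact O.sl_scalar (O.sl_of hu h (s := T.cu v₁ ∘ₗ α)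
          ((O.lv_tv h₁ 1 hα).congr fun w => by simp))
    intro w
    rw [hc, ← T.cu_cw, hc, map_smul, hy, smul_eq_mul, mul_one]
  have uv : f₁.B u v = 0 := by rw [← T.cu_cw, a0]; simp
  obtain ⟨c, hc⟩ := O.H1 hu (g := (T.E uv)⁻¹ * k) (X.mul_mem (X.inv_mem (O.kL _)) hk) fun x hx => by
    obtain ⟨w', hw'⟩ := e2 x hx
    have : w' = T.cu v x := T.n₂.eq_of_B_eq_right fun w => by
      obtain ⟨m, hm⟩ := T.mem_M_of hu (x := α w - T.t v w) fun v₁ h₁ => by simp [hv v₁ h₁]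
      have e := f.B_coe_map k (T.t v₀ w) x
      have e3 : k ⊳ T.t v₀ w = T.t v₀ w + T.t v w + T.t u m := by rw [hm]; simp [α]
      rw [e3, ← eq_sub_iff_add_eq.1 hw'] at e
      simp only [map_add, B_add_left, T.B_t, f₁.symp_B_self, f₁.symp_symm u v₀, h₀,
        f₁.eq_zero_symm uv, T.B_cu u, T.B_cu v, hx, map_zero] at e
      linear_combination -e
    rw [isom_mul_apply, ← eq_sub_iff_add_eq.1 hw', this]
    conv_rhs => rw [← f.isom_inv_apply_apply (T.E uv) x, T.E_apply, hx, map_zero, add_zero, add_comm]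
  refine ⟨v, c, uv, ?_⟩
  rw [← inv_mul_eq_iff_eq_mul]
  exact f.isom_ext fun x => by rw [hc, T.kL_tv]

end Ov

end CA.H12Ss
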