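import Cfsg.Agent.Lib.Lin.H12Ss3

/-!
Overgroups of the tensor product of two symplectic groups, part four: the stabiliser of `u ⊗ W`
and the images of `u ⊗ W`.
-/

set_option autoImplicit false
set_option linter.unusedSectionVars false

namespace CA.H12Ss

open CA.CForm CA.CForm.Form Module
open CA.H12Tn (tv tv_apply symp_eichler_apply finrank_pair_le)

local notation:75 g:76 " ⊳ " v:75 => (Subtype.val g) v

variable {F : Type*} [Field F] {U W V : Type*} [AddCommGroup U] [Module F U]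
  [AddCommGroup W] [Module F W] [AddCommGroup V] [Module F V] [FiniteDimensional F U]
  [FiniteDimensional F W] [FiniteDimensional F V]
  {f₁ : Form (Kind.symp F) U} {f₂ : Form (Kind.symp F) W} {f : Form (Kind.orth F) V}

/-- `M` is an image of some `u ⊗ W` under `X`. -/
def Mem (T : Ss f₁ f₂ f) (X : Subgroup f.Isom) (M : Submodule F V) : Prop :=
  ∃ s ∈ X, ∃ u, u ≠ 0 ∧ M = f.act s (T.M u)

/-- Distinct members meet in dimension at most `d`. -/
def Mx (T : Ss f₁ f₂ f) (X : Subgroup f.Isom) (d : ℕ) : Prop :=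
  ∀ M M', Mem T X M → Mem T X M' → d < finrank F (M ⊓ M' : Submodule F V) → M = M'

variable {T : Ss f₁ f₂ f} {X : Subgroup f.Isom}

theorem mem_std {u : U} (hu : u ≠ 0) : Mem T X (T.M u) := ⟨1, X.one_mem, u, hu, (f.act_one _).symm⟩

theorem Mem.act {M : Submodule F V} (h : Mem T X M) {g : f.Isom} (hg : g ∈ X) :
    Mem T X (f.act g M) :=
  let ⟨s, hs, u, hu, e⟩ := h; ⟨g * s, X.mul_mem hg hs, u, hu, by rw [e, act_mul]⟩

theorem Mem.finrank {M : Submodule F V} (h : Mem T X M) : finrank F M = finrank F W := by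
  obtain ⟨s, -, u, hu, rfl⟩ := h
  rw [finrank_act, T.finrank_M hu]

theorem Mem.ts {M : Submodule F V} (h : Mem T X M) {x y : V} (hx : x ∈ M) (hy : y ∈ M) :
    f.B x y = 0 := by
  obtain ⟨s, -, u, hu, rfl⟩ := h
  obtain ⟨_, ⟨w, rfl⟩, rfl⟩ := hx
  obtain ⟨_, ⟨w', rfl⟩, rfl⟩ := hy
  simp [T.B_t, f₁.symp_B_self]

theorem Mx.eq_of {d : ℕ} (h : Mx T X d) {M M' I : Submodule F V} (m : Mem T X M) (m' : Mem T X M')
    (h1 : I ≤ M) (h2 : I ≤ M') (hd : d ≤ finrank F I) {x : V} (x1 : x ∈ M) (x2 : x ∈ M')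
    (x3 : x ∉ I) : M = M' :=
  h _ _ m m' (hd.trans_lt (Submodule.finrank_lt_finrank_of_lt
    (lt_of_le_of_ne (le_inf h1 h2) fun e => x3 (e ▸ ⟨x1, x2⟩))))

theorem le_act {I M : Submodule F V} {g : f.Isom} (h : I ≤ M) (e : ∀ x ∈ I, g ⊳ x = x) :
    I ≤ f.act g M := fun x hx => e x hx ▸ f.apply_mem_act.2 (h hx)

theorem mem_of_act {M : Submodule F V} {g : f.Isom} (e : f.act g M = M) {x : V} (hx : x ∈ M) :
    g ⊳ x ∈ M := by
  have := (f.apply_mem_act (g := g)).2 hx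
  rwa [e] at this

theorem M_eq_of_mem {u u' : U} {x : V} (hu' : u' ≠ 0) (h : x ∈ T.M u) (h' : x ∈ T.M u')
    (x0 : x ≠ 0) : T.M u' = T.M u := by
  obtain ⟨w, rfl⟩ := h'
  obtain ⟨a, rfl⟩ := T.smul_of_t_mem (by rintro rfl; simp at x0) h
  exact T.M_smul (left_ne_zero_of_smul hu') u

namespace Ov
variable (O : Ov T X)
include O

theorem SC {r : W →ₗ[F] W} (h : ∀ t : f₂.Isom, ∃ ν : F, ∀ w, r (t ⊳ w) = t ⊳ (r w + ν • w)) :
    ∃ c : F, ∀ w, r w = c • w := by
  refine scalar_of fun z => ?_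
  by_cases z0 : z = 0
  · simp [z0]
  obtain ⟨x, hx⟩ := T.swap.exists_one z0
  have k : ∀ l : F, ∃ ν : F, ∀ w, (l * f₂.B z w) • r z =
      ν • w + (l * (f₂.B z (r w) + ν * f₂.B z w)) • z := fun l => by
    obtain ⟨ν, h⟩ := h (tv f₂ z l)
    refine ⟨ν, fun w => ?_⟩
    have := h w
    simp only [tv_apply, map_add, map_smul] at this
    linear_combination (norm := module) this
  have k1 : ∀ l ν : F, (∀ w, (l * f₂.B z w) • r z =
      ν • w + (l * (f₂.B z (r w) + ν * f₂.B z w)) • z) → ν = -(l * f₂.B z (r z)) := fun l ν h => by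
    have := h z
    rw [f₂.symp_B_self, mul_zero, zero_smul, mul_zero, add_zero, ← add_smul, eq_comm,
      smul_eq_zero] at this
    exact eq_neg_of_add_eq_zero_left (this.resolve_right z0)
  obtain ⟨ν, h1⟩ := k 1
  suffices e : ν = 0 by
    have := h1 x
    rw [hx, e, one_mul, one_smul, zero_smul, zero_add] at this
    exact Submodule.mem_span_singleton.2 ⟨_, this.symm⟩
  by_contra n0
  rcases O.hq with h4 | ⟨a, a0, a1⟩
  · obtain ⟨y, -, hy⟩ := exists_not_mem_of_lt (S := Submodule.span F {z, r z}) (T := ⊤) (by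
      have := finrank_pair_le (F := F) z (r z)
      rw [finrank_top]; omega)
    refine hy ((Submodule.smul_mem_iff _ n0).1 ?_)
    rw [eq_sub_of_add_eq (h1 y).symm]
    exact Submodule.sub_mem _ (Submodule.smul_mem _ _ (Submodule.subset_span (by simp)))
      (Submodule.smul_mem _ _ (Submodule.subset_span (by simp)))
  · obtain ⟨ν', h2⟩ := k a
    have e1 := k1 _ _ h1
    have e2 := k1 _ _ h2
    have e3 := h1 x
    have e4 := h2 x
    rw [hx] at e3 e4
    have : (a * (a - 1) * ν) • z = 0 := by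
      rw [e2] at e4
      rw [e1] at e3 ⊢
      linear_combination (norm := module) a • e3 - e4
    exact smul_ne_zero (mul_ne_zero (mul_ne_zero a0 (sub_ne_zero.2 a1)) n0) z0 this

/-- The stabiliser of `u ⊗ W` preserves the tensor decomposition. -/
theorem D {u : U} (hu : u ≠ 0) {s : f.Isom} (hs : s ∈ X) (hM : ∀ w, s ⊳ T.t u w ∈ T.M u) :
    s ∈ T.N := by
  obtain ⟨v₀, h₀⟩ := T.exists_one hu
  have st : s ∈ f.stab (T.M u) := f.mem_stab_of_le (by rintro _ ⟨w, rfl⟩; exact hM w)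
  have sp : ∀ x, T.cu u x = 0 ↔ T.cu u (s ⊳ x) = 0 := fun x => by
    rw [← T.mem_perp_M, ← T.mem_perp_M]; exact f.stab_le_stab_perp _ st x
  let h' : W →ₗ[F] W := -T.cu v₀ ∘ₗ (s.1 : V →ₗ[F] V) ∘ₗ T.t u
  have e' : ∀ w, s ⊳ T.t u w = T.t u (h' w) := fun w => by
    obtain ⟨w', hw⟩ := hM w
    simp [h', ← hw, f₁.symp_symm u v₀, h₀]
  let h : W ≃ₗ[F] W := .ofInjectiveEndo h' ((injective_iff_map_eq_zero _).2 fun w hw =>
    T.t_inj hu (s.1.injective (by rw [e', hw]; simp)))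
  have e : ∀ w, s ⊳ T.t u w = T.t u (h w) := e'
  clear_value h
  obtain ⟨c, hc⟩ := O.H1 hu (X.mul_mem (X.mul_mem hs (O.kL (tv f₁ u 1))) (X.inv_mem hs))
    fun x hx => by
      obtain ⟨y, rfl⟩ := s.1.surjective x
      rw [isom_mul_apply, isom_inv_apply_apply, isom_mul_apply, T.kL_tv, (sp y).2 hx]; simp
  have hcu : ∀ x, h (T.cu u x) = c • T.cu u (s ⊳ x) := fun x => by
    have k1 := hc (s ⊳ x)
    rw [isom_mul_apply, isom_inv_apply_apply, isom_mul_apply, T.kL_tv, map_add, add_right_inj,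
      one_smul, e, ← map_smul] at k1
    exact T.t_inj hu k1
  have hB : ∀ w w', f₂.B (h w) (h w') = c * f₂.B w w' := fun w w' => by
    have k1 := hcu (T.t v₀ w')
    rw [T.cu_t, h₀, one_smul] at k1
    rw [k1, map_smul, ← T.B_cu, ← e, B_coe_map, T.B_t, h₀, one_mul, smul_eq_mul]
  have := O.ntW
  obtain ⟨w₀, hw₀⟩ := exists_ne (0 : W)
  have c0 : c ≠ 0 := by
    rintro rfl
    have k1 := hcu (T.t v₀ w₀)
    simp [h₀, hw₀] at k1
  have key : ∀ t : f₂.Isom, ∃ g : f₁.Isom, (∀ v, f₁.B u (g ⊳ v - v) = 0) ∧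
      (∀ v, f₁.B u v = 0 → g ⊳ v - v ∈ F ∙ u) ∧
      ∀ v p w, T.cu v (s ⊳ T.t p (t ⊳ w)) = h (t ⊳ h.symm (T.cu (g ⊳ v) (s ⊳ T.t p w))) := by
    intro t
    let t' : f₂.Isom := ⟨h * t.1 * h⁻¹, f₂.symp_mem_Isom.2 fun x y => by
      obtain ⟨x, rfl⟩ := h.surjective x
      obtain ⟨y, rfl⟩ := h.surjective y
      simp [hB]⟩
    have et : ∀ w, t' ⊳ w = h (t ⊳ h.symm w) := fun w => rfl
    set k := s * T.kR t * s⁻¹ * (T.kR t')⁻¹ with hk
    have kX : k ∈ X :=
      X.mul_mem (X.mul_mem (X.mul_mem hs (O.kR _)) (X.inv_mem hs)) (X.inv_mem (O.kR _))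
    have e1 : ∀ w, k ⊳ T.t u w = T.t u w := fun w => by
      obtain ⟨w, rfl⟩ := t'.1.surjective w
      obtain ⟨w, rfl⟩ := h.surjective w
      conv_lhs => rw [← T.kR_t, hk, isom_mul_apply, isom_inv_apply_apply, ← e, isom_mul_apply,
        isom_inv_apply_apply, isom_mul_apply, T.kR_t, e]
      rw [et, h.symm_apply_apply]
    have cm : ∀ {v} (uv : f₁.B u v = 0), k * T.E uv = T.E uv * k := fun {v} uv => by
      obtain ⟨v', a, uv', e5⟩ := O.H2 hu (k := s⁻¹ * T.E uv * s)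
        (X.mul_mem (X.mul_mem (X.inv_mem hs) (O.kL _)) hs) (fun w => by
          rw [isom_mul_apply, isom_mul_apply, e, T.E_apply, T.cu_t, T.cu_t, f₁.symp_B_self,
            f₁.eq_zero_symm uv, zero_smul, map_zero, map_zero, add_zero, add_zero, ← e,
            isom_inv_apply_apply]) (fun x hx => by
          rw [st, isom_mul_apply, isom_mul_apply, map_sub, isom_apply_inv_apply, T.E_apply,
            (sp x).1 hx]
          exact ⟨T.cu v (s ⊳ x), by simp⟩)
      have e2 : s⁻¹ * T.E uv * s * T.kR t = T.kR t * (s⁻¹ * T.E uv * s) := by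
        rw [e5, Ss.E, ← map_mul, T.kL_comm_kR]
      have e3 : T.E uv * (T.kR t')⁻¹ = (T.kR t')⁻¹ * T.E uv := by
        rw [← map_inv]; exact T.kL_comm_kR ..
      calc k * T.E uv = s * (T.kR t * (s⁻¹ * T.E uv * s)) * s⁻¹ * (T.kR t')⁻¹ := by
            rw [hk, mul_assoc _ _ (T.E uv), ← e3]; group
        _ = T.E uv * k := by rw [hk, ← e2]; group
    have e2 : ∀ x, T.cu u x = 0 → k ⊳ x - x ∈ T.M u := fun x hx => Submodule.mem_comap.1 <|
      T.ker_ind hu (Y := (T.M u).comap ((k.1 : V →ₗ[F] V) - LinearMap.id)) (fun v w uv => by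
        have := congrArg (fun g => g ⊳ T.t v₀ w) (cm uv)
        simp only [isom_mul_apply, T.E_apply, map_add, T.cu_fix e1, e1, T.cu_t, h₀, one_smul] at this
        refine ⟨T.cu v (k ⊳ T.t v₀ w) - f₁.B v v₀ • w, ?_⟩
        simp only [LinearMap.sub_apply, LinearEquiv.coe_coe, LinearMap.id_apply, map_sub]
        rw [← sub_eq_zero] at this ⊢
        rw [← neg_eq_zero, ← this]; abel) hx
    obtain ⟨v', a, uv', e5⟩ := O.H2 hu kX e1 e2
    rw [Ss.E, ← map_mul] at e5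
    set g := f₁.eichler u v' 0 (f₁.symp_eichlerCond uv' 0) * tv f₁ u a with hg
    have gu : g ⊳ u = u := by
      simp [hg, tv_apply, symp_eichler_apply, f₁.symp_B_self, f₁.eq_zero_symm uv']
    refine ⟨g⁻¹, fun v => by rw [map_sub, f₁.B_isom_right, inv_inv, gu, sub_self], fun v hv => ?_,
      fun v p w => ?_⟩
    · obtain ⟨v, rfl⟩ := g.1.surjective v
      rw [← gu, B_coe_map] at hv
      rw [isom_inv_apply_apply]
      exact Submodule.mem_span_singleton.2 ⟨-f₁.B v' v, by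
        simp [hg, tv_apply, symp_eichler_apply, hv]⟩
    · have e6 : s * T.kR t = T.kL g * T.kR t' * s := by rw [← e5, hk]; group
      have e7 := congrArg (fun k => k ⊳ T.t p w) e6
      simp only [isom_mul_apply, T.kR_t] at e7
      rw [e7, ← et, ← T.cu_kR, ← T.cu_kL g (g⁻¹ ⊳ v), isom_apply_inv_apply]
  have step : ∀ v p, (∀ g : f₁.Isom, (∀ v, f₁.B u (g ⊳ v - v) = 0) →
      (∀ v, f₁.B u v = 0 → g ⊳ v - v ∈ F ∙ u) → ∃ ν : F, ∀ w,
        T.cu (g ⊳ v - v) (s ⊳ T.t p w) = ν • h w) →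
      ∃ γ : F, ∀ w, T.cu v (s ⊳ T.t p w) = γ • h w := fun v p H => by
    obtain ⟨γ, hγ⟩ := O.SC (r := h.symm.toLinearMap ∘ₗ T.cu v ∘ₗ (s.1 : V →ₗ[F] V) ∘ₗ T.t p)
      fun t => by
        obtain ⟨g, g1, g2, g3⟩ := key t
        obtain ⟨ν, hν⟩ := H g g1 g2
        refine ⟨ν, fun w => ?_⟩
        simp only [LinearMap.comp_apply, LinearEquiv.coe_coe, g3, h.symm_apply_apply]
        rw [← add_sub_cancel v (g ⊳ v), T.cu_add, hν]
        simp
    exact ⟨γ, fun w => by simpa [h.symm_apply_eq] using hγ w⟩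
  have s1 : ∀ v p, f₁.B u v = 0 → ∃ γ : F, ∀ w, T.cu v (s ⊳ T.t p w) = γ • h w :=
    fun v p hv => step v p fun g _ g2 => by
      obtain ⟨a, ha⟩ := Submodule.mem_span_singleton.1 (g2 v hv)
      refine ⟨a * (c⁻¹ * f₁.B u p), fun w => ?_⟩
      have := hcu (T.t p w)
      rw [T.cu_t, map_smul] at this
      rw [← ha, T.cu_smul, mul_smul, mul_smul, this, inv_smul_smul₀ c0]
  have s2 : ∀ v p, ∃ γ : F, ∀ w, T.cu v (s ⊳ T.t p w) = γ • h w :=
    fun v p => step v p fun g g1 _ => s1 _ p (g1 v)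
  obtain ⟨z', hz'⟩ := T.swap.exists_one (u := h w₀) (by simpa using hw₀)
  obtain ⟨z, hz⟩ : ∃ z, f₂.B z (h w₀) = 1 := ⟨-z', by rw [B_neg_left, f₂.symp_symm, hz', neg_neg]⟩
  have := O.ntU
  refine T.mem_N_of_lin (T.cw z ∘ₗ (s.1 : V →ₗ[F] V) ∘ₗ T.t.flip w₀) h
    fun p w => sub_eq_zero.1 (T.eq_zero_of_cu fun v => ?_)
  obtain ⟨γ, hγ⟩ := s2 v p
  simp [hγ, ← T.cu_cw, hz]

theorem conj_tv (s : f.Isom) (u : U) (c : F) (x : V) : (s * T.kL (tv f₁ u c) * s⁻¹) ⊳ x =
    x + c • s ⊳ T.t u (T.cu u (s⁻¹ ⊳ x)) := by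
  rw [isom_mul_apply, isom_mul_apply, T.kL_tv, map_add, isom_apply_inv_apply, map_smul]

/-- The conjugates of transvections of the first factor which preserve the decomposition. -/
theorem K0 {u : U} (hu : u ≠ 0) {s : f.Isom}
    (hN : s * T.kL (tv f₁ u 1) * s⁻¹ ∈ T.N) : ∃ u', u' ≠ 0 ∧ f.act s (T.M u) = T.M u' := by
  set τ := s * T.kL (tv f₁ u 1) * s⁻¹ with hτ
  have e : ∀ x, τ ⊳ x = x + s ⊳ T.t u (T.cu u (s⁻¹ ⊳ x)) := fun x => by
    rw [hτ, O.conj_tv, one_smul]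
  obtain ⟨v₀, h₀⟩ := T.exists_one hu
  have m1 : ∀ x, τ ⊳ x - x ∈ f.act s (T.M u) := fun x => by
    rw [e, add_sub_cancel_left]; exact f.apply_mem_act.2 (T.t_mem_M ..)
  have d : finrank F (f.act s (T.M u)) = finrank F W := by rw [finrank_act, T.finrank_M hu]
  obtain ⟨g, h, e1⟩ := hN
  obtain ⟨a, ha⟩ := scalar_of (r := h.symm.toLinearMap) fun w => by
    obtain ⟨w, rfl⟩ := h.surjective w
    rw [LinearEquiv.coe_coe, h.symm_apply_apply]
    by_contra hn
    obtain ⟨z, h1, h2⟩ := T.n₂.exists_perp_B_eq hn 1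
    replace h1 := f₂.eq_zero_symm (f₂.mem_perp_span_singleton.1 h1)
    have := LinearMap.finrank_le_finrank_of_injective (f := LinearMap.codRestrict _
      (((τ.1 : V →ₗ[F] V) - LinearMap.id) ∘ₗ T.t.flip w) fun p => m1 (T.t p w))
      ((injective_iff_map_eq_zero _).2 fun p hp => by
        have : T.cw z (τ ⊳ T.t p w - T.t p w) = T.cw z 0 := congrArg (fun x => T.cw z x.1) hp
        simpa [e1, h1, h2] using this)
    have := O.ab
    omega
  have := O.ntW
  obtain ⟨w₀, hw₀⟩ := exists_ne (0 : W)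
  obtain ⟨v, hv⟩ : ∃ v, g v - a • v ≠ 0 := by
    by_contra H
    push Not at H
    have : τ = 1 := T.ext fun v w => by
      obtain ⟨w, rfl⟩ := h.symm.surjective w
      rw [e1, h.apply_symm_apply, sub_eq_zero.1 (H v), isom_one_apply]
      simp [show h.symm w = a • w from ha w]
    have k := e (s ⊳ T.t v₀ w₀)
    simp [this, h₀, T.t_ne_zero hu hw₀] at k
  refine ⟨_, hv, (Submodule.eq_of_le_of_finrank_eq ?_ (by rw [d, T.finrank_M hv])).symm⟩
  rintro _ ⟨w, rfl⟩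
  have := m1 (T.t v (h.symm w))
  rw [e1, h.apply_symm_apply, show h.symm w = a • w from ha w] at this
  simpa using this

theorem mem_N_of_act {u v : U} (hu : u ≠ 0) (hv : v ≠ 0) {s : f.Isom} (hs : s ∈ X)
    (e : f.act s (T.M v) = T.M u) : s ∈ T.N := by
  obtain ⟨g, rfl⟩ := T.n₁.witt_one hu hv (by rw [f₁.symp_Q, f₁.symp_Q])
  refine (T.N.mul_mem_cancel_right (T.kL_mem_N g)).1 (O.D hu (X.mul_mem hs (O.kL g)) fun w => ?_)
  rw [isom_mul_apply, T.kL_t, ← e]
  exact f.apply_mem_act.2 (T.t_mem_M ..)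

theorem act_std {v : U} (hv : v ≠ 0) {s : f.Isom} (hs : s ∈ T.N) :
    ∃ u, u ≠ 0 ∧ f.act s (T.M v) = T.M u :=
  let ⟨g, _, e⟩ := hs; ⟨g v, by simpa using hv, T.act_M e v⟩

theorem K1 {M : Submodule F V} (m : Mem T X M) {u : U} (hu : u ≠ 0)
    (h : ∀ x ∈ M, T.t u (T.cu u x) ∈ M) : ∃ u', u' ≠ 0 ∧ M = T.M u' := by
  obtain ⟨s, hs, v, hv, rfl⟩ := m
  obtain ⟨u', h0, e⟩ := O.K0 hu (O.D hv
    (X.mul_mem (X.mul_mem (X.inv_mem hs) (O.kL _)) (X.inv_mem (X.inv_mem hs))) fun w => by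
      rw [O.conj_tv, inv_inv, one_smul]
      exact Submodule.add_mem _ (T.t_mem_M ..)
        (f.mem_act.1 (h _ (f.apply_mem_act.2 (T.t_mem_M ..)))))
  exact O.act_std hv ((T.N.inv_mem_iff).1 (O.mem_N_of_act h0 hu (X.inv_mem hs) e))

theorem K_std {d : ℕ} (h : Mx T X d) {M : Submodule F V} (m : Mem T X M) {u : U} (hu : u ≠ 0)
    (hd : d ≤ finrank F (T.M u ⊓ M : Submodule F V)) {x : V} (hx : x ∈ M) (e : T.cu u x = 0) :
    x ∈ T.M u ∨ ∃ u', u' ≠ 0 ∧ M = T.M u' := by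
  refine or_iff_not_imp_left.2 fun hx' => O.K1 m hu fun y hy => ?_
  have := h.eq_of (m.act (O.kL (tv f₁ u 1))) m
    (le_act inf_le_right fun z hz => by simp [T.kL_tv, T.cu_of_mem hz.1]) inf_le_right hd
    (le_act (I := F ∙ x) ((Submodule.span_singleton_le_iff_mem _ _).2 hx) (fun z hz => by
      obtain ⟨a, rfl⟩ := Submodule.mem_span_singleton.1 hz
      simp [T.kL_tv, e]) (Submodule.mem_span_singleton_self x)) hx fun e => hx' e.1
  simpa [T.kL_tv] using M.sub_mem (mem_of_act this hy) hy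

theorem K {d : ℕ} (h : Mx T X d) (d0 : 0 < d) {M M' : Submodule F V} (m : Mem T X M)
    (m' : Mem T X M') (hd : d ≤ finrank F (M ⊓ M' : Submodule F V)) {x : V} (hx : x ∈ M')
    (e : x ∈ f.perp M) : x ∈ M := by
  obtain ⟨s, hs, u, hu, rfl⟩ := m
  have e1 : f.act s⁻¹ (f.act s (T.M u)) = T.M u := by rw [← act_mul, inv_mul_cancel, act_one]
  have hd' : d ≤ finrank F (T.M u ⊓ f.act s⁻¹ M' : Submodule F V) := by
    rwa [← f.finrank_act s⁻¹, act_inf, e1] at hd
  rw [f.mem_act]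
  rcases O.K_std h (m'.act (X.inv_mem hs)) hu hd' (f.apply_mem_act.2 hx) (by
    rw [← T.mem_perp_M, ← f.mem_act, act_perp]; exact e) with e2 | ⟨u', h0, e2⟩
  · exact e2
  · obtain ⟨y, hy, y0⟩ := Submodule.exists_mem_ne_zero_of_ne_bot
      (p := T.M u ⊓ f.act s⁻¹ M') fun e => by rw [e, finrank_bot] at hd'; omega
    rw [← M_eq_of_mem h0 hy.1 (e2 ▸ hy.2) y0, ← e2]
    exact f.apply_mem_act.2 hx

end Ov

/-- A pair of members with maximal non-zero intersection. -/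
structure Pr (T : Ss f₁ f₂ f) (X : Subgroup f.Isom) (d : ℕ) (u : U) (M : Submodule F V) : Prop where
  O : Ov T X
  mx : Mx T X d
  pos : 0 < d
  hu : u ≠ 0
  mem : Mem T X M
  ne : T.M u ≠ M
  dim : d ≤ finrank F (T.M u ⊓ M : Submodule F V)

namespace Pr
variable {d : ℕ} {u : U} {M : Submodule F V} (P : Pr T X d u M)
include P

theorem dim_eq : finrank F (T.M u ⊓ M : Submodule F V) = d :=
  le_antisymm (not_lt.1 fun h => P.ne (P.mx _ _ (mem_std P.hu) P.mem h)) P.dim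

theorem b {x : V} (hx : x ∈ M) (e : T.cu u x = 0) : x ∈ T.M u :=
  P.O.K P.mx P.pos (mem_std P.hu) P.mem P.dim hx (T.mem_perp_M.2 e)

theorem c {g : f.Isom} (hg : g ∈ X) (e : ∀ w, T.t u w ∈ M → g ⊳ T.t u w = T.t u w) {x : V}
    (hx : x ∈ M) (h : ∀ y ∈ M, f.B y (g ⊳ x - x) = 0) : x ∈ T.M u ∨ f.act g M = M := by
  have e' : ∀ x ∈ T.M u ⊓ M, g ⊳ x = x := by rintro _ ⟨⟨w, rfl⟩, h⟩; exact e w h
  have le := le_act inf_le_right e'
  have := P.O.K P.mx P.pos P.mem (P.mem.act hg)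
    (P.dim.trans (Submodule.finrank_mono (le_inf inf_le_right le))) (f.apply_mem_act.2 hx)
    fun y hy => by simpa [P.mem.ts hy hx] using h y hy
  refine or_iff_not_imp_left.2 fun hx' => P.mx.eq_of (P.mem.act hg) P.mem le inf_le_right P.dim
    (f.apply_mem_act.2 hx) this fun e => hx' ?_
  rw [g.1.injective (e' _ e)] at e
  exact e.1

theorem exists_not_mem : ∃ x ∈ M, x ∉ T.M u := by
  by_contra H
  push Not at H
  exact P.ne (Submodule.eq_of_le_of_finrank_eq H (by rw [P.mem.finrank, T.finrank_M P.hu])).symm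

theorem noE {v : U} (h : f₁.B u v = 0) (v0 : v ∉ F ∙ u) : f.act (T.E h) M ≠ M := fun e => by
  have k : ∀ x ∈ M, T.t v (T.cu u x) + T.t u (T.cu v x) ∈ M := fun x hx => by
    simpa [T.E_apply, add_assoc] using M.sub_mem (mem_of_act e hx) hx
  obtain ⟨x, hx, hx'⟩ := P.exists_not_mem
  obtain ⟨a, rfl⟩ := T.smul_of_t_mem (v := v) (u := u) (fun e => hx' (P.b hx e)) (by
    simpa using (T.M u).sub_mem (P.b (k x hx) (by simp [h, f₁.symp_B_self])) (T.t_mem_M u (T.cu v x)))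
  exact v0 (Submodule.smul_mem _ _ (Submodule.mem_span_singleton_self u))

theorem E_fix {v : U} (h : f₁.B u v = 0) (w : W) : T.E h ⊳ T.t u w = T.t u w := by
  simp [T.E_apply, f₁.symp_B_self, f₁.eq_zero_symm h]

theorem elim : False := by
  obtain ⟨x, hx, hx'⟩ := P.exists_not_mem
  obtain ⟨v₀, h₀⟩ := T.exists_one P.hu
  let ψ : U →ₗ[F] V :=
    { toFun := fun v => T.t v (T.cu u x) + T.t u (T.cu v x)
      map_add' := fun a b => by simp only [T.cu_add, map_add, LinearMap.add_apply]; abel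
      map_smul' := fun a b => by simp [T.cu_smul] }
  let φ := (f.perp M).mkQ ∘ₗ ψ ∘ₗ (f₁.perp (Submodule.span F {u, v₀})).subtype
  have inj : Function.Injective φ := (injective_iff_map_eq_zero _).2 fun v hv => by
    by_contra v0
    have h := f₁.mem_perp_span_pair.1 v.2
    rcases P.c (g := T.E h.1) (P.O.kL _) (fun w _ => P.E_fix h.1 w) hx (fun y hy => by
      rw [T.E_apply, add_assoc, add_sub_cancel_left]
      exact (Submodule.Quotient.mk_eq_zero _).1 hv y hy) with e | e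
    · exact hx' e
    · refine P.noE h.1 (fun e => v0 (Subtype.ext ?_)) e
      obtain ⟨a, ha⟩ := Submodule.mem_span_singleton.1 e
      have := h.2
      rw [← ha, map_smul, f₁.symp_symm, h₀, smul_eq_mul, mul_neg, mul_one, neg_eq_zero] at this
      rw [← ha, this, zero_smul]; rfl
  have le : LinearMap.range φ ≤ (f.perp (T.M u ⊓ M)).map (f.perp M).mkQ := by
    rintro _ ⟨v, rfl⟩
    refine ⟨ψ v, ?_, rfl⟩
    rintro _ ⟨⟨w, rfl⟩, -⟩
    simp [ψ, T.B_t, f₁.symp_B_self, (f₁.mem_perp_span_pair.1 v.2).1]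
  have d1 := Submodule.finrank_mono le
  have d2 := ((f.perp M).mkQ ∘ₗ (f.perp (T.M u ⊓ M)).subtype).finrank_range_add_finrank_ker
  rw [LinearMap.range_comp, Submodule.range_subtype, LinearMap.ker_comp, Submodule.ker_mkQ,
    ← Submodule.finrank_map_subtype_eq, Submodule.map_comap_subtype,
    inf_eq_right.2 (f.perp_anti inf_le_right)] at d2
  rw [LinearMap.finrank_range_of_inj inj] at d1
  have d3 := T.n.finrank_perp M
  have d4 := T.n.finrank_perp (T.M u ⊓ M)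
  have d5 := T.n₁.finrank_perp (Submodule.span F {u, v₀})
  have d6 := finrank_pair_le (F := F) u v₀
  have := P.dim_eq
  have := P.mem.finrank
  have := P.pos
  have := P.O.ab
  obtain ⟨m, hm⟩ := T.n₁.symp_even
  obtain ⟨m', hm'⟩ := T.n₂.symp_even
  omega

end Pr

namespace Ov
variable (O : Ov T X)
include O

theorem mx_zero : Mx T X 0 := by
  have : ∀ n d, d + n = finrank F W → Mx T X d := fun n => by
    induction n with
    | zero =>
      intro d e M M' m _ h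
      have := Submodule.finrank_mono (inf_le_left (a := M) (b := M'))
      have := m.finrank
      omega
    | succ n ih =>
      intro d e M M' m m' h
      by_contra ne
      obtain ⟨s, hs, u, hu, rfl⟩ := m
      have e1 : f.act s⁻¹ (f.act s (T.M u)) = T.M u := by rw [← act_mul, inv_mul_cancel, act_one]
      refine Pr.elim (d := d + 1) (u := u) (M := f.act s⁻¹ M') ⟨O, ih _ (by omega), by omega, hu,
        m'.act (X.inv_mem hs), fun e => ne ?_, ?_⟩
      · rw [e, ← act_mul, mul_inv_cancel, act_one]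
      · rw [← f.finrank_act s⁻¹, act_inf, e1] at h
        omega
  exact this _ 0 (zero_add _)

theorem F1 {s : f.Isom} (hs : s ∈ X) {u v : U} {w : W} (hu : u ≠ 0) (hv : v ≠ 0) (hw : w ≠ 0)
    (e : T.cu u (s ⊳ T.t v w) = 0) : s ∈ T.N := by
  have m := (mem_std (T := T) hv).act hs
  have hx := (f.apply_mem_act (g := s)).2 (T.t_mem_M v w)
  rcases O.K_std O.mx_zero m hu (Nat.zero_le _) hx e with h | ⟨u', h0, h⟩
  · exact O.mem_N_of_act hu hv hs (O.mx_zero.eq_of m (mem_std hu) bot_le bot_le (Nat.zero_le _) hx h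
      (by simpa using T.t_ne_zero hv hw))
  · exact O.mem_N_of_act h0 hv hs h

/-- A proper overgroup of the isometry groups of the factors preserves the decomposition. -/
theorem main : X ≤ T.N := by
  have := O.ntU
  have := O.ntW
  obtain ⟨v, hv⟩ := exists_ne (0 : U)
  obtain ⟨w, hw⟩ := exists_ne (0 : W)
  intro s hs
  let φ : U →ₗ[F] W :=
    { toFun := fun u => T.cu u (s ⊳ T.t v w)
      map_add' := fun _ _ => T.cu_add ..
      map_smul' := fun _ _ => T.cu_smul .. }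
  obtain ⟨u, hu, u0⟩ := Submodule.exists_mem_ne_zero_of_ne_bot (φ.ker_ne_bot_of_finrank_lt O.ab)
  exact O.F1 hs u0 hv hw hu

end Ov

end CA.H12Ss
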