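import Cfsg.Agent.Lib.Lin.H12Tn7
import Cfsg.Agent.Lib.Lin.MaxGL5
import Cfsg.Agent.Lib.Lin.MaxQ2

/-! Maximality of the stabilisers of symplectic-orthogonal tensor decompositions of symplectic
spaces, in terms of matrices. -/

set_option autoImplicit false
set_option linter.unusedSectionVars false

namespace CA.H12Tn

open CA.CForm CA.CForm.Form CA.MaxGL CA.AschFG CA.AschTForm CA.AschKron CA.AschForm Module
  TensorProduct Cfsg Cfsg.Geo Matrix
open scoped Kronecker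

local notation:75 g:76 " ⊳ " v:75 => (Subtype.val g) v

variable {F : Type*} [Field F] {ι κ μ : Type} [Fintype ι] [DecidableEq ι] [Fintype κ]
  [DecidableEq κ] [Fintype μ] [DecidableEq μ]

/-- Coordinates of tensors. -/
noncomputable def pe : (κ → F) ⊗[F] (μ → F) ≃ₗ[F] (κ × μ → F) :=
  ((Pi.basisFun F κ).tensorProduct (Pi.basisFun F μ)).equivFun

theorem pe_tmul (x : κ → F) (y : μ → F) (p : κ × μ) : pe (x ⊗ₜ[F] y) p = x p.1 * y p.2 := by
  obtain ⟨i, j⟩ := p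
  simp [pe, mul_comm]

theorem kron_pe (a : Matrix κ κ F) (b : Matrix μ μ F) (x : κ → F) (y : μ → F) :
    (a ⊗ₖ b) *ᵥ pe (x ⊗ₜ[F] y) = pe ((a *ᵥ x) ⊗ₜ[F] (b *ᵥ y)) := by
  ext ⟨i, j⟩
  simp only [mulVec, dotProduct, pe_tmul, Fintype.sum_prod_type, kroneckerMap_apply,
    Finset.sum_mul_sum]
  exact Finset.sum_congr rfl fun _ _ => Finset.sum_congr rfl fun _ _ => by ring

theorem form_pe (σ : F →+* F) (a : Matrix κ κ F) (b : Matrix μ μ F) (x x' : κ → F) (y y' : μ → F) :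
    formOfGram σ (a ⊗ₖ b) (pe (x ⊗ₜ[F] y)) (pe (x' ⊗ₜ[F] y')) =
      formOfGram σ a x x' * formOfGram σ b y y' := by
  simp only [formOfGram, pe_tmul, Fintype.sum_prod_type, kroneckerMap_apply, Finset.sum_mul_sum,
    map_mul]
  refine Finset.sum_congr rfl fun _ _ => Finset.sum_congr rfl fun _ _ =>
    Finset.sum_congr rfl fun _ _ => Finset.sum_congr rfl fun _ _ => by ring

theorem mem_tensor_iff {n₁ n₂ : ℕ} (e : ι ≃ Fin n₁ × Fin n₂) (P g : GL ι F) :
    g ∈ tensorProductSubgroup n₁ n₂ e P ↔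
      ∃ (a : (Fin n₁ → F) ≃ₗ[F] (Fin n₁ → F)) (b : (Fin n₂ → F) ≃ₗ[F] (Fin n₂ → F)), ∀ x y,
        (g : Matrix ι ι F) *ᵥ trv e P (pe (x ⊗ₜ y)) = trv e P (pe (a x ⊗ₜ b y)) := by
  rw [mem_tensorProductSubgroup_iff]
  constructor
  · rintro ⟨a, b, h⟩
    exact ⟨glEquiv a, glEquiv b, fun x y => by rw [h, tr_mulVec, kron_pe]; rfl⟩
  · rintro ⟨a, b, h⟩
    refine ⟨glEquiv.symm a, glEquiv.symm b, eq_tr_of_forall e P fun z => ?_⟩
    obtain ⟨z, rfl⟩ := pe.surjective z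
    induction z using TensorProduct.induction_on with
    | zero => simp
    | tmul x y => rw [h, kron_pe, glEquiv_symm_mulVec, glEquiv_symm_mulVec]
    | add x y hx hy => simp only [map_add, mulVec_add, hx, hy]

theorem Tn.not_le {U W V : Type*} [AddCommGroup U] [Module F U] [AddCommGroup W] [Module F W]
    [AddCommGroup V] [Module F V] [FiniteDimensional F U] [FiniteDimensional F W]
    {f₁ : Form (Kind.symp F) U} {f₂ : Form (Kind.orth F) W} {f : Form (Kind.symp F) V}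
    (T : Tn f₁ f₂ f) [Nontrivial U] (h : 2 ≤ finrank F W) : ¬f.Eich ≤ T.N := fun H => by
  have : Nontrivial W := finrank_pos_iff.1 (by omega : 0 < finrank F W)
  obtain ⟨u, hu⟩ := exists_ne (0 : U)
  obtain ⟨w, hw⟩ := exists_ne (0 : W)
  obtain ⟨v, hv⟩ := T.exists_one hu
  obtain ⟨w₁, h₁⟩ := T.n₂.exists_B_ne_zero hw
  have d := T.n₂.finrank_perp (F ∙ w)
  rw [finrank_span_singleton hw] at d
  obtain ⟨w₂, h₂, h₃⟩ := Submodule.exists_mem_ne_zero_of_ne_bot (p := f₂.perp (F ∙ w)) fun e => by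
    rw [e, finrank_bot] at d; omega
  obtain ⟨g, k, e⟩ := H (f.eichler_mem_Eich (T.t u w) 0 1 _ : tv f (T.t u w) 1 ∈ f.Eich)
  replace e : ∀ a b, tv f (T.t u w) 1 ⊳ T.t a b = T.t (g a) (k b) := e
  have e1 := e v w₂
  have e2 := e v w₁
  rw [tv_apply, T.B_t, f₂.mem_perp_span_singleton.1 h₂, mul_zero, mul_zero, zero_smul, add_zero] at e1
  rw [tv_apply, T.B_t, hv, one_mul, one_mul] at e2
  obtain ⟨a, ha⟩ := T.smul_of_t_mem (u := v) (v := g v) (w := k w₂) (by simpa using h₃)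
    (e1 ▸ T.t_mem_M ..)
  obtain ⟨b, hb⟩ := T.smul_of_t_mem (u := v) (v := u) (w := f₂.B w w₁ • w) (smul_ne_zero h₁ hw)
    ⟨a • k w₁ - w₁, by rw [map_sub, map_smul, map_smul, sub_eq_iff_eq_add', e2, ha]; simp⟩
  simp [hb, f₁.symp_B_self] at hv

theorem sp_max_tensor [Fintype F] {m n₁ n₂ : ℕ} (hm : 0 < m) (hodd : Odd (Fintype.card F))
    (h3 : 3 ≤ n₂) (hex : ¬(Fintype.card F = 3 ∧ n₂ = 3)) (h24 : ¬(n₁ = 2 ∧ n₂ = 4))
    (e : (Fin m ⊕ Fin m) ≃ Fin n₁ × Fin n₂) (P : GL (Fin m ⊕ Fin m) F)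
    {f₁ : (Fin n₁ → F) → (Fin n₁ → F) → F} {f₂ : (Fin n₂ → F) → (Fin n₂ → F) → F}
    (hf₁ : IsSymplecticForm f₁) (hf₂ : IsSymmetricForm f₂)
    (hT : IsTensorFormStructure id (sympForm m F) f₁ f₂ e P) :
    IsMaximalIn (spGL m F) (tensorProductSubgroup n₁ n₂ e P ⊓ spGL m F) := by
  obtain ⟨c, c0, hc⟩ := hT
  have two := two_ne_zero_iff_odd.2 hodd
  have s₁ := (sf_of_symp hf₁).smul (c := 2⁻¹ * c) (by simp [two, c0])
  have h₁ := symp_of_sf s₁ fun v => by rw [hf₁.alternating, mul_zero]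
  have h₂ := quad_of_sf (sf_of_symm hf₂) (refl_of_symm hf₂) two
  let T : Tn (toSymp h₁) (toOrth h₂) (toSymp (AschSp.symp_std m)) :=
    { e := pe ≪≫ₗ trv e P
      hB := fun u w u' w' => by
        have := form_pe (RingHom.id F) (gramMatrix f₁) (gramMatrix f₂) u' u w' w
        rw [← (sf_of_symp hf₁).eq_formOfGram, ← (sf_of_symm hf₂).eq_formOfGram] at this
        rw [toSymp_B, toSymp_B, toOrth_B, polar_diag (sf_of_symm hf₂) (refl_of_symm hf₂),
          hf₂.symm w w']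
        refine (hc _ _).trans ((congrArg (c * ·) this).trans ?_)
        field_simp
      n₁ := toSymp_nondeg _
      n₂ := toOrth_nondeg _
      n := toSymp_nondeg _
      two := two }
  have hN : (tensorProductSubgroup n₁ n₂ e P).comap (toGL (toSymp (AschSp.symp_std m))) = T.N := by
    ext s
    rw [Subgroup.mem_comap, mem_tensor_iff]
    simp only [toGL_mulVec]
    rfl
  have k := Fintype.card_congr e
  simp only [Fintype.card_sum, Fintype.card_fin, Fintype.card_prod] at k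
  obtain ⟨r, hr⟩ := even_of_symp hf₁
  rw [Fintype.card_fin] at hr
  have n2 : 2 ≤ n₁ := by
    rcases Nat.eq_zero_or_pos r with rfl | h
    · rw [hr] at k; omega
    · omega
  have : Nontrivial (Fin n₁ → F) := finrank_pos_iff.1 (by simp; omega : 0 < finrank F (Fin n₁ → F))
  rw [sp_eq]
  refine max_of (fun h => T.not_le (by simp; omega) fun s hs => ?_) fun X hX _ => ?_
  · rw [← hN]; exact h ⟨s, hs, rfl⟩
  rw [hN, T.n.symp_Eich_eq_top, inf_top_eq] at *
  refine or_iff_not_imp_right.2 fun H => Ov.main ⟨fun g => hX (T.kL_mem_N g),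
    fun g => hX (T.kR_mem_N g), by rwa [T.n.symp_Eich_eq_top], by simpa, by simpa, ?_, by simpa using h24⟩
  have := Fintype.one_lt_card (α := F)
  obtain ⟨j, hj⟩ := hodd
  simp only [finrank_fintype_fun_eq_card, Fintype.card_fin, Nat.card_eq_fintype_card]
  omega

end CA.H12Tn
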