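import Cfsg.Agent.Lib.Lin.H12Ss4
import Cfsg.Agent.Lib.Lin.H12Tn8

/-! Maximality of the stabilisers of tensor decompositions of orthogonal spaces into two
symplectic spaces of different dimensions, in terms of matrices. -/

set_option autoImplicit false
set_option linter.unusedSectionVars false

namespace CA.H12Ss

open CA.CForm CA.CForm.Form CA.MaxGL CA.AschFG CA.AschTForm CA.AschKron CA.AschForm CA.AschO1 Module
  TensorProduct Cfsg Cfsg.Geo Matrix
open CA.H12Tn (pe pe_tmul form_pe mem_tensor_iff)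
open scoped Kronecker

local notation:75 g:76 " ⊳ " v:75 => (Subtype.val g) v

variable {F : Type*} [Field F]

theorem Ss.not_le {U W V : Type*} [AddCommGroup U] [Module F U] [AddCommGroup W] [Module F W]
    [AddCommGroup V] [Module F V] [FiniteDimensional F U] [FiniteDimensional F W]
    [FiniteDimensional F V]
    {f₁ : Form (Kind.symp F) U} {f₂ : Form (Kind.symp F) W} {f : Form (Kind.orth F) V}
    (T : Ss f₁ f₂ f) [Nontrivial W] (h : 3 ≤ finrank F U) : ¬f.Eich ≤ T.N := fun H => by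
  have : Nontrivial U := finrank_pos_iff.1 (by omega : 0 < finrank F U)
  obtain ⟨u, hu⟩ := exists_ne (0 : U)
  obtain ⟨w, hw⟩ := exists_ne (0 : W)
  obtain ⟨w₁, h₁⟩ := T.swap.exists_one hw
  obtain ⟨v, h3, h4⟩ := exists_not_mem_of_lt (S := F ∙ u) (T := f₁.perp (F ∙ u)) (by
    have := T.n₁.finrank_perp (F ∙ u)
    rw [finrank_span_singleton hu] at this ⊢
    omega)
  rw [f₁.mem_perp_span_singleton] at h3
  obtain ⟨p, h5, h6⟩ := T.n₁.exists_perp_B_eq' h4 1
  rw [f₁.mem_perp_span_singleton] at h5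
  have c1 : f.EichlerCond (T.t u w) (T.t v w) 0 := ⟨T.Q_t .., by simp [T.B_t, h3], (T.Q_t ..).symm⟩
  obtain ⟨g, k, e⟩ := H (f.eichler_mem_Eich _ _ _ c1)
  have e1 := e p w
  have e2 := e p w₁
  simp only [orth_eichler_apply, T.B_t, f₂.symp_B_self, h5, h6, h₁, mul_zero, zero_smul, add_zero,
    sub_zero, mul_one, one_smul] at e1 e2
  obtain ⟨a, ha⟩ := T.smul_of_t_mem (u := p) (v := g p) (w := k w) (by simpa using hw)
    (e1 ▸ T.t_mem_M ..)
  obtain ⟨b, hb⟩ := T.smul_of_t_mem (u := p) (v := u) (w := w) hw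
    ⟨w₁ - a • k w₁, by rw [map_sub, map_smul, sub_eq_iff_eq_add', ← sub_eq_iff_eq_add, e2, ha]; simp⟩
  have := f₁.eq_zero_symm h3
  rw [hb, map_smul, h6, smul_eq_mul, mul_one] at this
  exact hu (by rw [hb, this, zero_smul])

theorem orth_max_tensor [Fintype F] {ι : Type} [Fintype ι] [DecidableEq ι] {n₁ n₂ : ℕ}
    {Q : (ι → F) → F} (hQ : IsNondegenerateQuadraticForm Q) (h0 : 0 < n₁) (h12 : n₁ < n₂)
    (h6 : 5 ≤ n₂) (hex : ¬(Fintype.card F = 2 ∧ n₁ = 2)) (e : ι ≃ Fin n₁ × Fin n₂) (P : GL ι F)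
    {f₁ : (Fin n₁ → F) → (Fin n₁ → F) → F} {f₂ : (Fin n₂ → F) → (Fin n₂ → F) → F}
    (hf₁ : IsSymplecticForm f₁) (hf₂ : IsSymplecticForm f₂)
    (hT : IsTensorFormStructure id (QuadraticMap.polar Q) f₁ f₂ e P)
    (hp : ∀ (x₁ : Fin n₁ → F) (x₂ : Fin n₂ → F), Q ((P : Matrix ι ι F) *ᵥ
      ((fun a : Fin n₁ × Fin n₂ => x₁ a.1 * x₂ a.2) ∘ e)) = 0) :
    IsMaximalIn (omegaGL Q) (tensorProductSubgroup n₁ n₂ e P ⊓ omegaGL Q) := by
  obtain ⟨c, c0, hc⟩ := hT
  have s₁ := (sf_of_symp hf₁).smul (c := c) c0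
  have h₁ := symp_of_sf s₁ fun v => by rw [hf₁.alternating, mul_zero]
  let T : Ss (toSymp h₁) (toSymp hf₂) (toOrth hQ) :=
    { e := pe ≪≫ₗ trv e P
      hB := fun u w u' w' => by
        have := form_pe (RingHom.id F) (gramMatrix f₁) (gramMatrix f₂) u u' w w'
        rw [← (sf_of_symp hf₁).eq_formOfGram, ← (sf_of_symp hf₂).eq_formOfGram] at this
        rw [toSymp_B, toSymp_B, toOrth_B, hf₁.skew u' u, hf₂.skew w' w]
        refine (hc _ _).trans ((congrArg (c * ·) this).trans ?_)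
        ring
      hQ := fun u w => by
        rw [← hp u w]
        exact congrArg (fun x => Q (trv e P x)) (funext (pe_tmul u w))
      n₁ := toSymp_nondeg _
      n₂ := toSymp_nondeg _
      n := toOrth_nondeg _ }
  have hN : (tensorProductSubgroup n₁ n₂ e P).comap (toGL (toOrth hQ)) = T.swap.N := by
    rw [T.swap_N]
    ext s
    rw [Subgroup.mem_comap, mem_tensor_iff]
    simp only [toGL_mulVec]
    rfl
  have k := Fintype.card_congr e
  simp only [Fintype.card_fin, Fintype.card_prod] at k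
  obtain ⟨r, hr⟩ := even_of_symp hf₁
  obtain ⟨r', hr'⟩ := even_of_symp hf₂
  rw [Fintype.card_fin] at hr hr'
  have h5 : 5 ≤ Fintype.card ι := by rw [k]; nlinarith
  have h5' : 5 ≤ finrank F (ι → F) := by simpa
  have : Nontrivial (Fin n₁ → F) := finrank_pos_iff.1 (by simp; omega : 0 < finrank F (Fin n₁ → F))
  rw [← toOrth_Q hQ, omega_eq T.n h5]
  refine max_of (fun h => T.swap.not_le (by simp; omega) fun s hs => ?_) fun X hX _ => ?_
  · rw [← hN]; exact h ⟨s, hs, rfl⟩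
  rw [hN] at *
  refine or_iff_not_imp_right.2 fun H => Ov.main
    ⟨fun g => hX ⟨T.swap.kL_mem_N g, T.swap.kL_mem_Eich h5' g⟩,
      fun g => hX ⟨T.swap.kR_mem_N g, T.swap.kR_mem_Eich h5' g⟩, H, by simp; omega, by simp; omega,
      by simpa, ?_⟩
  by_cases h2 : Fintype.card F = 2
  · exact .inl (by simp; omega)
  · exact .inr (exists_ne_zero_ne_one h2)

end CA.H12Ss
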