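import Cfsg.Agent.Lib.Lin.H12Tn1

/-!
Overgroups of the tensor product of a symplectic and an orthogonal group, part two: the tensor
structure and the elements acting trivially on large subspaces.
-/

set_option autoImplicit false
set_option linter.unusedSectionVars false

namespace CA.H12Tn

open CA.CForm CA.CForm.Form Module TensorProduct

local notation:75 g:76 " ⊳ " v:75 => (Subtype.val g) v

variable {F : Type*} [Field F] {U W V : Type*} [AddCommGroup U] [Module F U] [AddCommGroup W]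
  [Module F W] [AddCommGroup V] [Module F V]

section Gen
variable {f : Form (Kind.symp F) V} {X : Subgroup f.Isom}

/-- The map `S` is induced by an element of `X`. -/
def Act (X : Subgroup f.Isom) (S : V → V) : Prop := ∃ g ∈ X, ∀ x, g ⊳ x = S x

theorem Act.congr {S S' : V → V} (h : Act X S) (e : ∀ x, S x = S' x) : Act X S' :=
  let ⟨g, hg, h⟩ := h; ⟨g, hg, fun x => (h x).trans (e x)⟩

theorem Act.mul {S S' : V → V} (h : Act X S) (h' : Act X S') : Act X fun x => S (S' x) :=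
  let ⟨g, hg, h⟩ := h; let ⟨g', hg', h'⟩ := h'
  ⟨g * g', X.mul_mem hg hg', fun x => by rw [isom_mul_apply, h', h]⟩

theorem Act.inv {S S' : V → V} (h : Act X S) (e : ∀ x, S (S' x) = x) : Act X S' :=
  let ⟨g, hg, h⟩ := h
  ⟨g⁻¹, X.inv_mem hg, fun x => by conv_lhs => rw [← e x, ← h]; exact f.isom_inv_apply_apply _ _⟩

theorem Act.conj {S : V → V} (h : Act X S) {s : f.Isom} (hs : s ∈ X) :
    Act X fun x => s ⊳ S (s⁻¹ ⊳ x) :=
  let ⟨g, hg, h⟩ := h
  ⟨s * g * s⁻¹, X.mul_mem (X.mul_mem hs hg) (X.inv_mem hs), fun x => by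
    rw [isom_mul_apply, isom_mul_apply, h]⟩

theorem sub_mem_perp {M : Submodule F V} {k : f.Isom} (hk : ∀ m ∈ M, k ⊳ m = m) (x : V) :
    k ⊳ x - x ∈ f.perp M := fun m hm => by
  rw [map_sub]
  conv_lhs => rw [← hk m hm, f.B_coe_map, hk m hm]
  exact sub_self _

theorem comm_B {M : Submodule F V} {k k' : f.Isom} (hk : ∀ m ∈ M, k ⊳ m = m)
    (hk' : ∀ m ∈ M, k' ⊳ m = m) (h : ∀ x ∈ f.perp M, k ⊳ x - x ∈ M)
    (h' : ∀ x ∈ f.perp M, k' ⊳ x - x ∈ M) (x y : V) :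
    f.B x (k ⊳ k' ⊳ y) - f.B x (k' ⊳ k ⊳ y) =
      f.B (k' ⊳ x - x) (k ⊳ y - y) - f.B (k ⊳ x - x) (k' ⊳ y - y) := by
  have e1 := f.eq_zero_symm (sub_mem_perp hk x _ (h _ (sub_mem_perp hk' y)))
  have e2 := f.eq_zero_symm (sub_mem_perp hk' x _ (h' _ (sub_mem_perp hk y)))
  simp only [map_sub, B_sub_left, B_coe_map] at e1 e2 ⊢
  linear_combination e2 - e1

theorem comm_fix {M : Submodule F V} {k k' : f.Isom} (hk : ∀ m ∈ M, k ⊳ m = m)
    (hk' : ∀ m ∈ M, k' ⊳ m = m) (h : ∀ x ∈ f.perp M, k ⊳ x - x ∈ M)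
    (h' : ∀ x ∈ f.perp M, k' ⊳ x - x ∈ M) {x : V} (hx : x ∈ f.perp M) :
    ((k' * k)⁻¹ * (k * k')) ⊳ x = x := by
  have e1 := hk _ (h' x hx)
  have e2 := hk' _ (h x hx)
  rw [map_sub] at e1 e2
  have : (k * k') ⊳ x = (k' * k) ⊳ x := by
    rw [isom_mul_apply, isom_mul_apply, eq_add_of_sub_eq e1, eq_add_of_sub_eq e2]; abel
  rw [isom_mul_apply, this, isom_inv_apply_apply]

end Gen

/-- A tensor decomposition of a symplectic space into a symplectic and an orthogonal factor. -/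
structure Tn (f₁ : Form (Kind.symp F) U) (f₂ : Form (Kind.orth F) W)
    (f : Form (Kind.symp F) V) where
  e : U ⊗[F] W ≃ₗ[F] V
  hB : ∀ u w u' w', f.B (e (u ⊗ₜ w)) (e (u' ⊗ₜ w')) = f₁.B u u' * f₂.B w w'
  n₁ : f₁.Nondeg
  n₂ : f₂.Nondeg
  n : f.Nondeg
  two : (2 : F) ≠ 0

namespace Tn
variable {f₁ : Form (Kind.symp F) U} {f₂ : Form (Kind.orth F) W} {f : Form (Kind.symp F) V}
  (T : Tn f₁ f₂ f)

/-- pure tensors -/
def t : U →ₗ[F] W →ₗ[F] V := (TensorProduct.mk F U W).compr₂ T.e.toLinearMap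

theorem t_eq (u : U) (w : W) : T.t u w = T.e (u ⊗ₜ w) := rfl

theorem B_t (u : U) (w : W) (u' : U) (w' : W) :
    f.B (T.t u w) (T.t u' w') = f₁.B u u' * f₂.B w w' := T.hB ..

@[elab_as_elim] theorem ind {P : V → Prop} (ht : ∀ u w, P (T.t u w))
    (hadd : ∀ x y, P x → P y → P (x + y)) (x : V) : P x := by
  obtain ⟨z, rfl⟩ := T.e.surjective x
  induction z using TensorProduct.induction_on with
  | zero => simpa using ht 0 0
  | tmul u w => exact ht u w
  | add a b ha hb => rw [map_add]; exact hadd _ _ ha hb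

/-- contraction with a vector of the first factor -/
def cu (u : U) : V →ₗ[F] W :=
  (TensorProduct.lid F W).toLinearMap ∘ₗ LinearMap.rTensor W (f₁.B u) ∘ₗ T.e.symm.toLinearMap

/-- contraction with a vector of the second factor -/
def cw (w : W) : V →ₗ[F] U :=
  (TensorProduct.rid F U).toLinearMap ∘ₗ LinearMap.lTensor U (f₂.B w) ∘ₗ T.e.symm.toLinearMap

@[simp] theorem cu_t (u u' : U) (w : W) : T.cu u (T.t u' w) = f₁.B u u' • w := by simp [cu, t_eq]

@[simp] theorem cw_t (w w' : W) (u : U) : T.cw w (T.t u w') = f₂.B w w' • u := by simp [cw, t_eq]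

theorem B_cu (u : U) (w : W) (x : V) : f.B (T.t u w) x = f₂.B w (T.cu u x) := by
  induction x using T.ind with
  | ht u' w' => simp [B_t]
  | hadd x y hx hy => simp [hx, hy]

theorem B_cw (u : U) (w : W) (x : V) : f.B (T.t u w) x = f₁.B u (T.cw w x) := by
  induction x using T.ind with
  | ht u' w' => simp [B_t, mul_comm]
  | hadd x y hx hy => simp [hx, hy]

theorem cu_cw (u : U) (w : W) (x : V) : f₂.B w (T.cu u x) = f₁.B u (T.cw w x) := by
  rw [← B_cu, B_cw]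

theorem cu_add (u u' : U) (x : V) : T.cu (u + u') x = T.cu u x + T.cu u' x :=
  T.n₂.eq_of_B_eq_right fun w => by simp [cu_cw]

theorem cu_smul (a : F) (u : U) (x : V) : T.cu (a • u) x = a • T.cu u x :=
  T.n₂.eq_of_B_eq_right fun w => by simp [cu_cw]

theorem cw_smul (a : F) (w : W) (x : V) : T.cw (a • w) x = a • T.cw w x :=
  T.n₁.eq_of_B_eq_right fun u => by simp [← cu_cw]

theorem cw_neg (w : W) (x : V) : T.cw (-w) x = -T.cw w x :=
  T.n₁.eq_of_B_eq_right fun u => by simp [← cu_cw]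

theorem eq_zero_of_cu {x : V} (h : ∀ u, T.cu u x = 0) : x = 0 :=
  T.n.eq_zero_right fun y => by
    induction y using T.ind with
    | ht u w => rw [B_cu, h, map_zero]
    | hadd a b ha hb => simp [ha, hb]

theorem t_ne_zero {u : U} {w : W} (hu : u ≠ 0) (hw : w ≠ 0) : T.t u w ≠ 0 := fun e => by
  obtain ⟨v, hv⟩ := T.n₁.exists_B_ne_zero hu
  have := T.cu_t v u w
  rw [e, map_zero, eq_comm, smul_eq_zero] at this
  exact this.elim (fun h => hv (f₁.eq_zero_symm h)) hw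

theorem t_inj {u : U} (hu : u ≠ 0) : Function.Injective (T.t u) :=
  (injective_iff_map_eq_zero _).2 fun _ h => not_not.1 fun hw => T.t_ne_zero hu hw h

theorem t_inj' {w : W} (hw : w ≠ 0) : Function.Injective (T.t.flip w) :=
  (injective_iff_map_eq_zero _).2 fun _ h => not_not.1 fun hu => T.t_ne_zero hu hw h

include T in
theorem exists_one {u : U} (hu : u ≠ 0) : ∃ v, f₁.B u v = 1 :=
  let ⟨v, _, h⟩ := T.n₁.exists_partner (f₁.symp_Q u) hu; ⟨v, h⟩

/-- the tensor product of two automorphisms -/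
def mp (g : U ≃ₗ[F] U) (h : W ≃ₗ[F] W) : V ≃ₗ[F] V :=
  T.e.symm ≪≫ₗ TensorProduct.congr g h ≪≫ₗ T.e

@[simp] theorem mp_t (g : U ≃ₗ[F] U) (h : W ≃ₗ[F] W) (u : U) (w : W) :
    T.mp g h (T.t u w) = T.t (g u) (h w) := by simp [mp, t_eq]

theorem mem_Isom_of {s : V ≃ₗ[F] V}
    (h : ∀ u w u' w', f.B (s (T.t u w)) (s (T.t u' w')) = f.B (T.t u w) (T.t u' w')) :
    s ∈ f.Isom := f.symp_mem_Isom.2 fun x y => by
  induction x using T.ind with
  | hadd a b ha hb => simp [ha, hb]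
  | ht u w =>
    induction y using T.ind with
    | hadd a b ha hb => simp [ha, hb]
    | ht u' w' => exact h ..

theorem ext {s s' : f.Isom} (h : ∀ u w, s ⊳ T.t u w = s' ⊳ T.t u w) : s = s' :=
  f.isom_ext fun x => by
    induction x using T.ind with
    | ht u w => exact h u w
    | hadd a b ha hb => simp only [map_add, ha, hb]

/-- isometries of the first factor -/
def kL : f₁.Isom →* f.Isom :=
  MonoidHom.mk' (fun g => ⟨T.mp g.1 1, T.mem_Isom_of fun _ _ _ _ => by simp [B_t]⟩)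
    fun _ _ => T.ext fun _ _ => by simp

/-- isometries of the second factor -/
def kR : f₂.Isom →* f.Isom :=
  MonoidHom.mk' (fun h => ⟨T.mp 1 h.1, T.mem_Isom_of fun _ _ _ _ => by simp [B_t]⟩)
    fun _ _ => T.ext fun _ _ => by simp

@[simp] theorem kL_t (g : f₁.Isom) (u : U) (w : W) : T.kL g ⊳ T.t u w = T.t (g ⊳ u) w :=
  T.mp_t ..

@[simp] theorem kR_t (h : f₂.Isom) (u : U) (w : W) : T.kR h ⊳ T.t u w = T.t u (h ⊳ w) :=
  T.mp_t ..

theorem kL_comm_kR (g : f₁.Isom) (h : f₂.Isom) : T.kL g * T.kR h = T.kR h * T.kL g :=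
  T.ext fun _ _ => by simp

theorem cu_isom {s : f.Isom} {u u' : U} {h : f₂.Isom} (e : ∀ w, s ⊳ T.t u w = T.t u' (h ⊳ w))
    (x : V) : T.cu u' (s ⊳ x) = h ⊳ T.cu u x := T.n₂.eq_of_B_eq_right fun w => by
  rw [← f₂.isom_apply_inv_apply h w, ← B_cu, ← e, f.B_coe_map, f₂.B_coe_map, B_cu]

theorem cu_fix {s : f.Isom} {u : U} (e : ∀ w, s ⊳ T.t u w = T.t u w) (x : V) :
    T.cu u (s ⊳ x) = T.cu u x := T.cu_isom (h := 1) e x

theorem cw_fix {s : f.Isom} {w : W} (e : ∀ u, s ⊳ T.t u w = T.t u w) (x : V) :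
    T.cw w (s ⊳ x) = T.cw w x := T.n₁.eq_of_B_eq_right fun u => by
  rw [← B_cw, ← B_cw, ← e, f.B_coe_map, e]

theorem cu_kR (h : f₂.Isom) (u : U) (x : V) : T.cu u (T.kR h ⊳ x) = h ⊳ T.cu u x :=
  T.cu_isom (by simp) x

theorem cu_kL (g : f₁.Isom) (u : U) (x : V) : T.cu (g ⊳ u) (T.kL g ⊳ x) = T.cu u x :=
  T.cu_isom (h := 1) (by simp) x

theorem cw_kL (g : f₁.Isom) (w : W) (x : V) : T.cw w (T.kL g ⊳ x) = g ⊳ T.cw w x := by
  induction x using T.ind with
  | ht u w => simp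
  | hadd a b ha hb => simp [ha, hb]

theorem cw_kR (h : f₂.Isom) (w : W) (x : V) : T.cw (h ⊳ w) (T.kR h ⊳ x) = T.cw w x := by
  induction x using T.ind with
  | ht u w => simp
  | hadd a b ha hb => simp [ha, hb]

theorem kL_tv (u : U) (c : F) (x : V) : T.kL (tv f₁ u c) ⊳ x = x + c • T.t u (T.cu u x) := by
  induction x using T.ind with
  | ht u w => simp [tv_apply, smul_smul]
  | hadd a b ha hb => simp only [map_add, ha, hb]; module

/-- the Eichler maps of the first factor -/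
def E {u v : U} (h : f₁.B u v = 0) : f.Isom := T.kL (f₁.eichler u v 0 (f₁.symp_eichlerCond h 0))

theorem E_apply {u v : U} (h : f₁.B u v = 0) (x : V) :
    T.E h ⊳ x = x + T.t v (T.cu u x) + T.t u (T.cu v x) := by
  induction x using T.ind with
  | ht u w => simp [E, symp_eichler_apply]
  | hadd a b ha hb => simp only [map_add, ha, hb]; module

/-- the reflections of the second factor -/
def ρ (y : W) : f.Isom := T.kR (f₂.refl y)

theorem ρ_apply (y : W) (x : V) : T.ρ y ⊳ x = x - (f₂.Q y)⁻¹ • T.t (T.cw y x) y := by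
  induction x using T.ind with
  | ht u w => simp [ρ, refl_apply, smul_smul]
  | hadd a b ha hb => simp only [map_add, LinearMap.add_apply, ha, hb]; module

theorem ρ_mul_self (y : W) : T.ρ y * T.ρ y = 1 := by rw [ρ, ← map_mul, refl_mul_self, map_one]

/-- the Eichler maps of the second factor -/
def ε {w y : W} (hw : f₂.Q w = 0) (h : f₂.B w y = 0) : f.Isom :=
  T.kR (f₂.eichler w y _ (f₂.orth_eichlerCond hw h))

theorem ε_apply {w y : W} (hw : f₂.Q w = 0) (h : f₂.B w y = 0) (x : V) : T.ε hw h ⊳ x =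
    x + T.t (T.cw w x) y - T.t (T.cw y x + f₂.Q y • T.cw w x) w := by
  induction x using T.ind with
  | ht u w => simp [ε, eichler_apply, smul_smul, add_smul]
  | hadd a b ha hb => simp only [map_add, LinearMap.add_apply, smul_add, ha, hb]; module

/-- the subspace `u ⊗ W` -/
def M (u : U) : Submodule F V := LinearMap.range (T.t u)

/-- the subspace `U ⊗ w` -/
def L (w : W) : Submodule F V := LinearMap.range (T.t.flip w)

theorem t_mem_M (u : U) (w : W) : T.t u w ∈ T.M u := ⟨w, rfl⟩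

theorem t_mem_L (u : U) (w : W) : T.t u w ∈ T.L w := ⟨u, rfl⟩

theorem mem_perp_M {u : U} {x : V} : x ∈ f.perp (T.M u) ↔ T.cu u x = 0 :=
  ⟨fun h => T.n₂.eq_zero_right fun w => by rw [← B_cu]; exact h _ (T.t_mem_M u w), by
    rintro h _ ⟨w, rfl⟩; rw [B_cu, h, map_zero]⟩

theorem mem_perp_L {w : W} {x : V} : x ∈ f.perp (T.L w) ↔ T.cw w x = 0 :=
  ⟨fun h => T.n₁.eq_zero_right fun u => by rw [← B_cw]; exact h _ (T.t_mem_L u w), by
    rintro h _ ⟨u, rfl⟩; rw [LinearMap.flip_apply, B_cw, h, map_zero]⟩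

theorem cu_of_mem {u : U} {x : V} (h : x ∈ T.M u) : T.cu u x = 0 := by
  obtain ⟨w, rfl⟩ := h
  simp [f₁.symp_B_self]

theorem finrank_M {u : U} (hu : u ≠ 0) : finrank F (T.M u) = finrank F W :=
  LinearMap.finrank_range_of_inj (T.t_inj hu)

theorem finrank_L {w : W} (hw : w ≠ 0) : finrank F (T.L w) = finrank F U :=
  LinearMap.finrank_range_of_inj (T.t_inj' hw)

theorem mem_M_of {u : U} (hu : u ≠ 0) {x : V} (h : ∀ v, f₁.B u v = 0 → T.cu v x = 0) :
    x ∈ T.M u := by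
  obtain ⟨v₀, h₀⟩ := T.exists_one hu
  refine ⟨-T.cu v₀ x, (sub_eq_zero.1 (T.eq_zero_of_cu fun v => ?_)).symm⟩
  have := h (v + (-f₁.B u v) • v₀) (by simp [h₀])
  rw [cu_add, cu_smul] at this
  simp only [map_sub, map_neg, cu_t, f₁.symp_symm u v]
  rw [← this]; module

/-- A pure tensor in `u ⊗ W`. -/
theorem smul_of_t_mem {u v : U} {w : W} (hw : w ≠ 0) (h : T.t v w ∈ T.M u)
    [FiniteDimensional F U] : ∃ a : F, v = a • u := by
  by_contra H
  obtain ⟨y, hy, e⟩ := T.n₁.exists_perp_B_eq (W := F ∙ u) (u := v) (fun h => by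
    obtain ⟨a, rfl⟩ := Submodule.mem_span_singleton.1 h
    exact H ⟨a, rfl⟩) 1
  obtain ⟨w', h⟩ := h
  have := congrArg (T.cu y) h
  rw [cu_t, cu_t, e, f₁.eq_zero_symm (f₁.mem_perp_span_singleton.1 hy)] at this
  exact hw (by simpa using this.symm)

theorem M_smul {a : F} (ha : a ≠ 0) (u : U) : T.M (a • u) = T.M u := by
  apply le_antisymm <;> rintro _ ⟨w, rfl⟩
  · exact ⟨a • w, by simp⟩
  · exact ⟨a⁻¹ • w, by simp [smul_smul, ha]⟩

/-- A linear map killing the pure tensors `v ⊗ w` with `v ⟂ u` kills `(u ⊗ W)^⊥`. -/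
theorem ker_ind {u : U} (hu : u ≠ 0) {Y : Submodule F V}
    (h : ∀ v w, f₁.B u v = 0 → T.t v w ∈ Y) {x : V} (hx : T.cu u x = 0) : x ∈ Y := by
  obtain ⟨v₀, h₀⟩ := T.exists_one hu
  have : ∀ x, x - T.t v₀ (T.cu u x) ∈ Y := fun x => by
    induction x using T.ind with
    | ht v w => simpa using h (v - f₁.B u v • v₀) w (by simp [h₀])
    | hadd a b ha hb =>
      convert Y.add_mem ha hb using 1
      simp only [map_add]; abel
  simpa [hx] using this x

/-- `s` preserves the tensor decomposition. -/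
def Dec (s : f.Isom) : Prop :=
  ∃ (g : U ≃ₗ[F] U) (h : W ≃ₗ[F] W), ∀ u w, s ⊳ T.t u w = T.t (g u) (h w)

/-- the stabiliser of the tensor decomposition -/
def N : Subgroup f.Isom where
  carrier := {s | T.Dec s}
  one_mem' := ⟨1, 1, fun _ _ => rfl⟩
  mul_mem' := fun ⟨g, h, e⟩ ⟨g', h', e'⟩ => ⟨g * g', h * h', fun u w => by
    rw [isom_mul_apply, e', e]; rfl⟩
  inv_mem' := fun {s} ⟨g, h, e⟩ => ⟨g⁻¹, h⁻¹, fun u w => by
    rw [← f.isom_inv_apply_apply s (T.t (g⁻¹ u) (h⁻¹ w)), e]; simp⟩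

theorem kL_mem_N (g : f₁.Isom) : T.kL g ∈ T.N := ⟨g.1, 1, fun _ _ => T.kL_t ..⟩

theorem kR_mem_N (h : f₂.Isom) : T.kR h ∈ T.N := ⟨1, h.1, fun _ _ => T.kR_t ..⟩

theorem mem_N_of_lin [FiniteDimensional F U] [FiniteDimensional F W] [Nontrivial U] [Nontrivial W]
    {s : f.Isom} (g : U →ₗ[F] U) (h : W →ₗ[F] W) (e : ∀ u w, s ⊳ T.t u w = T.t (g u) (h w)) :
    s ∈ T.N := by
  obtain ⟨u₀, hu⟩ := exists_ne (0 : U)
  obtain ⟨w₀, hw⟩ := exists_ne (0 : W)
  have k : ∀ u w, T.t (g u) (h w) = 0 → u ≠ 0 → w ≠ 0 → False := fun u w e' hu hw =>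
    T.t_ne_zero hu hw (s.1.map_eq_zero_iff.1 ((e u w).trans e'))
  exact ⟨.ofInjectiveEndo g ((injective_iff_map_eq_zero _).2 fun u e' => not_not.1 fun hu =>
      k u w₀ (by simp [e']) hu hw),
    .ofInjectiveEndo h ((injective_iff_map_eq_zero _).2 fun w e' => not_not.1 fun hw =>
      k u₀ w (by simp [e']) hu hw), e⟩

theorem act_M {s : f.Isom} {g : U ≃ₗ[F] U} {h : W ≃ₗ[F] W}
    (e : ∀ u w, s ⊳ T.t u w = T.t (g u) (h w)) (u : U) : f.act s (T.M u) = T.M (g u) := by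
  apply le_antisymm
  · rintro _ ⟨_, ⟨w, rfl⟩, rfl⟩
    exact ⟨h w, (e u w).symm⟩
  · rintro _ ⟨w, rfl⟩
    exact ⟨_, T.t_mem_M u (h.symm w), by simpa using e u (h.symm w)⟩

/-- Conjugates of the second factor under the stabiliser. -/
theorem conj_kR {s : f.Isom} (hs : s ∈ T.N) [Nontrivial U] : ∃ h : W ≃ₗ[F] W, ∀ k : f₂.Isom,
    ∃ k' : f₂.Isom, s * T.kR k * s⁻¹ = T.kR k' ∧ ∀ w, k' ⊳ h w = h (k ⊳ w) := by
  obtain ⟨g, h, e⟩ := hs
  refine ⟨h, fun k => ?_⟩
  have e1 : ∀ u w, (s * T.kR k * s⁻¹) ⊳ T.t u w = T.t u ((h * k.1 * h⁻¹) w) := fun u w => by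
    have : s⁻¹ ⊳ T.t u w = T.t (g⁻¹ u) (h⁻¹ w) := by
      rw [← f.isom_inv_apply_apply s (T.t (g⁻¹ u) (h⁻¹ w)), e]; simp
    rw [isom_mul_apply, isom_mul_apply, this, kR_t, e]; simp
  obtain ⟨u, hu⟩ := exists_ne (0 : U)
  obtain ⟨v, hv⟩ := T.exists_one hu
  have e2 : ∀ w w', f₂.B ((h * k.1 * h⁻¹) w) ((h * k.1 * h⁻¹) w') = f₂.B w w' := fun w w' => by
    have := f.B_coe_map (s * T.kR k * s⁻¹) (T.t u w) (T.t v w')
    rwa [e1, e1, B_t, B_t, hv, one_mul, one_mul] at this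
  refine ⟨⟨h * k.1 * h⁻¹, e2, fun w => mul_left_cancel₀ T.two ?_⟩, T.ext fun u w => ?_, fun w => ?_⟩
  · rw [← f₂.orth_B_self, ← f₂.orth_B_self, e2]
  · rw [e1, kR_t]
  · simp

end Tn

end CA.H12Tn
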