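import Cfsg.Agent.Lib.Lin.H12Tn2

/-!
Overgroups of the tensor product of a symplectic and an orthogonal group, part three: the
stabiliser of `u ⊗ W` in a proper overgroup preserves the tensor decomposition.
-/

set_option autoImplicit false
set_option linter.unusedSectionVars false

namespace CA.H12Tn

open CA.CForm CA.CForm.Form Module TensorProduct

local notation:75 g:76 " ⊳ " v:75 => (Subtype.val g) v

variable {F : Type*} [Field F] [Finite F] {U W V : Type*} [AddCommGroup U] [Module F U]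
  [AddCommGroup W] [Module F W] [AddCommGroup V] [Module F V] [FiniteDimensional F U]
  [FiniteDimensional F W] [FiniteDimensional F V]
  {f₁ : Form (Kind.symp F) U} {f₂ : Form (Kind.orth F) W} {f : Form (Kind.symp F) V}

theorem exists_sq_ne_one (h : 3 < Nat.card F) : ∃ l : F, l ≠ 0 ∧ l ^ 2 ≠ 1 := by
  classical
  by_contra H
  push Not at H
  have := Fintype.ofFinite F
  have : (Finset.univ : Finset F) ⊆ {0, 1, -1} := fun l _ => by
    by_cases l0 : l = 0
    · simp [l0]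
    · rcases mul_self_eq_one_iff.1 (sq l ▸ H l l0) with e | e <;> simp [e]
  have := (Finset.card_le_card this).trans Finset.card_le_three
  rw [Finset.card_univ, ← Nat.card_eq_fintype_card] at this
  omega

/-- `X` is a proper overgroup of the isometry groups of the two factors. -/
structure Ov (T : Tn f₁ f₂ f) (X : Subgroup f.Isom) : Prop where
  kL : ∀ g, T.kL g ∈ X
  kR : ∀ h, T.kR h ∈ X
  ne : ¬f.Eich ≤ X
  a2 : 2 ≤ finrank F U
  b3 : 3 ≤ finrank F W
  hq : 4 ≤ finrank F W ∨ 3 < Nat.card F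
  n24 : ¬(finrank F U = 2 ∧ finrank F W = 4)

/-- the symmetric map attached to two vectors -/
def sym (f₂ : Form (Kind.orth F) W) (y z : W) : W →ₗ[F] W :=
  (f₂.B y).smulRight z + (f₂.B z).smulRight y

theorem sym_apply (y z x : W) : sym f₂ y z x = f₂.B y x • z + f₂.B z x • y := rfl

namespace Ov
variable {T : Tn f₁ f₂ f} {X : Subgroup f.Isom} (O : Ov T X)
include O

theorem ntU : Nontrivial U := finrank_pos_iff.1 (by have := O.a2; omega : 0 < finrank F U)

theorem ntW : Nontrivial W := finrank_pos_iff.1 (by have := O.b3; omega : 0 < finrank F W)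

theorem eig {V' : Type*} [AddCommGroup V'] [Module F V'] (Θ Φ : W →ₗ[F] V')
    (hΦ : ∀ y, Φ y = 0 → y = 0) (h : ∀ y, f₂.Q y ≠ 0 → ∃ c : F, Θ y = c • Φ y) :
    ∃ c : F, ∀ y, Θ y = c • Φ y :=
  let ⟨c, hc⟩ := H12Tn.eig T.two (disj_top T.n₂) (.inl (by simpa using O.b3)) Θ Φ
    (fun y _ => hΦ y) fun y _ => h y
  ⟨c, fun y => hc y trivial⟩

theorem exists_sing : ∃ w, w ≠ 0 ∧ f₂.Q w = 0 :=
  let ⟨w, _, h⟩ := f₂.iso_orth ⊤ (by simpa using O.b3); ⟨w, h⟩

theorem exists_ns : ∃ y, f₂.Q y ≠ 0 :=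
  have := O.ntW
  let ⟨w, _, h⟩ := f₂.exists_nonsingular (disj_top T.n₂) top_ne_bot; ⟨w, h⟩

/-- No transvection group at a pure tensor lies in `X`. -/
theorem not_Tgrp {u : U} {w : W} (hu : u ≠ 0) (hw : w ≠ 0) (qw : f₂.Q w = 0) :
    ¬f.Tgrp (T.t u w) ≤ X := fun h => by
  have all : ∀ v w', v ≠ 0 → w' ≠ 0 → f₂.Q w' = 0 → f.Tgrp (T.t v w') ≤ X := fun v w' hv hw' q => by
    obtain ⟨g, rfl⟩ := T.n₁.witt_one hu hv (by rw [f₁.symp_Q, f₁.symp_Q])
    obtain ⟨k, rfl⟩ := T.n₂.witt_one hw hw' (qw.trans q.symm)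
    simpa using Tgrp_map (Tgrp_map h (O.kL g)) (O.kR k)
  obtain ⟨v₀, h₀⟩ := T.exists_one hu
  obtain ⟨w₀, q₀, h₁⟩ := T.n₂.exists_partner qw hw
  refine O.ne (Eich_le_of_Tgrp T.two T.n h (all v₀ w₀ (by rintro rfl; simp at h₀)
    (by rintro rfl; simp at h₁) q₀) (by rw [T.B_t, h₀, h₁, one_mul]) fun Y hY => ?_)
  have k : ∀ v, f₁.B u v ≠ 0 → ∀ w', T.t v w' ∈ Y := fun v hv w' => by
    have : Y.comap (T.t v) = ⊤ := span_sing T.two T.n₂ O.b3 hw qw fun z qz hz =>
      hY _ (all v z (by rintro rfl; simp at hv) (by rintro rfl; simp at hz) qz)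
        (by rw [T.B_t]; exact mul_ne_zero hv hz)
    exact (this ▸ Submodule.mem_top : w' ∈ Y.comap (T.t v))
  rw [eq_top_iff]
  intro x hx
  clear hx
  induction x using T.ind with
  | hadd a b ha hb => exact Y.add_mem ha hb
  | ht v w' =>
    by_cases hv : f₁.B u v = 0
    · simpa using Y.sub_mem (k (v + v₀) (by simp [hv, h₀]) w') (k v₀ (by simp [h₀]) w')
    · exact k v hv w'

/-- The maps `σ` such that `x ↦ x + u ⊗ σ (u ⌟ x)` is in `X`. -/
def Zl {u : U} (hu : u ≠ 0) : Submodule F (W →ₗ[F] W) where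
  carrier := {σ | Act X fun x => x + T.t u (σ (T.cu u x))}
  zero_mem' := ⟨1, X.one_mem, by simp⟩
  add_mem' h h' := (Act.mul h h').congr fun x => by simp [f₁.symp_B_self]; abel
  smul_mem' a σ h := by
    have := add_closed_of_sq T.two (c := 1)
      (P := fun a : F => Act X fun x => x + T.t u ((a • σ) (T.cu u x))) ⟨1, X.one_mem, by simp⟩
      (fun a b ha hb => (Act.mul ha (hb.inv (S' := fun x => x - T.t u ((b • σ) (T.cu u x)))
        fun x => by simp [f₁.symp_B_self])).congr fun x => by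
          simp [f₁.symp_B_self, sub_smul]; abel)
      (fun l hl => by
        obtain ⟨g, hg⟩ := T.n₁.witt_one hu (smul_ne_zero hl hu) (by rw [f₁.symp_Q, f₁.symp_Q])
        refine (Act.conj h (O.kL g)).congr fun x => ?_
        have := T.cu_kL g u ((T.kL g)⁻¹ ⊳ x)
        rw [isom_apply_inv_apply, hg, T.cu_smul] at this
        rw [map_add, isom_apply_inv_apply, T.kL_t, hg, ← this]
        simp [smul_smul, sq]) a
    rwa [mul_one] at this

theorem Zl_conj {u : U} {hu : u ≠ 0} {σ σ' : W →ₗ[F] W} (h : σ ∈ O.Zl hu) (k : f₂.Isom)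
    (e : ∀ w, σ' (k ⊳ w) = k ⊳ σ w) : σ' ∈ O.Zl hu :=
  (Act.conj h (O.kR k)).congr fun x => by
    rw [map_add, isom_apply_inv_apply, T.kR_t, ← e, ← T.cu_kR, isom_apply_inv_apply]

theorem not_mem_Zl {u : U} {hu : u ≠ 0} {w : W} (hw : w ≠ 0) (qw : f₂.Q w = 0) :
    sym f₂ w w ∉ O.Zl hu := fun h => O.not_Tgrp hu hw qw (Tgrp_le_iff.2 fun c => by
  obtain ⟨g, hg, e⟩ := (O.Zl hu).smul_mem (c / 2) h
  convert hg
  refine f.isom_ext fun x => ?_
  have := T.two
  rw [e, tv_apply, T.B_cu]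
  simp only [LinearMap.smul_apply, sym_apply, map_smul, map_add]
  match_scalars <;> (field_simp; try ring))

theorem sym_step {u : U} {hu : u ≠ 0} {y z z' : W} (qy : f₂.Q y ≠ 0) (z0 : z ≠ 0)
    (hz : f₂.B y z = 0) (hz' : f₂.B y z' = 0) (h : sym f₂ y z ∈ O.Zl hu) : sym f₂ y z' ∈ O.Zl hu := by
  let Z : Submodule F W :=
    { carrier := {z | sym f₂ y z ∈ O.Zl hu}
      zero_mem' := by
        change sym f₂ y 0 ∈ O.Zl hu
        convert (O.Zl hu).zero_mem
        ext x; simp [sym_apply]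
      add_mem' := fun {a b} ha hb => by
        change sym f₂ y (a + b) ∈ O.Zl hu
        convert (O.Zl hu).add_mem ha hb using 1
        ext x; simp only [sym_apply, LinearMap.add_apply, B_add_left]; module
      smul_mem' := fun c a ha => by
        change sym f₂ y (c • a) ∈ O.Zl hu
        convert (O.Zl hu).smul_mem c ha using 1
        ext x; simp only [sym_apply, LinearMap.smul_apply, B_smul_left, Kind.orth_σ]; module }
  have y0 : y ≠ 0 := by rintro rfl; simp at qy
  have hd : Disjoint (F ∙ y) (f₂.perp (F ∙ y)) := by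
    rw [disjoint_comm, Submodule.disjoint_span_singleton' y0, f₂.mem_perp_span_singleton,
      f₂.orth_B_self]
    exact mul_ne_zero T.two qy
  have d := T.n₂.finrank_perp (F ∙ y)
  rw [finrank_span_singleton y0] at d
  refine T.n₂.eq_of_irrI (T.n₂.disjoint_perp_perp hd) ((T.n₂.restrict_perp hd).orth_irrI ?_)
    (Y := Z) (fun g hg v _ hv => O.Zl_conj (hu := hu) hv g fun w => ?_) (f₂.mem_perp_span_singleton.2 hz) h z0
    (f₂.mem_perp_span_singleton.2 hz')
  · rcases O.hq with h | h <;> omega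
  · have e := hg y (f₂.le_perp_perp _ (Submodule.mem_span_singleton_self y))
    rw [sym_apply, sym_apply, B_coe_map, map_add, map_smul, map_smul, e]
    conv_lhs => rw [← e, B_coe_map, e]

theorem Zl_scalar {u : U} {hu : u ≠ 0} {σ : W →ₗ[F] W} (h : σ ∈ O.Zl hu) :
    ∃ c : F, ∀ w, σ w = c • w := by
  refine O.eig σ LinearMap.id (fun _ h => h) fun y qy => ?_
  by_contra H
  have hs : ∀ w w', f₂.B w (σ w') = f₂.B (σ w) w' := fun w w' => by
    obtain ⟨g, -, e⟩ := h
    obtain ⟨v, hv⟩ := T.exists_one hu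
    have := f.B_coe_map g (T.t v w) (T.t v w')
    simp only [e, T.cu_t, hv, one_smul, map_add, B_add_left, T.B_t, f₁.symp_B_self,
      f₁.symp_symm u v] at this
    linear_combination -this
  have h2 := T.two
  obtain ⟨z, hz⟩ : ∃ z, σ y = (f₂.B y (σ y) / (2 * f₂.Q y)) • y + z := ⟨_, (add_sub_cancel _ _).symm⟩
  set α := f₂.B y (σ y) / (2 * f₂.Q y) with hα
  have z0 : z ≠ 0 := by rintro rfl; exact H ⟨α, by simpa using hz⟩
  have yz : f₂.B y z = 0 := by
    have := congrArg (f₂.B y) hz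
    rw [map_add, map_smul, f₂.orth_B_self, smul_eq_mul, hα, div_mul_cancel₀ _ (mul_ne_zero h2 qy)] at this
    simpa using this
  have k : sym f₂ y z ∈ O.Zl hu := by
    have k1 := O.Zl_conj h (f₂.refl y) (σ' := σ - (f₂.Q y)⁻¹ • sym f₂ y z) fun w => by
      simp only [refl_apply, LinearMap.sub_apply, LinearMap.smul_apply, sym_apply, map_sub, map_smul,
        hs y w, f₂.orth_B_self, f₂.eq_zero_symm yz]
      rw [hz]
      simp only [B_add_left, B_smul_left, Kind.orth_σ]
      match_scalars <;> field_simp <;> ring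
    have := (O.Zl hu).smul_mem (f₂.Q y) ((O.Zl hu).sub_mem h k1)
    rwa [sub_sub_cancel, smul_inv_smul₀ qy] at this
  obtain ⟨y', w, qy', w0, qw, e, k'⟩ : ∃ y' w, f₂.Q y' ≠ 0 ∧ w ≠ 0 ∧ f₂.Q w = 0 ∧ f₂.B y' w = 0 ∧
      ∀ z', f₂.B y' z' = 0 → sym f₂ y' z' ∈ O.Zl hu := by
    obtain ⟨w, w0, qw⟩ := O.exists_sing
    have d1 := T.n₂.finrank_perp (Submodule.span F {y, w})
    have d2 := finrank_pair_le (F := F) y w
    have := O.b3
    obtain ⟨z', h1, h0⟩ := Submodule.exists_mem_ne_zero_of_ne_bot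
      (p := f₂.perp (Submodule.span F {y, w})) fun e => by rw [e, finrank_bot] at d1; omega
    rw [f₂.mem_perp_span_pair] at h1
    by_cases q : f₂.Q z' = 0
    · exact ⟨y, z', qy, h0, q, h1.1, fun _ h => O.sym_step qy z0 yz h k⟩
    · refine ⟨z', w, q, w0, qw, f₂.eq_zero_symm h1.2, fun _ h => O.sym_step q
        (by rintro rfl; simp at qy) (f₂.eq_zero_symm h1.1) h ?_⟩
      rw [sym, add_comm]
      exact O.sym_step qy z0 yz h1.1 k
  have q2 : f₂.Q y' = f₂.Q (y' + w) := by rw [f₂.orth_Q_add, qw, e]; simp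
  obtain ⟨g, hg⟩ := T.n₂.witt_one (by rintro rfl; simp at qy') (by
    intro e; rw [e] at q2; simp [qy'] at q2) q2
  have k1 := O.Zl_conj (k' (g⁻¹ ⊳ w) (by
    rw [← f₂.B_isom_left, hg, B_add_left, e, f₂.B_self_of_Q qw, add_zero])) g
    (σ' := sym f₂ (y' + w) w) fun x => by
      rw [sym_apply, sym_apply, ← hg, B_coe_map, map_add, map_smul, map_smul, isom_apply_inv_apply,
        f₂.B_isom_right]
  refine O.not_mem_Zl (hu := hu) w0 qw ?_
  convert (O.Zl hu).sub_mem k1 (k' w e) using 1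
  ext x
  simp only [sym_apply, LinearMap.sub_apply, B_add_left]; module

/-- The elements of `X` fixing `(u ⊗ W)^⊥` pointwise are the transvections of the first factor. -/
theorem H1 {u : U} (hu : u ≠ 0) {g : f.Isom} (hg : g ∈ X) (h : ∀ x, T.cu u x = 0 → g ⊳ x = x) :
    ∃ c : F, ∀ x, g ⊳ x = x + c • T.t u (T.cu u x) := by
  obtain ⟨v, hv⟩ := T.exists_one hu
  let σ : W →ₗ[F] W := -T.cu v ∘ₗ ((g.1 : V →ₗ[F] V) - LinearMap.id) ∘ₗ T.t v
  have e : ∀ x, g ⊳ x = x + T.t u (σ (T.cu u x)) := fun x => by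
    have e1 := h (x - T.t v (T.cu u x)) (by simp [hv])
    have e2 := sub_mem_perp (M := f.perp (T.M u)) (k := g) (fun m hm => h m (T.mem_perp_M.1 hm))
      (T.t v (T.cu u x))
    rw [T.n.perp_perp] at e2
    obtain ⟨w, e2⟩ := e2
    have e3 : σ (T.cu u x) = w := by
      simp only [σ, LinearMap.neg_apply, LinearMap.comp_apply, LinearMap.sub_apply,
        LinearEquiv.coe_coe, LinearMap.id_apply, ← e2, T.cu_t, f₁.symp_symm u v, hv]
      simp
    rw [e3, e2, ← sub_eq_zero, ← sub_eq_zero.2 e1, map_sub]; abel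
  obtain ⟨c, hc⟩ := O.Zl_scalar (hu := hu) (σ := σ) ⟨g, hg, e⟩
  exact ⟨c, fun x => by rw [e, hc, map_smul]⟩

/-- Only the identity fixes `(U ⊗ w)^⊥` pointwise, for singular `w`. -/
theorem H3 {w : W} (hw : w ≠ 0) (qw : f₂.Q w = 0) {g : f.Isom} (hg : g ∈ X)
    (h : ∀ x, T.cw w x = 0 → g ⊳ x = x) : g = 1 := by
  obtain ⟨w', -, hv⟩ := T.n₂.exists_partner qw hw
  have ww := f₂.B_self_of_Q qw
  let s : U →ₗ[F] U := T.cw w' ∘ₗ ((g.1 : V →ₗ[F] V) - LinearMap.id) ∘ₗ T.t.flip w'
  have e : ∀ x, g ⊳ x = x + T.t (s (T.cw w x)) w := fun x => by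
    have e1 := h (x - T.t (T.cw w x) w') (by simp [hv])
    have e2 := sub_mem_perp (M := f.perp (T.L w)) (k := g) (fun m hm => h m (T.mem_perp_L.1 hm))
      (T.t (T.cw w x) w')
    rw [T.n.perp_perp] at e2
    obtain ⟨u, e2⟩ := e2
    have e3 : s (T.cw w x) = u := by
      simp only [s, LinearMap.comp_apply, LinearMap.sub_apply, LinearEquiv.coe_coe,
        LinearMap.id_apply, LinearMap.flip_apply, ← e2, T.cw_t, f₂.orth_symm w w', hv, one_smul]
    rw [LinearMap.flip_apply] at e2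
    rw [e3, e2, ← sub_eq_zero, ← sub_eq_zero.2 e1, map_sub]; abel
  have hs : ∀ u u', f₁.B (s u) u' = f₁.B (s u') u := fun u u' => by
    have := f.B_coe_map g (T.t u w') (T.t u' w')
    simp only [e, T.cw_t, hv, one_smul, map_add, B_add_left, T.B_t, ww, f₂.orth_symm w w',
      f₁.symp_symm (s u') u] at this
    linear_combination this
  have k : ∀ v, f₁.B v (s v) = 0 := fun v => by
    by_contra H
    have v0 : v ≠ 0 := by rintro rfl; simp at H
    have a0 : Act X fun x => x + T.t (s (T.cw w x)) w := ⟨g, hg, e⟩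
    have a1 : ∀ c : F, Act X fun x => x + T.t (tv f₁ v c ⊳ s (tv f₁ v (-c) ⊳ T.cw w x)) w :=
      fun c => (a0.conj (O.kL (tv f₁ v c))).congr fun x => by
        have : (tv f₁ v c)⁻¹ = tv f₁ v (-c) := inv_eq_of_mul_eq_one_right (f₁.isom_ext fun x => by
          simp [tv_apply, f₁.symp_B_self])
        rw [map_add, isom_apply_inv_apply, T.kL_t, ← map_inv, T.cw_kL, this]
    have a2 := a0.inv (S' := fun x => x - T.t (s (T.cw w x)) w) fun x => by simp [ww]
    have a3 := ((a1 1).mul (a1 (-1))).mul (a2.mul a2)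
    refine O.not_mem_Zl (hu := v0) hw qw ?_
    rw [← (O.Zl v0).smul_mem_iff (neg_ne_zero.2 H)]
    refine a3.congr fun x => ?_
    simp only [tv_apply, map_add, map_sub, map_smul, T.cw_t, ww, LinearMap.add_apply,
      LinearMap.smul_apply, sym_apply, T.cu_cw, zero_smul, sub_zero, map_zero, LinearMap.zero_apply]
    module
  refine f.isom_ext fun x => ?_
  have : s (T.cw w x) = 0 := T.n₁ _ fun u => mul_left_cancel₀ T.two (by
    have := k (T.cw w x + u)
    rw [map_add, B_add_left, map_add, map_add, k, k, f₁.symp_symm (s u), f₁.symp_symm (s _), hs u] at this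
    linear_combination -this)
  rw [e, this]; simp

end Ov

end CA.H12Tn
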