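import Cfsg.Agent.Lib.Lin.H12Tn3

/-!
Overgroups of the tensor product of a symplectic and an orthogonal group, part four: the stabiliser
of `u ⊗ W` and the conjugates of the transvections of the first factor.
-/

set_option autoImplicit false
set_option linter.unusedSectionVars false

namespace CA.H12Tn

open CA.CForm CA.CForm.Form Module TensorProduct

local notation:75 g:76 " ⊳ " v:75 => (Subtype.val g) v

variable {F : Type*} [Field F] [Finite F] {U W V : Type*} [AddCommGroup U] [Module F U]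
  [AddCommGroup W] [Module F W] [AddCommGroup V] [Module F V] [FiniteDimensional F U]
  [FiniteDimensional F W] [FiniteDimensional F V]
  {f₁ : Form (Kind.symp F) U} {f₂ : Form (Kind.orth F) W} {f : Form (Kind.symp F) V}

/-- The level of an element fixing `u ⊗ W` and its orthogonal complement modulo `u ⊗ W`. -/
def Lv (T : Tn f₁ f₂ f) (X : Subgroup f.Isom) (u : U) (α : W →ₗ[F] V) : Prop :=
  ∃ k ∈ X, (∀ w, k ⊳ T.t u w = T.t u w) ∧ ∀ x, k ⊳ x - x - α (T.cu u x) ∈ T.M u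

variable {T : Tn f₁ f₂ f} {X : Subgroup f.Isom}

theorem Lv.sub {u : U} {α β : W →ₗ[F] V} (h : Lv T X u α) (h' : Lv T X u β) : Lv T X u (α - β) := by
  obtain ⟨k, hk, e1, e2⟩ := h
  obtain ⟨k', hk', e1', e2'⟩ := h'
  refine ⟨k * k'⁻¹, X.mul_mem hk (X.inv_mem hk'), fun w => ?_, fun x => ?_⟩
  · conv_lhs => rw [← e1', isom_mul_apply, isom_inv_apply_apply, e1]
  · obtain ⟨y, rfl⟩ := k'.1.surjective x
    rw [isom_mul_apply, isom_inv_apply_apply, T.cu_fix e1']
    convert (T.M u).sub_mem (e2 y) (e2' y) using 1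
    rw [LinearMap.sub_apply]; abel

theorem Lv.conj {u : U} {α β : W →ₗ[F] V} (h : Lv T X u α) {s : f.Isom} (hs : s ∈ X) (g : f₂.Isom)
    (e : ∀ w, s ⊳ T.t u w = T.t u (g ⊳ w)) (e' : ∀ w, β (g ⊳ w) = s ⊳ α w) : Lv T X u β := by
  obtain ⟨k, hk, e1, e2⟩ := h
  refine ⟨s * k * s⁻¹, X.mul_mem (X.mul_mem hs hk) (X.inv_mem hs), fun w => ?_, fun x => ?_⟩
  · obtain ⟨w, rfl⟩ := g.1.surjective w
    rw [← e, isom_mul_apply, isom_mul_apply, isom_inv_apply_apply, e1]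
  · obtain ⟨y, rfl⟩ := s.1.surjective x
    obtain ⟨w, hw⟩ := e2 y
    rw [isom_mul_apply, isom_mul_apply, isom_inv_apply_apply, T.cu_isom e, e', ← map_sub, ← map_sub,
      ← hw, e]
    exact T.t_mem_M ..

theorem Lv.congr {u : U} {α β : W →ₗ[F] V} (h : Lv T X u α) (e : ∀ w, α w = β w) : Lv T X u β :=
  LinearMap.ext e ▸ h

namespace Ov
variable (O : Ov T X)
include O

theorem lv_E {u v : U} (h : f₁.B u v = 0) : Lv T X u (T.t v) :=
  ⟨T.E h, O.kL _, fun w => by simp [T.E_apply, f₁.symp_B_self, f₁.eq_zero_symm h], fun x => by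
    rw [T.E_apply]; exact ⟨T.cu v x, by abel⟩⟩

theorem lv_tv {u v : U} (h : f₁.B u v = 0) {α : W →ₗ[F] V} (hα : Lv T X u α) :
    Lv T X u (T.t v ∘ₗ T.cu v ∘ₗ α) :=
  ((hα.conj (O.kL (tv f₁ v 1)) 1 (β := α + T.t v ∘ₗ T.cu v ∘ₗ α)
    (fun w => by simp [tv_apply, f₁.eq_zero_symm h]) fun w => by simp [T.kL_tv]).sub hα).congr
    fun w => by simp

theorem lv_comm {u v v' : U} (hu : u ≠ 0) (h : f₁.B u v = 0) (h' : f₁.B u v' = 0)
    (hv : f₁.B v' v = 1) {s s' : W →ₗ[F] W} (hs : Lv T X u (T.t v ∘ₗ s))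
    (hs' : Lv T X u (T.t v' ∘ₗ s')) :
    ∃ c : F, ∀ w w', f₂.B (s' w) (s w') + f₂.B (s w) (s' w') = c * f₂.B w w' := by
  obtain ⟨k, hk, e1, e2⟩ := hs
  obtain ⟨k', hk', e1', e2'⟩ := hs'
  have m1 : ∀ m ∈ T.M u, k ⊳ m = m := by rintro _ ⟨w, rfl⟩; exact e1 w
  have m2 : ∀ m ∈ T.M u, k' ⊳ m = m := by rintro _ ⟨w, rfl⟩; exact e1' w
  have p1 : ∀ x ∈ f.perp (T.M u), k ⊳ x - x ∈ T.M u := fun x hx => by
    simpa [T.mem_perp_M.1 hx] using e2 x
  have p2 : ∀ x ∈ f.perp (T.M u), k' ⊳ x - x ∈ T.M u := fun x hx => by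
    simpa [T.mem_perp_M.1 hx] using e2' x
  obtain ⟨c, hc⟩ := O.H1 hu (X.mul_mem (X.inv_mem (X.mul_mem hk' hk)) (X.mul_mem hk hk'))
    fun x hx => comm_fix m1 m2 p1 p2 (T.mem_perp_M.2 hx)
  obtain ⟨v₀, h₀⟩ := T.exists_one hu
  refine ⟨-c, fun w w' => ?_⟩
  have k1 := comm_B m1 m2 p1 p2 (T.t v₀ w) (T.t v₀ w')
  have k2 := congrArg (fun x => (k' * k) ⊳ x) (hc (T.t v₀ w'))
  simp only [isom_mul_apply _ (k' * k)⁻¹, isom_apply_inv_apply, map_add, map_smul] at k2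
  simp only [isom_mul_apply, e1, e1', T.cu_t, h₀, one_smul] at k2
  obtain ⟨a1, f1⟩ := e2 (T.t v₀ w)
  obtain ⟨a2, f2⟩ := e2 (T.t v₀ w')
  obtain ⟨a3, f3⟩ := e2' (T.t v₀ w)
  obtain ⟨a4, f4⟩ := e2' (T.t v₀ w')
  rw [k2, ← eq_sub_iff_add_eq.1 f1, ← eq_sub_iff_add_eq.1 f2, ← eq_sub_iff_add_eq.1 f3,
    ← eq_sub_iff_add_eq.1 f4] at k1
  simp only [T.cu_t, h₀, one_smul, LinearMap.comp_apply, map_add, map_smul, B_add_left, T.B_t,
    f₁.symp_B_self, h, h', f₁.eq_zero_symm h, f₁.eq_zero_symm h', hv, f₁.symp_symm v' v,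
    f₁.symp_symm u v₀, smul_eq_mul] at k1
  linear_combination -k1

theorem lv_scalar {u v : U} (hu : u ≠ 0) (h : f₁.B u v = 0) (hv : v ∉ F ∙ u) {s : W →ₗ[F] W}
    (hs : Lv T X u (T.t v ∘ₗ s)) : ∃ c : F, ∀ w, s w = c • w := by
  obtain ⟨v', h', e'⟩ := T.n₁.exists_perp_B_eq hv 1
  rw [f₁.mem_perp_span_singleton] at h'
  have h2 := T.two
  have mv : ∀ {s : W →ₗ[F] W}, Lv T X u (T.t v ∘ₗ s) → Lv T X u (T.t v' ∘ₗ s) := fun hs =>
    (O.lv_tv h' hs).congr fun w => by simp [e']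
  obtain ⟨c, hc⟩ := O.lv_comm hu h h' e' hs (s' := LinearMap.id) (O.lv_E h')
  refine ⟨c / 2, fun w => ?_⟩
  let r : W →ₗ[F] W := s - (c / 2) • LinearMap.id
  have hr : Lv T X u (T.t v ∘ₗ r) :=
    (hs.sub (O.lv_E (v := (c / 2) • v) (by simp [h]))).congr fun w => by simp [r]
  have sk : ∀ w w', f₂.B w (r w') = -f₂.B (r w) w' := fun w w' => by
    have := hc w w'
    simp only [r, LinearMap.sub_apply, LinearMap.smul_apply, LinearMap.id_apply, map_sub, map_smul,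
      B_sub_left, B_smul_left, smul_eq_mul, Kind.orth_σ] at this ⊢
    field_simp
    linear_combination 2 * this
  suffices H : (⊤ : Submodule F W) ≤ LinearMap.ker r from sub_eq_zero.1 (H (x := w) trivial)
  refine le_of_ns h2 (disj_top T.n₂) fun y _ qy => ?_
  by_contra z0
  rw [LinearMap.mem_ker] at z0
  set z := r y with hz
  have yz : f₂.B y z = 0 := mul_left_cancel₀ h2 (by
    have := sk y y
    rw [f₂.orth_symm y] at this
    linear_combination this)
  let κ : W →ₗ[F] W := (f₂.B y).smulRight z - (f₂.B z).smulRight y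
  have hκ : Lv T X u (T.t v ∘ₗ ((f₂.Q y)⁻¹ • κ)) := by
    refine (hr.sub (hr.conj (O.kR (f₂.refl y)) (f₂.refl y) (β := T.t v ∘ₗ (r - (f₂.Q y)⁻¹ • κ))
      (fun w => T.kR_t ..) fun w => ?_)).congr fun w => by simp
    simp only [LinearMap.comp_apply, T.kR_t]
    congr 1
    simp only [κ, refl_apply, LinearMap.sub_apply, LinearMap.smul_apply, LinearMap.smulRight_apply,
      map_sub, map_smul, sk y w, ← hz, f₂.orth_B_self, f₂.eq_zero_symm yz]
    match_scalars <;> field_simp <;> ring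
  obtain ⟨d, hd⟩ := O.lv_comm hu h h' e' hκ (mv hκ)
  have d1 := T.n₂.finrank_perp (Submodule.span F {y, z})
  have d2 := finrank_pair_le (F := F) y z
  have := O.b3
  obtain ⟨p, h1, h0⟩ := Submodule.exists_mem_ne_zero_of_ne_bot
    (p := f₂.perp (Submodule.span F {y, z})) fun e => by rw [e, finrank_bot] at d1; omega
  rw [f₂.mem_perp_span_pair] at h1
  obtain ⟨p', hp'⟩ := T.n₂.exists_B_ne_zero h0
  have d0 : d = 0 := by
    have := hd p p'
    simp only [κ, LinearMap.sub_apply, LinearMap.smul_apply, LinearMap.smulRight_apply, h1.1, h1.2,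
      zero_smul, sub_zero, smul_zero, B_zero_left, add_zero] at this
    exact (mul_eq_zero.1 this.symm).resolve_right hp'
  obtain ⟨a, ha⟩ := T.n₂.exists_B_ne_zero z0
  have := hd (a - (f₂.B y a / (2 * f₂.Q y)) • y) (a - (f₂.B y a / (2 * f₂.Q y)) • y)
  have e1 : f₂.B y (a - (f₂.B y a / (2 * f₂.Q y)) • y) = 0 := by
    rw [map_sub, map_smul, f₂.orth_B_self, smul_eq_mul, div_mul_cancel₀ _ (mul_ne_zero h2 qy), sub_self]
  have e2 : f₂.B z (a - (f₂.B y a / (2 * f₂.Q y)) • y) = f₂.B z a := by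
    simp [f₂.eq_zero_symm yz]
  simp only [κ, LinearMap.sub_apply, LinearMap.smul_apply, LinearMap.smulRight_apply, e1, e2, d0,
    f₂.orth_B_self, f₂.orth_Q_smul, zero_smul, zero_sub, Q_neg, zero_mul, ← two_mul] at this
  simp [h2, qy, ha] at this

/-- The elements of `X` acting trivially on the flag `u ⊗ W ≤ (u ⊗ W)^⊥`. -/
theorem H2 {u : U} (hu : u ≠ 0) {k : f.Isom} (hk : k ∈ X) (e1 : ∀ w, k ⊳ T.t u w = T.t u w)
    (e2 : ∀ x, T.cu u x = 0 → k ⊳ x - x ∈ T.M u) : ∃ v c, ∃ h : f₁.B u v = 0,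
      k = T.E h * T.kL (tv f₁ u c) := by
  obtain ⟨v₀, h₀⟩ := T.exists_one hu
  let α : W →ₗ[F] V := ((k.1 : V →ₗ[F] V) - LinearMap.id) ∘ₗ T.t v₀
  have hα : Lv T X u α := ⟨k, hk, e1, fun x => by
    convert e2 (x - T.t v₀ (T.cu u x)) (by simp [h₀]) using 1
    simp only [α, LinearMap.comp_apply, LinearMap.sub_apply, LinearEquiv.coe_coe,
      LinearMap.id_apply, map_sub]; abel⟩
  have a0 : ∀ w, T.cu u (α w) = 0 := fun w => by simp [α, T.cu_fix e1]
  obtain ⟨y, qy⟩ := O.exists_ns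
  have h2 := T.two
  let v := (2 * f₂.Q y)⁻¹ • T.cw y (α y)
  have hv : ∀ v₁, f₁.B u v₁ = 0 → ∀ w, T.cu v₁ (α w) = f₁.B v₁ v • w := fun v₁ h₁ => by
    obtain ⟨c, hc⟩ : ∃ c : F, ∀ w, T.cu v₁ (α w) = c • w := by
      by_cases h : v₁ ∈ F ∙ u
      · obtain ⟨a, rfl⟩ := Submodule.mem_span_singleton.1 h
        exact ⟨0, fun w => by simp [T.cu_smul, a0]⟩
      · exact O.lv_scalar hu h₁ h (O.lv_tv h₁ hα)
    intro w
    rw [hc, map_smul, ← T.cu_cw, hc, map_smul, f₂.orth_B_self, smul_eq_mul, smul_eq_mul,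
      mul_comm c, inv_mul_cancel_left₀ (mul_ne_zero h2 qy)]
  have uv : f₁.B u v = 0 := by rw [map_smul, ← T.cu_cw, a0]; simp
  obtain ⟨c, hc⟩ := O.H1 hu (g := (T.E uv)⁻¹ * k) (X.mul_mem (X.inv_mem (O.kL _)) hk) fun x hx => by
    obtain ⟨w', hw'⟩ := e2 x hx
    have : w' = T.cu v x := T.n₂.eq_of_B_eq_right fun w => by
      obtain ⟨m, hm⟩ := T.mem_M_of hu (x := α w - T.t v w) fun v₁ h₁ => by simp [hv v₁ h₁]
      have e := f.B_coe_map k (T.t v₀ w) x
      have e3 : k ⊳ T.t v₀ w = T.t v₀ w + T.t v w + T.t u m := by rw [hm]; simp [α]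
      rw [e3, ← eq_sub_iff_add_eq.1 hw'] at e
      simp only [map_add, B_add_left, T.B_t, f₁.symp_B_self, f₁.symp_symm u v₀, h₀,
        f₁.eq_zero_symm uv, T.B_cu u, T.B_cu v, hx, map_zero] at e
      linear_combination -e
    rw [isom_mul_apply, ← eq_sub_iff_add_eq.1 hw', this]
    conv_rhs => rw [← f.isom_inv_apply_apply (T.E uv) x, T.E_apply, hx, map_zero, add_zero, add_comm]
  refine ⟨v, c, uv, ?_⟩
  rw [← inv_mul_eq_iff_eq_mul]
  exact f.isom_ext fun x => by rw [hc, T.kL_tv]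

theorem H2_comm {u : U} (hu : u ≠ 0) {k : f.Isom} (hk : k ∈ X) (e1 : ∀ w, k ⊳ T.t u w = T.t u w)
    (e2 : ∀ x, T.cu u x = 0 → k ⊳ x - x ∈ T.M u) (h : f₂.Isom) : k * T.kR h = T.kR h * k := by
  obtain ⟨v, c, uv, rfl⟩ := O.H2 hu hk e1 e2
  rw [Tn.E, ← map_mul, T.kL_comm_kR]

/-- The stabiliser of `u ⊗ W` preserves the tensor decomposition. -/
theorem D {u : U} (hu : u ≠ 0) {s : f.Isom} (hs : s ∈ X) (hM : ∀ w, s ⊳ T.t u w ∈ T.M u) :
    s ∈ T.N := by
  obtain ⟨v₀, h₀⟩ := T.exists_one hu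
  have h2 := T.two
  have st : s ∈ f.stab (T.M u) := f.mem_stab_of_le (by rintro _ ⟨w, rfl⟩; exact hM w)
  have sp : ∀ x, T.cu u x = 0 ↔ T.cu u (s ⊳ x) = 0 := fun x => by
    rw [← T.mem_perp_M, ← T.mem_perp_M]; exact f.stab_le_stab_perp _ st x
  let h : W →ₗ[F] W := -T.cu v₀ ∘ₗ (s.1 : V →ₗ[F] V) ∘ₗ T.t u
  have e : ∀ w, s ⊳ T.t u w = T.t u (h w) := fun w => by
    obtain ⟨w', hw⟩ := hM w
    simp [h, ← hw, f₁.symp_symm u v₀, h₀]
  have hi : ∀ w, h w = 0 → w = 0 := fun w hw =>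
    T.t_inj hu (s.1.injective (by rw [e, hw]; simp))
  have hsj : Function.Surjective h :=
    LinearMap.injective_iff_surjective.1 ((injective_iff_map_eq_zero _).2 hi)
  obtain ⟨c, hc⟩ := O.H1 hu (X.mul_mem (X.mul_mem hs (O.kL (tv f₁ u 1))) (X.inv_mem hs))
    fun x hx => by
      obtain ⟨y, rfl⟩ := s.1.surjective x
      rw [isom_mul_apply, isom_inv_apply_apply, isom_mul_apply, T.kL_tv, (sp y).2 hx]; simp
  have hB : ∀ w w', f₂.B (h w) (h w') = c * f₂.B w w' := fun w w' => by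
    have k1 := hc (s ⊳ T.t v₀ w')
    rw [isom_mul_apply, isom_inv_apply_apply, isom_mul_apply, T.kL_tv, map_add, add_right_inj,
      T.cu_t, h₀, one_smul, one_smul, e, ← map_smul] at k1
    rw [T.t_inj hu k1, map_smul, ← T.B_cu, ← e, B_coe_map, T.B_t, h₀, one_mul, smul_eq_mul]
  have hQ : ∀ w, f₂.Q (h w) = c * f₂.Q w := fun w => mul_left_cancel₀ h2 (by
    rw [← f₂.orth_B_self, hB, f₂.orth_B_self]; ring)
  have c0 : c ≠ 0 := by
    rintro rfl
    obtain ⟨y, qy⟩ := O.exists_ns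
    obtain ⟨y, rfl⟩ := hsj y
    exact qy (by rw [hQ, zero_mul])
  have key : ∀ y, f₂.Q y ≠ 0 → s * T.ρ y * s⁻¹ = T.ρ (h y) := fun y qy => by
    set k := s * T.ρ y * s⁻¹ * T.ρ (h y) with hk
    have kX : k ∈ X := X.mul_mem (X.mul_mem (X.mul_mem hs (O.kR _)) (X.inv_mem hs)) (O.kR _)
    have e1 : ∀ w, k ⊳ T.t u w = T.t u w := fun w => by
      obtain ⟨w, rfl⟩ := hsj w
      have : f₂.refl (h y) ⊳ h w = h (f₂.refl y ⊳ w) := by
        rw [refl_apply, refl_apply, hB, hQ, map_sub, map_smul]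
        congr 2; field_simp
      rw [hk, isom_mul_apply, Tn.ρ, Tn.ρ, T.kR_t, this, ← e, isom_mul_apply, isom_inv_apply_apply,
        isom_mul_apply, T.kR_t, ← isom_mul_apply, refl_mul_self, isom_one_apply, e]
    have cm : ∀ {v} (uv : f₁.B u v = 0), k * T.E uv = T.E uv * k := fun {v} uv => by
      have := O.H2_comm hu (k := s⁻¹ * T.E uv * s)
        (X.mul_mem (X.mul_mem (X.inv_mem hs) (O.kL _)) hs) (fun w => by
          rw [isom_mul_apply, isom_mul_apply, e, T.E_apply, T.cu_t, T.cu_t, f₁.symp_B_self,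
            f₁.eq_zero_symm uv, zero_smul, map_zero, map_zero, add_zero, add_zero, ← e,
            isom_inv_apply_apply]) (fun x hx => by
          rw [st, isom_mul_apply, isom_mul_apply, map_sub, isom_apply_inv_apply, T.E_apply,
            (sp x).1 hx]
          exact ⟨T.cu v (s ⊳ x), by simp⟩) (f₂.refl y)
      have e3 : T.E uv * T.ρ (h y) = T.ρ (h y) * T.E uv := T.kL_comm_kR ..
      calc k * T.E uv = s * (T.ρ y * (s⁻¹ * T.E uv * s)) * s⁻¹ * T.ρ (h y) := by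
            rw [hk, mul_assoc _ _ (T.E uv), ← e3]; group
        _ = T.E uv * k := by rw [hk]; simp only [Tn.ρ]; rw [← this]; group
    have e2 : ∀ x, T.cu u x = 0 → k ⊳ x - x ∈ T.M u := fun x hx => Submodule.mem_comap.1 <|
      T.ker_ind hu (Y := (T.M u).comap ((k.1 : V →ₗ[F] V) - LinearMap.id)) (fun v w uv => by
        have := congrArg (fun g => g ⊳ T.t v₀ w) (cm uv)
        simp only [isom_mul_apply, T.E_apply, map_add, T.cu_fix e1, e1, T.cu_t, h₀, one_smul] at this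
        refine ⟨T.cu v (k ⊳ T.t v₀ w) - f₁.B v v₀ • w, ?_⟩
        simp only [LinearMap.sub_apply, LinearEquiv.coe_coe, LinearMap.id_apply, map_sub]
        rw [← sub_eq_zero] at this ⊢
        rw [← neg_eq_zero, ← this]; abel) hx
    have e3 := O.H2_comm hu kX e1 e2 (f₂.refl (h y))
    have e4 : k * k = 1 := by
      calc k * k = k * T.ρ (h y) * (k * T.ρ (h y)) := by
            rw [mul_assoc k, Tn.ρ, ← mul_assoc (T.kR _), ← e3, mul_assoc k, ← Tn.ρ, T.ρ_mul_self,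
              mul_one]
        _ = s * (T.ρ y * T.ρ y) * s⁻¹ := by
            rw [hk, mul_assoc _ (T.ρ (h y)) (T.ρ (h y)), T.ρ_mul_self]; group
        _ = 1 := by rw [T.ρ_mul_self]; group
    obtain ⟨v, a, uv, e5⟩ := O.H2 hu kX e1 e2
    have e6 : k = 1 := f.isom_ext fun x => by
      have := congrArg (fun g => g ⊳ x) e4
      simp only [e5, isom_mul_apply, T.E_apply, T.kL_tv, map_add, map_smul, T.cu_t, f₁.symp_B_self,
        uv, f₁.eq_zero_symm uv, isom_one_apply, zero_smul, smul_zero, add_zero, map_zero] at this ⊢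
      refine smul_right_injective V h2 ?_
      simp only [two_smul]
      rw [← sub_eq_zero] at this ⊢
      rw [← this]; abel
    rw [← mul_right_cancel_iff (a := T.ρ (h y)), ← hk, e6, T.ρ_mul_self]
  have pure : ∀ y, f₂.Q y ≠ 0 → ∀ v, s ⊳ T.t v y =
      T.t ((2 * f₂.Q (h y))⁻¹ • T.cw (h y) (s ⊳ T.t v y)) (h y) := fun y qy v => by
    have := congrArg (fun g => g ⊳ s ⊳ T.t v y) (key y qy)
    simp only [isom_mul_apply, isom_inv_apply_apply, T.ρ_apply (h y)] at this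
    rw [Tn.ρ, T.kR_t, f₂.refl_apply_self qy, map_neg, map_neg] at this
    refine smul_right_injective V h2 ?_
    have q : f₂.Q (h y) ≠ 0 := by rw [hQ]; exact mul_ne_zero c0 qy
    simp only [map_smul, LinearMap.smul_apply, smul_smul]
    rw [mul_inv, mul_inv_cancel_left₀ h2, two_smul, ← sub_eq_zero, ← neg_eq_zero, ← sub_eq_zero.2 this]
    abel
  obtain ⟨y₀, q₀⟩ := O.exists_ns
  have := O.ntU
  have := O.ntW
  refine T.mem_N_of_lin ((2 * f₂.Q (h y₀))⁻¹ • T.cw (h y₀) ∘ₗ (s.1 : V →ₗ[F] V) ∘ₗ T.t.flip y₀) h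
    fun v w => sub_eq_zero.1 (T.eq_zero_of_cu fun u' => ?_)
  obtain ⟨μ, hμ⟩ := O.eig (T.cu u' ∘ₗ (s.1 : V →ₗ[F] V) ∘ₗ T.t v) h hi fun y qy =>
    ⟨_, by rw [LinearMap.comp_apply, LinearMap.comp_apply, LinearEquiv.coe_coe, pure y qy, T.cu_t]⟩
  have k1 := hμ y₀
  simp only [LinearMap.comp_apply, LinearEquiv.coe_coe] at hμ k1
  rw [pure y₀ q₀, T.cu_t] at k1
  have k2 := smul_left_injective F (fun e => by rw [hi _ e] at q₀; simp at q₀) k1
  rw [map_sub, hμ, T.cu_t, ← k2]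
  exact sub_self _

theorem fixM {u : U} {w₀ : W} (hu : u ≠ 0) (hw : w₀ ≠ 0) {k : f.Isom} (hk : k ∈ T.N)
    (e : k ⊳ T.t u w₀ ∈ T.M u) : f.act k (T.M u) = T.M u := by
  obtain ⟨g, h, e1⟩ := hk
  rw [e1] at e
  obtain ⟨a, ha⟩ := T.smul_of_t_mem (by simpa using hw) e
  rw [T.act_M e1, ha, T.M_smul]
  rintro rfl
  exact hu (by simpa using ha)

/-- A non-trivial element fixing a conjugate of `u ⊗ W` pointwise has rank at least `dim W`. -/
theorem rank_ge {u : U} (hu : u ≠ 0) {s k : f.Isom} (hs : s ∈ X) (hk : k ∈ X) (k1 : k ≠ 1)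
    (e : ∀ x ∈ f.act s (T.M u), k ⊳ x = x) {S : Submodule F V} (hS : ∀ x, k ⊳ x - x ∈ S) :
    finrank F W ≤ finrank F S := by
  have e1 : ∀ w, (s⁻¹ * k * s) ⊳ T.t u w = T.t u w := fun w => by
    rw [isom_mul_apply, isom_mul_apply, e _ (f.apply_mem_act.2 (T.t_mem_M u w)),
      isom_inv_apply_apply]
  obtain ⟨g, h, e2⟩ := O.D hu (X.mul_mem (X.mul_mem (X.inv_mem hs) hk) hs) fun w => by
    rw [e1]; exact T.t_mem_M u w
  have := O.ntW
  obtain ⟨w₀, hw⟩ := exists_ne (0 : W)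
  obtain ⟨a, ha⟩ := T.smul_of_t_mem (w := h w₀) (v := g u) (u := u) (by simpa using hw) (by
    rw [← e2, e1]; exact T.t_mem_M u w₀)
  have a0 : a ≠ 0 := by rintro rfl; exact hu (by simpa using ha)
  have e3 : ∀ w, h w = a⁻¹ • w := fun w => T.t_inj hu (by
    rw [map_smul, ← e1 w, e2, ha]; simp [smul_smul, a0])
  obtain ⟨v, hv⟩ : ∃ v, a⁻¹ • g v - v ≠ 0 := by
    by_contra H
    push Not at H
    apply k1
    have : s⁻¹ * k * s = 1 := T.ext fun v w => by
      rw [e2, e3, isom_one_apply]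
      conv_rhs => rw [← sub_eq_zero.1 (H v)]
      simp
    rw [← mul_inv_cancel_left s k, ← mul_inv_cancel_right (s⁻¹ * k) s, this]; simp
  rw [← T.finrank_M hv, ← f.finrank_act s⁻¹ S]
  refine Submodule.finrank_mono ?_
  rintro _ ⟨w, rfl⟩
  rw [f.mem_act, inv_inv]
  convert hS (s ⊳ T.t v w) using 1
  have := congrArg (fun x => s ⊳ x) (e2 v w)
  simp only [isom_mul_apply, isom_apply_inv_apply] at this
  rw [this, e3, ← map_sub]; simp

/-- Quadratic elements preserving the tensor decomposition belong to one of the factors. -/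
theorem pencil {s : f.Isom} (hs : s ∈ T.N) (e : ∀ x, s ⊳ (s ⊳ x - x) = s ⊳ x - x) :
    (∃ A : U →ₗ[F] U, ∀ u w, s ⊳ T.t u w = T.t u w + T.t (A u) w) ∨
      ∃ C : W →ₗ[F] W, ∀ u w, s ⊳ T.t u w = T.t u w + T.t u (C w) := by
  obtain ⟨g, h, e1⟩ := hs
  by_cases H : ∀ u, u ∈ F ∙ g u
  · obtain ⟨a, ha⟩ := LinearMap.exists_eq_smul_id_of_forall_notLinearIndependent
      (f := (g : U →ₗ[F] U)) fun u hu => by
        obtain ⟨c, hc⟩ := Submodule.mem_span_singleton.1 (H u)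
        simpa using (LinearIndependent.pair_iff.1 hu 1 (-c) (by simp [hc])).1
    refine .inr ⟨a • (h : W →ₗ[F] W) - LinearMap.id, fun u w => ?_⟩
    rw [e1, show g u = a • u from LinearMap.congr_fun ha u]; simp
  push Not at H
  obtain ⟨u, hu⟩ := H
  obtain ⟨y, hy, e2⟩ := T.n₁.exists_perp_B_eq hu 1
  replace hy := f₁.eq_zero_symm (f₁.mem_perp_span_singleton.1 hy)
  obtain ⟨y', e3⟩ := T.exists_one (u := g u) (by
    intro e; rw [g.map_eq_zero_iff] at e; exact hu (by simp [e]))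
  have k1 := fun w => congrArg (T.cu y) (e (T.t u w))
  have k2 := fun w => congrArg (T.cu y') (e (T.t u w))
  simp only [map_sub, e1, T.cu_t, hy, e2, f₁.symp_symm (g u) y', e3] at k1 k2
  have := O.ntW
  obtain ⟨w₀, hw⟩ := exists_ne (0 : W)
  have κ0 : f₁.B y (g (g u)) ≠ 0 := fun e => hw (by simpa [e] using k1 w₀)
  have h2 := T.two
  refine .inl ⟨((f₁.B y' (g (g u)) / f₁.B y (g (g u)) - f₁.B y' u) / 2) • (g : U →ₗ[F] U) -
    LinearMap.id, fun v w => ?_⟩
  have : h w = ((f₁.B y' (g (g u)) / f₁.B y (g (g u)) - f₁.B y' u) / 2) • w := by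
    have k3 : h (h w) = -(f₁.B y (g (g u)))⁻¹ • w := by
      refine smul_right_injective W κ0 ?_
      simp only [smul_smul, mul_neg, mul_inv_cancel₀ κ0]
      simpa using k1 w
    have k4 := k2 w
    rw [k3, ← sub_eq_zero] at k4
    refine smul_right_injective W h2 ?_
    rw [← sub_eq_zero, ← k4]
    match_scalars <;> field_simp <;> ring
  rw [e1, this]; simp

theorem conj_tv (s : f.Isom) (u : U) (c : F) (x : V) : (s * T.kL (tv f₁ u c) * s⁻¹) ⊳ x =
    x + c • s ⊳ T.t u (T.cu u (s⁻¹ ⊳ x)) := by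
  rw [isom_mul_apply, isom_mul_apply, T.kL_tv, map_add, isom_apply_inv_apply, map_smul]

/-- The conjugates of transvections of the first factor which preserve the decomposition. -/
theorem K0 {u : U} (hu : u ≠ 0) {s : f.Isom} (hs : s ∈ X)
    (hN : s * T.kL (tv f₁ u 1) * s⁻¹ ∈ T.N) : ∃ u', u' ≠ 0 ∧ f.act s (T.M u) = T.M u' := by
  set τ := s * T.kL (tv f₁ u 1) * s⁻¹ with hτ
  have e : ∀ x, τ ⊳ x = x + s ⊳ T.t u (T.cu u (s⁻¹ ⊳ x)) := fun x => by
    rw [hτ, O.conj_tv, one_smul]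
  obtain ⟨v₀, h₀⟩ := T.exists_one hu
  have m1 : ∀ x, τ ⊳ x - x ∈ f.act s (T.M u) := fun x => by
    rw [e, add_sub_cancel_left]; exact f.apply_mem_act.2 (T.t_mem_M ..)
  have m2 : ∀ x ∈ f.act s (T.M u), ∃ y, x = τ ⊳ y - y := by
    rintro _ ⟨_, ⟨w, rfl⟩, rfl⟩
    exact ⟨s ⊳ T.t v₀ w, by rw [e, isom_inv_apply_apply]; simp [h₀]⟩
  have d : finrank F (f.act s (T.M u)) = finrank F W := by rw [finrank_act, T.finrank_M hu]
  have t1 : τ ≠ 1 := fun e => by
    have : f.act s (T.M u) = ⊥ := (Submodule.eq_bot_iff _).2 fun x hx => by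
      obtain ⟨y, rfl⟩ := m2 x hx
      simp [e]
    rw [this, finrank_bot] at d
    have := O.b3
    omega
  rcases O.pencil hN (fun x => by
    rw [e x, add_sub_cancel_left, e, isom_inv_apply_apply]; simp [f₁.symp_B_self]) with
    ⟨A, hA⟩ | ⟨C, hC⟩
  · obtain ⟨v, hv⟩ : ∃ v, A v ≠ 0 := by
      by_contra H
      push Not at H
      exact t1 (T.ext fun v w => by simp [hA, H])
    refine ⟨A v, hv, (Submodule.eq_of_le_of_finrank_eq ?_ (by rw [d, T.finrank_M hv])).symm⟩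
    rintro _ ⟨w, rfl⟩
    simpa [hA] using m1 (T.t v w)
  exfalso
  have m3 : ∀ v w, T.t v (C w) ∈ f.act s (T.M u) := fun v w => by simpa [hC] using m1 (T.t v w)
  have cc : ∀ w w', f₂.B (C w) (C w') = 0 := fun w w' => by
    obtain ⟨_, ⟨a, rfl⟩, ha⟩ := m3 u w
    obtain ⟨_, ⟨b, rfl⟩, hb⟩ := m3 v₀ w'
    have := T.B_t u (C w) v₀ (C w')
    rw [← ha, ← hb, LinearEquiv.coe_coe, B_coe_map, T.B_t, f₁.symp_B_self, h₀] at this
    simpa using this.symm
  have sk : ∀ w w', f₂.B (C w) w' = -f₂.B w (C w') := fun w w' => by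
    have := f.B_coe_map τ (T.t u w) (T.t v₀ w')
    simp only [hC, map_add, B_add_left, T.B_t, h₀, cc] at this
    linear_combination this
  have s0 : ∀ w, f₂.B w (C w) = 0 := fun w => mul_left_cancel₀ T.two (by
    have := sk w w
    rw [f₂.orth_symm w] at this
    linear_combination this)
  have qc : ∀ w, f₂.Q (C w) = 0 := fun w => mul_left_cancel₀ T.two (by
    rw [← f₂.orth_B_self, cc, mul_zero])
  have pp : ∀ y, (∀ w, f₂.B y (C w) = 0) → ∀ x ∈ f.act s (T.M u), T.cw y x = 0 := fun y hy x hx => by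
    obtain ⟨z, rfl⟩ := m2 x hx
    clear hx
    induction z using T.ind with
    | ht v w => simp [hC, hy]
    | hadd a b ha hb => rw [map_add, add_sub_add_comm, map_add, ha, hb, add_zero]
  obtain ⟨a, ha⟩ : ∃ a, C a ≠ 0 := by
    by_contra H
    push Not at H
    exact t1 (T.ext fun v w => by simp [hC, H])
  obtain ⟨b, hb⟩ := T.n₂.exists_B_ne_zero ha
  have hb' : f₂.B a (C b) ≠ 0 := by rwa [sk, neg_ne_zero] at hb
  have b0 : C b ≠ 0 := fun e => hb' (by simp [e])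
  let ψ : U × U →ₗ[F] V := (T.t.flip (C a)).coprod (T.t.flip (C b))
  have d1 : finrank F (LinearMap.range ψ) = 2 * finrank F U := by
    rw [LinearMap.finrank_range_of_inj, finrank_prod, two_mul]
    refine (injective_iff_map_eq_zero _).2 fun p hp => Prod.ext ?_ ?_
    · simpa [ψ, s0, f₂.orth_symm (C a) b, hb] using congrArg (T.cw b) hp
    · simpa [ψ, s0, hb'] using congrArg (T.cw a) hp
  have le : LinearMap.range ψ ≤ f.act s (T.M u) := by
    rintro _ ⟨p, rfl⟩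
    exact Submodule.add_mem _ (m3 ..) (m3 ..)
  have d2 := Submodule.finrank_mono le
  have d3 := O.rank_ge hu hs (k := T.ε (qc a) (cc a b)) (O.kR _) (fun e => by
      have := T.ε_apply (qc a) (cc a b) (T.t u b)
      rw [e, isom_one_apply] at this
      simpa [s0, hb, hb', hu, f₂.orth_symm b (C b)] using congrArg (T.cw a) this)
    (fun x hx => by rw [T.ε_apply, pp _ (cc a) x hx, pp _ (cc b) x hx]; simp)
    (S := LinearMap.range ψ) fun x => ⟨(-(T.cw (C b) x + f₂.Q (C b) • T.cw (C a) x), T.cw (C a) x), by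
      rw [T.ε_apply]; simp only [ψ, LinearMap.coprod_apply, LinearMap.flip_apply, map_neg]
      abel⟩
  have a2 := O.a2
  have eq := Submodule.eq_of_le_of_finrank_eq le (by omega)
  have sp : ∀ y ∈ f₂.perp (Submodule.span F {C a, C b}), f₂.Q y = 0 := fun y hy => by
    by_contra qy
    rw [f₂.mem_perp_span_pair] at hy
    have y0 : y ≠ 0 := by rintro rfl; simp at qy
    have := O.rank_ge hu hs (k := T.ρ y) (O.kR _) (fun e => by
        have := T.kR_t (f₂.refl y) u y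
        rw [← Tn.ρ, e, isom_one_apply, f₂.refl_apply_self qy, map_neg, eq_neg_iff_add_eq_zero,
          ← two_smul F, smul_eq_zero] at this
        exact this.elim T.two (T.t_ne_zero hu y0))
      (fun x hx => by
        obtain ⟨p, rfl⟩ := eq ▸ hx
        rw [T.ρ_apply]
        simp [ψ, f₂.eq_zero_symm hy.1, f₂.eq_zero_symm hy.2])
      (S := T.L y) fun x => by
        rw [T.ρ_apply, sub_sub_cancel_left]
        exact (T.L y).neg_mem ((T.L y).smul_mem _ (T.t_mem_L ..))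
    rw [T.finrank_L y0] at this
    omega
  have d4 := T.n₂.finrank_perp (Submodule.span F {C a, C b})
  have d5 := finrank_pair_le (F := F) (C a) (C b)
  have d6 : f₂.perp (Submodule.span F {C a, C b}) ≤ Submodule.span F {C a, C b} := by
    conv_rhs => rw [← T.n₂.perp_perp (Submodule.span F {C a, C b})]
    intro x hx y hy
    by_contra e
    obtain ⟨z, hz, qz⟩ := H12Tn.exists_ns hy hx e
    exact qz (sp z hz)
  have := Submodule.finrank_mono d6
  exact O.n24 (by omega)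

end Ov

end CA.H12Tn
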