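import Cfsg.Agent.Lib.Lin.H12Tn4

/-!
Overgroups of the tensor product of a symplectic and an orthogonal group, part five: pairs of
conjugates of `u ⊗ W` with maximal intersection.
-/

set_option autoImplicit false
set_option linter.unusedSectionVars false

namespace CA.H12Tn

open CA.CForm CA.CForm.Form Module TensorProduct

local notation:75 g:76 " ⊳ " v:75 => (Subtype.val g) v

variable {F : Type*} [Field F] [Finite F] {U W V : Type*} [AddCommGroup U] [Module F U]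
  [AddCommGroup W] [Module F W] [AddCommGroup V] [Module F V] [FiniteDimensional F U]
  [FiniteDimensional F W] [FiniteDimensional F V]
  {f₁ : Form (Kind.symp F) U} {f₂ : Form (Kind.orth F) W} {f : Form (Kind.symp F) V}

/-- `M` is an image of some `u ⊗ W` under `X`. -/
def Mem (T : Tn f₁ f₂ f) (X : Subgroup f.Isom) (M : Submodule F V) : Prop :=
  ∃ s ∈ X, ∃ u, u ≠ 0 ∧ M = f.act s (T.M u)

/-- Distinct members meet in dimension at most `d`. -/
def Mx (T : Tn f₁ f₂ f) (X : Subgroup f.Isom) (d : ℕ) : Prop :=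
  ∀ M M', Mem T X M → Mem T X M' → d < finrank F (M ⊓ M' : Submodule F V) → M = M'

variable {T : Tn f₁ f₂ f} {X : Subgroup f.Isom}

theorem mem_std {u : U} (hu : u ≠ 0) : Mem T X (T.M u) := ⟨1, X.one_mem, u, hu, (f.act_one _).symm⟩

theorem Mem.act {M : Submodule F V} (h : Mem T X M) {g : f.Isom} (hg : g ∈ X) :
    Mem T X (f.act g M) :=
  let ⟨s, hs, u, hu, e⟩ := h; ⟨g * s, X.mul_mem hg hs, u, hu, by rw [e, act_mul]⟩

theorem Mem.finrank {M : Submodule F V} (h : Mem T X M) : finrank F M = finrank F W := by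
  obtain ⟨s, -, u, hu, rfl⟩ := h
  rw [finrank_act, T.finrank_M hu]

theorem Mem.ts {M : Submodule F V} (h : Mem T X M) {x y : V} (hx : x ∈ M) (hy : y ∈ M) :
    f.B x y = 0 := by
  obtain ⟨s, -, u, hu, rfl⟩ := h
  obtain ⟨_, ⟨w, rfl⟩, rfl⟩ := hx
  obtain ⟨_, ⟨w', rfl⟩, rfl⟩ := hy
  simp [T.B_t, f₁.symp_B_self]

theorem Mx.eq_of {d : ℕ} (h : Mx T X d) {M M' I : Submodule F V} (m : Mem T X M) (m' : Mem T X M')
    (h1 : I ≤ M) (h2 : I ≤ M') (hd : d ≤ finrank F I) {x : V} (x1 : x ∈ M) (x2 : x ∈ M')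
    (x3 : x ∉ I) : M = M' :=
  h _ _ m m' (hd.trans_lt (Submodule.finrank_lt_finrank_of_lt
    (lt_of_le_of_ne (le_inf h1 h2) fun e => x3 (e ▸ ⟨x1, x2⟩))))

theorem le_act {I M : Submodule F V} {g : f.Isom} (h : I ≤ M) (e : ∀ x ∈ I, g ⊳ x = x) :
    I ≤ f.act g M := fun x hx => e x hx ▸ f.apply_mem_act.2 (h hx)

theorem mem_of_act {M : Submodule F V} {g : f.Isom} (e : f.act g M = M) {x : V} (hx : x ∈ M) :
    g ⊳ x ∈ M := by
  have := (f.apply_mem_act (g := g)).2 hx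
  rwa [e] at this

theorem M_eq_of_mem {u u' : U} {x : V} (hu' : u' ≠ 0) (h : x ∈ T.M u) (h' : x ∈ T.M u')
    (x0 : x ≠ 0) : T.M u' = T.M u := by
  obtain ⟨w, rfl⟩ := h'
  obtain ⟨a, rfl⟩ := T.smul_of_t_mem (by rintro rfl; simp at x0) h
  exact T.M_smul (left_ne_zero_of_smul hu') u

namespace Ov
variable (O : Ov T X)
include O

theorem mem_N_of_act {u v : U} (hu : u ≠ 0) (hv : v ≠ 0) {s : f.Isom} (hs : s ∈ X)
    (e : f.act s (T.M v) = T.M u) : s ∈ T.N := by
  obtain ⟨g, rfl⟩ := T.n₁.witt_one hu hv (by rw [f₁.symp_Q, f₁.symp_Q])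
  refine (T.N.mul_mem_cancel_right (T.kL_mem_N g)).1 (O.D hu (X.mul_mem hs (O.kL g)) fun w => ?_)
  rw [isom_mul_apply, T.kL_t, ← e]
  exact f.apply_mem_act.2 (T.t_mem_M ..)

theorem act_std {v : U} (hv : v ≠ 0) {s : f.Isom} (hs : s ∈ T.N) :
    ∃ u, u ≠ 0 ∧ f.act s (T.M v) = T.M u :=
  let ⟨g, _, e⟩ := hs; ⟨g v, by simpa using hv, T.act_M e v⟩

theorem K1 {M : Submodule F V} (m : Mem T X M) {u : U} (hu : u ≠ 0)
    (h : ∀ x ∈ M, T.t u (T.cu u x) ∈ M) : ∃ u', u' ≠ 0 ∧ M = T.M u' := by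
  obtain ⟨s, hs, v, hv, rfl⟩ := m
  obtain ⟨u', h0, e⟩ := O.K0 hu (X.inv_mem hs) (O.D hv
    (X.mul_mem (X.mul_mem (X.inv_mem hs) (O.kL _)) (X.inv_mem (X.inv_mem hs))) fun w => by
      rw [O.conj_tv, inv_inv, one_smul]
      exact Submodule.add_mem _ (T.t_mem_M ..)
        (f.mem_act.1 (h _ (f.apply_mem_act.2 (T.t_mem_M ..)))))
  exact O.act_std hv ((T.N.inv_mem_iff).1 (O.mem_N_of_act h0 hu (X.inv_mem hs) e))

theorem K_std {d : ℕ} (h : Mx T X d) {M : Submodule F V} (m : Mem T X M) {u : U} (hu : u ≠ 0)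
    (hd : d ≤ finrank F (T.M u ⊓ M : Submodule F V)) {x : V} (hx : x ∈ M) (e : T.cu u x = 0) :
    x ∈ T.M u ∨ ∃ u', u' ≠ 0 ∧ M = T.M u' := by
  refine or_iff_not_imp_left.2 fun hx' => O.K1 m hu fun y hy => ?_
  have := h.eq_of (m.act (O.kL (tv f₁ u 1))) m
    (le_act inf_le_right fun z hz => by simp [T.kL_tv, T.cu_of_mem hz.1]) inf_le_right hd
    (le_act (I := F ∙ x) ((Submodule.span_singleton_le_iff_mem _ _).2 hx) (fun z hz => by
      obtain ⟨a, rfl⟩ := Submodule.mem_span_singleton.1 hz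
      simp [T.kL_tv, e]) (Submodule.mem_span_singleton_self x)) hx fun e => hx' e.1
  simpa [T.kL_tv] using M.sub_mem (mem_of_act this hy) hy

theorem K {d : ℕ} (h : Mx T X d) (d0 : 0 < d) {M M' : Submodule F V} (m : Mem T X M)
    (m' : Mem T X M') (hd : d ≤ finrank F (M ⊓ M' : Submodule F V)) {x : V} (hx : x ∈ M')
    (e : x ∈ f.perp M) : x ∈ M := by
  obtain ⟨s, hs, u, hu, rfl⟩ := m
  have e1 : f.act s⁻¹ (f.act s (T.M u)) = T.M u := by rw [← act_mul, inv_mul_cancel, act_one]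
  have hd' : d ≤ finrank F (T.M u ⊓ f.act s⁻¹ M' : Submodule F V) := by
    rwa [← f.finrank_act s⁻¹, act_inf, e1] at hd
  rw [f.mem_act]
  rcases O.K_std h (m'.act (X.inv_mem hs)) hu hd' (f.apply_mem_act.2 hx) (by
    rw [← T.mem_perp_M, ← f.mem_act, act_perp]; exact e) with e2 | ⟨u', h0, e2⟩
  · exact e2
  · obtain ⟨y, hy, y0⟩ := Submodule.exists_mem_ne_zero_of_ne_bot
      (p := T.M u ⊓ f.act s⁻¹ M') fun e => by rw [e, finrank_bot] at hd'; omega
    rw [← M_eq_of_mem h0 hy.1 (e2 ▸ hy.2) y0, ← e2]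
    exact f.apply_mem_act.2 hx

/-- Small maximal intersections force the members to be standard. -/
theorem R {d : ℕ} (h : Mx T X d) (hd : d + finrank F U < finrank F W) {M : Submodule F V}
    (m : Mem T X M) : ∃ u, u ≠ 0 ∧ M = T.M u := by
  have k : ∀ z, ∀ x ∈ M, T.ρ z ⊳ x ∈ M := fun z x hx => by
    refine mem_of_act (h _ _ (m.act (O.kR _)) m (lt_of_lt_of_le ?_ (Submodule.finrank_mono
      (s := M ⊓ LinearMap.ker (T.cw z)) (le_inf (le_act inf_le_left fun y hy => ?_)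
        inf_le_left)))) hx
    · have := (T.cw z ∘ₗ M.subtype).finrank_range_add_finrank_ker
      have := Submodule.finrank_le (LinearMap.range (T.cw z ∘ₗ M.subtype))
      have := m.finrank
      rw [← Submodule.map_comap_subtype, Submodule.finrank_map_subtype_eq, ← LinearMap.ker_comp]
      omega
    · rw [← Tn.ρ, T.ρ_apply, LinearMap.mem_ker.1 hy.2]; simp
  obtain ⟨x, hx, x0⟩ := Submodule.exists_mem_ne_zero_of_ne_bot (p := M) fun e => by
    have := m.finrank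
    rw [e, finrank_bot] at this; omega
  obtain ⟨z, qz, hz⟩ : ∃ z, f₂.Q z ≠ 0 ∧ T.cw z x ≠ 0 := by
    by_contra H
    push Not at H
    refine x0 (T.eq_zero_of_cu fun u => T.n₂.eq_zero_right fun w => ?_)
    refine le_of_ns T.two (disj_top T.n₂) (T := f₂.perp (F ∙ T.cu u x)) (fun y _ qy => ?_)
      (x := w) trivial |> f₂.mem_perp_span_singleton.1 |> f₂.eq_zero_symm
    rw [f₂.mem_perp_span_singleton, f₂.orth_symm, T.cu_cw, H y qy, map_zero]
  refine ⟨_, hz, (Submodule.eq_of_le_of_finrank_eq ?_ (by rw [m.finrank, T.finrank_M hz])).symm⟩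
  have top : f₂.stab (M.comap (T.t (T.cw z x))) = ⊤ :=
    T.n₂.eq_top_of_refl (f₂.good_of_two_ne_zero T.two) fun y _ => f₂.mem_stab_of_le fun w hw => by
      simpa [Tn.ρ] using k y _ hw
  rcases T.n₂.orth_irrI (by have := O.b3; omega) (M.comap (T.t (T.cw z x)))
    (fun g v hv => ((top ▸ Subgroup.mem_top g : g ∈ f₂.stab _) v).1 hv) with e | e
  · have := M.sub_mem hx (k z x hx)
    rw [T.ρ_apply, sub_sub_cancel, M.smul_mem_iff (inv_ne_zero qz), ← Submodule.mem_comap, e,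
      Submodule.mem_bot] at this
    simp [this] at qz
  · rintro _ ⟨w, rfl⟩
    exact (e ▸ Submodule.mem_top : w ∈ M.comap _)

end Ov

/-- A pair of members with maximal non-zero intersection. -/
structure Pr (T : Tn f₁ f₂ f) (X : Subgroup f.Isom) (d : ℕ) (u : U) (M : Submodule F V) : Prop where
  O : Ov T X
  mx : Mx T X d
  pos : 0 < d
  hu : u ≠ 0
  mem : Mem T X M
  ne : T.M u ≠ M
  dim : d ≤ finrank F (T.M u ⊓ M : Submodule F V)

/-- The vectors `w` with `u ⊗ w ∈ M`. -/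
abbrev WI (T : Tn f₁ f₂ f) (u : U) (M : Submodule F V) : Submodule F W := M.comap (T.t u)

namespace Pr
variable {d : ℕ} {u : U} {M : Submodule F V} (P : Pr T X d u M)
include P

theorem dim_eq : finrank F (T.M u ⊓ M : Submodule F V) = d :=
  le_antisymm (not_lt.1 fun h => P.ne (P.mx _ _ (mem_std P.hu) P.mem h)) P.dim

theorem b {x : V} (hx : x ∈ M) (e : T.cu u x = 0) : x ∈ T.M u :=
  P.O.K P.mx P.pos (mem_std P.hu) P.mem P.dim hx (T.mem_perp_M.2 e)

theorem not_std {u' : U} (h : u' ≠ 0) : M ≠ T.M u' := fun e => by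
  have := P.pos
  have := P.dim
  obtain ⟨y, hy, y0⟩ := Submodule.exists_mem_ne_zero_of_ne_bot
    (p := T.M u ⊓ M) fun e => by rw [e, finrank_bot] at this; omega
  exact P.ne (e ▸ (M_eq_of_mem h hy.1 (e ▸ hy.2) y0).symm)

theorem noT : ¬∀ x ∈ M, T.t u (T.cu u x) ∈ M := fun h =>
  let ⟨_, h0, e⟩ := P.O.K1 P.mem P.hu h; P.not_std h0 e

theorem c {g : f.Isom} (hg : g ∈ X) (e : ∀ w, T.t u w ∈ M → g ⊳ T.t u w = T.t u w) {x : V}
    (hx : x ∈ M) (h : ∀ y ∈ M, f.B y (g ⊳ x - x) = 0) : x ∈ T.M u ∨ f.act g M = M := by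
  have e' : ∀ x ∈ T.M u ⊓ M, g ⊳ x = x := by rintro _ ⟨⟨w, rfl⟩, h⟩; exact e w h
  have le := le_act inf_le_right e'
  have := P.O.K P.mx P.pos P.mem (P.mem.act hg)
    (P.dim.trans (Submodule.finrank_mono (le_inf inf_le_right le))) (f.apply_mem_act.2 hx)
    fun y hy => by simpa [P.mem.ts hy hx] using h y hy
  refine or_iff_not_imp_left.2 fun hx' => P.mx.eq_of (P.mem.act hg) P.mem le inf_le_right P.dim
    (f.apply_mem_act.2 hx) this fun e => hx' ?_
  rw [g.1.injective (e' _ e)] at e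
  exact e.1

theorem finrank_WI : finrank F (WI T u M) = d := by
  rw [← P.dim_eq, Tn.M, ← Submodule.map_comap_eq]
  exact (Submodule.equivMapOfInjective _ (T.t_inj P.hu) _).finrank_eq

theorem finrank_WJ : finrank F (f₂.perp (WI T u M)) + d = finrank F W := by
  rw [← T.n₂.finrank_perp (WI T u M), P.finrank_WI, add_comm]

theorem cu_mem {x : V} (hx : x ∈ M) : T.cu u x ∈ f₂.perp (WI T u M) := fun w hw => by
  rw [← T.B_cu]; exact P.mem.ts hw hx

theorem finrank_map {V' : Type*} [AddCommGroup V'] [Module F V'] (φ : V →ₗ[F] V')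
    (h : ∀ x ∈ M, φ x = 0 ↔ x ∈ T.M u) : finrank F (M.map φ) + d = finrank F W := by
  have := (φ ∘ₗ M.subtype).finrank_range_add_finrank_ker
  rw [LinearMap.range_comp, Submodule.range_subtype, P.mem.finrank, LinearMap.ker_comp,
    ← Submodule.finrank_map_subtype_eq, Submodule.map_comap_subtype] at this
  rw [← this, ← P.dim_eq, show T.M u ⊓ M = M ⊓ LinearMap.ker φ from Submodule.ext fun x =>
    ⟨fun hx => ⟨hx.2, (h x hx.2).2 hx.1⟩, fun hx => ⟨(h x hx.1).1 hx.2, hx.1⟩⟩]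

theorem exists_cu {w : W} (hw : w ∈ f₂.perp (WI T u M)) : ∃ x ∈ M, T.cu u x = w := by
  have := P.finrank_map (T.cu u) fun x hx => ⟨P.b hx, T.cu_of_mem⟩
  have := P.finrank_WJ
  have e : M.map (T.cu u) = f₂.perp (WI T u M) := Submodule.eq_of_le_of_finrank_eq
    (by rintro _ ⟨x, hx, rfl⟩; exact P.cu_mem hx) (by omega)
  rw [← e] at hw
  exact hw

theorem nondeg : Disjoint (WI T u M) (f₂.perp (WI T u M)) := by
  refine Submodule.disjoint_def.2 fun w h1 h2 => ?_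
  obtain ⟨x, hx, rfl⟩ := P.exists_cu h2
  rcases P.c (P.O.kL (tv f₁ u 1)) (fun w _ => by simp [tv_apply, f₁.symp_B_self]) hx
    (fun y hy => by simpa [T.kL_tv] using P.mem.ts hy h1) with e | e
  · exact T.cu_of_mem e
  · exact (P.noT fun y hy => by simpa [T.kL_tv] using M.sub_mem (mem_of_act e hy) hy).elim

theorem nondeg' : Disjoint (f₂.perp (WI T u M)) (f₂.perp (f₂.perp (WI T u M))) :=
  T.n₂.disjoint_perp_perp P.nondeg

theorem eq_zero {w : W} (h1 : T.t u w ∈ M) (h2 : w ∈ f₂.perp (WI T u M)) : w = 0 :=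
  Submodule.disjoint_def.1 P.nondeg w h1 h2

theorem exists_not_mem : ∃ x ∈ M, x ∉ T.M u := by
  by_contra H
  push Not at H
  exact P.ne (Submodule.eq_of_le_of_finrank_eq H (by rw [P.mem.finrank, T.finrank_M P.hu])).symm

theorem noE {v : U} (h : f₁.B u v = 0) (v0 : v ≠ 0) : f.act (T.E h) M ≠ M := fun e => by
  have k : ∀ x ∈ M, T.t v (T.cu u x) + T.t u (T.cu v x) ∈ M := fun x hx => by
    simpa [T.E_apply, add_assoc] using M.sub_mem (mem_of_act e hx) hx
  obtain ⟨x, hx, hx'⟩ := P.exists_not_mem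
  obtain ⟨a, rfl⟩ := T.smul_of_t_mem (v := v) (u := u) (fun e => hx' (P.b hx e)) (by
    simpa using (T.M u).sub_mem (P.b (k x hx) (by simp [h, f₁.symp_B_self])) (T.t_mem_M u (T.cu v x)))
  refine P.noT fun y hy => ?_
  have := k y hy
  rw [T.cu_smul, map_smul, map_smul, LinearMap.smul_apply, ← two_smul F, smul_smul] at this
  exact (M.smul_mem_iff (mul_ne_zero T.two (left_ne_zero_of_smul v0))).1 this

theorem E_fix {v : U} (h : f₁.B u v = 0) (w : W) : T.E h ⊳ T.t u w = T.t u w := by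
  simp [T.E_apply, f₁.symp_B_self, f₁.eq_zero_symm h]

theorem le_j : finrank F U ≤ finrank F (f₂.perp (WI T u M)) + 1 := by
  obtain ⟨x, hx, hx'⟩ := P.exists_not_mem
  let ψ : U →ₗ[F] V :=
    { toFun := fun v => T.t v (T.cu u x) + T.t u (T.cu v x)
      map_add' := fun a b => by simp only [T.cu_add, map_add, LinearMap.add_apply]; abel
      map_smul' := fun a b => by simp [T.cu_smul] }
  let φ := (f.perp M).mkQ ∘ₗ ψ ∘ₗ (f₁.perp (F ∙ u)).subtype
  have inj : Function.Injective φ := (injective_iff_map_eq_zero _).2 fun v hv => by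
    by_contra v0
    have h := f₁.mem_perp_span_singleton.1 v.2
    rcases P.c (g := T.E h) (P.O.kL _) (fun w _ => P.E_fix h w) hx (fun y hy => by
      rw [T.E_apply, add_assoc, add_sub_cancel_left]
      exact (Submodule.Quotient.mk_eq_zero _).1 hv y hy) with e | e
    · exact hx' e
    · exact P.noE h (fun e => v0 (Subtype.ext e)) e
  have le : LinearMap.range φ ≤ (f.perp (T.M u ⊓ M)).map (f.perp M).mkQ := by
    rintro _ ⟨v, rfl⟩
    refine ⟨ψ v, ?_, rfl⟩
    rintro _ ⟨⟨w, rfl⟩, -⟩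
    simp [ψ, T.B_t, f₁.symp_B_self, f₁.mem_perp_span_singleton.1 v.2]
  have d1 := Submodule.finrank_mono le
  have d2 := ((f.perp M).mkQ ∘ₗ (f.perp (T.M u ⊓ M)).subtype).finrank_range_add_finrank_ker
  rw [LinearMap.range_comp, Submodule.range_subtype, LinearMap.ker_comp, Submodule.ker_mkQ,
    ← Submodule.finrank_map_subtype_eq, Submodule.map_comap_subtype,
    inf_eq_right.2 (f.perp_anti inf_le_right)] at d2
  rw [LinearMap.finrank_range_of_inj inj] at d1
  have d3 := T.n.finrank_perp M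
  have d4 := T.n.finrank_perp (T.M u ⊓ M)
  have d5 := T.n₁.finrank_perp (F ∙ u)
  rw [finrank_span_singleton P.hu] at d5
  have := P.dim_eq
  have := P.mem.finrank
  have := P.finrank_WJ
  omega

theorem ρ_fix {z : W} (hz : z ∈ f₂.perp (WI T u M)) (w : W) (hw : T.t u w ∈ M) :
    T.ρ z ⊳ T.t u w = T.t u w := by
  rw [Tn.ρ, T.kR_t, f₂.refl_apply_of_B (f₂.eq_zero_symm (hz w hw))]

theorem noρ (h3 : 3 ≤ finrank F U) {z : W} (hz : z ∈ f₂.perp (WI T u M)) (qz : f₂.Q z ≠ 0) :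
    f.act (T.ρ z) M ≠ M := fun e => by
  have z0 : z ≠ 0 := by rintro rfl; simp at qz
  have k : ∀ x ∈ M, T.t (T.cw z x) z ∈ M := fun x hx => by
    have := M.sub_mem hx (mem_of_act e hx)
    rwa [T.ρ_apply, sub_sub_cancel, M.smul_mem_iff (inv_ne_zero qz)] at this
  obtain ⟨x₁, h₁, e₁⟩ := P.exists_cu hz
  set v := T.cw z x₁ with hv
  have uv : f₁.B u v ≠ 0 := by
    rw [hv, ← T.cu_cw, e₁, f₂.orth_B_self]; exact mul_ne_zero T.two qz
  have k2 : ∀ x ∈ M, T.cw z x = (f₁.B u (T.cw z x) / f₁.B u v) • v := fun x hx => by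
    have m := M.sub_mem (k x hx) (M.smul_mem (f₁.B u (T.cw z x) / f₁.B u v) (k x₁ h₁))
    rw [← LinearMap.smul_apply, ← map_smul, ← LinearMap.sub_apply, ← map_sub, ← hv] at m
    obtain ⟨a, ha⟩ := T.smul_of_t_mem z0 (P.b m (by simp [smul_smul, div_mul_cancel₀ _ uv]))
    rw [ha, map_smul, LinearMap.smul_apply, ← map_smul] at m
    have := P.eq_zero m (Submodule.smul_mem _ _ hz)
    rw [(smul_eq_zero.1 this).resolve_right z0, zero_smul] at ha
    exact sub_eq_zero.1 ha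
  have d1 := T.n₁.finrank_perp (Submodule.span F {u, v})
  have d2 := finrank_pair_le (F := F) u v
  obtain ⟨p, h1, h0⟩ := Submodule.exists_mem_ne_zero_of_ne_bot
    (p := f₁.perp (Submodule.span F {u, v})) fun e => by rw [e, finrank_bot] at d1; omega
  rw [f₁.mem_perp_span_pair] at h1
  rcases P.c (g := T.E h1.1) (P.O.kL _) (fun w _ => P.E_fix h1.1 w) (k x₁ h₁) (fun y hy => by
    rw [T.E_apply, add_assoc, add_sub_cancel_left, f.eq_zero_comm, T.cu_t, T.cu_t, ← hv,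
      f₁.eq_zero_symm h1.2, zero_smul, map_zero, add_zero, map_smul, B_smul_left, T.B_cw, k2 y hy,
      map_smul, f₁.eq_zero_symm h1.2]
    simp) with e | e
  · have := T.cu_of_mem e
    rw [T.cu_t, smul_eq_zero] at this
    exact this.elim uv z0
  · exact P.noE h1.1 h0 e

theorem F1 (h3 : 3 ≤ finrank F U) {z : W} (hz : z ∈ f₂.perp (WI T u M)) (qz : f₂.Q z ≠ 0) {x : V}
    (hx : x ∈ M) (h : ∀ y ∈ M, f₁.B (T.cw z x) (T.cw z y) = 0) : x ∈ T.M u :=
  (P.c (g := T.ρ z) (P.O.kR _) (P.ρ_fix hz) hx fun y hy => by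
    rw [T.ρ_apply, sub_sub_cancel_left, map_neg, map_smul, f.eq_zero_symm (by rw [T.B_cw, h y hy])]
    simp).resolve_right (P.noρ h3 hz qz)

theorem four_le (h3 : 3 ≤ finrank F U) : 4 ≤ finrank F (f₂.perp (WI T u M)) := by
  have h1 := P.le_j
  obtain ⟨m, hm⟩ := T.n₁.symp_even
  obtain ⟨z, hz, qz⟩ := f₂.exists_nonsingular P.nondeg' fun e => by
    rw [e, finrank_bot] at h1; omega
  have k : ∀ x ∈ T.M u ⊓ M, T.cw z x = 0 := by
    rintro _ ⟨⟨w, rfl⟩, h⟩
    rw [T.cw_t, f₂.eq_zero_symm (hz w h), zero_smul]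
  have d1 := P.finrank_map (T.cw z) fun x hx =>
    ⟨fun e => P.F1 h3 hz qz hx fun y _ => by simp [e], fun e => k x ⟨e, hx⟩⟩
  obtain ⟨n, hn⟩ := ((f₁.nondeg_restrict_iff (M.map (T.cw z))).2 (Submodule.disjoint_def.2 (by
    rintro _ ⟨x, hx, rfl⟩ h
    exact k x ⟨P.F1 h3 hz qz hx fun y hy => f₁.eq_zero_symm (h _ ⟨y, hy, rfl⟩), hx⟩))).symp_even
  have := P.finrank_WJ
  omega

end Pr

end CA.H12Tn
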