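import Cfsg.Agent.Lib.Lin.H12Tn5

/-!
Overgroups of the tensor product of a symplectic and an orthogonal group, part six: the dihedral
argument and the case of a first factor of dimension two.
-/

set_option autoImplicit false
set_option linter.unusedSectionVars false

namespace CA.H12Tn

open CA.CForm CA.CForm.Form Module TensorProduct

local notation:75 g:76 " ⊳ " v:75 => (Subtype.val g) v

variable {F : Type*} [Field F] [Finite F] {U W V : Type*} [AddCommGroup U] [Module F U]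
  [AddCommGroup W] [Module F W] [AddCommGroup V] [Module F V] [FiniteDimensional F U]
  [FiniteDimensional F W] [FiniteDimensional F V]
  {f₁ : Form (Kind.symp F) U} {f₂ : Form (Kind.orth F) W} {f : Form (Kind.symp F) V}
  {T : Tn f₁ f₂ f} {X : Subgroup f.Isom}

theorem cw_eig {h : f₂.Isom} {z : W} {x : V} {ε : F} (hε : ε * ε = 1) (hz : h ⊳ z = -ε • z)
    (hx : T.kR h ⊳ x = ε • x) : T.cw z x = 0 := by
  have := T.cw_kR h z x
  rw [hz, hx, T.cw_smul, map_smul, smul_smul, neg_mul, hε, neg_smul, one_smul,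
    neg_eq_iff_add_eq_zero, ← two_smul F, smul_eq_zero] at this
  exact this.resolve_left T.two

/-- An involution stabilising a subspace has an eigenvector outside a smaller subspace. -/
theorem exists_eigv (h2 : (2 : F) ≠ 0) {ι : f.Isom} (hι : ι * ι = 1) {A I : Submodule F V}
    (hA : ∀ x ∈ A, ι ⊳ x ∈ A) {p : V} (hp : p ∈ A) (hp' : p ∉ I) :
    ∃ x ∈ A, x ∉ I ∧ (ι ⊳ x = (1 : F) • x ∨ ι ⊳ x = (-1 : F) • x) := by
  have e : ι ⊳ ι ⊳ p = p := by rw [← isom_mul_apply, hι, isom_one_apply]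
  by_cases h : p + ι ⊳ p ∈ I
  · refine ⟨p - ι ⊳ p, A.sub_mem hp (hA p hp), fun h' => hp' ?_, .inr (by simp [e])⟩
    have := I.add_mem h h'
    rwa [add_add_sub_cancel, ← two_smul F, I.smul_mem_iff h2] at this
  · exact ⟨_, A.add_mem hp (hA p hp), h, .inl (by simp [e, add_comm])⟩

namespace Ov
variable (O : Ov T X)
include O

theorem kR_inj : Function.Injective T.kR := fun h h' e => f₂.isom_ext fun w => by
  have := O.ntU
  obtain ⟨u, hu⟩ := exists_ne (0 : U)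
  exact T.t_inj hu (by rw [← T.kR_t, e, T.kR_t])

theorem conj_ρ {s : f.Isom} (hs : s ∈ T.N) (y : W) :
    ∃ k : f₂.Isom, s * T.ρ y * s⁻¹ = T.kR k ∧ ∃ y', ∀ w, k ⊳ w - w ∈ F ∙ y' := by
  have := O.ntU
  obtain ⟨h, hh⟩ := T.conj_kR hs
  obtain ⟨k, e1, e2⟩ := hh (f₂.refl y)
  refine ⟨k, e1, h y, fun w => ?_⟩
  obtain ⟨w, rfl⟩ := h.surjective w
  rw [e2, refl_apply, map_sub, map_smul, sub_sub_cancel_left]
  exact Submodule.neg_mem _ (Submodule.smul_mem _ _ (Submodule.mem_span_singleton_self _))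

/-- The dihedral argument. -/
theorem dih {S : Submodule F W} (hS : Disjoint S (f₂.perp S)) (h4 : 4 ≤ finrank F S)
    {K : Subgroup f.Isom} (h1 : ∀ z ∈ S, T.ρ z ∈ K)
    (h2 : ∀ h, T.kR h ∈ K → ∀ w ∈ f₂.perp S, h ⊳ w = w)
    (F5 : ∀ c ∈ K, ∀ h : f₂.Isom, T.kR h ∈ K → h * h = 1 → ∀ z ∈ S, ∀ z' ∈ S, f₂.Q z ≠ 0 → f₂.Q z' ≠ 0 →
      h ⊳ z = z → h ⊳ z' = -z' → c⁻¹ * T.kR h * c ∈ T.N → c ∈ T.N) : K ≤ T.N := by
  intro c hc
  have two := T.two
  obtain ⟨a, ha, qa⟩ := f₂.exists_nonsingular hS fun e => by rw [e, finrank_bot] at h4; omega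
  obtain ⟨b, hb, qb, ab⟩ := exists_ns_perp1 two hS ha qa (by omega)
  obtain ⟨z, hz, qz, az, bz⟩ := exists_ns_perp' two hS ha hb qa qb ab (by omega)
  have ba := f₂.eq_zero_symm ab
  have ra := f₂.refl_apply_self qa
  have rb := f₂.refl_apply_self qb
  have rr : f₂.refl a * f₂.refl b * (f₂.refl a * f₂.refl b) = 1 := by
    have := f₂.conj_refl (f₂.refl b) a
    rw [f₂.refl_apply_of_B ba, refl_inv] at this
    rw [mul_assoc, ← mul_assoc (f₂.refl b), this, refl_mul_self]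
  have xK : T.kR (f₂.refl a * f₂.refl b) ∈ K := by rw [map_mul]; exact K.mul_mem (h1 a ha) (h1 b hb)
  have G1 : ∀ c ∈ K, c * T.ρ a * c⁻¹ ∈ T.N → c ∈ T.N := fun c hc h => T.N.inv_mem_iff.1
    (F5 _ (K.inv_mem hc) _ (h1 a ha) (f₂.refl_mul_self a) b hb a ha qb qa (f₂.refl_apply_of_B ab) ra
      (by rwa [inv_inv]))
  have G2 : ∀ c ∈ K, c⁻¹ * T.kR (f₂.refl a * f₂.refl b) * c ∈ T.N → c ∈ T.N := fun c hc =>
    F5 c hc _ xK rr z hz a ha qz qa (by
      rw [isom_mul_apply, f₂.refl_apply_of_B bz, f₂.refl_apply_of_B az]) (by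
      rw [isom_mul_apply, f₂.refl_apply_of_B ba, ra])
  have split : ∀ h : f₂.Isom, T.kR h ∈ K → T.kR h ≠ 1 → T.kR h * T.kR h = 1 →
      (∀ k ∈ K, T.kR h * k = k * T.kR h → k ∈ T.N) ∨ ∀ w ∈ S, h ⊳ w = -w := fun h hK h1 hh => by
    replace hh : h * h = 1 := O.kR_inj (by rw [map_mul, hh, map_one])
    have hh' : ∀ x, h ⊳ h ⊳ x = x := fun x => by rw [← isom_mul_apply, hh, isom_one_apply]
    have hs : ∀ x ∈ S, h ⊳ x ∈ S := fun x hx => by
      rw [← T.n₂.perp_perp S] at hx ⊢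
      intro y hy
      rw [← h2 h hK y hy, B_coe_map]; exact hx y hy
    refine or_iff_not_imp_right.2 fun H k hk e => ?_
    push Not at H
    obtain ⟨w, hw, e1⟩ := H
    obtain ⟨p, hp, qp, e2⟩ := exists_eig two hS hh' hs (ε := 1) (by simp) hw (by simpa using e1)
    obtain ⟨w', hw', e3⟩ : ∃ w ∈ S, h ⊳ w ≠ w := by
      by_contra H
      push Not at H
      exact h1 (by
        rw [f₂.isom_ext_of_isCompl (T.n₂.isCompl_perp hS) (g := h) (g' := 1) H (h2 h hK), map_one])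
    obtain ⟨p', hp', qp', e4⟩ := exists_eig two hS hh' hs (ε := -1) (by simp) hw' (by simpa using e3)
    exact F5 k hk h hK hh p hp p' hp' qp qp' (by simpa using e2) (by simpa using e4) (by
      rw [mul_assoc, e, inv_mul_cancel_left]; exact T.kR_mem_N h)
  have line : ∀ (k : f₂.Isom) (y : W), (∀ w, k ⊳ w - w ∈ F ∙ y) →
      ¬∀ p ∈ S, f₂.B a p = 0 → f₂.B b p = 0 → k ⊳ p = -p := fun k y hy H => by
    have d1 := f₂.finrank_le_inf_perp S a
    have d2 := f₂.finrank_le_inf_perp (S ⊓ f₂.perp (F ∙ a)) b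
    have d3 : S ⊓ f₂.perp (F ∙ a) ⊓ f₂.perp (F ∙ b) ≤ F ∙ y := fun p hp => by
      have := hy p
      rwa [H p hp.1.1 (f₂.mem_perp_span_singleton.1 hp.1.2) (f₂.mem_perp_span_singleton.1 hp.2),
        ← neg_add', ← two_smul F, Submodule.neg_mem_iff, Submodule.smul_mem_iff _ two] at this
    have d4 := (Submodule.finrank_mono d3).trans (finrank_span_le_card ({y} : Set W))
    simp only [Set.toFinset_singleton, Finset.card_singleton] at d4
    omega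
  have yK := K.mul_mem (K.mul_mem hc (h1 a ha)) (K.inv_mem hc)
  rcases dihedral K xK yK (by rw [← map_mul, rr, map_one]) (by
    rw [conj_mul, T.ρ_mul_self]; simp) with ⟨r, hr, e⟩ | ⟨ζ, hζ, z1, zz, zx, zy, ⟨r, hr, e⟩ | ⟨r, hr, e⟩⟩
  · exfalso
    have e' : r * c * T.ρ a * (r * c)⁻¹ = T.kR (f₂.refl a * f₂.refl b) := by rw [e]; group
    obtain ⟨k, e1, y, hy⟩ := O.conj_ρ (G1 _ (K.mul_mem hr hc) (e' ▸ T.kR_mem_N _)) a
    rw [← O.kR_inj (e'.symm.trans e1)] at hy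
    obtain ⟨α, hα⟩ := Submodule.mem_span_singleton.1 (hy a)
    obtain ⟨β, hβ⟩ := Submodule.mem_span_singleton.1 (hy b)
    rw [isom_mul_apply, f₂.refl_apply_of_B ba, ra] at hα
    rw [isom_mul_apply, rb, map_neg, f₂.refl_apply_of_B ab] at hβ
    have k1 := congrArg (f₂.B a) hα
    have k2 := congrArg (f₂.B a) hβ
    have k3 := congrArg (f₂.B b) hβ
    simp only [map_smul, map_sub, map_neg, f₂.orth_B_self, ab, smul_eq_mul] at k1 k2 k3
    have β0 : β ≠ 0 := by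
      rintro rfl
      exact mul_ne_zero two (mul_ne_zero two qb) (by linear_combination k3)
    rw [(mul_eq_zero.1 (k2.trans (by simp))).resolve_left β0] at k1
    exact mul_ne_zero two (mul_ne_zero two qa) (by linear_combination k1)
  · have zN := G2 ζ hζ (by rw [mul_assoc, ← zx, inv_mul_cancel_left]; exact T.kR_mem_N _)
    have e' : r * c * T.ρ a * (r * c)⁻¹ = ζ * T.kR (f₂.refl a * f₂.refl b) := by rw [e]; group
    obtain ⟨k, e1, y, hy⟩ := O.conj_ρ (G1 _ (K.mul_mem hr hc)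
      (e' ▸ T.N.mul_mem zN (T.kR_mem_N _))) a
    have e2 : ζ = T.kR (k * (f₂.refl a * f₂.refl b)⁻¹) := by
      rw [map_mul, map_inv, ← e1, e', mul_inv_cancel_right]
    rcases split _ (e2 ▸ hζ) (e2 ▸ z1) (e2 ▸ zz) with H | H
    · exact G1 c hc (H _ yK (e2 ▸ zy))
    · refine (line k y hy fun p hp e3 e4 => ?_).elim
      have e5 : (f₂.refl a * f₂.refl b) ⊳ p = p := by
        rw [isom_mul_apply, f₂.refl_apply_of_B e4, f₂.refl_apply_of_B e3]
      have := H p hp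
      rw [isom_mul_apply] at this
      conv_lhs at this => rw [← e5, isom_inv_apply_apply]
      exact this
  · have zK := K.mul_mem (K.mul_mem (K.inv_mem hc) hζ) hc
    have zN := G1 _ zK (by
      have : c⁻¹ * ζ * c * T.ρ a * (c⁻¹ * ζ * c)⁻¹ = c⁻¹ * (ζ * (c * T.ρ a * c⁻¹)) * ζ⁻¹ * c := by
        group
      rw [this, zy, show c⁻¹ * (c * T.ρ a * c⁻¹ * ζ) * ζ⁻¹ * c = T.ρ a by group]
      exact T.kR_mem_N _)
    have e' : c⁻¹ * r * c * T.ρ a * (c⁻¹ * r * c)⁻¹ = c⁻¹ * ζ * c * T.ρ a := by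
      calc _ = c⁻¹ * (r * (c * T.ρ a * c⁻¹) * r⁻¹) * c := by group
        _ = _ := by rw [← e]; group
    obtain ⟨k, e1, y, hy⟩ := O.conj_ρ (G1 _ (K.mul_mem (K.mul_mem (K.inv_mem hc) hr) hc)
      (e' ▸ T.N.mul_mem zN (T.kR_mem_N _))) a
    have e2 : c⁻¹ * ζ * c = T.kR (k * f₂.refl a) := by
      rw [map_mul, ← e1, e', ← Tn.ρ, mul_assoc _ (T.ρ a), T.ρ_mul_self, mul_one]
    rcases split _ (e2 ▸ zK) (e2 ▸ fun e => z1 (by
        rw [← mul_inv_cancel_left c ζ, ← mul_inv_cancel_right (c⁻¹ * ζ) c, e]; simp))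
      (by rw [← e2, show c⁻¹ * ζ * c * (c⁻¹ * ζ * c) = c⁻¹ * (ζ * ζ) * c by group, zz]; simp)
      with H | H
    · refine G2 c hc (H _ (K.mul_mem (K.mul_mem (K.inv_mem hc) xK) hc) ?_)
      rw [← e2]
      calc _ = c⁻¹ * (ζ * T.kR (f₂.refl a * f₂.refl b)) * c := by group
        _ = _ := by rw [zx]; group
    · refine (line k y hy fun p hp e3 _ => ?_).elim
      have := H p hp
      rwa [isom_mul_apply, f₂.refl_apply_of_B e3] at this

end Ov

namespace Pr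
variable {d : ℕ} {u : U} {M : Submodule F V} (P : Pr T X d u M)
include P

theorem exists_τ : ∃ τ ∈ X, τ ∉ T.N ∧ (∀ x, τ ⊳ x - x ∈ M) ∧ (∀ x ∈ M, τ ⊳ x = x) ∧
    ∀ g ∈ X, (∀ x ∈ f.perp M, g ⊳ x = x) → ∃ c : F, ∀ x, g ⊳ x = x + c • (τ ⊳ x - x) := by
  obtain ⟨s, hs, v, hv, e⟩ := P.mem
  refine ⟨s * T.kL (tv f₁ v 1) * s⁻¹, X.mul_mem (X.mul_mem hs (P.O.kL _)) (X.inv_mem hs),
    fun h => ?_, fun x => ?_, fun x hx => ?_, fun g hg h => ?_⟩
  · obtain ⟨u', h0, e'⟩ := P.O.K0 hv hs h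
    exact P.not_std h0 (e.trans e')
  · rw [P.O.conj_tv, add_sub_cancel_left, one_smul, e]
    exact f.apply_mem_act.2 (T.t_mem_M ..)
  · rw [e, f.mem_act] at hx
    rw [P.O.conj_tv, T.cu_of_mem hx]; simp
  · obtain ⟨c, hc⟩ := P.O.H1 hv (X.mul_mem (X.mul_mem (X.inv_mem hs) hg) hs) fun x hx => by
      rw [isom_mul_apply, isom_mul_apply, h, isom_inv_apply_apply]
      rw [e, ← act_perp, f.apply_mem_act, T.mem_perp_M, hx]
    refine ⟨c, fun x => ?_⟩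
    have := congrArg (fun x => s ⊳ x) (hc (s⁻¹ ⊳ x))
    simp only [isom_mul_apply, isom_apply_inv_apply, map_add, map_smul] at this
    rw [this, P.O.conj_tv, add_sub_cancel_left, one_smul]

/-- The pair attached to an element fixing the intersection pointwise. -/
theorem of_fix {c : f.Isom} (hc : c ∈ X) (hN : c ∉ T.N) (e : c ∈ f.fix (T.M u ⊓ M)) :
    Pr T X d u (f.act c (T.M u)) ∧ WI T u (f.act c (T.M u)) = WI T u M := by
  have le := le_act inf_le_left e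
  have P' : Pr T X d u (f.act c (T.M u)) := ⟨P.O, P.mx, P.pos, P.hu, (mem_std P.hu).act hc,
    fun h => hN (P.O.mem_N_of_act P.hu P.hu hc h.symm),
    P.dim.trans (Submodule.finrank_mono (le_inf inf_le_left le))⟩
  refine ⟨P', (Submodule.eq_of_le_of_finrank_eq ?_ (P.finrank_WI.trans P'.finrank_WI.symm)).symm⟩
  exact fun w hw => le ⟨T.t_mem_M u w, hw⟩

theorem not_three : ¬3 ≤ finrank F U := fun h3 => by
  obtain ⟨τ, hτ, hN, -, e, -⟩ := P.exists_τ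
  refine hN (P.O.dih P.nondeg' (P.four_le h3) (K := X ⊓ f.fix (T.M u ⊓ M)) (fun z hz => ⟨P.O.kR _, ?_⟩)
    (fun h hh w hw => ?_) (fun c hc h hK hh z hz z' hz' qz qz' e1 e2 hι => ?_) ⟨hτ, fun x hx => e x hx.2⟩)
  · rintro _ ⟨⟨w, rfl⟩, h⟩
    exact P.ρ_fix hz w h
  · rw [T.n₂.perp_perp] at hw
    exact T.t_inj P.hu (by rw [← T.kR_t]; exact hh.2 _ ⟨T.t_mem_M u w, hw⟩)
  by_contra hc'
  obtain ⟨P', e3⟩ := P.of_fix hc.1 hc' hc.2
  rw [← e3] at hz hz'
  obtain ⟨w₀, h₀, w0⟩ := Submodule.exists_mem_ne_zero_of_ne_bot (p := WI T u M) fun e => by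
    have := P.finrank_WI
    have := P.pos
    rw [e, finrank_bot] at *; omega
  have z0 : T.t u z ∉ f.act c⁻¹ (T.M u) := fun h => by
    obtain ⟨P2, e4⟩ := P.of_fix (X.inv_mem hc.1) (by rwa [T.N.inv_mem_iff]) (Subgroup.inv_mem _ hc.2)
    rw [P2.eq_zero h (by rwa [e4, ← e3])] at qz
    simp at qz
  obtain ⟨x, hx, hx', e5⟩ := exists_eigv T.two (ι := c⁻¹ * T.kR h * c) (by
      rw [show c⁻¹ * T.kR h * c * (c⁻¹ * T.kR h * c) = c⁻¹ * (T.kR h * T.kR h) * c by group,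
        ← map_mul, hh]; simp) (A := T.M u) (fun x hx => mem_of_act (P.O.fixM P.hu w0 hι (by
      rw [(Subgroup.mul_mem _ (Subgroup.mul_mem _ (Subgroup.inv_mem _ hc) hK) hc).2 _
        ⟨T.t_mem_M u w₀, h₀⟩]
      exact T.t_mem_M ..)) hx) (T.t_mem_M u z) z0
  refine hx' (f.mem_act.2 ?_)
  rw [inv_inv]
  have k : ∀ ε : F, (c⁻¹ * T.kR h * c) ⊳ x = ε • x → T.kR h ⊳ c ⊳ x = ε • c ⊳ x := fun ε e => by
    rw [← map_smul, ← e, isom_mul_apply, isom_mul_apply, isom_apply_inv_apply]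
  rcases e5 with e5 | e5
  · exact P'.F1 h3 hz' qz' (f.apply_mem_act.2 hx) fun y _ => by
      rw [cw_eig (by simp) (by simpa using e2) (k _ e5), B_zero_left]
  · exact P'.F1 h3 hz qz (f.apply_mem_act.2 hx) fun y _ => by
      rw [cw_eig (by simp) (by simpa using e1) (k _ e5), B_zero_left]

section Two
variable (h2 : finrank F U = 2)
include h2

theorem smul_of_perp {v : U} (h : f₁.B u v = 0) : ∃ a : F, v = a • u := by
  have d := T.n₁.finrank_perp (F ∙ u)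
  have d1 := finrank_span_singleton (K := F) P.hu
  have : F ∙ u = f₁.perp (F ∙ u) := Submodule.eq_of_le_of_finrank_eq
    ((Submodule.span_singleton_le_iff_mem _ _).2
      (f₁.mem_perp_span_singleton.2 (f₁.symp_B_self u))) (by omega)
  obtain ⟨a, ha⟩ := Submodule.mem_span_singleton.1 (this.ge (f₁.mem_perp_span_singleton.2 h))
  exact ⟨a, ha.symm⟩

theorem cw_WI {y : W} (hy : T.t u y ∈ M) {x : V} (hx : x ∈ M) : ∃ a : F, T.cw y x = a • u :=
  P.smul_of_perp h2 (by rw [← T.B_cw]; exact P.mem.ts hy hx)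

theorem exists_WJ : ∃ w ∈ f₂.perp (WI T u M), w ≠ 0 :=
  Submodule.exists_mem_ne_zero_of_ne_bot fun e => by
    have := P.le_j
    rw [e, finrank_bot] at this; omega

theorem exists_e (hd : 3 ≤ d ∨ 3 < Nat.card F) : ∃ e ∈ X,
    (∀ v y, T.t u y ∈ M → e ⊳ T.t v y = T.t v y) ∧ (∀ y, e ⊳ T.t u y - T.t u y ∈ M) ∧
      ∀ y, e ⊳ T.t u y ∈ T.M u → T.t u y ∈ M := by
  obtain ⟨τ, hτ, hN, e1, e2, e3⟩ := P.exists_τ
  have k1 : ∀ y, τ ⊳ T.t u y ∈ T.M u → T.t u y ∈ M := fun y hy => by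
    by_contra H
    refine hN (P.O.mem_N_of_act P.hu P.hu hτ (P.mx.eq_of ((mem_std P.hu).act hτ) (mem_std P.hu)
      (le_act inf_le_left fun x hx => e2 x hx.2) inf_le_left P.dim
      (f.apply_mem_act.2 (T.t_mem_M u y)) hy fun h => H ?_))
    simpa using M.sub_mem h.2 (e1 (T.t u y))
  obtain ⟨v₀, h₀⟩ := T.exists_one P.hu
  have k2 : ∀ y, T.t u y ∈ M → f₂.Q y ≠ 0 → ∃ c : F, τ ⊳ T.t v₀ y - T.t v₀ y = c • T.t u y := by
    intro y hy qy
    have k3 : ∀ x ∈ M, ∃ a : F, T.ρ y ⊳ x = x - a • T.t u y := fun x hx => by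
      obtain ⟨a, ha⟩ := P.cw_WI h2 hy hx
      exact ⟨(f₂.Q y)⁻¹ * a, by simp [T.ρ_apply, ha, smul_smul]⟩
    have st : T.ρ y ∈ f.stab M := f.mem_stab_of_le fun x hx => by
      obtain ⟨a, ha⟩ := k3 x hx
      rw [ha]; exact M.sub_mem hx (M.smul_mem _ hy)
    have rr : ∀ x, T.ρ y ⊳ T.ρ y ⊳ x = x := fun x => by
      rw [← isom_mul_apply, T.ρ_mul_self, isom_one_apply]
    obtain ⟨c, hc⟩ := e3 _ (X.mul_mem (X.mul_mem (P.O.kR _ : T.ρ y ∈ X) hτ) (P.O.kR _ : T.ρ y ∈ X))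
      fun x hx => by
        have := sub_mem_perp (M := M) e2 (T.ρ y ⊳ x)
        have e4 : τ ⊳ T.ρ y ⊳ x = T.ρ y ⊳ x := by
          obtain ⟨s, -, v, hv, e⟩ := P.mem
          have hx' := (f.stab_le_stab_perp _ st x).1 hx
          refine sub_eq_zero.1 (T.n.eq_zero_right fun z => ?_)
          have := f.B_coe_map τ (τ⁻¹ ⊳ z) (T.ρ y ⊳ x)
          rw [isom_apply_inv_apply] at this
          rw [map_sub, this, ← B_sub_left, ← neg_sub, B_neg_left, neg_eq_zero]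
          conv_lhs => rw [← f.isom_apply_inv_apply τ z, isom_inv_apply_apply]
          exact hx' _ (e1 _)
        change (T.ρ y * τ * T.ρ y) ⊳ x = x
        rw [isom_mul_apply, isom_mul_apply, e4, rr]
    replace hc : ∀ x, T.ρ y ⊳ τ ⊳ T.ρ y ⊳ x = x + c • (τ ⊳ x - x) := hc
    have c1 : c = 1 := by
      by_contra c1
      obtain ⟨w, hw, w0⟩ := P.exists_WJ h2
      have e4 : T.ρ y ⊳ T.t u w = T.t u w := by
        rw [Tn.ρ, T.kR_t, f₂.refl_apply_of_B (hw y hy)]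
      obtain ⟨a, ha⟩ := k3 _ (e1 (T.t u w))
      have e5 := hc (T.t u w)
      rw [map_sub, e4] at ha
      rw [e4, eq_add_of_sub_eq ha] at e5
      have : (1 - c) • (τ ⊳ T.t u w - T.t u w) ∈ T.M u := ⟨a • y, by
        rw [map_smul, ← sub_eq_zero, ← neg_eq_zero, ← sub_eq_zero.2 e5]; module⟩
      rw [Submodule.smul_mem_iff _ (sub_ne_zero.2 (Ne.symm c1))] at this
      exact w0 (P.eq_zero (k1 w (by simpa using (T.M u).add_mem this (T.t_mem_M u w))) hw)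
    obtain ⟨a, ha⟩ := k3 _ (e1 (T.t v₀ y))
    have e4 : T.ρ y ⊳ T.t v₀ y = -T.t v₀ y := by
      rw [Tn.ρ, T.kR_t, f₂.refl_apply_self qy, map_neg]
    have e5 := hc (T.t v₀ y)
    rw [e4, map_neg, map_neg, c1] at e5
    rw [map_sub, e4, neg_eq_iff_eq_neg.1 e5] at ha
    refine ⟨a / 2, smul_right_injective V T.two ?_⟩
    have := T.two
    simp only [smul_smul]
    rw [mul_div_cancel₀ _ this, ← sub_eq_zero, ← neg_eq_zero, ← sub_eq_zero.2 ha]; module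
  obtain ⟨μ, hμ⟩ := eig T.two P.nondeg (hd.imp (fun h => by rwa [P.finrank_WI]) exists_sq_ne_one)
    (((τ.1 : V →ₗ[F] V) - LinearMap.id) ∘ₗ T.t v₀) (T.t u)
    (fun y _ h => T.t_inj P.hu (by simpa using h)) fun y hy qy => by simpa using k2 y hy qy
  have k4 : ∀ y, (τ * T.kL (tv f₁ u (-μ))) ⊳ T.t u y = τ ⊳ T.t u y := fun y => by
    simp [tv_apply, f₁.symp_B_self]
  refine ⟨τ * T.kL (tv f₁ u (-μ)), X.mul_mem hτ (P.O.kL _), fun v y hy => ?_, fun y => k4 y ▸ e1 _,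
    fun y => k4 y ▸ k1 y⟩
  obtain ⟨a, ha⟩ := P.smul_of_perp h2 (v := v - f₁.B u v • v₀) (by simp [h₀])
  have e4 := eq_add_of_sub_eq (hμ y hy)
  rw [isom_mul_apply, T.kL_tv, T.cu_t, eq_add_of_sub_eq ha]
  simp only [map_add, map_smul, LinearMap.add_apply, LinearMap.smul_apply, e2 _ hy, h₀,
    f₁.symp_B_self, smul_eq_mul, LinearEquiv.coe_coe, LinearMap.id_apply] at e4 ⊢
  rw [e4]; module

theorem no_sing (hd : 3 ≤ d ∨ 3 < Nat.card F) {w : W} (hw : T.t u w ∈ M) (w0 : w ≠ 0)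
    (qw : f₂.Q w = 0) : False := by
  obtain ⟨e, he, e1, e2, e3⟩ := P.exists_e h2 hd
  obtain ⟨y, hy, y0⟩ := P.exists_WJ h2
  have ww := f₂.B_self_of_Q qw
  obtain ⟨w₀, -, h₀⟩ := T.n₂.exists_partner qw w0
  have f1 : ∀ v, e ⊳ T.t v w = T.t v w := fun v => e1 v w hw
  have f2 : ∀ v, e⁻¹ ⊳ T.t v w = T.t v w := fun v => by
    conv_lhs => rw [← f1, isom_inv_apply_apply]
  have k : ∀ z ∈ f₂.perp (WI T u M), f.B (T.t u z) (e ⊳ T.t u y) = 0 := fun z hz => by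
    have a1 : ∀ {z} (h : f₂.B w z = 0), ∀ m ∈ T.L w, T.ε qw h ⊳ m = m := by
      rintro z h _ ⟨v, rfl⟩
      simp [T.ε_apply, ww, f₂.eq_zero_symm h]
    have a2 : ∀ {z} (h : f₂.B w z = 0), ∀ x ∈ f.perp (T.L w), T.ε qw h ⊳ x - x ∈ T.L w :=
      fun {z} h x hx => ⟨-T.cw z x, by simp [T.ε_apply, T.mem_perp_L.1 hx]⟩
    have b1 : ∀ m ∈ T.L w, (e * T.ε qw (hy w hw) * e⁻¹) ⊳ m = m := by
      rintro _ ⟨v, rfl⟩
      rw [LinearMap.flip_apply, isom_mul_apply, isom_mul_apply, f2, a1 _ _ (T.t_mem_L ..), f1]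
    have b2 : ∀ x ∈ f.perp (T.L w), (e * T.ε qw (hy w hw) * e⁻¹) ⊳ x - x ∈ T.L w := fun x hx => by
      obtain ⟨v, hv⟩ := a2 (hy w hw) (e⁻¹ ⊳ x) (by
        rwa [T.mem_perp_L, T.cw_fix f2, ← T.mem_perp_L])
      refine ⟨v, ?_⟩
      rw [isom_mul_apply, isom_mul_apply, eq_add_of_sub_eq hv.symm, map_add, isom_apply_inv_apply,
        LinearMap.flip_apply, f1, add_sub_cancel_right]
    have hA : e * T.ε qw (hy w hw) * e⁻¹ ∈ X := X.mul_mem (X.mul_mem he (P.O.kR _)) (X.inv_mem he)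
    have hB : T.ε qw (hz w hw) ∈ X := P.O.kR _
    have c1 := P.O.H3 w0 qw (X.mul_mem (X.inv_mem (X.mul_mem hB hA)) (X.mul_mem hA hB))
      fun x hx => comm_fix b1 (a1 _) b2 (a2 _) (T.mem_perp_L.2 hx)
    have c2 := comm_B b1 (a1 (hz w hw)) b2 (a2 _) (T.t u w₀) (T.t u w₀)
    rw [← isom_mul_apply, ← isom_mul_apply _ (T.ε _ _), inv_mul_eq_one.1 c1, sub_self,
      f.symp_symm (_ - _), ← neg_add', eq_comm, neg_eq_zero, ← two_mul, mul_eq_zero] at c2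
    replace c2 := f.eq_zero_symm (c2.resolve_left T.two)
    have c3 : (e * T.ε qw (hy w hw) * e⁻¹) ⊳ T.t u w₀ - T.t u w₀ =
        e ⊳ T.t u y - T.t (T.cw y (e⁻¹ ⊳ T.t u w₀) + f₂.Q y • u) w := by
      rw [isom_mul_apply, isom_mul_apply, T.ε_apply, map_sub, map_add, isom_apply_inv_apply, f1,
        T.cw_fix f2, T.cw_t, h₀, one_smul]; abel
    have c4 : ∀ v, f.B (T.t v w) (e ⊳ T.t u y) = 0 := fun v => by
      rw [← f1, B_coe_map, T.B_t, hy w hw, mul_zero]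
    rw [c3, T.ε_apply, T.cw_t, h₀, one_smul, add_sub_assoc, add_sub_cancel_left] at c2
    simpa only [B_sub_left, map_sub, c4, T.B_t, ww, f₂.eq_zero_symm (hz w hw), mul_zero, sub_zero]
      using c2
  have m := e2 y
  have : T.cu u (e ⊳ T.t u y - T.t u y) = 0 :=
    Submodule.disjoint_def.1 P.nondeg' _ (P.cu_mem m) fun z hz => by
      rw [← T.B_cu, map_sub, k z hz, T.B_t, f₁.symp_B_self]; simp
  exact y0 (P.eq_zero (e3 y (by simpa using (T.M u).add_mem (P.b m this) (T.t_mem_M u y))) hy)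

theorem not_five : ¬5 ≤ finrank F W := fun h5 => by
  have hd : 3 ≤ d := by
    by_contra h
    obtain ⟨u', h0, e⟩ := P.O.R P.mx (by omega) P.mem
    exact P.not_std h0 e
  obtain ⟨w, hw, w0, qw⟩ := f₂.iso_orth (WI T u M) (by rwa [P.finrank_WI])
  exact P.no_sing h2 (.inl hd) hw w0 qw

end Two

end Pr

end CA.H12Tn
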