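import Cfsg.Agent.Lib.Lin.H12Tn6

/-!
Overgroups of the tensor product of a symplectic and an orthogonal group, part seven: the case of
dimensions two and three, and the main theorem.
-/

set_option autoImplicit false
set_option linter.unusedSectionVars false

namespace CA.H12Tn

open CA.CForm CA.CForm.Form Module TensorProduct

local notation:75 g:76 " ⊳ " v:75 => (Subtype.val g) v

variable {F : Type*} [Field F] [Finite F] {U W V : Type*} [AddCommGroup U] [Module F U]
  [AddCommGroup W] [Module F W] [AddCommGroup V] [Module F V] [FiniteDimensional F U]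
  [FiniteDimensional F W] [FiniteDimensional F V]
  {f₁ : Form (Kind.symp F) U} {f₂ : Form (Kind.orth F) W} {f : Form (Kind.symp F) V}
  {T : Tn f₁ f₂ f} {X : Subgroup f.Isom}

theorem cayley_two {J : Type*} [AddCommGroup J] [Module F J] [FiniteDimensional F J]
    (dJ : finrank F J = 2) (Δ : J →ₗ[F] J) : ∃ τ ν : F, ∀ x, Δ (Δ x) + τ • Δ x + ν • x = 0 := by
  have m := Δ.charpoly_monic.as_sum
  rw [Δ.charpoly_natDegree, dJ, Finset.sum_range_succ, Finset.sum_range_one] at m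
  refine ⟨Δ.charpoly.coeff 1, Δ.charpoly.coeff 0, fun x => ?_⟩
  have := LinearMap.congr_fun Δ.aeval_self_charpoly x
  generalize Δ.charpoly.coeff 1 = a at *
  generalize Δ.charpoly.coeff 0 = b at *
  rw [m] at this
  rw [add_assoc, add_comm (a • Δ x)]
  simpa [sq] using this

theorem exists_r (two : (2 : F) ≠ 0) (hq : 3 < Nat.card F) (τ ν : F) :
    ∃ r : F, 2 * r + τ ≠ 0 ∧ r ^ 2 + τ * r + ν ≠ 0 := by
  classical
  by_contra H
  push Not at H
  have := Fintype.ofFinite F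
  let p : Polynomial F := Polynomial.X ^ 2 + Polynomial.C τ * Polynomial.X + Polynomial.C ν
  have p2 : p.natDegree = 2 := by simp only [p]; compute_degree!
  have p0 : p ≠ 0 := fun e => by simp [e] at p2
  have : (Finset.univ : Finset F) ⊆ insert (-τ / 2) p.roots.toFinset := fun r _ => by
    by_cases h : r = -τ / 2
    · simp [h]
    · have := H r fun e => h (by field_simp; linear_combination e)
      simp [p0, p, this]
  have k1 := (Finset.card_le_card this).trans (Finset.card_insert_le _ _)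
  have k2 := (Multiset.toFinset_card_le _).trans (Polynomial.card_roots' p)
  rw [Finset.card_univ, ← Nat.card_eq_fintype_card] at k1
  omega

namespace Pr
variable {d : ℕ} {u : U} {M : Submodule F V} (P : Pr T X d u M)
include P

section Two
variable (h2 : finrank F U = 2)
include h2

theorem not_two_one (hq : 3 < Nat.card F) (h3 : finrank F W = 3) : d ≠ 2 := fun hd => by
  obtain ⟨e, he, e1, e2, e3⟩ := P.exists_e h2 (.inr hq)
  obtain ⟨y, hy, y0⟩ := P.exists_WJ h2
  have dJ := P.finrank_WJ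
  have sp : f₂.perp (WI T u M) = F ∙ y := (Submodule.eq_of_le_of_finrank_eq
    ((Submodule.span_singleton_le_iff_mem _ _).2 hy) (by rw [finrank_span_singleton y0]; omega)).symm
  have dec : ∀ w, ∃ w' ∈ WI T u M, ∃ a : F, w = w' + a • y := fun w => by
    obtain ⟨w', h1, z, h2, rfl⟩ := Submodule.mem_sup.1
      ((T.n₂.isCompl_perp P.nondeg).sup_eq_top ▸ Submodule.mem_top (x := w))
    obtain ⟨a, rfl⟩ := Submodule.mem_span_singleton.1 (sp ▸ h2)
    exact ⟨w', h1, a, rfl⟩
  have qy : f₂.Q y ≠ 0 := fun q => y0 (Submodule.disjoint_def.1 P.nondeg' y hy (by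
    rw [sp, f₂.mem_perp_span_singleton]; exact f₂.B_self_of_Q q))
  let G : Subgroup f₁.Isom :=
    { carrier := {g | ∃ e ∈ X, (∀ v w, T.t u w ∈ M → e ⊳ T.t v w = T.t v w) ∧
        ∀ v, e ⊳ T.t v y = T.t (g ⊳ v) y}
      one_mem' := ⟨1, X.one_mem, fun _ _ _ => rfl, fun _ => rfl⟩
      mul_mem' := fun ⟨a, ha, a1, a2⟩ ⟨b, hb, b1, b2⟩ => ⟨a * b, X.mul_mem ha hb,
        fun v w h => by rw [isom_mul_apply, b1 v w h, a1 v w h],
        fun v => by rw [isom_mul_apply, b2, a2, isom_mul_apply]⟩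
      inv_mem' := fun {g} ⟨a, ha, a1, a2⟩ => ⟨a⁻¹, X.inv_mem ha,
        fun v w h => by conv_lhs => rw [← a1 v w h, isom_inv_apply_apply],
        fun v => by conv_lhs => rw [← f₁.isom_apply_inv_apply g v, ← a2, isom_inv_apply_apply]⟩ }
  have nG : G.Normal := ⟨fun n ⟨a, ha, a1, a2⟩ g => ⟨T.kL g * a * (T.kL g)⁻¹,
    X.mul_mem (X.mul_mem (P.O.kL g) ha) (X.inv_mem (P.O.kL g)),
    fun v w h => by rw [← map_inv]; simp only [isom_mul_apply, T.kL_t, a1 _ w h, isom_apply_inv_apply],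
    fun v => by rw [← map_inv]; simp only [isom_mul_apply, T.kL_t, a2]⟩⟩
  let g : U →ₗ[F] U := (2 * f₂.Q y)⁻¹ • T.cw y ∘ₗ (e.1 : V →ₗ[F] V) ∘ₗ T.t.flip y
  have q2 := mul_ne_zero T.two qy
  have eg : ∀ v, e ⊳ T.t v y = T.t (g v) y := fun v => T.n.eq_of_B_eq_right fun x => by
    induction x using T.ind with
    | hadd a b ha hb => rw [B_add_left, B_add_left, ha, hb]
    | ht v' w =>
      obtain ⟨w', h1, a, rfl⟩ := dec w
      rw [map_add, B_add_left, B_add_left, map_smul, B_smul_left, B_smul_left, T.B_t, T.B_t, hy w' h1,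
        ← e1 v' w' h1, B_coe_map, T.B_t, hy w' h1, T.B_cw, f₂.orth_B_self]
      simp only [g, LinearMap.smul_apply, LinearMap.comp_apply, map_smul, smul_eq_mul,
        LinearEquiv.coe_coe, LinearMap.flip_apply]
      rw [mul_right_comm _ _ (2 * f₂.Q y), inv_mul_cancel₀ q2]; simp
  have gB : ∀ v v', f₁.B (g v) (g v') = f₁.B v v' := fun v v' => by
    have := f.B_coe_map e (T.t v y) (T.t v' y)
    rw [eg, eg, T.B_t, T.B_t, f₂.orth_B_self] at this
    exact mul_right_cancel₀ q2 this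
  let g' : f₁.Isom := ⟨.ofInjectiveEndo g (T.n₁.injective_of_B f₁ g gB), f₁.symp_mem_Isom.2 gB⟩
  obtain ⟨l, l0, l1⟩ := exists_sq_ne_one hq
  have top := T.n₁.Eich_le_of_normalizes f₁.symp_prim (by
      rw [T.n₁.symp_Eich_eq_top]
      exact (T.n₁.symp_perfect (.inr (.inr ⟨l, l0, by rwa [← sq]⟩))).ge) (N := G)
    (by rw [Subgroup.normalizer_eq_top]; exact le_top) fun h => by
      obtain ⟨a, ha⟩ := h (x := g') ⟨e, he, e1, eg⟩
      refine y0 (P.eq_zero (e3 y ?_) hy)
      rw [eg, show g u = a • u from ha u]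
      exact ⟨a • y, by simp⟩
  obtain ⟨k, hk, k1, k2⟩ := top (f₁.eichler_mem_Eich u 0 1 _ : tv f₁ u 1 ∈ f₁.Eich)
  obtain ⟨c, hc⟩ := P.O.H1 P.hu hk fun x hx => by
    obtain ⟨w, rfl⟩ := T.mem_M_of P.hu (x := x) fun v hv => by
      obtain ⟨a, rfl⟩ := P.smul_of_perp h2 hv
      rw [T.cu_smul, hx, smul_zero]
    obtain ⟨w', h1, a, rfl⟩ := dec w
    rw [map_add, map_add, map_smul, map_smul, k1 u w' h1, k2]
    rw [f₁.eichler_apply_self]
  obtain ⟨v₀, h₀⟩ := T.exists_one P.hu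
  obtain ⟨w₀, h₁, w0⟩ := Submodule.exists_mem_ne_zero_of_ne_bot (p := WI T u M) fun e => by
    have := P.finrank_WI
    rw [e, finrank_bot] at this; omega
  have c1 := hc (T.t v₀ w₀)
  have c2 := hc (T.t v₀ y)
  rw [k1 _ _ h₁, T.cu_t, h₀, one_smul, left_eq_add, smul_eq_zero] at c1
  rw [k2, c1.resolve_right (T.t_ne_zero P.hu w0), ← tv, tv_apply, h₀] at c2
  simp [T.t_ne_zero P.hu y0] at c2

theorem not_one_two (hq : 3 < Nat.card F) (h3 : finrank F W = 3) : d ≠ 1 := fun hd => by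
  have two := T.two
  obtain ⟨v₀, h₀⟩ := T.exists_one P.hu
  obtain ⟨y, hy, qy⟩ := f₂.exists_nonsingular P.nondeg fun e => by
    have := P.finrank_WI
    rw [e, finrank_bot] at this; omega
  have y0 : y ≠ 0 := by rintro rfl; simp at qy
  have sp : WI T u M = F ∙ y := (Submodule.eq_of_le_of_finrank_eq
    ((Submodule.span_singleton_le_iff_mem _ _).2 hy)
    (by rw [finrank_span_singleton y0, P.finrank_WI, hd])).symm
  have dec : ∀ x, x = T.t v₀ (T.cu u x) - T.t u (T.cu v₀ x) := fun x => by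
    obtain ⟨w, hw⟩ := T.mem_M_of P.hu (x := x - T.t v₀ (T.cu u x)) fun v hv => by
      obtain ⟨a, rfl⟩ := P.smul_of_perp h2 hv
      simp [T.cu_smul, h₀]
    have := congrArg (T.cu v₀) hw
    simp only [T.cu_t, map_sub, f₁.symp_B_self, f₁.symp_symm u v₀, h₀] at this
    rw [zero_smul, sub_zero] at this
    rw [← this, neg_one_smul, map_neg, hw]; abel
  let J := M ⊓ LinearMap.ker (T.cw y)
  have hJ : ∀ w, f₂.B y w = 0 → ∃ x ∈ J, T.cu u x = w := fun w hw => by
    obtain ⟨x, hx, rfl⟩ := P.exists_cu (w := w) (by rwa [sp, f₂.mem_perp_span_singleton])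
    obtain ⟨a, ha⟩ := P.cw_WI h2 hy hx
    refine ⟨x - (a / (2 * f₂.Q y)) • T.t u y, ⟨M.sub_mem hx (M.smul_mem _ hy), ?_⟩, by
      simp [f₁.symp_B_self]⟩
    simp [ha, f₂.orth_B_self, smul_smul, div_mul_cancel₀ _ (mul_ne_zero two qy)]
  have inj : ∀ x ∈ J, T.cu u x = 0 → x = 0 := fun x hx e => by
    obtain ⟨w, rfl⟩ := P.b hx.1 e
    obtain ⟨a, rfl⟩ := Submodule.mem_span_singleton.1 (sp ▸ hx.1 : w ∈ F ∙ y)
    have := LinearMap.mem_ker.1 hx.2
    simp only [T.cw_t, map_smul, f₂.orth_B_self, smul_eq_zero, mul_eq_zero, two, qy, P.hu,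
      or_false] at this
    simp [this]
  choose δ d1 d2 using fun x : J => hJ (T.cu v₀ x) (by rw [T.cu_cw, LinearMap.mem_ker.1 x.2.2, map_zero])
  let Δ : J →ₗ[F] J :=
    { toFun := fun x => ⟨δ x, d1 x⟩
      map_add' := fun a b => Subtype.ext (sub_eq_zero.1 (inj _
        (J.sub_mem (d1 _) (J.add_mem (d1 _) (d1 _))) (by simp [d2])))
      map_smul' := fun c a => Subtype.ext (sub_eq_zero.1 (inj _
        (J.sub_mem (d1 _) (J.smul_mem _ (d1 _))) (by simp [d2]))) }
  have dJ : finrank F J = 2 := by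
    have k1 := (T.cu u ∘ₗ J.subtype).finrank_range_add_finrank_ker
    rw [LinearMap.ker_eq_bot'.2 fun x hx => Subtype.ext (inj x x.2 hx), finrank_bot,
      show LinearMap.range (T.cu u ∘ₗ J.subtype) = f₂.perp (WI T u M) from le_antisymm
        (by rintro _ ⟨x, rfl⟩; exact P.cu_mem x.2.1) fun w hw =>
          let ⟨x, h1, h2⟩ := hJ w (hw y hy); ⟨⟨x, h1⟩, h2⟩] at k1
    have := P.finrank_WJ
    omega
  obtain ⟨τ, ν, ch⟩ := cayley_two dJ Δ
  obtain ⟨r, r1, r2⟩ := exists_r two hq τ ν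
  set B := -(2 * r + τ) / (r ^ 2 + τ * r + ν) with hB
  have B0 : B ≠ 0 := div_ne_zero (neg_ne_zero.2 r1) r2
  have det : (1 + r * B) * (1 + r * B + B * τ) + B * B * ν = 1 := by
    have : B * (r ^ 2 + τ * r + ν) = -(2 * r + τ) := div_mul_cancel₀ _ r2
    linear_combination B * this
  have li : ∀ {a b : U}, f₁.B a b = 1 → LinearIndependent F ![a, b] := fun {a b} h =>
    LinearIndependent.pair_iff.2 fun s t e => by
      have k1 := congrArg (f₁.B a) e
      have k2 := congrArg (f₁.B b) e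
      simp only [map_add, map_smul, f₁.symp_B_self, h, f₁.symp_symm a b, map_zero] at k1 k2
      exact ⟨by simpa using k2, by simpa using k1⟩
  have e1 : f₁.B (B • v₀ + (1 + r * B + B * τ) • u) ((1 + r * B) • v₀ - (B * ν) • u) = 1 := by
    simp only [map_sub, map_smul, B_add_left, B_smul_left, f₁.symp_B_self, h₀, f₁.symp_symm u v₀,
      Kind.symp_σ, smul_eq_mul]
    linear_combination det
  obtain ⟨g, g1, g2⟩ := T.n₁.witt_pair (li h₀) (li e1) (by rw [f₁.symp_Q, f₁.symp_Q])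
    (by rw [f₁.symp_Q, f₁.symp_Q]) (e1.trans h₀.symm)
  have le : ∀ x ∈ J, T.kL g ⊳ x ∈ J := fun x hx => by
    have k1 : T.cu v₀ (δ ⟨x, hx⟩) = -τ • T.cu v₀ x - ν • T.cu u x := by
      have := congrArg (fun z : J => T.cu u z) (ch ⟨x, hx⟩)
      simp only [Δ, LinearMap.coe_mk, AddHom.coe_mk, Submodule.coe_add, Submodule.coe_smul, map_add,
        map_smul, d2, Submodule.coe_zero, map_zero] at this
      rw [← sub_eq_zero, ← this]; module
    have : T.kL g ⊳ x = (1 + r * B) • x - B • δ ⟨x, hx⟩ := by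
      conv_lhs => rw [dec x]
      conv_rhs => rw [dec (δ _), d2, k1]; enter [1]; rw [dec x]
      simp only [map_sub, T.kL_t, g1, g2, map_add, map_smul, LinearMap.add_apply, LinearMap.sub_apply,
        LinearMap.smul_apply]
      module
    rw [this]
    exact J.sub_mem (J.smul_mem _ hx) (J.smul_mem _ (d1 _))
  have st := f.mem_stab_iff_act.1 (f.mem_stab_of_le le)
  have eq := P.mx _ _ (P.mem.act (P.O.kL g)) P.mem (lt_of_lt_of_le (by omega) (Submodule.finrank_mono
    (s := J) (le_inf (st ▸ Submodule.map_mono inf_le_left) inf_le_left)))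
  have := P.mem.ts hy (mem_of_act eq hy)
  rw [T.kL_t, T.B_t, g1, f₂.orth_B_self] at this
  simp [h₀, f₁.symp_B_self, B0, two, qy] at this

end Two

theorem elim : False := by
  have := P.O.a2
  have := P.O.b3
  have h2 : finrank F U = 2 := by have := P.not_three; omega
  have := P.not_five h2
  have := P.O.n24
  have hq := P.O.hq.resolve_left (by omega)
  have := P.not_two_one h2 hq (by omega)
  have := P.not_one_two h2 hq (by omega)
  have := P.pos
  have := P.le_j
  have := P.finrank_WJ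
  omega

end Pr

namespace Ov
variable (O : Ov T X)
include O

theorem mx_zero : Mx T X 0 := by
  have : ∀ n d, d + n = finrank F W → Mx T X d := fun n => by
    induction n with
    | zero =>
      intro d e M M' m _ h
      have := Submodule.finrank_mono (inf_le_left (a := M) (b := M'))
      have := m.finrank
      omega
    | succ n ih =>
      intro d e M M' m m' h
      by_contra ne
      obtain ⟨s, hs, u, hu, rfl⟩ := m
      have e1 : f.act s⁻¹ (f.act s (T.M u)) = T.M u := by rw [← act_mul, inv_mul_cancel, act_one]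
      refine Pr.elim (d := d + 1) (u := u) (M := f.act s⁻¹ M') ⟨O, ih _ (by omega), by omega, hu,
        m'.act (X.inv_mem hs), fun e => ne ?_, ?_⟩
      · rw [e, ← act_mul, mul_inv_cancel, act_one]
      · rw [← f.finrank_act s⁻¹, act_inf, e1] at h
        omega
  exact this _ 0 (zero_add _)

theorem F1 {s : f.Isom} (hs : s ∈ X) {u v : U} {w : W} (hu : u ≠ 0) (hv : v ≠ 0) (hw : w ≠ 0)
    (e : T.cu u (s ⊳ T.t v w) = 0) : s ∈ T.N := by
  have m := (mem_std (T := T) hv).act hs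
  have hx := (f.apply_mem_act (g := s)).2 (T.t_mem_M v w)
  rcases O.K_std O.mx_zero m hu (Nat.zero_le _) hx e with h | ⟨u', h0, h⟩
  · exact O.mem_N_of_act hu hv hs (O.mx_zero.eq_of m (mem_std hu) bot_le bot_le (Nat.zero_le _) hx h
      (by simpa using T.t_ne_zero hv hw))
  · exact O.mem_N_of_act h0 hv hs h

theorem F1' (hab : finrank F U = finrank F W) {s : f.Isom} (hs : s ∈ X) {v : U} {w z : W}
    (hz : z ≠ 0) (hv : v ≠ 0) (hw : w ≠ 0) (e : T.cw z (s ⊳ T.t v w) = 0) : s ∈ T.N := by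
  by_contra H
  let φ : U →ₗ[F] W :=
    { toFun := fun u => T.cu u (s ⊳ T.t v w)
      map_add' := fun _ _ => T.cu_add ..
      map_smul' := fun _ _ => T.cu_smul .. }
  have := (LinearMap.injective_iff_surjective_of_finrank_eq_finrank hab (f := φ)).1
    ((injective_iff_map_eq_zero _).2 fun u h => not_not.1 fun hu => H (O.F1 hs hu hv hw h))
  refine hz (T.n₂ z fun w' => ?_)
  obtain ⟨u, rfl⟩ := this w'
  exact (T.cu_cw u z _).trans (by rw [e, map_zero])

theorem square (hab : finrank F U = finrank F W) : X ≤ T.N := by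
  have b3 := O.b3
  obtain ⟨m, hm⟩ := T.n₁.symp_even
  have := O.ntW
  obtain ⟨w₀, w0⟩ := exists_ne (0 : W)
  refine O.dih (disj_top T.n₂) (by rw [finrank_top]; omega) (fun z _ => O.kR _)
    (fun h _ w hw => by rw [T.n₂.perp_top, Submodule.mem_bot] at hw; simp [hw])
    fun c hc h _ hh z _ z' _ qz qz' e1 e2 hι => ?_
  have z0 : z ≠ 0 := by rintro rfl; simp at qz
  have z1 : z' ≠ 0 := by rintro rfl; simp at qz'
  set ι := c⁻¹ * T.kR h * c with hι'
  have ii : ι * ι = 1 := by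
    rw [hι', show c⁻¹ * T.kR h * c * (c⁻¹ * T.kR h * c) = c⁻¹ * (T.kR h * T.kR h) * c by group,
      ← map_mul, hh]; simp
  have ii' : ∀ x, ι ⊳ ι ⊳ x = x := fun x => by rw [← isom_mul_apply, ii, isom_one_apply]
  have k : ∀ x, T.kR h ⊳ c ⊳ x = c ⊳ ι ⊳ x := fun x => by
    rw [hι', isom_mul_apply, isom_mul_apply, isom_apply_inv_apply]
  obtain ⟨g, h', e⟩ := hι
  let q : Form (Kind.orth F) U :=
    { B := fun u => f₁.B u ∘ₗ (g : U →ₗ[F] U) - f₁.B (g u)
      Q := fun u => f₁.B u (g u)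
      symm := fun x y => by simp [f₁.symp_symm x (g y), f₁.symp_symm y (g x)]; ring
      Q_add := fun x y => by simp [f₁.symp_symm y (g x)]; ring
      Q_smul := fun a x => by simp [mul_assoc]
      B_self := fun x => by simp [f₁.symp_symm x (g x)]; ring
      Q_mem := fun x => ⟨_, rfl⟩ }
  obtain ⟨u, -, hu, qu⟩ := q.iso_orth ⊤ (by rw [finrank_top]; omega)
  replace qu : f₁.B u (g u) = 0 := qu
  by_cases H : u ∈ F ∙ g u
  · obtain ⟨a, ha⟩ := Submodule.mem_span_singleton.1 H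
    have a0 : a ≠ 0 := by rintro rfl; exact hu (by simpa using ha.symm)
    obtain ⟨_, ⟨w, rfl⟩, hx', e5⟩ := exists_eigv T.two ii (A := T.M u) (I := ⊥) (by
      rintro _ ⟨w, rfl⟩
      exact ⟨a⁻¹ • h' w, by rw [e]; conv_lhs => rw [← ha]; simp [smul_smul, a0]⟩) (T.t_mem_M u w₀)
      (by simpa using T.t_ne_zero hu w0)
    have hw : w ≠ 0 := by rintro rfl; simp at hx'
    rcases e5 with e5 | e5
    · exact O.F1' hab hc z1 hu hw (cw_eig (ε := 1) (by simp) (by simpa using e2)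
        (by rw [k, e5, map_smul]))
    · exact O.F1' hab hc z0 hu hw (cw_eig (ε := -1) (by simp) (by simpa using e1)
        (by rw [k, e5, map_smul]))
  obtain ⟨y, hy, e3⟩ := T.n₁.exists_perp_B_eq H 1
  replace hy := f₁.eq_zero_symm (f₁.mem_perp_span_singleton.1 hy)
  have ιX : ι ∈ X := X.mul_mem (X.mul_mem (X.inv_mem hc) (O.kR h)) hc
  let σ := T.kL (tv f₁ u 1) * (ι * T.kL (tv f₁ u 1) * ι)
  have σX : σ ∈ X := X.mul_mem (O.kL _) (X.mul_mem (X.mul_mem ιX (O.kL _)) ιX)
  have eσ : ∀ x, σ ⊳ x = x + T.t u (T.cu u x) + ι ⊳ T.t u (T.cu u (ι ⊳ x)) := fun x => by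
    simp only [σ, isom_mul_apply, T.kL_tv, map_add, ii', e, T.cu_t, qu, one_smul, zero_smul,
      add_zero]; abel
  have cσ : ∀ x, σ ⊳ ι ⊳ x = ι ⊳ σ ⊳ x := fun x => by
    simp only [eσ, map_add, ii']; abel
  have qσ : ∀ x, σ ⊳ (σ ⊳ x - x) = σ ⊳ x - x := fun x => by
    rw [eσ x, add_assoc, add_sub_cancel_left, eσ, map_add (ι.1), ii']
    simp [e, qu, f₁.symp_B_self]
  have sX := X.mul_mem (X.mul_mem hc σX) (X.inv_mem hc)
  have := O.ntU
  obtain ⟨v₀, hv₀⟩ := exists_ne (0 : U)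
  have sN : c * σ * c⁻¹ ∈ T.N := O.F1' hab sX z1 hv₀ z0 (cw_eig (ε := 1) (by simp)
    (by simpa using e2) (by
      rw [isom_mul_apply, isom_mul_apply, k, ← cσ, one_smul]
      congr 2
      apply c.1.injective
      rw [← k, isom_apply_inv_apply, T.kR_t, e1]))
  have qs : ∀ x, (c * σ * c⁻¹) ⊳ ((c * σ * c⁻¹) ⊳ x - x) = (c * σ * c⁻¹) ⊳ x - x := fun x => by
    obtain ⟨x, rfl⟩ := c.1.surjective x
    simp only [isom_mul_apply, isom_inv_apply_apply, ← map_sub, qσ]
  obtain ⟨v, w, hv, hw, e4⟩ : ∃ v w, v ≠ 0 ∧ w ≠ 0 ∧ (c * σ * c⁻¹) ⊳ T.t v w = T.t v w := by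
    rcases O.pencil sN qs with ⟨A, hA⟩ | ⟨C, hC⟩
    · by_cases h0 : A v₀ = 0
      · exact ⟨v₀, w₀, hv₀, w0, by rw [hA, h0]; simp⟩
      · exact ⟨A v₀, w₀, h0, w0, by simpa only [hA v₀, add_sub_cancel_left] using qs (T.t v₀ w₀)⟩
    · by_cases h0 : C w₀ = 0
      · exact ⟨v₀, w₀, hv₀, w0, by rw [hC, h0]; simp⟩
      · exact ⟨v₀, C w₀, hv₀, h0, by simpa only [hC _ w₀, add_sub_cancel_left] using qs (T.t v₀ w₀)⟩
  refine T.N.inv_mem_iff.1 (O.F1 (X.inv_mem hc) hu hv hw ?_)
  have := congrArg (fun x => T.cu y (c⁻¹ ⊳ x)) e4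
  simp only [isom_mul_apply, isom_inv_apply_apply, eσ, map_add, e, T.cu_t, hy, e3] at this
  simpa using this

/-- A proper overgroup of the isometry groups of the factors preserves the decomposition. -/
theorem main : X ≤ T.N := by
  have := O.ntU
  have := O.ntW
  obtain ⟨v, hv⟩ := exists_ne (0 : U)
  obtain ⟨w, hw⟩ := exists_ne (0 : W)
  rcases lt_trichotomy (finrank F U) (finrank F W) with h | h | h
  · intro s hs
    obtain ⟨u, hu, e⟩ := O.R O.mx_zero (by omega) ((mem_std hv).act hs)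
    exact O.mem_N_of_act hu hv hs e
  · exact O.square h
  · intro s hs
    let φ : U →ₗ[F] W :=
      { toFun := fun u => T.cu u (s ⊳ T.t v w)
        map_add' := fun _ _ => T.cu_add ..
        map_smul' := fun _ _ => T.cu_smul .. }
    obtain ⟨u, hu, u0⟩ := Submodule.exists_mem_ne_zero_of_ne_bot (φ.ker_ne_bot_of_finrank_lt h)
    exact O.F1 hs u0 hv hw hu

end Ov

end CA.H12Tn
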