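import Cfsg.Agent.Lib.Lin.MaxGL5
import Mathlib.FieldTheory.ChevalleyWarning

/-! Field extension subgroups of unitary groups: algebraic lemmas. -/

set_option autoImplicit false
set_option linter.unusedSectionVars false

namespace CA.H12Ue

open Module CA.CForm CA.CForm.Form

variable {F : Type*} [Field F] [Finite F] {σ : F →+* F}

open MvPolynomial in
/-- More than `m` Hermitian `m × m` matrices have a singular non-trivial real combination. -/
theorem cw {ι : Type*} [Fintype ι] {m : ℕ} (hm : 0 < m)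
    (M : ι → Matrix (Fin m) (Fin m) F) (hM : ∀ k i j, σ (M k i j) = M k j i)
    (hc : m < Fintype.card ι) :
    ∃ l : ι → F, (∀ k, σ (l k) = l k) ∧ l ≠ 0 ∧ (∑ k, l k • M k).det = 0 := by
  classical
  let K : Subfield F := σ.eqLocusField (RingHom.id F)
  let N : Matrix (Fin m) (Fin m) (MvPolynomial ι F) := Matrix.of fun i j => ∑ k, C (M k i j) * X k
  have h1 : map σ N.det = N.det := by
    rw [RingHom.map_det, ← Matrix.det_transpose N]
    congr 1
    ext i j : 1
    simp [N, hM]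
  obtain ⟨P, hP⟩ : N.det ∈ Set.range (map K.subtype) := by
    rw [mem_range_map_iff_coeffs_subset]
    intro c hc
    obtain ⟨d, -, rfl⟩ := mem_coeffs_iff.1 (Finset.mem_coe.1 hc)
    exact ⟨⟨coeff d N.det, by
      change σ _ = _
      rw [← coeff_map, h1]; rfl⟩, rfl⟩
  have h2 : N.det.totalDegree ≤ m := by
    rw [Matrix.det_apply]
    refine (totalDegree_finsetSum _ _).trans (Finset.sup_le fun s _ => ?_)
    refine (totalDegree_smul_le _ _).trans ((totalDegree_finsetProd _ _).trans ?_)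
    refine (Finset.sum_le_card_nsmul _ _ 1 fun i _ => ?_).trans (by simp)
    simp only [N, Matrix.of_apply]
    refine (totalDegree_finsetSum _ _).trans (Finset.sup_le fun k _ => ?_)
    refine (totalDegree_mul _ _).trans ?_
    simp [totalDegree_X]
  have h3 : P.totalDegree < Fintype.card ι := by
    have : P.totalDegree = N.det.totalDegree := by
      rw [← hP, totalDegree, totalDegree, support_map_of_injective _ K.subtype.injective]
    omega
  have ev : ∀ x : ι → K, (eval x P : F) = (∑ k, (x k : F) • M k).det := fun x => by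
    have : (eval x P : F) = eval (fun k => (x k : F)) (map K.subtype P) := by
      rw [eval_map]
      exact (eval₂_comp K.subtype x P)
    rw [this, hP, RingHom.map_det]
    congr 1
    ext i j
    simp [N, Matrix.sum_apply, mul_comm]
  have := Fintype.ofFinite K
  obtain ⟨p, hp⟩ := CharP.exists K
  have hd := char_dvd_card_solutions p h3
  have hp' := CharP.char_is_prime K p
  have h0 : eval (0 : ι → K) P = 0 := Subtype.ext (by
    have : Nonempty (Fin m) := ⟨⟨0, hm⟩⟩
    rw [ev]; simp)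
  by_contra H
  push Not at H
  have : Fintype.card {x : ι → K // eval x P = 0} = 1 := by
    rw [Fintype.card_eq_one_iff]
    refine ⟨⟨0, h0⟩, fun x => Subtype.ext ?_⟩
    by_contra n
    refine H (fun k => x.1 k) (fun k => (x.1 k).2) (fun e => n (funext fun k => ?_)) ?_
    · exact Subtype.ext (congrFun e k)
    · rw [← ev, x.2]; rfl
  rw [this] at hd
  exact hp'.one_lt.ne' (Nat.dvd_one.1 hd)

theorem exists_skew (hσ : ∀ a, σ (σ a) = a) (hne : σ ≠ RingHom.id F) :
    ∃ ω : F, ω ≠ 0 ∧ σ ω = -ω := by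
  obtain ⟨a, ha⟩ := not_forall.1 fun H => hne (RingHom.ext H)
  exact ⟨σ a - a, sub_ne_zero.2 ha, by simp [hσ]⟩

theorem dep3 (hσ : ∀ a, σ (σ a) = a) (hne : σ ≠ RingHom.id F) (a b c : F) :
    ∃ x y z : F, σ x = x ∧ σ y = y ∧ σ z = z ∧ (x ≠ 0 ∨ y ≠ 0 ∨ z ≠ 0) ∧
      x * a + y * b + z * c = 0 := by
  obtain ⟨ω, ω0, hω⟩ := exists_skew hσ hne
  by_cases h : a * σ b - b * σ a = 0
  · by_cases a0 : a = 0
    · exact ⟨1, 0, 0, by simp, by simp, by simp, by simp, by simp [a0]⟩
    · refine ⟨b / a, -1, 0, ?_, by simp, by simp, by simp, by field_simp; ring⟩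
      have : σ a ≠ 0 := by simpa using a0
      rw [map_div₀]
      field_simp
      linear_combination h
  · exact ⟨ω * (b * σ c - c * σ b), ω * (c * σ a - a * σ c), ω * (a * σ b - b * σ a),
      by simp [hω, hσ]; ring, by simp [hω, hσ]; ring, by simp [hω, hσ]; ring,
      .inr (.inr (mul_ne_zero ω0 h)), by ring⟩

variable {L : Type*} [Field L] [Finite L] [Algebra F L] {s : L →+* L} {θ : L →ₗ[F] F}

variable (σ s θ) in
/-- compatible involutions and a trace-like map -/
structure Cmp : Prop where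
  σσ : ∀ a, σ (σ a) = a
  ne : σ ≠ RingHom.id F
  ss : ∀ a, s (s a) = a
  sF : ∀ (c : F) (a : L), s (c • a) = σ c • s a
  θs : ∀ a, θ (s a) = σ (θ a)
  θ0 : θ ≠ 0

namespace Cmp
variable (h : Cmp σ s θ)
include h

theorem s_alg (c : F) : s (algebraMap F L c) = algebraMap F L (σ c) := by
  simp [Algebra.algebraMap_eq_smul_one, h.sF]

theorem s_ne : s ≠ RingHom.id L := fun e => h.ne (RingHom.ext fun c =>
  (algebraMap F L).injective (by rw [← h.s_alg, e]; rfl))

theorem eq_zero {y : L} (hy : ∀ a, θ (a * y) = 0) : y = 0 :=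
  θ_ext h.θ0 fun a => by simp [hy]

theorem exists_θ {y : L} (hy : y ≠ 0) (c : F) : ∃ a, θ (a * y) = c := by
  obtain ⟨a, ha⟩ := not_forall.1 (mt h.eq_zero hy)
  exact ⟨(c / θ (a * y)) • a, by rw [smul_mul_assoc, map_smul, smul_eq_mul, div_mul_cancel₀ _ ha]⟩

theorem real (β : L) : ∃ t t' : L, ∃ ω : F, s t = t ∧ s t' = t' ∧ β = t + ω • t' := by
  obtain ⟨a, ha⟩ := not_forall.1 fun H => h.ne (RingHom.ext H)
  have n : a - σ a ≠ 0 := sub_ne_zero.2 (Ne.symm ha)
  have n' : σ a - a ≠ 0 := sub_ne_zero.2 ha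
  refine ⟨β - a • (a - σ a)⁻¹ • (β - s β), (a - σ a)⁻¹ • (β - s β), a, ?_, ?_, by abel⟩
  · simp only [map_sub, h.sF, map_inv₀, h.σσ, h.ss]
    match_scalars <;> field_simp <;> ring
  · simp only [map_sub, h.sF, map_inv₀, h.σσ, h.ss]
    match_scalars <;> field_simp <;> ring

theorem skew (β : L) : ∃ t t' : L, ∃ ω : F, s t = -t ∧ s t' = -t' ∧ β = t + ω • t' := by
  obtain ⟨η, η0, hη⟩ := exists_skew h.σσ h.ne
  obtain ⟨t, t', ω, h1, h2, e⟩ := h.real (η⁻¹ • β)
  refine ⟨η • t, η • t', ω, by simp [h.sF, hη, h1], by simp [h.sF, hη, h2], ?_⟩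
  rw [smul_comm, ← smul_add, ← e, smul_inv_smul₀ η0]

theorem cwL (Y : Submodule F L) (hY : Y ≠ ⊥) {ι : Type*} [Fintype ι] (c : ι → L)
    (hc : ∀ k, s (c k) = -c k) (hn : finrank F Y < Fintype.card ι) :
    ∃ l : ι → F, (∀ k, σ (l k) = l k) ∧ l ≠ 0 ∧ ∃ y ∈ Y, y ≠ 0 ∧ ∀ y' ∈ Y,
      θ ((∑ k, l k • c k) * s y' * y) = 0 := by
  classical
  have : FiniteDimensional F L := inferInstance
  obtain ⟨ω, ω0, hω⟩ := exists_skew h.σσ h.ne
  let b := finBasis F Y
  obtain ⟨l, l1, l0, hl⟩ := cw (σ := σ) (Submodule.one_le_finrank_iff.2 hY)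
    (fun k i j => ω * θ (c k * s (b i) * b j)) (fun k i j => by
      rw [map_mul, ← h.θs, hω, map_mul s, map_mul s, hc, h.ss, neg_mul, neg_mul, neg_mul, map_neg,
        mul_right_comm (c k)]
      ring) hn
  obtain ⟨v, v0, hv⟩ := Matrix.exists_mulVec_eq_zero_iff.2 hl
  refine ⟨l, l1, l0, (b.equivFun.symm v : Y), Subtype.property _, fun e => v0 ?_, fun y' hy' => ?_⟩
  · exact b.equivFun.symm.map_eq_zero_iff.1 (Subtype.ext e)
  · have e : ∀ i, θ ((∑ k, l k • c k) * s (b i) * (b.equivFun.symm v : Y)) = 0 := fun i => by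
      have := congrFun hv i
      simp only [Matrix.mulVec, dotProduct, Matrix.sum_apply, Pi.zero_apply] at this
      refine (mul_eq_zero.1 (Eq.trans ?_ this)).resolve_left ω0
      simp only [Basis.equivFun_symm_apply, Submodule.coe_sum, Submodule.coe_smul, Finset.mul_sum,
        Finset.sum_mul, map_sum, smul_mul_assoc, mul_smul_comm, map_smul, smul_eq_mul]
      exact Finset.sum_congr rfl fun j _ => Finset.sum_congr rfl fun k _ => by
        change _ = l k * (ω * θ (c k * s (b i) * b j)) * v j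
        ring
    have := congrArg Subtype.val (b.sum_repr ⟨y', hy'⟩)
    simp only [Submodule.coe_sum, Submodule.coe_smul] at this
    rw [← this]
    simp only [map_sum, h.sF, Finset.mul_sum, Finset.sum_mul (s := Finset.univ (α := Fin _)),
      smul_mul_assoc, mul_smul_comm, map_smul, e, smul_zero, Finset.sum_const_zero]

omit h in
theorem family (hs : ∀ β : L, ∃ t t' : L, ∃ ω : F, s t = -t ∧ s t' = -t' ∧ β = t + ω • t')
    (S : Submodule F L) : ∃ (ι : Type) (_ : Fintype ι) (c : ι → L), (∀ k, s (c k) = -c k) ∧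
      Fintype.card ι + finrank F S = finrank F L ∧ ∀ l : ι → F, ∑ k, l k • c k ∈ S → l = 0 := by
  have : FiniteDimensional F L := inferInstance
  obtain ⟨b, b1, b2, b3⟩ := exists_linearIndependent F (S.mkQ '' {c | s c = -c})
  have hb : ⊤ ≤ Submodule.span F (Set.range ((↑) : b → L ⧸ S)) := fun v _ => by
    rw [Subtype.range_coe, b2]
    obtain ⟨β, rfl⟩ := S.mkQ_surjective v
    obtain ⟨t, t', ω, h1, h2, rfl⟩ := hs β
    rw [map_add, map_smul]
    exact add_mem (Submodule.subset_span ⟨t, h1, rfl⟩)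
      (Submodule.smul_mem _ _ (Submodule.subset_span ⟨t', h2, rfl⟩))
  let B := (Basis.mk b3 hb).reindex (Basis.indexEquiv (Basis.mk b3 hb) (finBasis F _))
  have hB : ∀ k, ∃ c, s c = -c ∧ S.mkQ c = B k := fun k => by
    rw [Basis.reindex_apply, Basis.mk_apply]
    exact b1 (Subtype.property _)
  choose c c1 c2 using hB
  refine ⟨_, inferInstance, c, c1, by simpa using S.finrank_quotient_add_finrank, fun l hl => ?_⟩
  have := (Submodule.Quotient.mk_eq_zero S).2 hl
  rw [← Submodule.mkQ_apply, map_sum] at this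
  simp only [map_smul, c2] at this
  exact funext (Fintype.linearIndependent_iff.1 B.linearIndependent l this)

theorem exists_z (h5 : 5 ≤ finrank F L) : ∃ a : L, a ≠ 0 ∧ Algebra.norm F (a * (s a)⁻¹) = 1 ∧
    ∀ c : F, a * (s a)⁻¹ ≠ algebraMap F L c := by
  have : FiniteDimensional F L := inferInstance
  by_contra H
  push Not at H
  let K : Subfield L := s.eqLocusField (RingHom.id L)
  let φ : Lˣ →* Lˣ := MonoidHom.id Lˣ / Units.map s.toMonoidHom
  have hφ : ∀ a, (φ a : L) = a * (s a)⁻¹ := fun a => by simp [φ, div_eq_mul_inv]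
  let N : Lˣ →* Fˣ := (Units.map (Algebra.norm F)).comp φ
  have c1 : Nat.card Lˣ ≤ Nat.card N.ker * Nat.card Fˣ := by
    rw [← N.ker.card_mul_index, Subgroup.index_ker]
    exact Nat.mul_le_mul_left _ (Subgroup.card_le_card_group _)
  have c2 : Nat.card N.ker ≤ Nat.card Fˣ * Nat.card K := by
    have e : ∀ a : N.ker, ∃ c : Fˣ, (φ a : L) = algebraMap F L c := fun a => by
      obtain ⟨c, hc⟩ := H a.1 a.1.ne_zero (by
        rw [← hφ]; exact congrArg Units.val (MonoidHom.mem_ker.1 a.2))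
      rw [← hφ] at hc
      exact ⟨Units.mk0 c (by rintro rfl; simp at hc), hc⟩
    choose c hc using e
    let ρ := φ.comp N.ker.subtype
    rw [← ρ.ker.card_mul_index, Subgroup.index_ker, mul_comm]
    refine Nat.mul_le_mul ?_ ?_
    · refine Nat.card_le_card_of_injective (fun x : ρ.range => c x.2.choose) fun x y e => ?_
      refine Subtype.ext (Units.ext ?_)
      rw [← x.2.choose_spec, ← y.2.choose_spec]
      exact (hc _).trans ((congrArg (fun t : Fˣ => algebraMap F L t) e).trans (hc _).symm)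
    · refine Nat.card_le_card_of_injective (fun x : ρ.ker => (⟨(x.1.1 : L), ?_⟩ : K)) fun x y e =>
        Subtype.ext (Subtype.ext (Units.ext (congrArg Subtype.val e)))
      have := (hφ x.1.1).symm.trans (congrArg Units.val (MonoidHom.mem_ker.1 x.2))
      change s _ = (x.1.1 : L)
      rw [Units.val_one, mul_inv_eq_one₀ (by simp)] at this
      exact this.symm
  have c3 : Nat.card K ^ 2 ≤ Nat.card L := by
    rw [Module.natCard_eq_pow_finrank (K := K) (V := L)]
    refine Nat.pow_le_pow_right Nat.card_pos ?_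
    by_contra n
    have : finrank K L = 1 := by have := finrank_pos (R := K) (M := L); omega
    refine h.s_ne (RingHom.ext fun a => ?_)
    obtain ⟨t, ht⟩ := (finrank_eq_one_iff_of_nonzero' (1 : L) one_ne_zero).1 this a
    rw [← ht, Subfield.smul_def, smul_eq_mul, mul_one]
    exact t.2
  rw [Nat.card_units, Nat.card_units] at *
  have c4 := Module.natCard_eq_pow_finrank (K := F) (V := L)
  have c5 : Nat.card F ^ 5 ≤ Nat.card L := c4 ▸ Nat.pow_le_pow_right Nat.card_pos h5
  have c6 : 1 < Nat.card F := Finite.one_lt_card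
  have c7 : 0 < Nat.card K := Nat.card_pos
  generalize Nat.card F = n at *
  generalize Nat.card L = l at *
  generalize Nat.card K = k at *
  obtain ⟨n, rfl⟩ : ∃ m, n = m + 1 := ⟨n - 1, by omega⟩
  simp only [Nat.add_sub_cancel] at *
  have d1 : l ≤ (n + 1) ^ 2 * k := by
    have := c1.trans (Nat.mul_le_mul_right _ c2)
    have : l ≤ n * k * n + 1 := by omega
    nlinarith
  have d2 : l * l ≤ (n + 1) ^ 4 * l := calc
    l * l ≤ ((n + 1) ^ 2 * k) * ((n + 1) ^ 2 * k) := Nat.mul_le_mul d1 d1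
    _ = (n + 1) ^ 4 * k ^ 2 := by ring
    _ ≤ _ := Nat.mul_le_mul_left _ c3
  have d3 : l ≤ (n + 1) ^ 4 := Nat.le_of_mul_le_mul_right d2 
    ((Nat.pow_pos (Nat.succ_pos n)).trans_le c5)
  have := Nat.pow_lt_pow_right c6 (show 4 < 5 by omega)
  omega

theorem zero_of_real {y : L} (H : ∀ t, s t = t → θ (y * t) = 0) : y = 0 := h.eq_zero fun a => by
  obtain ⟨t, t', ω, h1, h2, rfl⟩ := h.real a
  rw [mul_comm, mul_add, mul_smul_comm, map_add, map_smul, H t h1, H t' h2, smul_zero, add_zero]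

theorem line (h5 : 5 ≤ finrank F L) {y : L} (y0 : y ≠ 0) {R : Set L}
    (add : ∀ a ∈ R, ∀ b ∈ R, a + b ∈ R) (smul : ∀ t : F, σ t = t → ∀ a ∈ R, t • a ∈ R)
    (sp : ∀ a, θ (a * y) = 0 → a ∈ Submodule.span F R)
    (cm : ∀ α : L, α ≠ 0 → Algebra.norm F (α * (s α)⁻¹) = 1 → ∀ w ∈ R, ∀ w' ∈ R,
      θ (α * w' * y) = 0 → θ (w * (y / α)) • (α * w') ∈ R) : ∃ w, w ≠ 0 ∧ ∀ c : F, c • w ∈ R := by
  have : FiniteDimensional F L := inferInstance
  have nm : ∀ S : Submodule F L, finrank F S ≤ 2 → ∃ w ∈ R, w ∉ S := fun S hS => by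
    by_contra n
    push Not at n
    have d1 := (θ ∘ₗ LinearMap.mulRight F y).finrank_range_add_finrank_ker
    have d2 := (LinearMap.range (θ ∘ₗ LinearMap.mulRight F y)).finrank_le
    have d3 := Submodule.finrank_mono (show LinearMap.ker (θ ∘ₗ LinearMap.mulRight F y) ≤ S from
      fun a ha => Submodule.span_le.2 n (sp a ha))
    rw [finrank_self] at d2
    omega
  have two : ∀ β, ∃ w ∈ R, w ≠ 0 ∧ θ (w * β) = 0 := fun β => by
    obtain ⟨w₁, a1, b1⟩ := nm ⊥ (by simp)
    obtain ⟨w₂, a2, b2⟩ := nm (F ∙ w₁) ((finrank_span_singleton b1).le.trans one_le_two)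
    obtain ⟨w₃, a3, b3⟩ := nm (Submodule.span F {w₁, w₂}) (finrank_span_pair_le _ _)
    obtain ⟨a, b, c, ha, hb, hc, n, e⟩ := dep3 h.σσ h.ne (θ (w₁ * β)) (θ (w₂ * β)) (θ (w₃ * β))
    refine ⟨a • w₁ + b • w₂ + c • w₃, add _ (add _ (smul _ ha _ a1) _ (smul _ hb _ a2)) _
      (smul _ hc _ a3), fun e' => ?_, by simpa [add_mul] using e⟩
    have c0 : c = 0 := by
      by_contra c0
      refine b3 (Submodule.mem_span_pair.2 ⟨-a / c, -b / c, smul_right_injective L c0 ?_⟩)
      simp only [smul_add, smul_smul, mul_div_cancel₀ _ c0]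
      linear_combination (norm := module) -e'
    have b0 : b = 0 := by
      by_contra b0
      refine b2 (Submodule.mem_span_singleton.2 ⟨-a / b, smul_right_injective L b0 ?_⟩)
      simp only [smul_smul, mul_div_cancel₀ _ b0]
      rw [c0] at e'
      linear_combination (norm := module) -e'
    simp only [b0, c0, zero_smul, add_zero, smul_eq_zero, ne_eq, not_true, or_false] at e' n
    exact e'.elim n b1
  by_contra H
  push Not at H
  have br : ∀ β : L, β ≠ 0 → Algebra.norm F (β * (s β)⁻¹) = 1 → ∀ w₁ ∈ R, ∀ w₂ ∈ R,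
      θ (w₁ * y * β) * σ (θ (w₂ * y * β)) = σ (θ (w₁ * y * β)) * θ (w₂ * y * β) := by
    intro β β0 hβ w₁ a1 w₂ a2
    by_contra n
    obtain ⟨w, a3, w0, hw⟩ := two (β⁻¹ * y)
    obtain ⟨c, hc⟩ := H (β⁻¹ * w) (by simp [β0, w0])
    obtain ⟨a, b, d, ha, hb, hd, n', e⟩ := dep3 h.σσ h.ne (θ (w₁ * y * β)) (θ (w₂ * y * β)) c
    have e' := congrArg σ e
    simp only [map_add, map_mul σ, ha, hb, hd, map_zero] at e'
    have d0 : d ≠ 0 := by
      rintro rfl
      refine n (sub_eq_zero.1 ?_)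
      rcases n' with n' | n' | n'
      · exact (mul_eq_zero.1 (show a * _ = 0 by
          linear_combination σ (θ (w₂ * y * β)) * e - θ (w₂ * y * β) * e')).resolve_left n'
      · exact (mul_eq_zero.1 (show b * _ = 0 by
          linear_combination θ (w₁ * y * β) * e' - σ (θ (w₁ * y * β)) * e)).resolve_left n'
      · exact absurd rfl n'
    refine hc ?_
    convert cm β⁻¹ (inv_ne_zero β0) (by
      rw [map_inv₀, ← mul_inv, Algebra.norm_inv, hβ, inv_one]) _ (add _ (smul (-a / d)
        (by simp [ha, hd]) _ a1) _ (smul (-b / d) (by simp [hb, hd]) _ a2)) w a3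
          (by rw [← hw]; congr 1; ring) using 2
    simp only [add_mul, smul_mul_assoc, map_add, map_smul, div_inv_eq_mul, ← mul_assoc, smul_eq_mul]
    generalize θ (w₁ * y * β) = A at e ⊢
    generalize θ (w₂ * y * β) = B at e ⊢
    field_simp
    linear_combination e
  have tri : ∀ {a b c : F}, a * σ b ≠ σ a * b → a * σ c = σ a * c → b * σ c = σ b * c → c = 0 :=
    fun {a b c} n e1 e2 => (mul_eq_zero.1 (show c * (a * σ b - σ a * b) = 0 by
      linear_combination b * e1 - a * e2)).resolve_right (sub_ne_zero.2 n)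
  have all : ∀ z : L, z ≠ 0 → Algebra.norm F (z * (s z)⁻¹) = 1 → ∀ t t', s t = t → s t' = t' →
      ∀ w ∈ R, ∀ w' ∈ R, θ (w * y * z * t) * σ (θ (w' * y * z * t')) =
        σ (θ (w * y * z * t)) * θ (w' * y * z * t') := by
    intro z z0 hz t t' ht ht' w a1 w' a2
    have br' : ∀ t, s t = t → ∀ w₁ ∈ R, ∀ w₂ ∈ R, θ (w₁ * y * z * t) * σ (θ (w₂ * y * z * t)) =
        σ (θ (w₁ * y * z * t)) * θ (w₂ * y * z * t) := fun t ht w₁ b1 w₂ b2 => by
      by_cases t0 : t = 0
      · simp [t0]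
      simpa only [mul_assoc] using br (z * t) (mul_ne_zero z0 t0) (by
        rw [map_mul s, ht, ← hz]; congr 1; field_simp) w₁ b1 w₂ b2
    by_contra n
    obtain ⟨v, a3, v0, hv⟩ := two (y * z * (t + t'))
    have e : θ (v * y * z * t') = -θ (v * y * z * t) := by
      rw [eq_neg_iff_add_eq_zero, ← map_add, ← hv]; congr 1; ring
    have p0 : θ (v * y * z * t) = 0 := tri n (br' t ht w a1 v a3) (by
      have := br' t' ht' w' a2 v a3
      rw [e, map_neg] at this
      linear_combination -this)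
    rw [p0, neg_zero] at e
    refine mul_ne_zero (mul_ne_zero v0 y0) z0 (h.zero_of_real fun u hu => tri n ?_ ?_)
    · have := br' (t + u) (by simp [ht, hu]) w a1 v a3
      simp only [mul_add, map_add, p0, zero_add] at this
      linear_combination this - br' u hu w a1 v a3
    · have := br' (t' + u) (by simp [ht', hu]) w' a2 v a3
      simp only [mul_add, map_add, e, zero_add] at this
      linear_combination this - br' u hu w' a2 v a3
  obtain ⟨z, z0, hz, zn⟩ := h.exists_z h5
  obtain ⟨w, a1, w0, -⟩ := two 0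
  obtain ⟨t₁, ht₁, n₁⟩ : ∃ t, s t = t ∧ θ (w * y * 1 * t) ≠ 0 := by
    by_contra n
    push Not at n
    exact mul_ne_zero (mul_ne_zero w0 y0) one_ne_zero (h.zero_of_real n)
  obtain ⟨t₂, ht₂, n₂⟩ : ∃ t, s t = t ∧ θ (w * y * z * t) ≠ 0 := by
    by_contra n
    push Not at n
    exact mul_ne_zero (mul_ne_zero w0 y0) z0 (h.zero_of_real n)
  obtain ⟨ω, hω⟩ := not_forall.1 fun H => h.ne (RingHom.ext H)
  set μ := θ (w * y * 1 * t₁) / θ (w * y * z * t₂) with hμ
  have μ0 : μ ≠ 0 := div_ne_zero n₁ n₂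
  have n : μ • z - s (μ • z) ≠ 0 := fun e => zn (σ μ / μ) (by
    rw [h.sF, sub_eq_zero, Algebra.smul_def, Algebra.smul_def] at e
    have : s z ≠ 0 := by simpa using z0
    have : algebraMap F L μ ≠ 0 := by simpa using μ0
    rw [map_div₀]
    field_simp
    linear_combination e)
  have n' : s (μ • z) - μ • z ≠ 0 := sub_ne_zero.2 (sub_ne_zero.1 n).symm
  set t' := (ω • t₁ - s (ω • t₁)) / (μ • z - s (μ • z)) with e'
  have r1 : s t' = t' := by
    rw [e', map_div₀, map_sub, map_sub, h.ss, h.ss]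
    field_simp
    ring
  have r2 : s (ω • t₁ - μ • z * t') = ω • t₁ - μ • z * t' := by
    rw [map_sub, map_mul, r1, e']
    field_simp
    ring
  have e1 := all 1 one_ne_zero (by simp) _ _ ht₁ r2 w a1 w a1
  have e2 := all z z0 hz _ _ ht₂ r1 w a1 w a1
  have e3 : θ (w * y * 1 * (ω • t₁ - μ • z * t')) =
      ω * θ (w * y * 1 * t₁) - μ * θ (w * y * z * t') := by
    simp only [mul_sub, smul_mul_assoc, mul_smul_comm, map_sub, map_smul, smul_eq_mul, mul_one,
      mul_assoc]
  rw [e3, map_sub, map_mul σ, map_mul σ, hμ, map_div₀] at e1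
  have m₁ : σ (θ (w * y * 1 * t₁)) ≠ 0 := by simpa using n₁
  have m₂ : σ (θ (w * y * z * t₂)) ≠ 0 := by simpa using n₂
  generalize θ (w * y * 1 * t₁) = A at e1 n₁ m₁
  generalize θ (w * y * z * t₂) = B at e1 e2 n₂ m₂
  generalize θ (w * y * z * t') = C at e1 e2
  field_simp at e1
  refine hω (mul_left_cancel₀ (mul_ne_zero n₂ m₂) ?_)
  simp only [RingHom.id_apply]
  linear_combination e1 + e2

end Cmp
end CA.H12Ue
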