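import Cfsg.Agent.Lib.Lin.H12Ue1

/-! Overgroups of `GU₂(q^r)` in `SU_{2r}(q)`: the orbit of the singular `L`-points. -/

set_option autoImplicit false
set_option linter.unusedSectionVars false

namespace CA.H12Ue

open Module CA.CForm CA.CForm.Form

variable {F : Type*} [Field F] [Finite F] {σ : F →+* F} {hσ : ∀ a, σ (σ a) = a}
  {V : Type*} [AddCommGroup V] [Module F V] [FiniteDimensional F V]
  {L : Type*} [Field L] [Finite L] [Algebra F L] [Module L V] [IsScalarTower F L V]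
  [FiniteDimensional L V] {s : L →+* L} {hs : ∀ a, s (s a) = a} {θ : L →ₗ[F] F}
  {f : Form (Kind.herm σ hσ) V} {ψ : Form (Kind.herm s hs) V} {X : Subgroup f.Isom} {d : ℕ}

local notation:75 g:76 " ⊳ " v:75 => (g : V ≃ₗ[F] V) v

theorem mem_bot (hr : (finrank F L).Prime) {W : Submodule F L} {w : L} (hw : w ∈ W) (w0 : w ≠ 0)
    {a : L} (ha : a ∉ W) {e : L} (he : ∀ a ∈ W, e * a ∈ W) : ∃ t, algebraMap F L t = e := by
  let E : Subalgebra F L :=
    { carrier := {e | ∀ a ∈ W, e * a ∈ W}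
      mul_mem' := fun h1 h2 a ha => mul_assoc _ _ a ▸ h1 _ (h2 a ha)
      add_mem' := fun h1 h2 a ha => by rw [add_mul]; exact W.add_mem (h1 a ha) (h2 a ha)
      algebraMap_mem' := fun c a ha => by rw [← Algebra.smul_def]; exact W.smul_mem c ha }
  have := Subalgebra.isSimpleOrder_of_finrank_prime F L hr
  have hE : E = ⊥ := (eq_bot_or_eq_top E).resolve_right fun e =>
    ha (div_mul_cancel₀ a w0 ▸ e.ge (Algebra.mem_top (x := a / w)) w hw)
  exact Algebra.mem_bot.1 (hE.le (show e ∈ E from he))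

variable (f ψ θ X) in
/-- the standing hypotheses -/
structure UE : Prop where
  cmp : Cmp σ s θ
  ext : f.Ext ψ θ
  nb : ∀ e : ψ.Isom, Algebra.norm F (ψ.detHom e : L) = 1 → ∃ g ∈ X, ∀ v, g ⊳ v = e.1 v
  two : finrank L V = 2
  pr : (finrank F L).Prime
  five : 5 ≤ finrank F L

variable (f X) in
/-- centres of the transvections -/
def RR (U U' : Submodule F V) (u : V) : Set V := {w | w ∈ U ⊓ U' ∧ ∀ t : F, σ t = t →
  ∃ g ∈ X, (∀ v ∈ U, g ⊳ v = v) ∧ g ⊳ u = u + t • w}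

variable (f X) in
/-- The properties of a pair of members of the orbit meeting maximally. -/
structure TU (U U' : Submodule F V) : Prop where
  span : ∀ u ∈ U', u ∉ U → ∀ v ∈ U', ∃ t : F, v - t • u ∈ U
  tv : ∀ u ∈ U', u ∉ U → U ⊓ U' ≤ Submodule.span F (RR f X U U' u)

namespace UE
variable (h : UE θ f ψ X)
include h

theorem eb : f.EBase ψ X := fun e he => h.nb e (by
  rw [mem_SIsom.1 (ψ.Eich_le_SIsom he), Units.val_one, map_one])

theorem rich : ψ.Rich := .inr (herm_exists_π_eq_zero hs h.cmp.s_ne)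

theorem tv {x : V} (hx : ψ.Q x = 0) {c : L} (hc : s c = -c) :
    ∃ g ∈ X, ∀ v, g ⊳ v = v + (c * ψ.B x v) • x := by
  obtain ⟨g, g1, g2⟩ := h.eb.eich (ψ.eichlerCond_zero hx (c := -c) (by simp [hc]))
  exact ⟨g, g1, fun v => by simp [g2]⟩

theorem tor {x : V} (x0 : x ≠ 0) (hx : ψ.Q x = 0) {α : L} (α0 : α ≠ 0)
    (hα : Algebra.norm F (α * (s α)⁻¹) = 1) : ∃ g ∈ X, ∀ a : L, g ⊳ (a • x) = (α * a) • x := by
  obtain ⟨y, hy⟩ := h.ext.nondeg.exists_isHyp hx x0
  obtain ⟨g, g1, g2⟩ := h.nb (hy.torus (Units.mk0 α α0)) (by rw [hy.detHom_torus]; exact hα)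
  exact ⟨g, g1, fun a => by rw [g2, map_smul, hy.torus_apply_x, smul_smul, mul_comm]; rfl⟩

theorem mem_of_B {x u p : V} (x0 : x ≠ 0) (u0 : u ≠ 0) (hu : ψ.B x u = 0) (hp : ψ.B x p = 0) :
    p ∈ lpt F L u := by
  have d1 := h.ext.nondeg.finrank_perp (L ∙ x)
  rw [finrank_span_singleton x0, h.two] at d1
  have : L ∙ u = ψ.perp (L ∙ x) := Submodule.eq_of_le_of_finrank_eq
    ((Submodule.span_singleton_le_iff_mem _ _).2 (ψ.mem_perp_span_singleton.2 hu))
    (by rw [finrank_span_singleton u0]; omega)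
  exact this.ge (ψ.mem_perp_span_singleton.2 hp)

theorem perp_eq {U : Submodule F V} (hU : f.Orb ψ X U) : f.perp U = U := by
  have d1 := h.ext.nondeg'.finrank_perp U
  have d2 := Module.finrank_mul_finrank F L V
  rw [h.two] at d2
  exact (Submodule.eq_of_le_of_finrank_eq (h.ext.ts hU).le_perp
    (by have := hU.finrank_eq; omega)).symm

theorem sing (hM : f.MaxI ψ X 0) {U : Submodule F V} (hU : f.Orb ψ X U) {u : V} (hu : u ∈ U) :
    ψ.Q u = 0 := by
  by_contra n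
  rw [← herm_B_self] at n
  have u0 : u ≠ 0 := by rintro rfl; simp at n
  have nts : ∀ p : V, ψ.B p p ≠ 0 → ¬lpt F L p ≤ U := fun p hp e => by
    obtain ⟨a, ha⟩ := h.ext.exists_θ hp 1
    rw [← h.ext.B_smul, (h.ext.ts hU).B_eq _ (e (self_mem_lpt p)) _ (e (smul_mem_lpt a p))] at ha
    exact zero_ne_one ha
  have d1 := h.ext.nondeg.finrank_perp (L ∙ u)
  rw [finrank_span_singleton u0, h.two] at d1
  obtain ⟨p, p1, p0⟩ := exists_not_mem_of_lt (S := ⊥) (T := ψ.perp (L ∙ u)) (by simp; omega)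
  rw [mem_perp_span_singleton] at p1
  replace p1 := ψ.eq_zero_symm p1
  have p2 : ψ.B p p ≠ 0 := fun e => by
    obtain ⟨a, rfl⟩ := mem_lpt.1 (h.mem_of_B p0 p0 e p1)
    simp [e] at n
  obtain ⟨α, α0, hα, αn⟩ := h.cmp.exists_z h.five
  have p3 : s (ψ.B p p) = ψ.B p p := (ψ.herm_symm p p).symm
  have sα : s α ≠ 0 := by simpa using α0
  have hc : ψ.QreflCond p ((α * (s α)⁻¹ - 1) / ψ.B p p) := by
    simp only [QreflCond, Kind.herm_σ, Kind.herm_π, Kind.herm_ε, one_mul, map_div₀, map_sub,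
      map_mul, map_inv₀, hs, map_one, p3, ← herm_B_self]
    field_simp
    ring
  obtain ⟨g, g1, g2⟩ := h.nb (ψ.qrefl p _ hc) (by
    rw [detHom_qrefl, div_mul_cancel₀ _ p2, add_sub_cancel, hα])
  simp only [qrefl_apply] at g2
  have e := hM.act_eq hU bot_le (finrank_bot F V) g1 (fun w hw => by rw [hw, map_zero]) hu u0
    (by simpa [g2, p1] using hu)
  have k : ∀ v ∈ U, ((α * (s α)⁻¹ - 1) / ψ.B p p * ψ.B p v) • p ∈ U := fun v hv => by
    have := e.le (f.apply_mem_act.2 hv)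
    rwa [g2, U.add_mem_iff_right hv] at this
  obtain ⟨v, hv, v0⟩ : ∃ v ∈ U, ψ.B p v ≠ 0 := by
    by_contra n'
    push Not at n'
    exact nts u n (Submodule.eq_of_le_of_finrank_eq (fun v hv => h.mem_of_B p0 u0 p1 (n' v hv))
      (by rw [hU.finrank_eq, finrank_lpt u0])).ge
  obtain ⟨a, ha⟩ : ∃ a : L, a • p ∉ U := by
    by_contra n'
    push Not at n'
    exact nts p p2 fun v hv => by obtain ⟨a, rfl⟩ := mem_lpt.1 hv; exact n' a
  have z1 : α * (s α)⁻¹ - 1 ≠ 0 := sub_ne_zero.2 (by simpa using αn 1)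
  obtain ⟨t, ht⟩ := mem_bot h.pr (W := U.comap ((LinearMap.toSpanSingleton L V p).restrictScalars F))
    (k v hv) (mul_ne_zero (div_ne_zero z1 p2) v0) ha (e := α * (s α)⁻¹ - 1) fun b hb => by
      have := k _ hb
      simp only [LinearMap.coe_restrictScalars, LinearMap.toSpanSingleton_apply, map_smul,
        smul_eq_mul] at this
      rwa [mul_comm b, ← mul_assoc, div_mul_cancel₀ _ p2] at this
  exact αn (t + 1) (by rw [map_add, ht, map_one, sub_add_cancel])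

theorem semi (hM : f.MaxI ψ X 0) {g : f.Isom} (hg : g ∈ X) : f.Semi L g := by
  have H : f.PresP ψ g := fun x x0 hx => hM.act_lpt hg x0 hx
    (f.apply_mem_act.2 (self_mem_lpt x)) (by simpa using x0)
    (h.sing hM ((orb_lpt x0 hx).act hg) (f.apply_mem_act.2 (self_mem_lpt x)))
  obtain ⟨x₀, -, x0, hx₀⟩ := ψ.iso_herm h.cmp.s_ne ⊤ (by rw [finrank_top, h.two])
  refine semi_of H h.ext.nondeg h.rich x0 hx₀ fun x y hx hy hB a l m e1 e2 => ?_
  have x0 : x ≠ 0 := by rintro rfl; simp at hB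
  obtain ⟨κ, κ0, hκ⟩ := exists_skew hs h.cmp.s_ne
  obtain ⟨z, b, hz, rfl⟩ : ∃ z, ∃ b : L, ψ.B x z = κ ∧ y = b • z :=
    ⟨(κ / ψ.B x y) • y, ψ.B x y / κ, by simp [hB], by rw [smul_smul]; field_simp; simp⟩
  have b0 : b ≠ 0 := by rintro rfl; simp at hB
  have z0 : z ≠ 0 := by rintro rfl; simp at hB
  have hz' : ψ.Q z = 0 := by simpa [ψ.Q_smul, b0] using hy
  choose T hT using fun a : L => mem_lpt.1 ((H z z0 hz').le (f.apply_mem_act.2 (smul_mem_lpt a z)))
  have k : ∀ t, s t = t → g ⊳ ((a * t) • z) = l • g ⊳ (t • z) := fun t ht => by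
    by_cases t0 : t = 0
    · simp [t0]
    have n : g ⊳ (t • z) ≠ 0 := by simp [t0, z0]
    have T0 : T t ≠ 0 := fun e => n (by rw [← hT, e, zero_smul])
    have e : g ⊳ (a • t • z) = (T (a * t) / T t) • g ⊳ (t • z) := by
      rw [smul_smul, ← hT, ← hT, smul_smul, div_mul_cancel₀ _ T0]
    rw [mul_smul, e, semi_three H x0 hx (fun e => by
      obtain ⟨c, hc⟩ := Submodule.mem_span_singleton.1 e
      have := congrArg (ψ.B x) hc
      simp [ψ.B_self_of_Q hx, hz, t0, κ0] at this) (by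
        simp [ψ.Q_add, hx, ψ.Q_smul_of_Q hz', hz, ht, hκ]) e1 e]
  obtain ⟨t, t', ω, h1, h2, rfl⟩ := h.cmp.real b
  have n : g ⊳ ((t + ω • t') • z) ≠ 0 := by simp [b0, z0]
  refine smul_left_injective L n ?_
  simp only
  rw [← e2, smul_smul, mul_add, add_smul, add_smul, map_add, map_add, mul_smul_comm, smul_assoc,
    smul_assoc, map_smul _ ω, map_smul _ ω, k t h1, k t' h2, smul_add, smul_comm l ω]

theorem tu_lpt (hM : f.MaxI ψ X d) (hd : 0 < d) {x : V} {U : Submodule F V}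
    (hP : f.Pair ψ X d x U) : TU f X (lpt F L x) U := by
  have : FiniteDimensional F L := inferInstance
  have xx := ψ.B_self_of_Q hP.Qx
  have h1 : ∀ {p}, ψ.B x p = 0 → p ∈ lpt F L x := h.mem_of_B hP.x0 hP.x0 xx
  have fx : ∀ v ∈ lpt F L x, ψ.B x v = 0 := fun v hv =>
    h.ext.mem_perp.1 ((h.ext.ts_lpt hP.Qx).le_perp hv)
  have key : ∀ c : L, s c = -c → ∀ p ∈ U, ψ.B x p ≠ 0 → (c * ψ.B x p) • x ∈ U → ∀ v ∈ U,
      (c * ψ.B x v) • x ∈ U := fun c hc p h1 h2 h3 v hv => by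
    obtain ⟨g, g1, g2⟩ := h.tv hP.Qx hc
    have := (hM.act_eq hP.orb inf_le_right hP.dim g1 (fun w hw => by simp [g2, fx w hw.1]) h1
      (fun e => h2 (fx p e.1)) (g2 p ▸ U.add_mem h1 h3)).le (f.apply_mem_act.2 hv)
    rwa [g2, U.add_mem_iff_right hv] at this
  let S : Set L := {c | s c = -c ∧ ∀ v ∈ U, (c * ψ.B x v) • x ∈ U}
  let ι : L →ₗ[F] V := (LinearMap.toSpanSingleton L V x).restrictScalars F
  have ιi : Function.Injective ι := smul_left_injective L hP.x0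
  have hW : finrank F (U.comap ι) = d := by
    rw [← hP.dim, ← LinearEquiv.finrank_eq (Submodule.equivMapOfInjective ι ιi _).symm,
      Submodule.map_comap_eq, show LinearMap.range ι = lpt F L x from
        Submodule.ext fun v => (mem_lpt (F := F)).symm]
  have hS : ∀ c ∈ Submodule.span F S, ∀ v ∈ U, c * ψ.B x v ∈ U.comap ι := fun c hc v hv =>
    (Submodule.span_le (p := (U.comap ι).comap (LinearMap.mulRight F (ψ.B x v)))).2
      (fun c hc => hc.2 v hv) hc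
  have hd' : d ≤ finrank F (Submodule.span F S) := by
    by_contra n
    obtain ⟨I, _, c, c1, c2, c3⟩ := Cmp.family h.cmp.skew (Submodule.span F S)
    let β : U →ₗ[F] L := (ψ.B x).restrictScalars F ∘ₗ U.subtype
    have d1 := β.finrank_range_add_finrank_ker
    have d2 : finrank F (LinearMap.ker β) = d := by
      rw [← hP.dim, ← Submodule.finrank_map_subtype_eq,
        show (LinearMap.ker β).map U.subtype = lpt F L x ⊓ U from Submodule.ext fun v =>
          ⟨fun ⟨p, hp, e⟩ => e ▸ ⟨h1 hp, p.2⟩, fun hv => ⟨⟨v, hv.2⟩, fx v hv.1, rfl⟩⟩]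
    have d3 := hP.orb.finrank_eq
    obtain ⟨u, hu, hn⟩ := hP.exists_right
    obtain ⟨l, l1, l0, _, ⟨p, rfl⟩, y0, hy⟩ := h.cmp.cwL (LinearMap.range β)
      (Submodule.ne_bot_iff _ |>.2 ⟨_, ⟨⟨u, hu⟩, rfl⟩, mt h1 hn⟩) c c1 (by omega)
    have sk : s (∑ k, l k • c k) = -∑ k, l k • c k := by
      simp [h.cmp.sF, l1, c1]
    refine l0 (c3 l (Submodule.subset_span ⟨sk, key _ sk p p.2 y0 ?_⟩))
    refine (h.perp_eq hP.orb).le fun v hv => ?_
    rw [h.ext.B_smul, ψ.herm_symm x v, mul_right_comm]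
    exact hy _ ⟨⟨v, hv⟩, rfl⟩
  have hE : ∀ u ∈ U, u ∉ lpt F L x → ∀ a ∈ U.comap ι, ∃ c ∈ Submodule.span F S,
      c * ψ.B x u = a := fun u hu hn a ha => by
    have i : Function.Injective (LinearMap.mulRight F (ψ.B x u)) := mul_left_injective₀ (mt h1 hn)
    exact (Submodule.eq_of_le_of_finrank_le 
      (S₁ := (Submodule.span F S).map (LinearMap.mulRight F (ψ.B x u))) (by
      rintro _ ⟨c, hc, rfl⟩; exact hS c hc u hu) (by
        rwa [hW, ← LinearEquiv.finrank_eq (Submodule.equivMapOfInjective _ i _)])).ge ha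
  refine ⟨fun u hu hn v hv => ?_, fun u hu hn w hw => ?_⟩
  · obtain ⟨w, hw, w0⟩ := hP.exists_mem hd
    obtain ⟨b, rfl⟩ := mem_lpt.1 hw.1
    obtain ⟨a, ha⟩ := hP.exists_left
    obtain ⟨t, ht⟩ := mem_bot h.pr (W := U.comap ι) hw.2 (left_ne_zero_of_smul w0) ha
      (e := ψ.B x v / ψ.B x u) fun a ha => by
        obtain ⟨c, hc, rfl⟩ := hE u hu hn a ha
        convert hS c hc v hv using 1
        field_simp [mt h1 hn]
    exact ⟨t, h1 (by rw [← IsScalarTower.algebraMap_smul L t]; simp [ht, mt h1 hn])⟩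
  · obtain ⟨a, rfl⟩ := mem_lpt.1 hw.1
    obtain ⟨c, hc, rfl⟩ := hE u hu hn a hw.2
    refine (Submodule.span_le (p := (Submodule.span F (RR f X (lpt F L x) U u)).comap
      (ι ∘ₗ LinearMap.mulRight F (ψ.B x u)))).2 (fun c hc => Submodule.subset_span
        ⟨⟨smul_mem_lpt _ x, hc.2 u hu⟩, fun t ht => ?_⟩) hc
    obtain ⟨g, g1, g2⟩ := h.tv hP.Qx (c := t • c) (by rw [h.cmp.sF, ht, hc.1, smul_neg])
    exact ⟨g, g1, fun v hv => by simp [g2, fx v hv], by rw [g2, smul_mul_assoc, smul_assoc]; rfl⟩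

theorem tu (hM : f.MaxI ψ X d) (hd : 0 < d) {U U' : Submodule F V}
    (hU : f.Orb ψ X U) (hU' : f.Orb ψ X U') (hne : U ≠ U')
    (he : finrank F (U ⊓ U' : Submodule F V) = d) : TU f X U U' := by
  obtain ⟨g, hg, x, x0, hx, rfl⟩ := hU
  have t := h.tu_lpt hM hd (pair_of hg x0 hx hU' hne he)
  refine ⟨fun u h1 h2 v hv => ?_, fun u h1 h2 w hw => ?_⟩
  · obtain ⟨c, hc⟩ := t.span _ (f.apply_mem_act.2 h1) (mt f.mem_act.2 h2) _ (f.apply_mem_act.2 hv)
    exact ⟨c, f.mem_act.2 (by simpa using hc)⟩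
  · have := (Submodule.span_le (p := (Submodule.span F
        (RR f X (f.act g (lpt F L x)) U' u)).comap (g : V ≃ₗ[F] V).toLinearMap)).2
      (fun v hv => Submodule.subset_span ⟨⟨f.apply_mem_act.2 hv.1.1, by
        simpa using f.mem_act.1 hv.1.2⟩, fun c hc => by
          obtain ⟨e, e1, e2, e3⟩ := hv.2 c hc
          exact ⟨_, X.mul_mem (X.mul_mem hg e1) (X.inv_mem hg), fun v hv => by
            rw [isom_mul_apply, isom_mul_apply, e2 _ (f.mem_act.1 hv), isom_apply_inv_apply], by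
            rw [isom_mul_apply, isom_mul_apply, e3, map_add, isom_apply_inv_apply, map_smul]; rfl⟩⟩)
      (t.tv _ (f.apply_mem_act.2 h1) (mt f.mem_act.2 h2)
        (show (g⁻¹ : f.Isom) ⊳ w ∈ _ from ⟨f.mem_act.1 hw.1, f.apply_mem_act.2 hw.2⟩))
    simpa using this

end UE
end CA.H12Ue
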