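import Cfsg.Agent.Lib.Lin.MaxU6

/-!
Maximality of the stabilisers of orthogonal decompositions of a unitary space.
-/

set_option autoImplicit false
set_option linter.unusedSectionVars false

namespace CA.CForm

open Module CA.MaxF Pi Equiv Finset

namespace Form
variable {F : Type*} [Field F] [Fintype F] {ι : Type*} [Fintype ι] [DecidableEq ι]
  {σ : F →+* F} {hσ : ∀ a, σ (σ a) = a}

local notation:75 g:76 " ⊳ " v:75 => (Subtype.val g) v

section
local notation "𝐞" i:max => (Pi.single i 1 : ι → F)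

theorem frame_stdU {f : Form (Kind.herm σ hσ) (ι → F)} {X : Subgroup f.Isom} (hk : HK σ)
    (h13 : 13 ≤ Fintype.card ι) (st : f.St)
    (hX : ∀ g ∈ f.SIsom, f.PermD (fun i => F ∙ 𝐞 i) g → g ∈ X) (hX' : X ≤ f.SIsom) :
    (∀ g ∈ X, f.PermD (fun i => F ∙ 𝐞 i) g) ∨ f.Eich ≤ X := by
  have pm : ∀ g ∈ f.MonU, f.PermD (fun i => F ∙ 𝐞 i) g := fun g hg i => by
    obtain ⟨j, a, e⟩ := hg i
    refine ⟨j, fun v hv => ?_⟩
    obtain ⟨b, rfl⟩ := Submodule.mem_span_singleton.1 hv
    exact Submodule.mem_span_singleton.2 ⟨b * a, by rw [map_smul, e, smul_smul]⟩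
  let ψ : Perm ι →* f.Isom :=
    { toFun τ := ⟨LinearEquiv.funCongrLeft F F τ⁻¹, f.herm_mem_Isom.2 fun x y => by
        rw [st.B_eq, st.B_eq]
        exact Equiv.sum_comp τ⁻¹ fun i => σ (x i) * y i⟩
      map_one' := rfl
      map_mul' _ _ := rfl }
  have dψ : ∀ τ, (f.detHom (ψ τ) : F) = ((Perm.sign τ : ℤ) : F) := fun τ => by
    induction τ using Perm.swap_induction_on with
    | one => simp
    | swap_mul τ k l kl ih =>
      have q : f.B (𝐞 k - 𝐞 l) (𝐞 k - 𝐞 l) = 2 := by simp [st _ _, kl, kl.symm]; ring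
      have hc : f.QreflCond (𝐞 k - 𝐞 l) (-1) := by
        rw [QreflCond, ← herm_B_self, q]; simp; ring
      have : ψ (swap k l) = f.qrefl _ _ hc := f.isom_ext fun u => funext fun j => by
        rw [qrefl_apply, B_sub_left, st, st]
        change u (swap k l j) = _
        by_cases jk : j = k
        · simp [jk, kl]
        by_cases jl : j = l <;> simp [jk, jl, kl.symm, swap_apply_of_ne_of_ne]
      rw [map_mul, map_mul, Units.val_mul, ih, this, detHom_qrefl, q]
      simp [kl]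
      ring
  have qc : ∀ i z, z * σ z = 1 → f.QreflCond (𝐞 i) (z - 1) := fun i z hz => by
    simp [QreflCond, ← herm_B_self, st _ _]; linear_combination hz
  refine or_iff_not_imp_right.2 fun H g hg => pm g (Fu.le_mon ⟨hk, h13, st, fun i j ij z hz => ?_,
    fun τ hτ => ⟨ψ τ⁻¹, hX _ (mem_SIsom.2 (Units.ext ?_)) (pm _ fun j => ⟨τ.symm j, 1,
      (single_comp j (1 : F) τ).trans (one_smul ..).symm⟩), fun _ => rfl⟩, hX', H⟩ hg)
  · have hz' : σ z * σ (σ z) = 1 := by rw [hσ, mul_comm, hz]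
    have e : ∀ u, (f.qrefl _ _ (qc i z hz) * f.qrefl _ _ (qc j _ hz')) ⊳ u =
        u + ((z - 1) * u i) • 𝐞 i + ((σ z - 1) * u j) • 𝐞 j := fun u => by
      simp [qrefl_apply, st _ _, ij]
      module
    refine ⟨_, hX _ (mem_SIsom.2 (Units.ext ?_)) (pm _ fun k =>
      ⟨k, if k = i then z else if k = j then σ z else 1, ?_⟩), e⟩
    · simp [detHom_qrefl, st _ _, hz]
    rw [e]
    by_cases k1 : k = i
    · simp [k1, ij.symm]; module
    by_cases k2 : k = j
    · simp [k2, ij, ij.symm]; module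
    simp [k1, k2, Ne.symm k1, Ne.symm k2]
  · rw [dψ, Perm.sign_inv]
    rcases hτ with e | e
    · simp [e]
    · rcases Int.units_eq_one_or (Perm.sign τ) with c | c <;> simp [c]
      linear_combination -e
end

variable {V : Type*} [AddCommGroup V] [Module F V] [FiniteDimensional F V]
  {f : Form (Kind.herm σ hσ) V} {D : ι → Submodule F V} {X : Subgroup f.Isom}

theorem Nondeg.herm_eq (hf : f.Nondeg) (hne : σ ≠ RingHom.id F) (h : 2 ≤ finrank F V) :
    f.Eich = f.SIsom := by
  obtain ⟨x, -, h0, hx⟩ := f.herm_exists_singular hne (W := ⊤) (by simpa using h)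
  exact hf.herm_Eich_eq_SIsom hne hx h0

namespace ODec
variable (h : f.ODec D) (hX : ∀ g ∈ f.Eich, f.PermD D g → g ∈ X)
include h hX

theorem frame_maxU (hk : HK σ) (hX' : X ≤ f.Eich) (h1 : ∀ i, finrank F (D i) = 1)
    (h7 : 13 ≤ Fintype.card ι) (hV : Fintype.card ι = finrank F V) :
    (∀ g ∈ X, f.PermD D g) ∨ f.Eich ≤ X := by
  choose b b1 b2 using fun i => f.herm_exists_Q_eq hk.ne (h.disj i)
    (fun e => by have := h1 i; rw [e] at this; simp at this) (map_one σ)
  have hb : ∀ i, D i = F ∙ b i := fun i => (Submodule.eq_of_le_of_finrank_eq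
    ((Submodule.span_singleton_le_iff_mem _ _).2 (b1 i)) (by
      rw [h1, finrank_span_singleton fun e => by simpa [e] using b2 i])).symm
  have hO : ∀ i j, f.B (b i) (b j) = if i = j then 1 else 0 := fun i j => by
    split_ifs with c
    · rw [c, herm_B_self, b2]
    · exact h.orth i j c (b1 j) _ (b1 i)
  let B := basisOfTopLeSpanOfCardEqFinrank b (by
    rw [← h.top]
    exact iSup_le fun i => hb i ▸ Submodule.span_mono (by simp)) hV
  let J := B.equivFun.symm
  have hJ : ∀ u, J u = ∑ i, u i • b i := fun u => by simp [J, B]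
  have J1 : ∀ i, J (single i 1) = b i := fun i => by simp [hJ, single_apply]
  have hP : (f.comap J.toLinearMap).Pres f J := ⟨fun _ _ => rfl, fun _ => rfl⟩
  have hf : (f.comap J.toLinearMap).Nondeg := h.nondeg.comap_equiv J
  have E := h.nondeg.herm_eq hk.ne (by omega)
  have E' := hf.herm_eq hk.ne (by simp; omega)
  have dt : ∀ g, isomCongr J hP g ∈ f.Eich ↔ g ∈ (f.comap J.toLinearMap).SIsom := fun g => by
    rw [E, mem_SIsom, mem_SIsom, detHom_isomCongr]
  have key : ∀ g, (f.comap J.toLinearMap).PermD (fun i => F ∙ single i 1) g ↔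
      f.PermD D (isomCongr J hP g) := fun g => forall_congr' fun i => exists_congr fun j => by
    have : ∀ i v, v ∈ F ∙ (single i 1 : ι → F) ↔ J v ∈ D i := fun i v => by
      rw [hb, ← J1, Submodule.mem_span_singleton, Submodule.mem_span_singleton]
      exact exists_congr fun a => by rw [← map_smul, J.injective.eq_iff]
    simp only [this, isomCongr_apply]
    exact ⟨fun H v hv => H _ (by simpa using hv), fun H v hv => by simpa using H _ hv⟩
  rcases frame_stdU (f := f.comap J.toLinearMap) (X := X.comap (isomCongr J hP).toMonoidHom) hk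
    h7 (fun i u => by rw [comap_B]; change f.B (J _) (J _) = _; rw [J1]; simp [hJ, hO])
    (fun g hg H => hX _ ((dt g).2 hg) ((key g).1 H)) (fun g hg => (dt g).1 (hX' hg)) with H | H
  · refine .inl fun g hg => ?_
    simpa using (key _).1 (H ((isomCongr J hP).symm g) (by simpa using hg))
  · refine .inr fun g hg => ?_
    exact (isomCongr J hP).apply_symm_apply g ▸ H (E' ▸ (dt _).1 (by simpa using hg))

variable (hne : σ ≠ RingHom.id F) (hM : f.MLA X D) {u : V} (hu : f.Tgrp u ≤ X) (h0 : u ≠ 0)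
  (hQ : f.Q u = 0)
include hne hM hu h0 hQ

theorem herm_mem2 (h2 : ∀ i, 2 ≤ finrank F (D i)) {a : F} (ha0 : a ≠ 0) (ha : a ≠ 1)
    (ha' : σ a = a) : ∃ j, u ∈ D j := by
  obtain ⟨j, hj⟩ : ∃ j, h.pr j u ≠ 0 := by
    by_contra! hc
    exact h0 (h.eq_zero hc)
  obtain ⟨x, hx, x0, hb⟩ : ∃ x ∈ D j, f.Q x = 0 ∧ f.B x u ≠ 0 := by
    by_contra! H
    obtain ⟨x, hx, x0, xq⟩ := f.herm_exists_singular hne (h2 j)
    obtain ⟨y, hy, hxy⟩ := h.exists_isHyp hx x0 xq
    exact hj (h.pr_of_perp fun v hv => hxy.induction_singular hx hy (P := fun v => f.B v u = 0)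
      (fun a b ha hb => by simp [ha, hb]) H hv)
  have x1 : x ≠ 0 := by rintro rfl; simp at hb
  obtain ⟨y, hy, hxy⟩ := h.exists_isHyp hx x1 x0
  have hxu : f.IsHyp x ((f.B x u)⁻¹ • u) := ⟨x0, f.Q_smul_of_Q hQ _, by simp [hb]⟩
  obtain ⟨c, c0, hc⟩ := herm_exists_π_eq_zero hσ hne
  have hac : (Kind.herm σ hσ).π (a * c) = 0 := by
    rw [Kind.herm_π] at hc ⊢
    rw [map_mul, ha', ← mul_add, hc, mul_zero]
  have T := fun {x} hx => (h.base hX j).Tgrp_le (x := x) hx
  have k1 := sup_le (T hx) (T hy) (hxy.torus_mem_of_π (a := Units.mk0 a ha0) c0 hc hac)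
  have k2 := sup_le (T hx) ((f.Tgrp_smul_le _ _).trans hu)
    (hxu.torus_mem_of_π (a := Units.mk0 a ha0) c0 hc hac)
  obtain ⟨w, c, hc, e⟩ := (mem_Qgrp x0).1 ((h.nondeg.mem_Qgrp_iff x0 x1
    (g := hxu.torus (Units.mk0 a ha0) * hxy.torus (Units.mk0 a ha0)⁻¹)).2 ⟨by
      simp [IsHyp.torus_apply_x, smul_smul, ha0], fun v hv => by
      rw [isom_mul_apply, hxy.torus_apply, hv, mul_zero, zero_smul, add_zero, map_add, map_smul,
        hxu.torus_apply_x, hxu.torus_apply, hv, mul_zero, zero_smul, add_zero, add_assoc,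
        add_sub_cancel_left, smul_smul, ← add_smul]
      exact Submodule.smul_mem _ _ (Submodule.mem_span_singleton_self x)⟩)
  have k3 := hM j x hx x1 w ⟨c, hc, e ▸ mul_mem k2 (hxy.torus_inv _ ▸ inv_mem k1)⟩
  have k4 := congrArg (fun g : f.Isom => g ⊳ y) e
  simp only [isom_mul_apply, hxy.torus_apply_y, map_smul, hxu.torus_apply, eichler_apply,
    hxy.B_xy, Units.val_inv_eq_inv_val, Units.val_mk0, Kind.herm_σ, map_inv₀, ha', inv_inv] at k4
  refine ⟨j, ((D j).smul_mem_iff (mul_ne_zero (sub_ne_zero.2 ha.symm) (inv_ne_zero hb))).1 ?_⟩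
  convert ((D j).add_mem_iff_right (add_mem ((D j).smul_mem _ hy) ((D j).smul_mem _ hx))).1
    (k4 ▸ sub_mem (add_mem hy ((D j).smul_mem _ k3)) ((D j).smul_mem _ hx)) using 1
  match_scalars
  field_simp
  simp

theorem herm_mem3 (h3 : ∀ i, finrank F (D i) = 3) : ∃ j, u ∈ D j := by
  obtain ⟨j, hj⟩ : ∃ j, h.pr j u ≠ 0 := by
    by_contra! hc
    exact h0 (h.eq_zero hc)
  have hw := h.pr_mem j u
  have h1 : f.B (h.pr j u) u = f.Q (h.pr j u) := by rw [← h.B_pr hw, herm_B_self]
  obtain ⟨c, c0, hc⟩ := herm_exists_π_eq_zero hσ hne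
  refine ⟨j, ?_⟩
  by_cases hq : f.Q (h.pr j u) = 0
  · obtain ⟨y, hy, hxy⟩ := h.exists_isHyp hw hj hq
    obtain ⟨z, hz, z1, z2, -⟩ := h.nondeg.exists_nonsing_of_three (h.disj j) (h3 j) hw hj hq
    obtain ⟨a, ha⟩ : ∃ a, σ a ≠ a := by_contra fun H => hne (RingHom.ext (by simpa using H))
    have a0 : a ≠ 0 := by rintro rfl; simp at ha
    have a1 : a - 1 ≠ 0 := fun e => ha (by rw [sub_eq_zero.1 e, map_one])
    have a2 := (map_ne_zero σ).2 a0
    have cz : f.QreflCond z ((σ a / a - 1) / f.Q z) := by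
      simp only [QreflCond, Kind.herm_σ, Kind.herm_π, Kind.herm_ε, map_div₀, map_sub, map_one, hσ,
        herm_Q_fixed, one_mul]
      field_simp
      ring
    have ht : hxy.torus (Units.mk0 a a0) * f.qrefl z _ cz ∈ f.fix (f.perp (D j)) :=
      mul_mem (f.fix_anti (f.perp_anti (Submodule.span_le.2 (by
        rintro _ (rfl | rfl) <;> assumption))) (hxy.torus_mem_fix _))
        fun v hv => f.qrefl_apply_of_B _ _ _ (hv z hz)
    have h3 := Tgrp_map hu (h.mem_of_fix hX ht (by
      rw [h.nondeg.herm_Eich_eq_SIsom hne hQ h0, mem_SIsom, Units.ext_iff, map_mul, Units.val_mul,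
        hxy.detHom_torus, detHom_qrefl, herm_B_self]
      simp only [Units.val_mk0, Kind.herm_σ, Units.val_one]
      field_simp
      ring))
    rw [show (hxy.torus (Units.mk0 a a0) * f.qrefl z _ cz) ⊳ u = u + (a - 1) • h.pr j u by
      refine (congrArg _ (sub_add_cancel u (h.pr j u)).symm).trans ?_
      rw [map_add, ht _ (h.sub_pr j u), isom_mul_apply,
        f.qrefl_apply_of_B _ _ _ (f.eq_zero_symm z1), hxy.torus_apply_x, Units.val_mk0]
      module] at h3
    rw [hq] at h1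
    generalize h.pr j u = x at *
    have hc' : σ c = -c := eq_neg_of_add_eq_zero_right hc
    have q1 : f.Q (u + (a - 1) • x) = 0 := by
      rw [f.Q_add_of_B (by simp [f.eq_zero_symm h1]), hQ, f.Q_smul_of_Q hq, add_zero]
    have c' : f.EichlerCond ((a - 1) • x) (-c • u) c :=
      ⟨f.Q_smul_of_Q hq _, by simp [h1], by rw [hc, f.Q_smul_of_Q hQ]⟩
    refine ((D j).smul_mem_iff (neg_ne_zero.2 c0)).1 (hM j _ ((D j).smul_mem (a - 1) hw)
      (smul_ne_zero a1 hj) _ ⟨c, c', ?_⟩)
    have e : f.eichler _ 0 c (f.eichlerCond_zero q1 hc) =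
        f.eichler _ _ c c' * f.eichler u 0 c (f.eichlerCond_zero hQ hc) :=
      f.isom_ext fun v => by
        simp only [isom_mul_apply, eichler_apply]
        simp [h1, herm_B_self, hQ, hc']
        module
    exact (X.mul_mem_cancel_right (hu (f.eichler_mem_Tgrp _ _ _))).1
      (e ▸ h3 (f.eichler_mem_Tgrp _ _ _))
  · obtain ⟨x, ⟨hx, hx'⟩, x0, xq⟩ := f.herm_exists_singular hne
      (W := D j ⊓ f.perp (F ∙ h.pr j u)) (by
        have := f.finrank_le_inf_perp (D j) (h.pr j u)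
        have := h3 j
        omega)
    have k1 : f.B x (h.pr j u) = 0 :=
      f.eq_zero_symm (hx' _ (Submodule.mem_span_singleton_self _))
    have k2 := lev_of_mem_levS ((h.base hX j).mem_levS hx xq hw k1)
    have k3 := (k2.fix (hu (f.eichler_mem_Tgrp u c (f.eichlerCond_zero hQ hc))) (by
      rw [eichler_zero_apply, f.eq_zero_symm ((h.B_pr hx u).symm.trans k1)]; simp)).sub k2
    rw [eichler_zero_apply, sub_sub_cancel_left] at k3
    refine ((D j).smul_mem_iff (mul_ne_zero (mul_ne_zero one_ne_zero c0) fun e => hq ?_)).1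
      (neg_mem_iff.1 (hM j x hx x0 _ k3))
    rw [← h1, f.eq_zero_symm e]

omit hM hu h0 hQ in
theorem herm_max_small (h2 : ∀ i, 2 ≤ finrank F (D i)) (h3 : ∀ i j : ι, ∃ l, l ≠ i ∧ l ≠ j)
    (H : (∃ a, a ≠ 0 ∧ a ≠ 1 ∧ σ a = a) ∨ ∀ i, finrank F (D i) = 3) :
    (∀ g ∈ X, f.PermD D g) ∨ f.Eich ≤ X :=
  h.max_of_mla hX (fun _ => .inr (herm_exists_π_eq_zero hσ hne))
    (fun i => (h.nondeg_restrict i).herm_irrI hne) (fun i => f.herm_exists_singular hne (h2 i))
    (h.third h3) fun hM _ hg i _ hu h0 hQ => H.elim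
      (fun ⟨_, a, b, c⟩ => h.herm_mem2 hX hne hM (((h.base hX i).act hg).Tgrp_le hu) h0 hQ h2 a b c)
      (h.herm_mem3 hX hne hM (((h.base hX i).act hg).Tgrp_le hu) h0 hQ)

end ODec
end Form
end CA.CForm

namespace CA.MaxGL

open CA.CForm CA.CForm.Form CA.AschFG CA.AschO1 CA.AschProp Cfsg Cfsg.Geo Module

theorem herm_max_decomp {ι : Type} [Fintype ι] [DecidableEq ι] {F : Type*} [Field F] [Fintype F]
    {q : ℕ} (hF : Fintype.card F = q ^ 2) {φ : Form (hermKind hF) (ι → F)} (hφ : φ.Nondeg)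
    (hG : QS (EG φ)) (hn : 13 ≤ Fintype.card ι) {t k : ℕ} {D : Fin t → Submodule F (ι → F)}
    (hD : IsNondegenerateMDecomposition (fn φ) k D) (hex : ¬(k = 2 ∧ q = 2)) :
    IsMaximalIn (EG φ) (decompositionStabilizer D ⊓ EG φ) := by
  have hne := conj_ne_id hF
  have h1 := hD.decomp.finrank_eq
  have h2 := hD.decomp.pos
  have h4 := decomp_card hD.decomp
  have h := odec hφ hD fun i j => Nondeg.herm_equivalent
    ((φ.nondeg_restrict_iff _).2 (nondegOn_iff.1 (hD.nondegenerate i))) hne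
    ((φ.nondeg_restrict_iff _).2 (nondegOn_iff.1 (hD.nondegenerate j))) (by rw [h1, h1])
  obtain ⟨x, hx0, hx⟩ := herm_exists_singular' hF (f := φ) (by simp; omega)
  refine max_of (not_le_of_tv hφ hG hx hx0 (exists_π_herm hF) hD.decomp) fun X a b =>
    Or.imp_left (fun (h : ∀ g ∈ X, φ.PermD D g) g hg =>
      (mem_comap_decomp hD.decomp).2 (h g hg)) ?_
  have hX : ∀ g ∈ φ.Eich, φ.PermD D g → g ∈ X := fun g hg e =>
    a ⟨(mem_comap_decomp hD.decomp).2 e, hg⟩
  by_cases k4 : 4 ≤ k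
  · exact h.max_large hX (iso_herm hne φ) two_pos (fun i => (h1 i).symm ▸ k4)
      fun i => (h.nondeg_restrict i).herm_irrI hne
  by_cases k1 : k = 1
  · subst k1
    exact h.frame_maxU hX (hk_conj hF) b h1 (by simp; omega) (by simp [h4])
  refine h.herm_max_small hX hne (fun i => by rw [h1]; omega) (fun i j => ?_)
    (or_iff_not_imp_right.2 fun k3 => ?_)
  · simpa using exists_notMem_of_lt (s := {i, j}) (Finset.card_le_two.trans_lt (by
      simp only [Fintype.card_fin]; nlinarith))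
  · have q2 := two_le_of_card_sq hF
    have : q ≠ 2 := fun e => hex ⟨by_contra fun c => k3 fun i => by rw [h1]; omega, e⟩
    by_contra! H
    classical
    have k := card_conj_fixed hF
    have := Nat.card_le_card_of_injective (fun x : {x : F // x ^ q = x} => decide (x.1 = 0))
      fun x y e => Subtype.ext (by
        by_cases c : x.1 = 0
        · simp_all
        · have c' : y.1 ≠ 0 := by simpa [c] using e
          rw [by_contra fun k => H _ c k x.2, by_contra fun k => H _ c' k y.2])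
    rw [k, Nat.card_eq_fintype_card, Fintype.card_bool] at this
    omega

end CA.MaxGL
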