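import Cfsg.Agent.Lib.Lin.H12Ue2
import Cfsg.Agent.Lib.Lin.MaxU7
import Mathlib.RingTheory.Norm.Transitivity

/-! Maximality of `GU₂(q^r).r` in `SU_{2r}(q)`, `r ≥ 5` prime. -/

set_option autoImplicit false
set_option linter.unusedSectionVars false

namespace CA.H12Ue

open Module CA.CForm CA.CForm.Form

variable {F : Type*} [Field F] [Finite F] {σ : F →+* F} {hσ : ∀ a, σ (σ a) = a}
  {V : Type*} [AddCommGroup V] [Module F V] [FiniteDimensional F V]
  {L : Type*} [Field L] [Finite L] [Algebra F L] [Module L V] [IsScalarTower F L V]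
  [FiniteDimensional L V] {s : L →+* L} {hs : ∀ a, s (s a) = a} {θ : L →ₗ[F] F}
  {f : Form (Kind.herm σ hσ) V} {ψ : Form (Kind.herm s hs) V} {X : Subgroup f.Isom} {d : ℕ}
  {x : V}

local notation:75 g:76 " ⊳ " v:75 => (g : V ≃ₗ[F] V) v

variable (θ X x) in
/-- transvections induced on `L x` -/
def TvP (y w : L) : Prop := ∃ g ∈ X, ∀ a : L, g ⊳ (a • x) = (a + θ (a * y) • w) • x

variable (ψ X x) in
/-- elements of `X` trivial on `L x` and on the quotient -/
def QP (n : L → L) : Prop := ∃ g ∈ X, ∀ v, g ⊳ v = v + n (ψ.B x v) • x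

variable (θ s) in
/-- the elementary skew maps -/
def EE (ω p β : L) : L := θ (s ω * β) • p - θ (s p * β) • ω

theorem TvP.add {y w w' : L} (h : TvP θ X x y w) (h' : TvP θ X x y w') (e : θ (w' * y) = 0) :
    TvP θ X x y (w + w') := by
  obtain ⟨g, g1, g2⟩ := h
  obtain ⟨g', g1', g2'⟩ := h'
  exact ⟨g * g', X.mul_mem g1 g1', fun a => by
    rw [isom_mul_apply, g2', g2]; simp only [add_mul, smul_mul_assoc, map_add, map_smul, e]
    congr 1; module⟩

theorem TvP.inv {y w : L} {g : f.Isom} (g2 : ∀ a : L, g ⊳ (a • x) = (a + θ (a * y) • w) • x)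
    (e : θ (w * y) = 0) (a : L) : (g⁻¹ : f.Isom) ⊳ (a • x) = (a + θ (a * y) • -w) • x :=
  (g : V ≃ₗ[F] V).injective (by
    rw [isom_apply_inv_apply, g2]
    simp only [add_mul, smul_mul_assoc, neg_mul, map_add, map_smul, map_neg, e]
    congr 1; module)

theorem TvP.comm {y w y' w' : L} (h : TvP θ X x y w) (h' : TvP θ X x y' w') (e : θ (w * y) = 0)
    (e1 : θ (w' * y) = 0) (e2 : θ (w' * y') = 0) : TvP θ X x y (θ (w * y') • w') := by
  obtain ⟨g, g1, g2⟩ := h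
  obtain ⟨g', g1', g2'⟩ := h'
  exact ⟨g' * g * g'⁻¹ * g⁻¹, X.mul_mem (X.mul_mem (X.mul_mem g1' g1) (X.inv_mem g1'))
    (X.inv_mem g1), fun a => by
      rw [isom_mul_apply, isom_mul_apply, isom_mul_apply, TvP.inv g2 e, TvP.inv g2' e2, g2, g2']
      simp only [add_mul, smul_mul_assoc, neg_mul, map_add, map_smul, map_neg, e, e1, e2,
        smul_eq_mul]
      congr 1; module⟩

theorem QP.congr {n n' : L → L} (h : QP ψ X x n) (e : ∀ β, n β = n' β) : QP ψ X x n' :=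
  funext e ▸ h

theorem QP.zero : QP ψ X x fun _ => 0 := ⟨1, X.one_mem, fun v => by simp⟩

theorem QP.add (hx : ψ.Q x = 0) {n n' : L → L} (h : QP ψ X x n) (h' : QP ψ X x n') :
    QP ψ X x fun β => n β + n' β := by
  obtain ⟨g, g1, g2⟩ := h
  obtain ⟨g', g1', g2'⟩ := h'
  exact ⟨g * g', X.mul_mem g1 g1', fun a => by
    rw [isom_mul_apply, g2', g2]; simp [ψ.B_self_of_Q hx, add_smul]; abel⟩

theorem QP.sub (hx : ψ.Q x = 0) {n n' : L → L} (h : QP ψ X x n) (h' : QP ψ X x n') :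
    QP ψ X x fun β => n β - n' β := by
  obtain ⟨g, g1, g2⟩ := h'
  refine (h.add hx (n' := fun β => -n' β) ⟨g⁻¹, X.inv_mem g1, fun v => ?_⟩).congr
    fun β => (sub_eq_add_neg _ _).symm
  exact (g : V ≃ₗ[F] V).injective (by
    rw [isom_apply_inv_apply, g2]; simp [ψ.B_self_of_Q hx])

namespace UE
variable (h : UE θ f ψ X)
include h

theorem B_left (b : L) (x v : V) : f.B (b • x) v = θ (s b * ψ.B x v) := by
  rw [h.ext.B_eq, B_smul_left]; rfl

theorem qp_conj {g : f.Isom} (hg : g ∈ X) {T T' n : L → L} (hT : ∀ a, g ⊳ (a • x) = T a • x)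
    (hT' : ∀ a β, θ (a * T' β) = θ (s (T (s a)) * β)) (hn : QP ψ X x n) :
    QP ψ X x fun β => T (n (T' β)) := by
  obtain ⟨e, e1, e2⟩ := hn
  refine ⟨_, X.mul_mem (X.mul_mem hg e1) (X.inv_mem hg), fun v => ?_⟩
  have : ψ.B x ((g⁻¹ : f.Isom) ⊳ v) = T' (ψ.B x v) := θ_ext h.cmp.θ0 fun a => by
    rw [hT', ← h.B_left, ← hT, ← hs a, ← h.B_left, ← f.B_coe_map g, isom_apply_inv_apply, hs]
  rw [isom_mul_apply, isom_mul_apply, e2, map_add, isom_apply_inv_apply, hT, this]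

variable (x0 : x ≠ 0) (hx : ψ.Q x = 0)
include x0 hx

theorem tvp_tor {α y w : L} (α0 : α ≠ 0) (hα : Algebra.norm F (α * (s α)⁻¹) = 1)
    (H : TvP θ X x y w) : TvP θ X x (y / α) (α * w) := by
  obtain ⟨t, t1, t2⟩ := h.tor x0 hx α0 hα
  obtain ⟨g, g1, g2⟩ := H
  refine ⟨_, X.mul_mem (X.mul_mem t1 g1) (X.inv_mem t1), fun a => ?_⟩
  have : (t⁻¹ : f.Isom) ⊳ (a • x) = (a / α) • x := (t : V ≃ₗ[F] V).injective (by
    rw [isom_apply_inv_apply, t2, mul_div_cancel₀ _ α0])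
  rw [isom_mul_apply, isom_mul_apply, this, g2, t2, mul_add, mul_div_cancel₀ _ α0, mul_smul_comm,
    div_mul_eq_mul_div, mul_div_assoc]

theorem full {y w : L} (y0 : y ≠ 0) (w0 : w ≠ 0) (H : ∀ c : F, TvP θ X x y (c • w)) (ω p : L) :
    QP ψ X x (EE s θ ω p) := by
  have G : ∀ c, s c = -c → ∀ l : F, QP ψ X x fun β => EE s θ (l • w) (c * s y) β +
      (σ l * l * θ (c * s y * y) * θ (s w * β)) • w := fun c hc l => by
    obtain ⟨g, g1, g2⟩ := H l
    have q : QP ψ X x fun β => c * β := h.tv hx hc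
    refine ((h.qp_conj g1 g2 (T' := fun β => β + θ (s (l • w) * β) • s y) (fun a β => ?_) q).sub
      hx q).congr fun β => ?_
    · simp only [mul_add, add_mul, mul_smul_comm, smul_mul_assoc, map_add, map_smul, h.cmp.sF, hs,
        ← h.cmp.θs, map_mul s, smul_eq_mul]
      ring
    · simp only [EE, mul_add, add_mul, mul_smul_comm, smul_mul_assoc, map_add, map_smul, h.cmp.sF,
        hs, map_mul s, smul_eq_mul, hc, neg_mul, map_neg, mul_right_comm c β y]
      module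
  have G1 : ∀ c, s c = -c → ∀ l : F, QP ψ X x (EE s θ w (l • (c * s y))) := fun c hc l => by
    obtain ⟨η, hη⟩ := Kind.exists_trace_eq σ hσ h.cmp.ne 1 (map_one σ)
    refine ((G c hc (σ l)).sub hx (((G c hc (σ l + σ l * η)).sub hx (G c hc (σ l))).sub hx
      (G c hc (σ l * η)))).congr fun β => ?_
    simp only [EE, add_mul, smul_mul_assoc, map_add, map_smul, h.cmp.sF, hσ, map_mul σ, smul_eq_mul,
      eq_sub_of_add_eq' hη]
    module
  have G2 : ∀ p, QP ψ X x (EE s θ w p) := fun p => by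
    obtain ⟨t, t', η, h1, h2, e⟩ := h.cmp.skew (p / s y)
    rw [div_eq_iff (by simpa using y0)] at e
    refine ((G1 t h1 1).add hx (G1 t' h2 η)).congr fun β => ?_
    simp only [EE, e, add_mul, smul_mul_assoc, map_add, one_smul, smul_add]
    module
  have G3 : ∀ t, s t = t → ∀ p, QP ψ X x (EE s θ (t * w) p) := fun t ht p => by
    by_cases t0 : t = 0
    · exact QP.zero.congr fun β => by simp [EE, t0]
    obtain ⟨g, g1, g2⟩ := h.tor x0 hx t0 (by rw [ht, mul_inv_cancel₀ t0, map_one])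
    refine (h.qp_conj g1 g2 (T' := fun β => t * β) (fun a β => by
      rw [map_mul s, ht, hs]; congr 1; ring) (G2 (p / t))).congr fun β => ?_
    simp only [EE, mul_sub, mul_smul_comm, mul_div_cancel₀ _ t0, map_div₀, map_mul s, ht]
    congr 3
    · ring
    · field_simp
  obtain ⟨t, t', η, h1, h2, e⟩ := h.cmp.real (ω / w)
  rw [div_eq_iff w0] at e
  refine ((G3 t h1 p).add hx (G3 t' h2 (σ η • p))).congr fun β => ?_
  simp only [EE, e, add_mul, smul_mul_assoc, map_add, map_smul, h.cmp.sF, hσ, smul_add, smul_eq_mul]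
  module

theorem hu (H : ∀ ω p, QP ψ X x (EE s θ ω p)) : f.HU ψ X := fun z z0 hz a => by
  have k : ∀ ω p : L, f.Lev X (ω • x) (p • x) := fun ω p => by
    obtain ⟨g, g1, g2⟩ := H ω p
    refine ⟨0, ⟨h.ext.Q_zero _ (ψ.Q_smul_of_Q hx ω), h.ext.B_zero (by simp [ψ.B_self_of_Q hx]),
      by rw [map_zero, h.ext.Q_zero _ (ψ.Q_smul_of_Q hx p)]⟩, ?_⟩
    convert g1 using 1
    refine f.isom_ext fun v => ?_
    rw [g2, eichler_apply, h.B_left, h.B_left, EE, sub_smul, smul_assoc, smul_assoc]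
    simp [add_sub_assoc]
  obtain ⟨e, he, b, b0, e1⟩ := h.ext.nondeg.exists_Eich_smul h.rich hx x0 hz z0
  obtain ⟨g, g1, g2⟩ := h.eb e he
  have := (k b⁻¹ (a * b⁻¹)).map g1
  rwa [g2, g2, map_smul, map_smul, e1, inv_smul_smul₀ b0, mul_smul, inv_smul_smul₀ b0] at this

theorem lev (hU : f.HU ψ X) (v : V) (hv : f.B x v = 0) : f.Lev X x v := by
  have : FiniteDimensional F L := inferInstance
  have key : ∀ z, ψ.Q z = 0 → f.B x z = 0 → ψ.B x z ≠ 0 → f.Lev X x z := fun z hz h1 h2 => by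
    have z0 : z ≠ 0 := by rintro rfl; simp at h2
    have h3 : ψ.B z x ≠ 0 := fun e => h2 (ψ.eq_zero_symm e)
    have d1 := (θ ∘ₗ LinearMap.mulRight F (ψ.B x z)).finrank_range_add_finrank_ker
    have d2 := (LinearMap.range (θ ∘ₗ LinearMap.mulRight F (ψ.B x z))).finrank_le
    obtain ⟨k, k1, k2⟩ := exists_not_mem_of_lt (S := F ∙ (1 : L))
      (T := LinearMap.ker (θ ∘ₗ LinearMap.mulRight F (ψ.B x z)))
      (by rw [finrank_span_singleton one_ne_zero]; rw [finrank_self] at d2; have := h.five; omega)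
    obtain ⟨v, v1, v2⟩ := h.ext.nondeg'.exists_perp_B_eq' (W := F ∙ z) (u := k • z) (fun e => by
      obtain ⟨t, ht⟩ := Submodule.mem_span_singleton.1 e
      exact k2 (Submodule.mem_span_singleton.2 ⟨t, smul_left_injective L z0 (by simpa using ht)⟩))
      (-1)
    obtain ⟨c, hc, m⟩ := hU z z0 hz k
    have l := hU x x0 hx (ψ.B z v / ψ.B z x)
    have := (l.fix m (by
      rw [eichler_apply_of_B _ _ _ _ _ (f.eq_zero_symm h1), f.eq_zero_symm (show f.B x (k • z) = 0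
        from (h.ext.B_smul _ _ _).trans k1)]
      simp)).sub l
    rw [h.B_left] at v2
    rw [eichler_apply_of_B _ _ _ _ _ (by
      rw [h.ext.B_smul, div_mul_cancel₀ _ h3, ← h.ext.B_eq, f.mem_perp_span_singleton.1 v1]),
      h.B_left, map_smul, smul_eq_mul, div_mul_cancel₀ _ h3, v2] at this
    simpa using this
  obtain ⟨y, hy⟩ := h.ext.nondeg.exists_isHyp hx x0
  obtain ⟨a, ha⟩ := mem_lpt.1 (h.mem_of_B x0 x0 (ψ.B_self_of_Q hx) (p := v - ψ.B x v • y)
    (by simp [hy.B_xy]))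
  rw [← sub_add_cancel v (ψ.B x v • y), ← ha]
  refine (hU x x0 hx a).add ?_
  by_cases e : ψ.B x v = 0
  · simpa [e] using lev_zero (h.ext.Q_zero x hx)
  exact key _ (ψ.Q_smul_of_Q hy.Q_y _) (by rwa [h.ext.B_smul, hy.B_xy, mul_one, ← h.ext.B_eq])
    (by simpa [hy.B_xy] using e)

omit x0 hx in
theorem max : (∀ g ∈ X, f.Semi L g) ∨ f.Eich ≤ X := by
  rcases exists_maxI (ψ := ψ) X with hM | ⟨d, x, U, hd, hM, hP⟩
  · exact .inl fun g hg => h.semi hM hg
  have x0 := hP.x0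
  have hx := hP.Qx
  have t := h.tu hM hd hP.orb (orb_lpt x0 hx) hP.ne.symm (inf_comm U _ ▸ hP.dim)
  obtain ⟨u, hu, hn⟩ := hP.exists_right
  obtain ⟨a₀, ha₀⟩ := hP.exists_left
  have y0 : ψ.B u x ≠ 0 := fun e => hn (h.mem_of_B x0 x0 (ψ.B_self_of_Q hx) (ψ.eq_zero_symm e))
  have k0 : ∀ a : L, a • x ∈ U → θ (a * ψ.B u x) = 0 := fun a ha => by
    rw [← h.ext.B_smul, (h.ext.ts hP.orb).B_eq u hu _ ha]
  have k1 : ∀ a : L, ∃ c : F, a • x - c • a₀ • x ∈ U ∧
      θ (a * ψ.B u x) = c * θ (a₀ * ψ.B u x) := fun a => by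
    obtain ⟨c, hc⟩ := t.span _ (smul_mem_lpt a₀ x) ha₀ _ (smul_mem_lpt a x)
    have := k0 (a - c • a₀) (by rwa [sub_smul, smul_assoc])
    rw [sub_mul, smul_mul_assoc, map_sub, map_smul, sub_eq_zero] at this
    exact ⟨c, hc, this⟩
  have k2 : θ (a₀ * ψ.B u x) ≠ 0 := fun e => y0 (h.cmp.eq_zero fun a => by
    obtain ⟨c, -, hc⟩ := k1 a
    rw [hc, e, mul_zero])
  have sp : ∀ a, θ (a * ψ.B u x) = 0 → a ∈ Submodule.span F {w | θ (w * ψ.B u x) = 0 ∧
      ∀ c : F, σ c = c → TvP θ X x (ψ.B u x) (c • w)} := fun a ha => by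
    obtain ⟨c, hc, e⟩ := k1 a
    rw [ha, eq_comm, mul_eq_zero, or_iff_left k2] at e
    rw [e, zero_smul, sub_zero] at hc
    obtain ⟨b, hb, e⟩ := (Submodule.span_le (p := (Submodule.span F {w | θ (w * ψ.B u x) = 0 ∧
        ∀ c : F, σ c = c → TvP θ X x (ψ.B u x) (c • w)}).map
          ((LinearMap.toSpanSingleton L V x).restrictScalars F))).2 (fun v hv => by
      obtain ⟨b, rfl⟩ := mem_lpt.1 hv.1.2
      refine ⟨b, ?_, rfl⟩
      rw [← smul_inv_smul₀ k2 b]
      refine Submodule.smul_mem _ _ (Submodule.subset_span ⟨by simp [k0 b hv.1.1], fun c hc => ?_⟩)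
      obtain ⟨g, g1, g2, g3⟩ := hv.2 c hc
      refine ⟨g, g1, fun a => ?_⟩
      obtain ⟨c', hc', e⟩ := k1 a
      have := g2 _ hc'
      rw [map_sub, map_smul _ c', g3, sub_eq_iff_eq_add] at this
      rw [this, e, add_smul, smul_assoc, smul_assoc, smul_assoc]
      generalize a • x = A
      generalize b • x = B
      generalize a₀ • x = C
      match_scalars <;> field_simp <;> ring) (t.tv _ (smul_mem_lpt a₀ x) ha₀ ⟨hc, smul_mem_lpt a x⟩)
    rwa [← smul_left_injective L x0 e]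
  obtain ⟨w, w0, hw⟩ := h.cmp.line h.five y0 (R := {w | θ (w * ψ.B u x) = 0 ∧
      ∀ c : F, σ c = c → TvP θ X x (ψ.B u x) (c • w)})
    (fun a ha b hb => ⟨by rw [add_mul, map_add, ha.1, hb.1, add_zero], fun c hc => by
      rw [smul_add]; exact (ha.2 c hc).add (hb.2 c hc) (by simp [hb.1])⟩)
    (fun c hc a ha => ⟨by simp [ha.1], fun c' hc' => by
      rw [smul_smul]; exact ha.2 _ (by rw [map_mul, hc, hc'])⟩) sp
    (fun α α0 hα w hw w' hw' e => ⟨by simp [e], fun c hc => by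
      have := (hw.2 c hc).comm (h.tvp_tor x0 hx α0 hα (hw'.2 1 (map_one σ))) (by simp [hw.1])
        (by simpa using e) (by rw [← hw'.1, one_smul]; congr 1; field_simp)
      rwa [one_smul, smul_mul_assoc, map_smul, smul_assoc] at this⟩)
  have h3 : 3 ≤ finrank F V := by
    rw [← Module.finrank_mul_finrank F L V, h.two]; have := h.five; omega
  have hU := h.hu x0 hx (h.full x0 hx y0 w0 fun c => by simpa using (hw c).2 1 (map_one σ))
  exact .inr (h.ext.Eich_le (.inl h3) (fun w => h.ext.nondeg'.Tgrp_le_of_lev h3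
    (MaxGL.herm_hπ h.cmp.ne)) x0 hx fun w w0 hw => h.lev w0 hw hU)

end UE

theorem herm_herm_ext {F : Type*} [Field F] [Fintype F] {σ : F →+* F} {hσ : ∀ a, σ (σ a) = a}
    [Module F V] [FiniteDimensional F V] [Algebra F L] [IsScalarTower F L V]
    {f : Form (Kind.herm σ hσ) V} {X : Subgroup f.Isom} (hf : f.Nondeg)
    (hne : σ ≠ RingHom.id F) (hac : ∀ a : L, ∃ a' : L, ∀ u v, f.B (a • u) v = f.B u (a' • v))
    (hr : (finrank F L).Prime) (h5 : 5 ≤ finrank F L) (hn : finrank F V = finrank F L * 2)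
    (hX : f.LBase L X) : (∀ g ∈ X, f.Semi L g) ∨ f.Eich ≤ X := by
  have : Nontrivial V := Module.finrank_pos_iff.1 (by omega : 0 < finrank F V)
  have : FiniteDimensional F L := inferInstance
  obtain ⟨s, hs, hsa⟩ := hf.exists_inv hac
  have hF : ∀ (c : F) y, s (c • y) = σ c • s y := fun c y => by
    obtain ⟨v, v0⟩ := exists_ne (0 : V)
    refine smul_left_injective L v0 (sub_eq_zero.1 (hf _ fun u => f.eq_zero_symm ?_))
    simp [← hsa]
  obtain ⟨η, hη⟩ := Kind.exists_trace_eq σ hσ hne 1 (map_one σ)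
  obtain ⟨l, hl⟩ := Module.Projective.exists_dual_eq_one F (one_ne_zero (α := L))
  let θ : L →ₗ[F] F := ⟨⟨fun y => η * l y + σ (η * l (s y)), fun a b => by simp; ring⟩,
    fun c a => by simp [hF, hσ]; ring⟩
  have h : θ ≠ 0 := fun e => by simpa [θ, hl, hη] using LinearMap.congr_fun e 1
  have hθ : ∀ y, θ (s y) = σ (θ y) := fun y => by simp [θ, hs, hσ, add_comm]
  obtain ⟨Φ, hΦ⟩ := f.exists_sesq h
  have h1 : ∀ x y, Φ y x = s (Φ x y) := fun x y => θ_ext h fun a => by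
    rw [hΦ, f.herm_symm, hsa, ← hΦ, ← hθ, map_mul, hs]
  have h2 : ∀ x y z, Φ (x + y) z = Φ x z + Φ y z := fun x y z => by
    rw [h1, map_add, map_add, ← h1, ← h1]
  have C : Cmp σ s θ := ⟨hσ, hne, hs, hF, hθ, h⟩
  let ψ : Form (Kind.herm s hs) V := ⟨Φ, fun x => Φ x x, fun x y => by simp [h1 x y],
    fun x y => by simp [h2, h1 x y]; ring, fun a x => by
      rw [map_smul, h1, map_smul, smul_eq_mul, smul_eq_mul, map_mul, ← h1, mul_assoc]; rfl,
    fun x => (one_mul _).symm, fun x => Kind.exists_trace_eq s hs C.s_ne _ (h1 x x).symm⟩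
  have hB : ∀ u v, f.B u v = θ (ψ.B u v) := fun u v => by simpa using (hΦ u v 1).symm
  have hQ : ∀ u v, ψ.Q u = ψ.Q v → f.Q u = f.Q v := fun u v e => by
    rw [← f.herm_B_self, ← f.herm_B_self, hB, hB, ψ.herm_B_self, ψ.herm_B_self, e]
  refine UE.max ⟨C, hf.ext h hB hQ, fun e he => ⟨resI hB hQ e, hX _ ?_ e.1.map_smul, fun _ => rfl⟩,
    ?_, hr, h5⟩
  · rw [hf.herm_eq hne (by omega), mem_SIsom, ← Units.val_inj, coe_detHom, Units.val_one, ← he,
      coe_detHom, ← LinearMap.det_restrictScalars]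
    rfl
  · rw [← Module.finrank_mul_finrank F L V] at hn
    exact Nat.eq_of_mul_eq_mul_left (by omega) hn

end CA.H12Ue

namespace CA.MaxGL

open Cfsg Cfsg.Geo Matrix CA.AschBase CA.AschTForm CA.AschProp CA.AschFG CA.AschFG7 CA.AschO1
  CA.CForm CA.CForm.Form Module

theorem herm_max_ext_two {ι : Type} [Fintype ι] [DecidableEq ι] {F : Type*} [Field F] [Fintype F]
    {q : ℕ} (hF : Fintype.card F = q ^ 2) {φ : Form (hermKind hF) (ι → F)} (hφ : φ.Nondeg)
    (hG : QS (EG φ)) {r : ℕ} (hr : r.Prime) (h5 : 5 ≤ r) (hn : Fintype.card ι = r * 2)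
    {K : Subalgebra F (Matrix ι ι F)} (hK : IsFieldSubalgebra r K)
    (hac : IsAdjointClosedFor (fn φ) K) :
    IsMaximalIn (EG φ) (subalgebraNormalizer K ⊓ EG φ) := by
  have : Nonempty ι := Fintype.card_pos_iff.1 (by omega)
  obtain ⟨L, _, _, _, _, _, rfl, h1, h2, -⟩ := AschO2.exists_ext hK
  have := Module.Finite.right F L (ι → F)
  exact max_ext hK hG hr.ne_one h1 h2 fun X => H12Ue.herm_herm_ext hφ (conj_ne_id hF)
    (ac_of h1 h2 hac) hr h5 (by rwa [finrank_fun])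

end CA.MaxGL
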