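import Cfsg.Agent.Lib.Lin.H12Ue4

/-! Maximality of `GU_k(q^r).r` in `SU_{kr}(q)`, `k ≥ 4`, `r` an odd prime. -/

set_option autoImplicit false
set_option linter.unusedSectionVars false

namespace CA.H12Ue

open Module CA.CForm CA.CForm.Form

variable {F : Type*} [Field F] [Finite F] {σ : F →+* F} {hσ : ∀ a, σ (σ a) = a}
  {V : Type*} [AddCommGroup V] [Module F V] [FiniteDimensional F V]
  {L : Type*} [Field L] [Finite L] [Algebra F L] [Module L V] [IsScalarTower F L V]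
  [FiniteDimensional L V] {s : L →+* L} {hs : ∀ a, s (s a) = a} {θ : L →ₗ[F] F}
  {f : Form (Kind.herm σ hσ) V} {ψ : Form (Kind.herm s hs) V} {X : Subgroup f.Isom} {d : ℕ}

local notation:75 g:76 " ⊳ " v:75 => (g : V ≃ₗ[F] V) v

theorem Cmp.exists_z' (h : Cmp σ s θ) (h3 : 3 ≤ finrank F L) :
    ∃ a : L, a ≠ 0 ∧ Algebra.norm F (a * (s a)⁻¹) = 1 ∧ s a ≠ a := by
  by_contra H
  push Not at H
  let K : Subfield L := s.eqLocusField (RingHom.id L)
  let φ : Lˣ →* Lˣ := MonoidHom.id Lˣ / Units.map s.toMonoidHom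
  have hφ : ∀ a, (φ a : L) = a * (s a)⁻¹ := fun a => by simp [φ, div_eq_mul_inv]
  let N : Lˣ →* Fˣ := (Units.map (Algebra.norm F)).comp φ
  have c1 : Nat.card Lˣ ≤ Nat.card N.ker * Nat.card Fˣ := by
    rw [← N.ker.card_mul_index, Subgroup.index_ker]
    exact Nat.mul_le_mul_left _ (Subgroup.card_le_card_group _)
  have c2 : Nat.card N.ker ≤ Nat.card K :=
    Nat.card_le_card_of_injective (fun x : N.ker => (⟨(x.1 : L), H _ x.1.ne_zero (by
      rw [← hφ]; exact congrArg Units.val (MonoidHom.mem_ker.1 x.2))⟩ : K)) fun x y e =>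
        Subtype.ext (Units.ext (congrArg Subtype.val e))
  have c3 : Nat.card K ^ 2 ≤ Nat.card L := by
    rw [Module.natCard_eq_pow_finrank (K := K) (V := L)]
    refine Nat.pow_le_pow_right Nat.card_pos ?_
    by_contra n
    have : finrank K L = 1 := by have := finrank_pos (R := K) (M := L); omega
    refine h.s_ne (RingHom.ext fun a => ?_)
    obtain ⟨t, ht⟩ := (finrank_eq_one_iff_of_nonzero' (1 : L) one_ne_zero).1 this a
    rw [← ht, Subfield.smul_def, smul_eq_mul, mul_one]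
    exact t.2
  rw [Nat.card_units, Nat.card_units] at *
  have c4 := Module.natCard_eq_pow_finrank (K := F) (V := L)
  have c5 : Nat.card F ^ 3 ≤ Nat.card L := c4 ▸ Nat.pow_le_pow_right Nat.card_pos h3
  have c6 : 1 < Nat.card F := Finite.one_lt_card
  have c7 : 0 < Nat.card K := Nat.card_pos
  generalize Nat.card F = n at *
  generalize Nat.card L = l at *
  generalize Nat.card K = k at *
  obtain ⟨n, rfl⟩ : ∃ m, n = m + 1 := ⟨n - 1, by omega⟩
  simp only [Nat.add_sub_cancel] at *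
  have d1 : l ≤ (n + 1) * k := by
    have := c1.trans (Nat.mul_le_mul_right _ c2)
    have : l ≤ k * n + 1 := by omega
    nlinarith
  have d2 : l * l ≤ (n + 1) ^ 2 * l := calc
    l * l ≤ ((n + 1) * k) * ((n + 1) * k) := Nat.mul_le_mul d1 d1
    _ = (n + 1) ^ 2 * k ^ 2 := by ring
    _ ≤ _ := Nat.mul_le_mul_left _ c3
  have d3 : l ≤ (n + 1) ^ 2 := Nat.le_of_mul_le_mul_right d2
    ((Nat.pow_pos (Nat.succ_pos n)).trans_le c5)
  have := Nat.pow_lt_pow_right c6 (show 2 < 3 by omega)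
  omega

variable (f ψ θ X) in
/-- the standing hypotheses -/
structure UF : Prop where
  cmp : Cmp σ s θ
  ext : f.Ext ψ θ
  nb : ∀ e : ψ.Isom, Algebra.norm F (ψ.detHom e : L) = 1 → ∃ g ∈ X, ∀ v, g ⊳ v = e.1 v
  four : 4 ≤ finrank L V
  pr : (finrank F L).Prime
  ne2 : finrank F L ≠ 2

namespace UF
variable (h : UF θ f ψ X)
include h

theorem eb : f.EBase ψ X := fun e he => h.nb e (by
  rw [mem_SIsom.1 (ψ.Eich_le_SIsom he), Units.val_one, map_one])

theorem ll_mul {x : V} (x0 : x ≠ 0) (hx : ψ.Q x = 0)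
    {φ : V → L} (hφ : f.LL ψ X x φ) (a : L) : f.LL ψ X x fun v => a * φ v := by
  obtain ⟨y, hy⟩ := h.ext.nondeg.exists_isHyp hx x0
  have key : ∀ α : L, (α ≠ 0 → Algebra.norm F (α * (s α)⁻¹) = 1) →
      f.LL ψ X x fun v => α * φ v := fun α hα => by
    by_cases s0 : α = 0
    · exact ⟨1, X.one_mem, by simp [s0], by simp⟩
    obtain ⟨g, g1, g2⟩ := h.nb (hy.torus (Units.mk0 α s0)) (by
      rw [hy.detHom_torus]; exact hα s0)
    have e1 : ∀ a : L, g ⊳ (a • x) = (α * a) • x := fun a => by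
      rw [g2, map_smul, hy.torus_apply_x, smul_smul, mul_comm]; rfl
    obtain ⟨g', g1', g2', g3'⟩ := hφ
    refine ⟨_, X.mul_mem (X.mul_mem g1 g1') (X.inv_mem g1), fun v hv => ?_, fun a => ?_⟩
    · obtain ⟨c, hc⟩ : ∃ c : L, (g⁻¹ : f.Isom) ⊳ v = v + c • x := by
        have e2 := g2 v
        rw [hy.torus_apply, hv, mul_zero, zero_smul, add_zero] at e2
        generalize (_ * ψ.B y v : L) = c at e2
        exact ⟨-(α⁻¹ * c), (g : V ≃ₗ[F] V).injective (by
          rw [isom_apply_inv_apply, map_add, e1, e2, mul_neg, mul_inv_cancel_left₀ s0]; simp)⟩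
      rw [isom_mul_apply, isom_mul_apply, hc, map_add, g2' v hv, g3', add_right_comm, map_add, e1,
        ← hc, isom_apply_inv_apply]
    · rw [isom_mul_apply, isom_mul_apply, ← mul_inv_cancel_left₀ s0 a, ← e1,
        isom_inv_apply_apply, g3']
  obtain ⟨z, z0, hz, zn⟩ := h.cmp.exists_z' (by have := h.pr.two_le; have := h.ne2; omega)
  have n : z - s z ≠ 0 := sub_ne_zero.2 zn.symm
  have n' : s z - z ≠ 0 := sub_ne_zero.2 zn
  obtain ⟨t, ht⟩ : ∃ t, t = (a - s a) / (z - s z) := ⟨_, rfl⟩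
  have r1 : s t = t := by
    rw [ht, map_div₀, map_sub, map_sub, hs, hs]
    field_simp
    ring
  have r2 : s (a - z * t) = a - z * t := by
    rw [map_sub, map_mul, r1, ht]
    field_simp
    ring
  exact ((key (a - z * t) fun e => by rw [r2, mul_inv_cancel₀ e, map_one]).add (key (z * t) fun e => by
    have := right_ne_zero_of_mul e
    rw [map_mul s, r1, ← hz]; congr 1; field_simp)).congr fun v _ => by ring

theorem key {x : V} (x0 : x ≠ 0) (hx : ψ.Q x = 0) {τ : f.Isom} (hτ : τ ∈ X)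
    (hs : f.act τ (lpt F L x) = lpt F L x)
    (hq : ∀ v ∈ lpt F L x, τ ⊳ (τ ⊳ v - v) = τ ⊳ v - v) (hne : ∃ v ∈ lpt F L x, τ ⊳ v ≠ v)
    (a : L) {b : V} (hB : ψ.B x b = 0) : f.LL ψ X x fun v => f.B b v • a := by
  let R : Subalgebra F (End F L) :=
    { carrier := {ρ | ∀ φ, f.LL ψ X x φ → f.LL ψ X x fun v => ρ (φ v)}
      mul_mem' := fun a b φ hφ => a _ (b φ hφ)
      add_mem' := fun a b φ hφ => (a φ hφ).add (b φ hφ)
      algebraMap_mem' := fun c φ hφ => (h.ll_mul x0 hx hφ (algebraMap F L c)).congr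
        fun v _ => by simp [Algebra.smul_def] }
  have hK : ∀ a, LinearMap.mulLeft F a ∈ R := fun a φ hφ => h.ll_mul x0 hx hφ a
  have hs' : f.act τ⁻¹ (lpt F L x) = lpt F L x := by rw [← hs, act_inv_act, hs]
  obtain ⟨T, hT1⟩ := exists_bar x0 hs
  obtain ⟨T', hT'⟩ := exists_bar x0 hs'
  have e1 : ∀ a, T' (T a) = a := fun a => smul_left_injective L x0 (by
    simp only [← hT', ← hT1, isom_inv_apply_apply])
  have hR : R = ⊤ := subalg_eq_top h.pr R hK (by
    by_contra hn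
    push Not at hn
    have e2 : ∀ c y, T (c * y) = T y * T (c * T' 1) := fun c y => by
      have := hn (T * LinearMap.mulLeft F c * T') (fun φ hφ => (h.ext.ll_conj (hK c _
        (h.ext.ll_conj hφ (X.inv_mem hτ) hs' hT')) hτ hs hT1).congr fun v _ => by simp) (T y) 1
      simpa [e1] using this
    obtain ⟨_, hv, hne⟩ := hne
    obtain ⟨c, rfl⟩ := mem_lpt.1 hv
    have e3 : ∀ a, T (T a - a) = T a - a := fun a => smul_left_injective L x0 (by
      simpa only [← hT1, sub_smul] using hq _ (smul_mem_lpt a x))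
    have n : T c - c ≠ 0 := fun e => hne (by rw [hT1, sub_eq_zero.1 e])
    have e4 := e3 c
    generalize hw : T c - c = w at n e4
    obtain ⟨c, rfl⟩ : ∃ c', c = c' * w := ⟨c / w, (div_mul_cancel₀ _ n).symm⟩
    have e5 : T (c * T' 1) = c + 1 := mul_left_cancel₀ n (by
      have := e2 c w
      rw [e4] at this
      linear_combination hw - this)
    have e6 := e3 (c * (c * w))
    rw [e2 c (c * w), e5, sub_eq_iff_eq_add.1 hw, show (w + c * w) * (c + 1) - c * (c * w) =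
      c * w + c * w + w by ring, map_add, map_add, e4, sub_eq_iff_eq_add.1 hw] at e6
    have h2 : (2 : L) = 0 := (mul_eq_zero.1 (show 2 * w = 0 by
      linear_combination e6)).resolve_right n
    have e7 : ∀ y, T (T' y) = y := fun y => smul_left_injective L x0 (by
      simp only [← hT', ← hT1, isom_apply_inv_apply])
    let ρ : L →ₐ[F] L := AlgHom.ofLinearMap (T ∘ₗ LinearMap.mulRight F (T' 1)) (by simp [e7])
      fun a b => by
        simp only [LinearMap.comp_apply, LinearMap.mulRight_apply]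
        rw [mul_assoc, e2, mul_comm]
    let ρ' := AlgEquiv.ofBijective ρ ρ.bijective
    have e9 : ∀ m : ℕ, (ρ' ^ m) c = c + m := fun m => by
      induction m with
      | zero => simp
      | succ m ih =>
        rw [pow_succ', AlgEquiv.mul_apply, ih, map_add, map_natCast]
        change T (c * T' 1) + _ = _
        rw [e5]; push_cast; ring
    have e10 := e9 (finrank F L)
    rw [← IsGalois.card_aut_eq_finrank, pow_card_eq_one', IsGalois.card_aut_eq_finrank] at e10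
    obtain ⟨m, hm⟩ := h.pr.odd_of_ne_two h.ne2
    rw [hm] at e10
    push_cast at e10
    rw [AlgEquiv.one_apply] at e10
    exact one_ne_zero (show (1 : L) = 0 by linear_combination -e10 - (m : L) * h2))
  obtain ⟨g, g1, g2, -⟩ := h.eb.eich' hx (w := -b) (by simp [hB])
  refine (hR.ge (Algebra.mem_top (x := θ.smulRight a)) (fun v => ψ.B b v) ⟨g, g1, fun v hv => ?_,
    fun c => ?_⟩).congr fun v _ => by simp [h.ext.B_eq]
  · simp [g2 v hv]
  · simp [g2 _ (show ψ.B x (c • x) = 0 by simp [ψ.B_self_of_Q hx]), ψ.eq_zero_symm hB]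

theorem quad {x : V} {U : Submodule F V}
    (hM : f.MaxI ψ X d) (hd : 0 < d) (hP : f.Pair ψ X d x U) (hp : ∀ u ∈ U, ψ.B x u = 0) :
    f.Eich ≤ X := by
  have hb := h.eb
  have hr := h.pr
  have h3 : 3 ≤ finrank L V := h.four.trans' (by omega)
  have hπ := MaxGL.herm_hπ (hs := hσ) h.cmp.ne
  have h3' : 3 ≤ finrank F V := by
    rw [← Module.finrank_mul_finrank F L V]; nlinarith [hr.pos]
  obtain ⟨u, hu, hn⟩ := hP.exists_right
  obtain ⟨w, hw, w0⟩ := hP.exists_mem hd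
  obtain ⟨a, rfl⟩ := mem_lpt.1 hw.1
  obtain ⟨b, b1, b2⟩ := h.ext.nondeg.exists_perp_B_eq (W := L ∙ x) hn (-a)
  obtain ⟨e, he, e1, -⟩ := hb.eich' hP.Qx (ψ.mem_perp_span_singleton.1 b1)
  have fx : ∀ v ∈ lpt F L x, e ⊳ v = v := fun v hv => by
    simp [e1 v (h.ext.mem_perp.1 ((h.ext.ts_lpt hP.Qx).le_perp hv)), ψ.eq_zero_symm (b1 v hv)]
  have e2 : e ⊳ u = u + a • x := by simp [e1 u (hp u hu), b2]
  have e3 := hM.act_eq hP.orb inf_le_right hP.dim he (fun v hv => fx v hv.1) hu (fun e => hn e.1)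
    (e2 ▸ U.add_mem hu hw.2)
  obtain ⟨g, hg, z, z0, hz, rfl⟩ := hP.orb
  have hτ := X.mul_mem (X.mul_mem (X.inv_mem hg) he) hg
  refine h.ext.Eich_le (.inl h3') (fun w => h.ext.nondeg'.Tgrp_le_of_lev h3' hπ) z0 hz
    (h.ext.grow hb h3 z0 hz fun w hw b hB => h.ext.lev_of_ll h3 hπ z0 hz (fun a b => h.key z0 hz
      hτ (by rw [act_mul, act_mul, e3, act_inv_act]) (fun v hv => ?_)
      ⟨_, f.mem_act.1 hu, fun e => w0 ?_⟩ a) hw hB)
  · have := e1 _ (hp _ (f.apply_mem_act.2 hv))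
    simp only [isom_mul_apply, map_sub, isom_apply_inv_apply, this, isom_inv_apply_apply,
      fx _ (smul_mem_lpt _ x)]
    abel
  · rw [isom_mul_apply, isom_mul_apply, isom_apply_inv_apply, e2, map_add] at e
    simpa using e

theorem max : (∀ g ∈ X, f.Semi L g) ∨ f.Eich ≤ X := by
  have h4 := h.four
  have hne := h.cmp.s_ne
  have hn := h.ext.nondeg
  rcases exists_maxI (ψ := ψ) X with hM | ⟨d, x, U, hd, hM, hP⟩
  · exact .inl fun g hg => herm_semi hne hn (by omega) (h.ext.presP_tv h.eb hM (fun v hv => by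
      simpa [ψ.B_self] using hv) (ψ.iso_herm hne) (by omega) (herm_exists_π_eq_zero hs hne) hg)
  have key : ∀ {x U}, f.Pair ψ X d x U → ∀ p ∈ U, p ∉ lpt F L x → ψ.B x p = 0 → f.Eich ≤ X :=
    fun hP p h1 h3 h5 => h.quad hM hd hP (h.ext.perp_of h.eb h4 hM hd hP h1 h3 h5)
  right
  by_contra hX
  have W1 : ∀ p ∈ U, ψ.B x p = 0 → p ∈ lpt F L x := fun p h1 h3 => by
    by_contra h5; exact hX (key hP p h1 h5 h3)
  obtain ⟨u, hu, hu'⟩ := hP.exists_right
  have κ : ψ.B x u ≠ 0 := fun e => hu' (W1 u hu e)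
  obtain ⟨x', h1, hh⟩ := hn.exists_isHyp_mem (U := Submodule.span L {u, x}) hP.Qx
    (Submodule.subset_span (by simp)) fun e => κ (ψ.eq_zero_symm (ψ.mem_perp_span_pair.1 e).1)
  have h3 : u ∈ Submodule.span L {x, x'} := Set.pair_comm x x' ▸ mem_span_insert_exchange h1
    fun e => by
      obtain ⟨t, rfl⟩ := Submodule.mem_span_singleton.1 e
      simpa [hh.B_xx] using hh.B_xy
  have hx : ∀ v ∈ lpt F L x, v ∈ Submodule.span L {x, x'} := fun v hv =>
    Submodule.span_mono (by simp) hv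
  have dj := Submodule.disjoint_def.1 hh.isCompl.disjoint
  obtain ⟨a, a1, a0, a2⟩ := ψ.iso_herm hne (ψ.perp (Submodule.span L {x, x'}))
    (by have := hh.finrank_perp; omega)
  obtain ⟨c, c0, hc⟩ := exists_skew hs hne
  have A : ∀ v ∈ U, v ∈ Submodule.span L {x, x'} := fun v hv => by
    obtain ⟨a', a1', ha⟩ := hn.exists_isHyp_mem a2 a1 fun e => a0 (dj a (by rwa [hn.perp_perp] at e) a1)
    rw [← hn.perp_perp (Submodule.span L {x, x'})]
    refine fun z hz => ha.induction_singular a1 a1' (P := fun z => ψ.B z v = 0)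
      (fun a b e e' => by simp [e, e']) (fun z hz hQ => ?_) hz
    obtain ⟨g, g1, g2⟩ := h.eb.eich (ψ.eichlerCond_zero hQ (c := c) (by simp [hc]))
    have fx : ∀ p ∈ Submodule.span L {x, x'}, g ⊳ p = p := fun p hp => by
      simp [g2, ψ.eq_zero_symm (hz p hp)]
    have m := U.sub_mem ((hM.act_eq hP.orb inf_le_right hP.dim g1 (fun w hw => fx w (hx w hw.1)) hu
      (fun e => hu' e.1) (by rwa [fx u h3])).le (f.apply_mem_act.2 hv)) hv
    simp only [g2, smul_zero, add_zero, B_zero_left, zero_add, Kind.herm_ε, one_mul,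
      sub_sub_cancel_left, neg_mem_iff] at m
    have := dj _ (hx _ (W1 _ m (by simp [(ψ.mem_perp_span_pair.1 hz).1]))) (Submodule.smul_mem _ _ hz)
    by_contra n
    rw [smul_eq_zero, or_iff_right (mul_ne_zero c0 n)] at this
    simp [this] at n
  have a3 := (ψ.mem_perp_span_pair.1 a1).1
  obtain ⟨g, g1, g2⟩ := h.eb.eich (x := x) (w := a) (c := 0) ⟨hP.Qx, a3, by simp [a2]⟩
  have e1 : g ⊳ u = u + ψ.B x u • a := by simp [g2, ψ.eq_zero_symm (a1 u h3)]
  have n : g ⊳ u ∉ U := fun e => by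
    have m := A _ (U.sub_mem e hu)
    rw [e1, add_sub_cancel_left] at m
    exact smul_ne_zero κ a0 (dj _ m (Submodule.smul_mem _ _ a1))
  obtain ⟨z, g₀, -, e, hP'⟩ := hP.move hM g1 (fun v hv => by
    obtain ⟨b, rfl⟩ := mem_lpt.1 hv.1
    simp [g2, ψ.B_self_of_Q hP.Qx, ψ.eq_zero_symm a3]) hu n
  refine hX (key hP' _ (f.apply_mem_act.2 (f.apply_mem_act.2 hu)) (fun e' => n (e ▸ f.mem_act.2 e'))
    (h.ext.mem_perp.1 (f.mem_act.1 ?_)))
  rw [act_perp, ← e]
  intro p hp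
  rw [e1, map_add, (h.ext.ts hP.orb).B_eq p hp u hu, h.ext.B_smul, a1 p (A p hp)]
  simp

end UF

theorem exists_data {F : Type*} [Field F] [Fintype F] {σ : F →+* F} {hσ : ∀ a, σ (σ a) = a}
    [Module F V] [FiniteDimensional F V] [Algebra F L] [IsScalarTower F L V]
    {f : Form (Kind.herm σ hσ) V} {X : Subgroup f.Isom} (hf : f.Nondeg)
    (hne : σ ≠ RingHom.id F) (hac : ∀ a : L, ∃ a' : L, ∀ u v, f.B (a • u) v = f.B u (a' • v))
    (hn : 2 ≤ finrank F V) (hX : f.LBase L X) :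
    ∃ (s : L →+* L) (hs : ∀ a, s (s a) = a) (θ : L →ₗ[F] F) (ψ : Form (Kind.herm s hs) V),
      Cmp σ s θ ∧ f.Ext ψ θ ∧ ∀ e : ψ.Isom, Algebra.norm F (ψ.detHom e : L) = 1 →
        ∃ g ∈ X, ∀ v, g.1 v = e.1 v := by
  have : Nontrivial V := Module.finrank_pos_iff.1 (by omega : 0 < finrank F V)
  have : FiniteDimensional F L := inferInstance
  obtain ⟨s, hs, hsa⟩ := hf.exists_inv hac
  have hF : ∀ (c : F) y, s (c • y) = σ c • s y := fun c y => by
    obtain ⟨v, v0⟩ := exists_ne (0 : V)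
    refine smul_left_injective L v0 (sub_eq_zero.1 (hf _ fun u => f.eq_zero_symm ?_))
    simp [← hsa]
  obtain ⟨η, hη⟩ := Kind.exists_trace_eq σ hσ hne 1 (map_one σ)
  obtain ⟨l, hl⟩ := Module.Projective.exists_dual_eq_one F (one_ne_zero (α := L))
  let θ : L →ₗ[F] F := ⟨⟨fun y => η * l y + σ (η * l (s y)), fun a b => by simp; ring⟩,
    fun c a => by simp [hF, hσ]; ring⟩
  have h : θ ≠ 0 := fun e => by simpa [θ, hl, hη] using LinearMap.congr_fun e 1
  have hθ : ∀ y, θ (s y) = σ (θ y) := fun y => by simp [θ, hs, hσ, add_comm]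
  obtain ⟨Φ, hΦ⟩ := f.exists_sesq h
  have h1 : ∀ x y, Φ y x = s (Φ x y) := fun x y => θ_ext h fun a => by
    rw [hΦ, f.herm_symm, hsa, ← hΦ, ← hθ, map_mul, hs]
  have h2 : ∀ x y z, Φ (x + y) z = Φ x z + Φ y z := fun x y z => by
    rw [h1, map_add, map_add, ← h1, ← h1]
  have C : Cmp σ s θ := ⟨hσ, hne, hs, hF, hθ, h⟩
  let ψ : Form (Kind.herm s hs) V := ⟨Φ, fun x => Φ x x, fun x y => by simp [h1 x y],
    fun x y => by simp [h2, h1 x y]; ring, fun a x => by
      rw [map_smul, h1, map_smul, smul_eq_mul, smul_eq_mul, map_mul, ← h1, mul_assoc]; rfl,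
    fun x => (one_mul _).symm, fun x => Kind.exists_trace_eq s hs C.s_ne _ (h1 x x).symm⟩
  have hB : ∀ u v, f.B u v = θ (ψ.B u v) := fun u v => by simpa using (hΦ u v 1).symm
  have hQ : ∀ u v, ψ.Q u = ψ.Q v → f.Q u = f.Q v := fun u v e => by
    rw [← f.herm_B_self, ← f.herm_B_self, hB, hB, ψ.herm_B_self, ψ.herm_B_self, e]
  refine ⟨s, hs, θ, ψ, C, hf.ext h hB hQ, fun e he =>
    ⟨resI hB hQ e, hX _ ?_ e.1.map_smul, fun _ => rfl⟩⟩
  rw [hf.herm_eq hne hn, mem_SIsom, ← Units.val_inj, coe_detHom, Units.val_one, ← he,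
    coe_detHom, ← LinearMap.det_restrictScalars]
  rfl

end CA.H12Ue

namespace CA.MaxGL

open Cfsg Cfsg.Geo Matrix CA.AschBase CA.AschTForm CA.AschProp CA.AschFG CA.AschFG7 CA.AschO1
  CA.CForm CA.CForm.Form Module

theorem herm_max_ext_four {ι : Type} [Fintype ι] [DecidableEq ι] {F : Type*} [Field F] [Fintype F]
    {q : ℕ} (hF : Fintype.card F = q ^ 2) {φ : Form (hermKind hF) (ι → F)} (hφ : φ.Nondeg)
    (hG : QS (EG φ)) {r : ℕ} (hr : r.Prime) (h2 : r ≠ 2) (hn : 3 * r < Fintype.card ι)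
    {K : Subalgebra F (Matrix ι ι F)} (hK : IsFieldSubalgebra r K)
    (hac : IsAdjointClosedFor (fn φ) K) :
    IsMaximalIn (EG φ) (subalgebraNormalizer K ⊓ EG φ) := by
  have : Nonempty ι := Fintype.card_pos_iff.1 (by omega)
  obtain ⟨L, _, _, _, _, _, rfl, h1, h2', -⟩ := AschO2.exists_ext hK
  have := Module.Finite.right F L (ι → F)
  refine max_ext hK hG hr.ne_one h1 h2' fun X hX => ?_
  obtain ⟨s, hs, θ, ψ, a, b, c⟩ := H12Ue.exists_data hφ (conj_ne_id hF) (ac_of h1 h2' hac)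
    (by rw [finrank_fun]; have := hr.pos; omega) hX
  refine H12Ue.UF.max ⟨a, b, c, ?_, hr, h2⟩
  rw [← finrank_fun (F := F), ← Module.finrank_mul_finrank F L (ι → F), mul_comm] at hn
  exact lt_of_mul_lt_mul_left hn (Nat.zero_le _)

end CA.MaxGL
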