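import Cfsg.Agent.Lib.Lin.H12Ue3

/-! Field extension subgroups of unitary groups: the cubic case. -/

set_option autoImplicit false
set_option linter.unusedSectionVars false

namespace CA.H12Ue

open Module CA.CForm CA.CForm.Form

variable {F : Type*} [Field F] [Fintype F] {q : ℕ} {hF : Fintype.card F = q ^ 2}
  {L : Type*} [Field L] [Finite L] [Algebra F L] {s : L →+* L} {θ : L →ₗ[F] F}

namespace Cmp
variable (h : Cmp (conj hF) s θ)
include h

theorem norm_s (a : L) : Algebra.norm F (s a) = conj hF (Algebra.norm F a) := by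
  have : FiniteDimensional F L := inferInstance
  exact (Algebra.norm_eq_of_equiv_equiv
    (RingEquiv.ofBijective (conj hF) (Function.Involutive.bijective h.σσ))
    (RingEquiv.ofBijective s (Function.Involutive.bijective h.ss))
    (RingHom.ext fun c => (h.s_alg c).symm) (s a)).trans (by
      rw [RingEquiv.symm_apply_eq]
      simp [h.ss, h.σσ])

theorem count3 (h3 : finrank F L = 3) (hq : 3 ≤ q) (f : L → Option {x : F // x ^ q = x}) :
    ∃ α β : L, α ≠ 0 ∧ β ≠ 0 ∧ Algebra.norm F (α * (s α)⁻¹) = 1 ∧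
      Algebra.norm F (β * (s β)⁻¹) = 1 ∧ f α = f β ∧
        ∀ c : F, α / β * (s (α / β))⁻¹ ≠ algebraMap F L c := by
  classical
  have : FiniteDimensional F L := inferInstance
  by_contra H
  push Not at H
  let K : Subfield L := s.eqLocusField (RingHom.id L)
  let φ : Lˣ →* Lˣ := MonoidHom.id Lˣ / Units.map s.toMonoidHom
  have hφ : ∀ a, (φ a : L) = a * (s a)⁻¹ := fun a => by simp [φ, div_eq_mul_inv]
  let N : Lˣ →* Fˣ := (Units.map (Algebra.norm F)).comp φ
  have hN : ∀ a : N.ker, Algebra.norm F (a.1 * (s a.1)⁻¹) = 1 := fun a => by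
    rw [← hφ]; exact congrArg Units.val (MonoidHom.mem_ker.1 a.2)
  have c1 : Nat.card Lˣ ≤ Nat.card N.ker * (q + 1) := by
    rw [← N.ker.card_mul_index, Subgroup.index_ker]
    refine Nat.mul_le_mul_left _ ?_
    rw [← card_pow_eq_one (F := F) (d := q + 1) (by
      rw [hF]; exact ⟨q - 1, by rw [← Nat.sq_sub_sq]⟩) (by omega)]
    refine Nat.card_le_card_of_injective (fun x : N.range => ⟨x.1, ?_⟩) fun x y e =>
      Subtype.ext (Units.ext (congrArg Subtype.val e))
    obtain ⟨_, a, rfl⟩ := x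
    change Algebra.norm F (φ a : L) ^ (q + 1) = 1
    rw [pow_succ, ← conj_apply hF, ← h.norm_s, ← map_mul, hφ, map_mul s, map_inv₀, h.ss,
      show s a * (a : L)⁻¹ * (a * (s a)⁻¹) = 1 by
        have : s a ≠ 0 := by simp
        field_simp, map_one]
  let ι : Fˣ →* Lˣ := Units.map (algebraMap F L).toMonoidHom
  let A : Subgroup N.ker := ι.range.comap (φ.comp N.ker.subtype)
  have c2 : A.index ≤ q + 1 := by
    rw [← card_conj_fixed hF, ← Finite.card_option]
    refine Nat.card_le_card_of_injective (fun x : N.ker ⧸ A => f (x.out.1 : L)) fun x y e => ?_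
    obtain ⟨c, hc⟩ := H _ _ y.out.1.ne_zero x.out.1.ne_zero (hN _) (hN _) e.symm
    rw [← x.out_eq, ← y.out_eq]
    refine QuotientGroup.eq.2 ⟨Units.mk0 c (by rintro rfl; simp at hc), Units.ext ?_⟩
    change algebraMap F L c = φ _
    rw [← hc, hφ]
    simp [div_eq_inv_mul]
  have c3 : Nat.card A ≤ Nat.card {x : F // x ^ 3 = 1 ∧ x ^ (q + 1) = 1} * (Nat.card K - 1) := by
    let ρ := (φ.comp N.ker.subtype).comp A.subtype
    rw [← ρ.ker.card_mul_index, Subgroup.index_ker, mul_comm, ← Nat.card_units]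
    refine Nat.mul_le_mul ?_ ?_
    · have e : ∀ x : ρ.range, ∃ c : F, algebraMap F L c = x.1 ∧ c ^ 3 = 1 ∧ c ^ (q + 1) = 1 := by
        rintro ⟨_, ⟨a, c, hc⟩, rfl⟩
        have hc' : algebraMap F L c = a.1 * (s a.1)⁻¹ := (congrArg Units.val hc).trans (hφ _)
        refine ⟨c, congrArg Units.val hc, ?_, (algebraMap F L).injective ?_⟩
        · rw [← h3, ← Algebra.norm_algebraMap, hc', hN]
        · have : s a.1 ≠ 0 := by simp
          rw [pow_succ, ← conj_apply hF, map_mul, ← h.s_alg, hc', map_mul s, map_inv₀, h.ss,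
            map_one]
          field_simp
      choose c hc using e
      exact Nat.card_le_card_of_injective (fun x => ⟨c x, (hc x).2⟩) fun x y e =>
        Subtype.ext (Units.ext (by rw [← (hc x).1, ← (hc y).1, Subtype.mk.inj e]))
    · have e : ∀ x : ρ.ker, (x.1.1.1 : L) ∈ K := fun x => by
        have := (hφ x.1.1.1).symm.trans (congrArg Units.val (MonoidHom.mem_ker.1 x.2))
        change s _ = (x.1.1.1 : L)
        rw [Units.val_one, mul_inv_eq_one₀ (by simp)] at this
        exact this.symm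
      exact Nat.card_le_card_of_injective (fun x : ρ.ker => Units.mk0 (⟨_, e x⟩ : K)
        fun e => x.1.1.1.ne_zero (congrArg Subtype.val e)) fun x y e =>
          Subtype.ext (Subtype.ext (Subtype.ext (Units.ext
            (congrArg (fun t : Kˣ => (t : L)) e))))
  have c4 : Nat.card K ^ 2 ≤ Nat.card L := by
    rw [Module.natCard_eq_pow_finrank (K := K) (V := L)]
    refine Nat.pow_le_pow_right Nat.card_pos ?_
    by_contra n
    have : finrank K L = 1 := by have := finrank_pos (R := K) (M := L); omega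
    refine h.s_ne (RingHom.ext fun a => ?_)
    obtain ⟨t, ht⟩ := (finrank_eq_one_iff_of_nonzero' (1 : L) one_ne_zero).1 this a
    rw [← ht, Subfield.smul_def, smul_eq_mul, mul_one]
    exact t.2
  have c5 := Module.natCard_eq_pow_finrank (K := F) (V := L)
  rw [h3, Nat.card_eq_fintype_card (α := F), hF, ← pow_mul, mul_comm, pow_mul] at c5
  rw [Nat.card_units, c5, ← A.card_mul_index] at c1
  replace c4 := (Nat.pow_le_pow_iff_left two_ne_zero).1 (c5 ▸ c4)
  have c6 : (q ^ 3 + 1) * (q ^ 3 - 1) ≤ Nat.card {x : F // x ^ 3 = 1 ∧ x ^ (q + 1) = 1} *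
      (q + 1) * (q + 1) * (q ^ 3 - 1) := by
    rw [← Nat.sq_sub_sq, one_pow]
    refine c1.trans ((Nat.mul_le_mul_right _ (Nat.mul_le_mul
      (c3.trans (Nat.mul_le_mul_left _ (Nat.sub_le_sub_right c4 1))) c2)).trans (le_of_eq ?_))
    ring
  replace c6 := Nat.le_of_mul_le_mul_right c6 (by
    have := Nat.pow_le_pow_left hq 3; omega)
  by_cases e : ∀ x : F, x ^ 3 = 1 → x ^ (q + 1) = 1 → x = 1
  · have : Nat.card {x : F // x ^ 3 = 1 ∧ x ^ (q + 1) = 1} ≤ 1 :=
      Finite.card_le_one_iff_subsingleton.2 ⟨fun x y => Subtype.ext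
        ((e _ x.2.1 x.2.2).trans (e _ y.2.1 y.2.2).symm)⟩
    have := c6.trans (Nat.mul_le_mul_right _ (Nat.mul_le_mul_right _ this))
    nlinarith
  push Not at e
  obtain ⟨x, x1, x2, x3⟩ := e
  have d3 : 3 ∣ q + 1 := by
    have : Fact (Nat.Prime 3) := ⟨Nat.prime_three⟩
    rw [← orderOf_eq_prime x1 x3]; exact orderOf_dvd_of_pow_eq_one x2
  have q5 : 5 ≤ q := by omega
  have : Nat.card {x : F // x ^ 3 = 1 ∧ x ^ (q + 1) = 1} ≤ 3 := by
    refine (Nat.card_le_card_of_injective (β := (Polynomial.nthRoots 3 (1 : F)).toFinset)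
      (fun x => ⟨x.1, by simp [x.2.1]⟩) fun x y e => Subtype.ext (Subtype.mk.inj e)).trans ?_
    rw [Nat.card_eq_fintype_card, Fintype.card_coe]
    exact (Multiset.toFinset_card_le _).trans (Polynomial.card_nthRoots 3 1)
  have := c6.trans (Nat.mul_le_mul_right _ (Nat.mul_le_mul_right _ this))
  nlinarith [Nat.mul_le_mul q5 q5, Nat.mul_le_mul_right (q * q) q5]

theorem exists_z3 (h3 : finrank F L = 3) (hq : 3 ≤ q) : ∃ a : L, a ≠ 0 ∧
    Algebra.norm F (a * (s a)⁻¹) = 1 ∧ ∀ c : F, a * (s a)⁻¹ ≠ algebraMap F L c := by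
  obtain ⟨α, β, a0, b0, ha, hb, -, H⟩ := h.count3 h3 hq fun _ => none
  refine ⟨α / β, div_ne_zero a0 b0, ?_, H⟩
  have : s β ≠ 0 := by simpa using b0
  rw [show α / β * (s (α / β))⁻¹ = α * (s α)⁻¹ * (β * (s β)⁻¹)⁻¹ by
    rw [map_div₀]; field_simp, map_mul, Algebra.norm_inv, ha, hb]
  simp

theorem line3 (h3 : finrank F L = 3) (hq : 3 ≤ q) {y : L} (y0 : y ≠ 0) {R : Set L}
    (add : ∀ a ∈ R, ∀ b ∈ R, a + b ∈ R) (smul : ∀ t : F, conj hF t = t → ∀ a ∈ R, t • a ∈ R)
    (sp : ∀ a, θ (a * y) = 0 → a ∈ Submodule.span F R) (hR : ∀ a ∈ R, θ (a * y) = 0)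
    (cm : ∀ α : L, α ≠ 0 → Algebra.norm F (α * (s α)⁻¹) = 1 → ∀ w ∈ R, ∀ w' ∈ R,
      θ (α * w' * y) = 0 → θ (w * (y / α)) • (α * w') ∈ R) : ∃ w, w ≠ 0 ∧ ∀ c : F, c • w ∈ R := by
  classical
  have : FiniteDimensional F L := inferInstance
  have dk : finrank F (LinearMap.ker (θ ∘ₗ LinearMap.mulRight F y)) = 2 := by
    have d1 := (θ ∘ₗ LinearMap.mulRight F y).finrank_range_add_finrank_ker
    rw [(LinearMap.range_eq_top (f := θ ∘ₗ LinearMap.mulRight F y)).2 (h.exists_θ y0), finrank_top,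
      finrank_self] at d1
    omega
  have nm : ∀ S : Submodule F L, finrank F S ≤ 1 → ∃ w ∈ R, w ∉ S := fun S hS => by
    by_contra n
    push Not at n
    have d3 := Submodule.finrank_mono (show LinearMap.ker (θ ∘ₗ LinearMap.mulRight F y) ≤ S from
      fun a ha => Submodule.span_le.2 n (sp a ha))
    omega
  obtain ⟨w₁, a1, b1⟩ := nm ⊥ (by simp)
  obtain ⟨w₂, a2, b2⟩ := nm (F ∙ w₁) (finrank_span_singleton b1).le
  replace b1 : w₁ ≠ 0 := b1
  have ind : ∀ a b : F, a • w₁ + b • w₂ = 0 → a = 0 ∧ b = 0 := fun a b e => by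
    have b0 : b = 0 := by
      by_contra b0
      refine b2 (Submodule.mem_span_singleton.2 ⟨-a / b, smul_right_injective L b0 ?_⟩)
      simp only [smul_smul, mul_div_cancel₀ _ b0]
      linear_combination (norm := module) -e
    exact ⟨by simpa [b0, b1] using e, b0⟩
  by_contra H
  push Not at H
  have rl : ∀ w ∈ R, ∃ a b : F, conj hF a = a ∧ conj hF b = b ∧ a • w₁ + b • w₂ = w := by
    intro w hw
    obtain ⟨a, b, rfl⟩ : ∃ a b : F, a • w₁ + b • w₂ = w := Submodule.mem_span_pair.1 (by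
      by_contra n
      have := three_le_finrank (T := LinearMap.ker (θ ∘ₗ LinearMap.mulRight F y)) (hR _ a1)
        (hR _ a2) (hR _ hw) b1 b2 n
      omega)
    obtain ⟨η, hη⟩ := Kind.exists_trace_eq _ h.σσ h.ne 1 (map_one _)
    obtain ⟨ω, ω0, hω⟩ := exists_skew h.σσ h.ne
    have η0 : ∀ c : F, conj hF (η * c + conj hF (η * c)) = η * c + conj hF (η * c) := fun c => by
      rw [map_add, h.σσ, add_comm]
    have ω1 : ∀ c : F, conj hF (ω * (c - conj hF c)) = ω * (c - conj hF c) := fun c => by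
      rw [map_mul, map_sub, h.σσ, hω]; ring
    by_contra n
    obtain ⟨c, hc⟩ := H ((a - conj hF a) • w₁ + (b - conj hF b) • w₂) fun e => n
      ⟨a, b, (sub_eq_zero.1 (ind _ _ e).1).symm, (sub_eq_zero.1 (ind _ _ e).2).symm, rfl⟩
    have m1 := add _ (smul _ (ω1 a) _ a1) _ (smul _ (ω1 b) _ a2)
    have m2 := add _ hw _ (smul (-1) (by simp) _ (add _ (smul _ (η0 a) _ a1) _ (smul _ (η0 b) _ a2)))
    have η1 : conj hF η ≠ 0 := fun e => ω0 (by
      have e' : η = 0 := by simpa using e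
      simp [e'] at hη)
    obtain ⟨x, z, t, hx, hz, ht, n', e⟩ := dep3 h.σσ h.ne ω (conj hF η) c
    have e' := congrArg (conj hF) e
    simp only [map_add, map_mul (conj hF), hx, hz, ht, map_zero, hω, h.σσ] at e'
    have t0 : t ≠ 0 := by
      rintro rfl
      have z0 : z = 0 := by linear_combination e + e' - z * hη
      simp [z0, ω0] at e n'
      exact n' e
    refine hc ?_
    convert add _ (smul (-x / t) (by simp [hx, ht]) _ m1) _ (smul (-z / t) (by simp [hz, ht]) _ m2)
      using 1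
    rw [show c = -x / t * ω + -z / t * conj hF η by field_simp; linear_combination e, map_mul,
      map_mul]
    generalize conj hF η = η' at hη ⊢
    rw [eq_sub_of_add_eq hη]
    module
  have main : ∀ α : L, α ≠ 0 → Algebra.norm F (α * (s α)⁻¹) = 1 → ∃ t : L, ∃ μ a b : F, t ≠ 0 ∧
      s t = t ∧ μ ≠ 0 ∧ conj hF a = a ∧ conj hF b = b ∧ a • w₁ + b • w₂ = μ • (α * t * w₁) := by
    intro α α0 hα
    obtain ⟨t, t0, ht, e⟩ : ∃ t, t ≠ 0 ∧ s t = t ∧ θ (α * t * w₁ * y) = 0 := by
      have nr : ∀ S : Submodule F L, finrank F S ≤ 2 → ∃ t, s t = t ∧ t ∉ S := fun S hS => by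
        by_contra n
        push Not at n
        have d3 := Submodule.finrank_mono (show ⊤ ≤ S from fun a _ => by
          obtain ⟨t, t', ω, h1, h2, rfl⟩ := h.real a
          exact S.add_mem (n t h1) (S.smul_mem _ (n t' h2)))
        rw [finrank_top] at d3
        omega
      obtain ⟨t₁, r1, s1⟩ := nr ⊥ (by simp)
      obtain ⟨t₂, r2, s2⟩ := nr (F ∙ t₁) ((finrank_span_singleton s1).le.trans one_le_two)
      obtain ⟨t₃, r3, s3⟩ := nr (Submodule.span F {t₁, t₂}) (finrank_span_pair_le _ _)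
      obtain ⟨a, b, c, ha, hb, hc, n, e⟩ := dep3 h.σσ h.ne (θ (α * t₁ * w₁ * y))
        (θ (α * t₂ * w₁ * y)) (θ (α * t₃ * w₁ * y))
      refine ⟨a • t₁ + b • t₂ + c • t₃, fun e' => ?_, by simp [h.sF, ha, hb, hc, r1, r2, r3],
        by simpa [add_mul, mul_add] using e⟩
      have c0 : c = 0 := by
        by_contra c0
        refine s3 (Submodule.mem_span_pair.2 ⟨-a / c, -b / c, smul_right_injective L c0 ?_⟩)
        simp only [smul_add, smul_smul, mul_div_cancel₀ _ c0]
        linear_combination (norm := module) -e'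
      have b0 : b = 0 := by
        by_contra b0
        refine s2 (Submodule.mem_span_singleton.2 ⟨-a / b, smul_right_injective L b0 ?_⟩)
        simp only [smul_smul, mul_div_cancel₀ _ b0]
        rw [c0] at e'
        linear_combination (norm := module) -e'
      simp only [b0, c0, zero_smul, add_zero, smul_eq_zero, ne_eq, not_true, or_false] at e' n
      exact e'.elim n s1
    have β0 := mul_ne_zero α0 t0
    have hβ : Algebra.norm F (α * t * (s (α * t))⁻¹) = 1 := by
      rw [map_mul s, ht, ← hα]; congr 1; field_simp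
    by_cases n : ∃ w ∈ R, θ (w * (y / (α * t))) ≠ 0
    · obtain ⟨w, hw, n⟩ := n
      obtain ⟨a, b, ha, hb, e⟩ := rl _ (cm _ β0 hβ w hw w₁ a1 e)
      exact ⟨t, _, a, b, t0, ht, n, ha, hb, e⟩
    push Not at n
    obtain ⟨a₀, ha₀⟩ := h.exists_θ y0 1
    have k : y / (α * t) = θ (a₀ * (y / (α * t))) • y := θ_ext h.θ0 fun a => by
      have := (Submodule.span_le (p := LinearMap.ker (θ ∘ₗ LinearMap.mulRight F (y / (α * t))))).2
        n (sp (a - θ (a * y) • a₀) (by simp [sub_mul, ha₀]))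
      simp only [LinearMap.mem_ker, LinearMap.comp_apply, LinearMap.mulRight_apply, sub_mul,
        smul_mul_assoc, map_sub, map_smul, smul_eq_mul] at this
      rw [mul_smul_comm, map_smul, smul_eq_mul]
      linear_combination this
    generalize θ (a₀ * (y / (α * t))) = μ at k
    refine ⟨t, μ, 1, 0, t0, ht, by rintro rfl; simp [y0, β0] at k, map_one _, map_zero _, ?_⟩
    rw [Algebra.smul_def, div_eq_iff β0] at k
    rw [one_smul, zero_smul, add_zero, Algebra.smul_def]
    exact mul_right_cancel₀ y0 (by linear_combination w₁ * k)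
  choose! t μ a b t0 ht μ0 ha hb e using main
  obtain ⟨α, β, α0, β0, hα, hβ, ef, n⟩ := h.count3 h3 hq fun α =>
    if hb : b α ≠ 0 ∧ (a α / b α) ^ q = a α / b α then some ⟨_, hb.2⟩ else none
  have r : ∀ α : L, α ≠ 0 → Algebra.norm F (α * (s α)⁻¹) = 1 → (a α / b α) ^ q = a α / b α :=
    fun α α0 hα => by rw [← conj_apply hF, map_div₀, ha α α0 hα, hb α α0 hα]
  obtain ⟨ν, ν0, hν⟩ : ∃ ν : F, ν ≠ 0 ∧ a α • w₁ + b α • w₂ = ν • (a β • w₁ + b β • w₂) := by
    have nz : ∀ α : L, α ≠ 0 → Algebra.norm F (α * (s α)⁻¹) = 1 → b α = 0 → a α ≠ 0 :=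
      fun α α0 hα e1 e2 => by
        simpa [e1, e2, μ0 α α0 hα, α0, t0 α α0 hα, b1] using (e α α0 hα).symm
    simp only [r α α0 hα, r β β0 hβ, and_true] at ef
    by_cases e1 : b α = 0 <;> by_cases e2 : b β = 0
    · have := nz α α0 hα e1
      have := nz β β0 hβ e2
      refine ⟨a α / a β, by simp [*], ?_⟩
      rw [e1, e2, zero_smul, add_zero, add_zero, smul_smul, div_mul_cancel₀ _ this]
    · simp [e1, e2] at ef
    · simp [e1, e2] at ef
    · simp only [e1, e2, ne_eq, not_false_eq_true, dite_true, Option.some.injEq,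
        Subtype.mk.injEq] at ef
      refine ⟨b α / b β, by simp [*], ?_⟩
      rw [div_eq_div_iff e1 e2] at ef
      match_scalars <;> field_simp
      linear_combination ef
  rw [e α α0 hα, e β β0 hβ, smul_smul, Algebra.smul_def, Algebra.smul_def] at hν
  have m1 : algebraMap F L (μ α) ≠ 0 := by simpa using μ0 α α0 hα
  have m2 := t0 α α0 hα
  have m3 := t0 β β0 hβ
  have k : α / β = (ν * μ β / μ α) • (t β / t α) := by
    rw [Algebra.smul_def, map_div₀]
    field_simp
    exact mul_right_cancel₀ b1 (by linear_combination hν)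
  have m4 : ν * μ β / μ α ≠ 0 := div_ne_zero (mul_ne_zero ν0 (μ0 β β0 hβ)) (μ0 α α0 hα)
  generalize ν * μ β / μ α = c at k m4
  refine n (c / conj hF c) ?_
  have m5 : algebraMap F L (conj hF c) ≠ 0 := by simpa using m4
  rw [k, h.sF, map_div₀, ht α α0 hα, ht β β0 hβ, Algebra.smul_def, Algebra.smul_def, map_div₀]
  field_simp

end Cmp
end CA.H12Ue
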