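import Cfsg.Agent.Lib.Lin.H12Ru2
import Cfsg.Agent.Lib.Lin.H12Tn1
import Cfsg.Agent.Lib.Lin.MaxE4

/-!
Overgroups of the tensor product of two unitary groups, part one: the tensor structure.
-/

set_option autoImplicit false
set_option linter.unusedSectionVars false

namespace CA.H12Uu

open CA.CForm CA.CForm.Form Module TensorProduct

local notation:75 g:76 " ⊳ " v:75 => (Subtype.val g) v

variable {F : Type*} [Field F] {U W V : Type*} [AddCommGroup U] [Module F U] [AddCommGroup W]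
  [Module F W] [AddCommGroup V] [Module F V]

section Gen
variable {κ : Kind F} {f : Form κ V} {X : Subgroup f.Isom}

theorem sub_mem_perp {M : Submodule F V} {k : f.Isom} (hk : ∀ m ∈ M, k ⊳ m = m) (x : V) :
    k ⊳ x - x ∈ f.perp M := fun m hm => by
  rw [map_sub]
  conv_lhs => rw [← hk m hm, f.B_coe_map, hk m hm]
  exact sub_self _

theorem comm_B {M : Submodule F V} {k k' : f.Isom} (hk : ∀ m ∈ M, k ⊳ m = m)
    (hk' : ∀ m ∈ M, k' ⊳ m = m) (h : ∀ x ∈ f.perp M, k ⊳ x - x ∈ M)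
    (h' : ∀ x ∈ f.perp M, k' ⊳ x - x ∈ M) (x y : V) :
    f.B x (k ⊳ k' ⊳ y) - f.B x (k' ⊳ k ⊳ y) =
      f.B (k' ⊳ x - x) (k ⊳ y - y) - f.B (k ⊳ x - x) (k' ⊳ y - y) := by
  have e1 := f.eq_zero_symm (sub_mem_perp hk x _ (h _ (sub_mem_perp hk' y)))
  have e2 := f.eq_zero_symm (sub_mem_perp hk' x _ (h' _ (sub_mem_perp hk y)))
  simp only [map_sub, B_sub_left, B_coe_map] at e1 e2 ⊢
  linear_combination e2 - e1

theorem comm_fix {M : Submodule F V} {k k' : f.Isom} (hk : ∀ m ∈ M, k ⊳ m = m)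
    (hk' : ∀ m ∈ M, k' ⊳ m = m) (h : ∀ x ∈ f.perp M, k ⊳ x - x ∈ M)
    (h' : ∀ x ∈ f.perp M, k' ⊳ x - x ∈ M) {x : V} (hx : x ∈ f.perp M) :
    ((k' * k)⁻¹ * (k * k')) ⊳ x = x := by
  have e1 := hk _ (h' x hx)
  have e2 := hk' _ (h x hx)
  rw [map_sub] at e1 e2
  have : (k * k') ⊳ x = (k' * k) ⊳ x := by
    rw [isom_mul_apply, isom_mul_apply, eq_add_of_sub_eq e1, eq_add_of_sub_eq e2]; abel
  rw [isom_mul_apply, this, isom_inv_apply_apply]

end Gen

section Herm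
variable {σ : F →+* F} {hσ : ∀ a, σ (σ a) = a} {f : Form (Kind.herm σ hσ) V}

theorem eich_apply {p w : V} {c : F} (h : f.EichlerCond p w c) (x : V) :
    f.eichler p w c h ⊳ x = x + f.B p x • w - (f.B w x + c * f.B p x) • p := by
  rw [eichler_apply]; simp

theorem tv_apply {p : V} {c : F} (h : f.EichlerCond p 0 c) (x : V) :
    f.eichler p 0 c h ⊳ x = x - (c * f.B p x) • p := by
  rw [eichler_zero_apply]; simp

theorem tvc {p : V} (hp : f.Q p = 0) {c : F} (hc : σ c = -c) : f.EichlerCond p 0 c :=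
  f.eichlerCond_zero hp (by simp [hc])

theorem skew_of {c : F} (h : (Kind.herm σ hσ).π c = 0) : σ c = -c :=
  eq_neg_of_add_eq_zero_right h

theorem B_one_symm {x y : V} (h : f.B x y = 1) : f.B y x = 1 := by rw [herm_symm, h, map_one]

theorem exists_skew (hσ : ∀ a, σ (σ a) = a) (hne : σ ≠ RingHom.id F) : ∃ c, c ≠ 0 ∧ σ c = -c :=
  let ⟨c, h0, h⟩ := herm_exists_π_eq_zero hσ hne; ⟨c, h0, skew_of (hσ := hσ) h⟩

theorem exists_not_fixed (hne : σ ≠ RingHom.id F) : ∃ θ, σ θ ≠ θ := by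
  by_contra h
  push Not at h
  exact hne (RingHom.ext h)

/-- A subspace containing a singular vector and all singular vectors not orthogonal to it. -/
theorem span_sing (hf : f.Nondeg) {z : V} (hz : f.Q z = 0) (z0 : z ≠ 0) {Y : Submodule F V}
    (h0 : z ∈ Y) (h : ∀ v, f.Q v = 0 → f.B z v ≠ 0 → v ∈ Y) (w : V) : w ∈ Y := by
  have k : ∀ w, f.B z w ≠ 0 → w ∈ Y := fun w hw => by
    obtain ⟨a, ha⟩ := f.exists_add_smul_Q_eq hz hw 0
    simpa using Y.sub_mem (h _ (ha.trans f.Q_zero) (by simpa [f.B_self_of_Q hz] using hw))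
      (Y.smul_mem a h0)
  obtain ⟨y, -, hy⟩ := hf.exists_partner hz z0
  by_cases e : f.B z w = 0
  · simpa using Y.sub_mem (k (w + y) (by simp [e, hy])) (k y (by simp [hy]))
  · exact k w e

theorem scalar_of_sing (hne : σ ≠ RingHom.id F) (hf : f.Nondeg) {z : V} (hz : f.Q z = 0)
    (z0 : z ≠ 0) {r : V →ₗ[F] V} (h : ∀ v, f.Q v = 0 → r v ∈ F ∙ v) :
    ∃ c : F, ∀ w, r w = c • w := by
  obtain ⟨a, ha⟩ := Submodule.mem_span_singleton.1 (h z hz)
  obtain ⟨c, c0, hc⟩ := exists_skew hσ hne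
  refine ⟨a, fun w => sub_eq_zero.1 (LinearMap.mem_ker.1 (span_sing hf hz z0
    (Y := LinearMap.ker (r - a • LinearMap.id)) (by simp [ha]) (fun v hv hB => ?_) w) :)⟩
  obtain ⟨b, hb⟩ := Submodule.mem_span_singleton.1 (h v hv)
  obtain ⟨d, hd⟩ := Submodule.mem_span_singleton.1 (h (z + (c / f.B z v) • v) (by
    rw [herm_Q_add, hz, f.Q_smul_of_Q hv, map_smul, smul_eq_mul, div_mul_cancel₀ _ hB, hc]; ring))
  rw [map_add, map_smul, ← ha, ← hb] at hd
  have e1 := congrArg (f.B z) hd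
  have e2 := congrArg (f.B v) hd
  simp only [map_add, map_smul, f.B_self_of_Q hz, f.B_self_of_Q hv, smul_eq_mul, mul_zero,
    zero_add, add_zero] at e1 e2
  have e3 := mul_right_cancel₀ (fun e => hB (f.eq_zero_symm e)) e2
  have e4 : d = b := by field_simp at e1; exact e1
  simp [← hb, ← e4, e3]

theorem frame [Finite F] [FiniteDimensional F V] (hne : σ ≠ RingHom.id F) (hf : f.Nondeg)
    (h4 : 4 ≤ finrank F V) {u v : V} (h : f.IsHyp u v) : ∃ x y, f.IsHyp x y ∧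
      f.B u x = 0 ∧ f.B v x = 0 ∧ f.B u y = 0 ∧ f.B v y = 0 := by
  obtain ⟨x, -, y, -, h⟩ := hf.exists_isHyp_perp (iso_herm hne f) (U := ⊤)
    (fun x _ h0 _ hx => h0 (by rwa [hf.perp_top] at hx)) (by rw [finrank_top]; omega) h trivial trivial
  exact ⟨x, y, h⟩

end Herm

variable {σ : F →+* F} {hσ : ∀ a, σ (σ a) = a}

/-- A tensor decomposition of a unitary space into two unitary factors. -/
structure Uu (f₁ : Form (Kind.herm σ hσ) U) (f₂ : Form (Kind.herm σ hσ) W)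
    (f : Form (Kind.herm σ hσ) V) where
  e : U ⊗[F] W ≃ₗ[F] V
  hB : ∀ u w u' w', f.B (e (u ⊗ₜ w)) (e (u' ⊗ₜ w')) = f₁.B u u' * f₂.B w w'
  n₁ : f₁.Nondeg
  n₂ : f₂.Nondeg
  n : f.Nondeg

namespace Uu
variable {f₁ : Form (Kind.herm σ hσ) U} {f₂ : Form (Kind.herm σ hσ) W}
  {f : Form (Kind.herm σ hσ) V} (T : Uu f₁ f₂ f)

/-- pure tensors -/
def t : U →ₗ[F] W →ₗ[F] V := (TensorProduct.mk F U W).compr₂ T.e.toLinearMap

theorem t_eq (u : U) (w : W) : T.t u w = T.e (u ⊗ₜ w) := rfl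

theorem B_t (u : U) (w : W) (u' : U) (w' : W) :
    f.B (T.t u w) (T.t u' w') = f₁.B u u' * f₂.B w w' := T.hB ..

theorem Q_t (u : U) (w : W) : f.Q (T.t u w) = f₁.Q u * f₂.Q w := by
  rw [← herm_B_self, B_t, herm_B_self, herm_B_self]

theorem Q_t₀ {u : U} (hu : f₁.Q u = 0) (w : W) : f.Q (T.t u w) = 0 := by rw [Q_t, hu, zero_mul]

@[elab_as_elim] theorem ind {P : V → Prop} (ht : ∀ u w, P (T.t u w))
    (hadd : ∀ x y, P x → P y → P (x + y)) (x : V) : P x := by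
  obtain ⟨z, rfl⟩ := T.e.surjective x
  induction z using TensorProduct.induction_on with
  | zero => simpa using ht 0 0
  | tmul u w => exact ht u w
  | add a b ha hb => rw [map_add]; exact hadd _ _ ha hb

/-- contraction with a vector of the first factor -/
def cu (u : U) : V →ₗ[F] W :=
  (TensorProduct.lid F W).toLinearMap ∘ₗ LinearMap.rTensor W (f₁.B u) ∘ₗ T.e.symm.toLinearMap

/-- contraction with a vector of the second factor -/
def cw (w : W) : V →ₗ[F] U :=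
  (TensorProduct.rid F U).toLinearMap ∘ₗ LinearMap.lTensor U (f₂.B w) ∘ₗ T.e.symm.toLinearMap

@[simp] theorem cu_t (u u' : U) (w : W) : T.cu u (T.t u' w) = f₁.B u u' • w := by simp [cu, t_eq]

@[simp] theorem cw_t (w w' : W) (u : U) : T.cw w (T.t u w') = f₂.B w w' • u := by simp [cw, t_eq]

theorem B_cu (u : U) (w : W) (x : V) : f.B (T.t u w) x = f₂.B w (T.cu u x) := by
  induction x using T.ind with
  | ht u' w' => simp [B_t]
  | hadd x y hx hy => simp [hx, hy]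

theorem B_cw (u : U) (w : W) (x : V) : f.B (T.t u w) x = f₁.B u (T.cw w x) := by
  induction x using T.ind with
  | ht u' w' => simp [B_t, mul_comm]
  | hadd x y hx hy => simp [hx, hy]

theorem cu_cw (u : U) (w : W) (x : V) : f₂.B w (T.cu u x) = f₁.B u (T.cw w x) := by
  rw [← B_cu, B_cw]

theorem cu_add (u u' : U) (x : V) : T.cu (u + u') x = T.cu u x + T.cu u' x :=
  T.n₂.eq_of_B_eq_right fun w => by simp [cu_cw]

theorem cu_smul (a : F) (u : U) (x : V) : T.cu (a • u) x = σ a • T.cu u x :=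
  T.n₂.eq_of_B_eq_right fun w => by simp [cu_cw]

@[simp] theorem cu_zero (x : V) : T.cu 0 x = 0 :=
  T.n₂.eq_of_B_eq_right fun w => by simp [cu_cw]

theorem eq_zero_of_cu {x : V} (h : ∀ u, T.cu u x = 0) : x = 0 :=
  T.n.eq_zero_right fun y => by
    induction y using T.ind with
    | ht u w => rw [B_cu, h, map_zero]
    | hadd a b ha hb => simp [ha, hb]

theorem t_ne_zero {u : U} {w : W} (hu : u ≠ 0) (hw : w ≠ 0) : T.t u w ≠ 0 := fun e => by
  obtain ⟨v, hv⟩ := T.n₁.exists_B_ne_zero hu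
  have := T.cu_t v u w
  rw [e, map_zero, eq_comm, smul_eq_zero] at this
  exact this.elim (fun h => hv (f₁.eq_zero_symm h)) hw

theorem t_inj {u : U} (hu : u ≠ 0) : Function.Injective (T.t u) :=
  (injective_iff_map_eq_zero _).2 fun _ h => not_not.1 fun hw => T.t_ne_zero hu hw h

theorem t_inj' {w : W} (hw : w ≠ 0) : Function.Injective (T.t.flip w) :=
  (injective_iff_map_eq_zero _).2 fun _ h => not_not.1 fun hu => T.t_ne_zero hu hw h

include T in
theorem exists_one {u : U} (hu : u ≠ 0) : ∃ v, f₁.B u v = 1 :=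
  let ⟨v, h⟩ := T.n₁.exists_B_ne_zero hu; ⟨(f₁.B u v)⁻¹ • v, by simp [h]⟩

/-- the tensor product of two automorphisms -/
def mp (g : U ≃ₗ[F] U) (h : W ≃ₗ[F] W) : V ≃ₗ[F] V :=
  T.e.symm ≪≫ₗ TensorProduct.congr g h ≪≫ₗ T.e

@[simp] theorem mp_t (g : U ≃ₗ[F] U) (h : W ≃ₗ[F] W) (u : U) (w : W) :
    T.mp g h (T.t u w) = T.t (g u) (h w) := by simp [mp, t_eq]

theorem mem_Isom_of {s : V ≃ₗ[F] V}
    (h : ∀ u w u' w', f.B (s (T.t u w)) (s (T.t u' w')) = f.B (T.t u w) (T.t u' w')) :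
    s ∈ f.Isom := f.herm_mem_Isom.2 fun x y => by
  induction x using T.ind with
  | hadd a b ha hb => simp [ha, hb]
  | ht u w =>
    induction y using T.ind with
    | hadd a b ha hb => simp [ha, hb]
    | ht u' w' => exact h ..

theorem ext {s s' : f.Isom} (h : ∀ u w, s ⊳ T.t u w = s' ⊳ T.t u w) : s = s' :=
  f.isom_ext fun x => by
    induction x using T.ind with
    | ht u w => exact h u w
    | hadd a b ha hb => simp only [map_add, ha, hb]

/-- isometries of the first factor -/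
def kL : f₁.Isom →* f.Isom :=
  MonoidHom.mk' (fun g => ⟨T.mp g.1 1, T.mem_Isom_of fun _ _ _ _ => by simp [B_t]⟩)
    fun _ _ => T.ext fun _ _ => by simp

/-- isometries of the second factor -/
def kR : f₂.Isom →* f.Isom :=
  MonoidHom.mk' (fun h => ⟨T.mp 1 h.1, T.mem_Isom_of fun _ _ _ _ => by simp [B_t]⟩)
    fun _ _ => T.ext fun _ _ => by simp

@[simp] theorem kL_t (g : f₁.Isom) (u : U) (w : W) : T.kL g ⊳ T.t u w = T.t (g ⊳ u) w :=
  T.mp_t ..

@[simp] theorem kR_t (h : f₂.Isom) (u : U) (w : W) : T.kR h ⊳ T.t u w = T.t u (h ⊳ w) :=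
  T.mp_t ..

theorem kL_comm_kR (g : f₁.Isom) (h : f₂.Isom) : T.kL g * T.kR h = T.kR h * T.kL g :=
  T.ext fun _ _ => by simp

theorem cu_isom {s : f.Isom} {u u' : U} {h : f₂.Isom} (e : ∀ w, s ⊳ T.t u w = T.t u' (h ⊳ w))
    (x : V) : T.cu u' (s ⊳ x) = h ⊳ T.cu u x := T.n₂.eq_of_B_eq_right fun w => by
  rw [← f₂.isom_apply_inv_apply h w, ← B_cu, ← e, f.B_coe_map, f₂.B_coe_map, B_cu]

theorem cu_fix {s : f.Isom} {u : U} (e : ∀ w, s ⊳ T.t u w = T.t u w) (x : V) :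
    T.cu u (s ⊳ x) = T.cu u x := T.cu_isom (h := 1) e x

theorem cu_kR (h : f₂.Isom) (u : U) (x : V) : T.cu u (T.kR h ⊳ x) = h ⊳ T.cu u x :=
  T.cu_isom (by simp) x

theorem cu_kL (g : f₁.Isom) (u : U) (x : V) : T.cu (g ⊳ u) (T.kL g ⊳ x) = T.cu u x :=
  T.cu_isom (h := 1) (by simp) x

theorem kL_eich {u v : U} {c : F} (h : f₁.EichlerCond u v c) (x : V) :
    T.kL (f₁.eichler u v c h) ⊳ x =
      x + T.t v (T.cu u x) - T.t u (T.cu v x + c • T.cu u x) := by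
  induction x using T.ind with
  | ht u w => simp [eich_apply, smul_smul, add_smul]
  | hadd a b ha hb => simp only [map_add, smul_add, ha, hb]; module

theorem kL_tv {u : U} {c : F} (h : f₁.EichlerCond u 0 c) (x : V) :
    T.kL (f₁.eichler u 0 c h) ⊳ x = x - c • T.t u (T.cu u x) := by
  simp [kL_eich]

/-- the subspace `u ⊗ W` -/
def M (u : U) : Submodule F V := LinearMap.range (T.t u)

theorem t_mem_M (u : U) (w : W) : T.t u w ∈ T.M u := ⟨w, rfl⟩

theorem mem_perp_M {u : U} {x : V} : x ∈ f.perp (T.M u) ↔ T.cu u x = 0 :=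
  ⟨fun h => T.n₂.eq_zero_right fun w => by rw [← B_cu]; exact h _ (T.t_mem_M u w), by
    rintro h _ ⟨w, rfl⟩; rw [B_cu, h, map_zero]⟩

theorem cu_of_mem {u : U} (hu : f₁.Q u = 0) {x : V} (h : x ∈ T.M u) : T.cu u x = 0 := by
  obtain ⟨w, rfl⟩ := h
  simp [f₁.B_self_of_Q hu]

theorem finrank_M {u : U} (hu : u ≠ 0) : finrank F (T.M u) = finrank F W :=
  LinearMap.finrank_range_of_inj (T.t_inj hu)

theorem mem_M_of {u : U} (hu : u ≠ 0) {x : V} (h : ∀ v, f₁.B u v = 0 → T.cu v x = 0) :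
    x ∈ T.M u := by
  obtain ⟨v₀, h₀⟩ := T.exists_one hu
  refine ⟨T.cu v₀ x, (sub_eq_zero.1 (T.eq_zero_of_cu fun v => ?_)).symm⟩
  have := h (v + (-f₁.B u v) • v₀) (by simp [h₀])
  rw [cu_add, cu_smul] at this
  simp only [map_sub, cu_t, f₁.herm_symm u v]
  rw [← this, map_neg]; module

/-- A pure tensor in `u ⊗ W`. -/
theorem smul_of_t_mem {u v : U} {w : W} (hw : w ≠ 0) (h : T.t v w ∈ T.M u)
    [FiniteDimensional F U] : ∃ a : F, v = a • u := by
  by_contra H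
  obtain ⟨y, hy, e⟩ := T.n₁.exists_perp_B_eq (W := F ∙ u) (u := v) (fun h => by
    obtain ⟨a, rfl⟩ := Submodule.mem_span_singleton.1 h
    exact H ⟨a, rfl⟩) 1
  obtain ⟨w', h⟩ := h
  have := congrArg (T.cu y) h
  rw [cu_t, cu_t, e, f₁.eq_zero_symm (f₁.mem_perp_span_singleton.1 hy)] at this
  exact hw (by simpa using this.symm)

theorem M_smul {a : F} (ha : a ≠ 0) (u : U) : T.M (a • u) = T.M u := by
  apply le_antisymm <;> rintro _ ⟨w, rfl⟩
  · exact ⟨a • w, by simp⟩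
  · exact ⟨a⁻¹ • w, by simp [smul_smul, ha]⟩

/-- A linear map killing the pure tensors `v ⊗ w` with `v ⟂ u` kills `(u ⊗ W)^⊥`. -/
theorem ker_ind {u : U} (hu : u ≠ 0) {Y : Submodule F V}
    (h : ∀ v w, f₁.B u v = 0 → T.t v w ∈ Y) {x : V} (hx : T.cu u x = 0) : x ∈ Y := by
  obtain ⟨v₀, h₀⟩ := T.exists_one hu
  have : ∀ x, x - T.t v₀ (T.cu u x) ∈ Y := fun x => by
    induction x using T.ind with
    | ht v w => simpa using h (v - f₁.B u v • v₀) w (by simp [h₀])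
    | hadd a b ha hb =>
      convert Y.add_mem ha hb using 1
      simp only [map_add]; abel
  simpa [hx] using this x

/-- `s` preserves the tensor decomposition. -/
def Dec (s : f.Isom) : Prop :=
  ∃ (g : U ≃ₗ[F] U) (h : W ≃ₗ[F] W), ∀ u w, s ⊳ T.t u w = T.t (g u) (h w)

/-- the stabiliser of the tensor decomposition -/
def N : Subgroup f.Isom where
  carrier := {s | T.Dec s}
  one_mem' := ⟨1, 1, fun _ _ => rfl⟩
  mul_mem' := fun ⟨g, h, e⟩ ⟨g', h', e'⟩ => ⟨g * g', h * h', fun u w => by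
    rw [isom_mul_apply, e', e]; rfl⟩
  inv_mem' := fun {s} ⟨g, h, e⟩ => ⟨g⁻¹, h⁻¹, fun u w => by
    rw [← f.isom_inv_apply_apply s (T.t (g⁻¹ u) (h⁻¹ w)), e]; simp⟩

theorem kL_mem_N (g : f₁.Isom) : T.kL g ∈ T.N := ⟨g.1, 1, fun _ _ => T.kL_t ..⟩

theorem kR_mem_N (h : f₂.Isom) : T.kR h ∈ T.N := ⟨1, h.1, fun _ _ => T.kR_t ..⟩

theorem mem_N_of_lin [FiniteDimensional F U] [FiniteDimensional F W] [Nontrivial U] [Nontrivial W]
    {s : f.Isom} (g : U →ₗ[F] U) (h : W →ₗ[F] W) (e : ∀ u w, s ⊳ T.t u w = T.t (g u) (h w)) :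
    s ∈ T.N := by
  obtain ⟨u₀, hu⟩ := exists_ne (0 : U)
  obtain ⟨w₀, hw⟩ := exists_ne (0 : W)
  have k : ∀ u w, T.t (g u) (h w) = 0 → u ≠ 0 → w ≠ 0 → False := fun u w e' hu hw =>
    T.t_ne_zero hu hw (s.1.map_eq_zero_iff.1 ((e u w).trans e'))
  exact ⟨.ofInjectiveEndo g ((injective_iff_map_eq_zero _).2 fun u e' => not_not.1 fun hu =>
      k u w₀ (by simp [e']) hu hw),
    .ofInjectiveEndo h ((injective_iff_map_eq_zero _).2 fun w e' => not_not.1 fun hw =>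
      k u₀ w (by simp [e']) hu hw), e⟩

theorem act_M {s : f.Isom} {g : U ≃ₗ[F] U} {h : W ≃ₗ[F] W}
    (e : ∀ u w, s ⊳ T.t u w = T.t (g u) (h w)) (u : U) : f.act s (T.M u) = T.M (g u) := by
  apply le_antisymm
  · rintro _ ⟨_, ⟨w, rfl⟩, rfl⟩
    exact ⟨h w, (e u w).symm⟩
  · rintro _ ⟨w, rfl⟩
    exact ⟨_, T.t_mem_M u (h.symm w), by simpa using e u (h.symm w)⟩

/-- The same structure with the two factors exchanged. -/
def swap : Uu f₂ f₁ f where
  e := TensorProduct.comm F W U ≪≫ₗ T.e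
  hB w u w' u' := by simp [T.hB, mul_comm]
  n₁ := T.n₂
  n₂ := T.n₁
  n := T.n

theorem swap_t (u : U) (w : W) : T.swap.t w u = T.t u w := by simp [t_eq, swap]

theorem swap_kL (h : f₂.Isom) : T.swap.kL h = T.kR h :=
  T.ext fun u w => by rw [kR_t, ← swap_t, kL_t, swap_t]

theorem swap_N : T.swap.N = T.N := by
  ext s
  exact ⟨fun ⟨g, h, e⟩ => ⟨h, g, fun u w => by rw [← swap_t, e, swap_t]⟩,
    fun ⟨g, h, e⟩ => ⟨h, g, fun u w => by rw [swap_t, e, swap_t]⟩⟩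

variable [FiniteDimensional F U] [FiniteDimensional F W] [FiniteDimensional F V]

theorem kL_mem_SIsom {g : f₁.Isom} (hg : g ∈ f₁.Eich) : T.kL g ∈ f.SIsom := by
  have : f₁.Eich ≤ f.SIsom.comap T.kL := f₁.Eich_le fun u v c h => by
    have e : ∀ x, H12Ru.NN (T.kL (f₁.eichler u v c h)) x =
        T.t v (T.cu u x) - T.t u (T.cu v x + c • T.cu u x) := fun x => by
      rw [H12Ru.NN_apply, kL_eich]; abel
    refine H12Ru.det_eq_one ⟨3, LinearMap.ext fun x => ?_⟩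
    simp [pow_succ, e, f₁.B_self_of_Q h.Q_p, h.B_pw, f₁.eq_zero_symm h.B_pw]
  exact this hg

end Uu

end CA.H12Uu
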