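import Cfsg.Agent.Lib.Lin.H12Uu3
import Mathlib.FieldTheory.ChevalleyWarning

/-!
Overgroups of the tensor product of two unitary groups, part four: a degenerate pencil of forms.
-/

set_option autoImplicit false
set_option linter.unusedSectionVars false

namespace CA.H12Uu

open CA.CForm CA.CForm.Form Module MvPolynomial

local notation:75 g:76 " ⊳ " v:75 => (Subtype.val g) v

section CW
variable {F : Type*} [Field F] [Finite F] {σ : F →+* F} {ι : Type} [Fintype ι] [DecidableEq ι]

theorem cw_poly (hσ : ∀ a, σ (σ a) = a) (hne : σ ≠ RingHom.id F) (P Q : MvPolynomial ι F)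
    (hd : P.totalDegree + Q.totalDegree < Fintype.card ι) (p0 : eval 0 P = 0) (q0 : eval 0 Q = 0)
    (hP : ∀ x : ι → F, (∀ l, σ (x l) = x l) → σ (eval x P) = eval x P)
    (hQ : ∀ x : ι → F, (∀ l, σ (x l) = x l) → σ (eval x Q) = eval x Q) :
    ∃ x : ι → F, (∀ l, σ (x l) = x l) ∧ x ≠ 0 ∧ eval x P = 0 ∧ eval x Q = 0 := by
  classical
  obtain ⟨θ, hθ⟩ := Kind.exists_trace_eq σ hσ hne 1 (map_one σ)
  let K := RingHom.eqLocusField σ (RingHom.id F)
  have := Fintype.ofFinite K
  let lam : F → K := fun a => ⟨θ * a + σ (θ * a), by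
    change σ _ = _; rw [map_add, hσ, add_comm]; rfl⟩
  have hl : ∀ a, (lam a : F) = θ * a + σ (θ * a) := fun a => rfl
  let tr : MvPolynomial ι F → MvPolynomial ι K := fun R =>
    ∑ m ∈ R.support, monomial m (lam (coeff m R))
  have d : ∀ R, (tr R).totalDegree ≤ R.totalDegree := fun R =>
    totalDegree_finsetSum_le fun m hm => (totalDegree_monomial_le _ _).trans (le_totalDegree hm)
  have ev : ∀ R (x : ι → K), σ (eval (fun l => (x l : F)) R) = eval (fun l => (x l : F)) R →
      (eval x (tr R) : F) = eval (fun l => (x l : F)) R := fun R x h => by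
    have e : (eval x (tr R) : F) = θ * eval (fun l => (x l : F)) R +
        σ (θ * eval (fun l => (x l : F)) R) := by
      rw [eval_eq' (f := R), Finset.mul_sum, map_sum σ, ← Finset.sum_add_distrib]
      simp only [tr, map_sum, eval_monomial, Finsupp.prod_pow, AddSubmonoidClass.coe_finsetSum]
      refine Finset.sum_congr rfl fun m _ => ?_
      have : σ (∏ i, (x i : F) ^ m i) = ∏ i, (x i : F) ^ m i := by
        rw [map_prod]; exact Finset.prod_congr rfl fun i _ => by rw [map_pow, (x i).2]; rfl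
      rw [Subfield.coe_mul, hl, ← mul_assoc, map_mul σ (θ * _), this]
      push_cast; ring
    rw [e, map_mul, h, ← add_mul, hθ, one_mul]
  obtain ⟨p, hp⟩ := CharP.exists K
  have := char_dvd_card_solutions_of_add_lt p (f₁ := tr P) (f₂ := tr Q)
    ((add_le_add (d P) (d Q)).trans_lt hd)
  by_contra H
  push Not at H
  have h0 : (fun l => ((0 : ι → K) l : F)) = 0 := rfl
  rw [Fintype.card_eq_one_iff.2 ⟨⟨0, Subtype.ext (by rw [ev, h0, p0]; rfl; rw [h0, p0, map_zero]),
    Subtype.ext (by rw [ev, h0, q0]; rfl; rw [h0, q0, map_zero])⟩, fun x => Subtype.ext (by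
      by_contra n
      have s : ∀ l, σ (x.1 l : F) = x.1 l := fun l => (x.1 l).2
      refine H _ s (fun e => n (funext fun l => Subtype.ext (congrFun e l))) ?_ ?_
      · rw [← ev _ _ (hP _ s), x.2.1]; rfl
      · rw [← ev _ _ (hQ _ s), x.2.2]; rfl)⟩] at this
  exact CharP.char_ne_one K p (Nat.dvd_one.1 this)

theorem cw_det (hσ : ∀ a, σ (σ a) = a) (hne : σ ≠ RingHom.id F) {j : ℕ} (j0 : 0 < j)
    (hd : j + 2 < Fintype.card ι) (A : ι → Matrix (Fin j) (Fin j) F) (b : ι → ι → F)
    (hA : ∀ l i k, σ (A l i k) = A l k i) (hb : ∀ l l', σ (b l l') = b l' l) :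
    ∃ x : ι → F, (∀ l, σ (x l) = x l) ∧ x ≠ 0 ∧ (∑ l, x l • A l).det = 0 ∧
      ∑ l, ∑ l', x l * x l' * b l l' = 0 := by
  let P : Matrix (Fin j) (Fin j) (MvPolynomial ι F) := Matrix.of fun i k => ∑ l, C (A l i k) * X l
  let Q : MvPolynomial ι F := ∑ l, ∑ l', C (b l l') * (X l * X l')
  have eP : ∀ x : ι → F, eval x P.det = (∑ l, x l • A l).det := fun x => by
    rw [RingHom.map_det]
    congr 1
    ext i k
    simp [P, Matrix.sum_apply, mul_comm]
  have eQ : ∀ x : ι → F, eval x Q = ∑ l, ∑ l', x l * x l' * b l l' := fun x => by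
    simp [Q, mul_comm]
  have dP : P.det.IsHomogeneous j := by
    rw [Matrix.det_apply']
    refine IsHomogeneous.sum _ _ _ fun τ _ => ?_
    have := (IsHomogeneous.prod Finset.univ (fun i => P (τ i) i) (fun _ => 1) fun i _ =>
      IsHomogeneous.sum _ _ _ fun l _ => (isHomogeneous_X F l).C_mul _).C_mul
        ((Equiv.Perm.sign τ : ℤ) : F)
    simpa using this
  have dQ : Q.IsHomogeneous 2 := IsHomogeneous.sum _ _ _ fun l _ => IsHomogeneous.sum _ _ _
    fun l' _ => ((isHomogeneous_X F l).mul (isHomogeneous_X F l')).C_mul _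
  have := cw_poly hσ hne P.det Q ((add_le_add dP.totalDegree_le dQ.totalDegree_le).trans_lt hd)
    (by rw [eP]; have : Nonempty (Fin j) := ⟨⟨0, j0⟩⟩; simp) (by rw [eQ]; simp) (fun x hx => by
      rw [eP, RingHom.map_det, ← Matrix.det_transpose]
      congr 1
      ext i k
      simp [Matrix.sum_apply, hx, hA]) (fun x hx => by
      rw [eQ, map_sum, Finset.sum_comm]
      simp [hx, hb, mul_comm])
  simpa only [eP, eQ] using this

end CW

variable {F : Type*} [Field F] [Finite F] {U W V : Type*} [AddCommGroup U] [Module F U]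
  [AddCommGroup W] [Module F W] [AddCommGroup V] [Module F V] [FiniteDimensional F U]
  [FiniteDimensional F W] [FiniteDimensional F V] {σ : F →+* F} {hσ : ∀ a, σ (σ a) = a}
  {f₁ : Form (Kind.herm σ hσ) U} {f₂ : Form (Kind.herm σ hσ) W} {f : Form (Kind.herm σ hσ) V}

theorem Uu.cu_sum (T : Uu f₁ f₂ f) {ι : Type*} (s : Finset ι) (v : ι → U) (x : V) :
    T.cu (∑ l ∈ s, v l) x = ∑ l ∈ s, T.cu (v l) x :=
  T.n₂.eq_of_B_eq_right fun w => by simp [T.cu_cw, B_sum_left]

theorem Uu.pencil (T : Uu f₁ f₂ f) (hne : σ ≠ RingHom.id F) {u v₀ : U} (h : f₁.IsHyp u v₀)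
    {C : Submodule F V} (c0 : 0 < finrank F C) (hC : finrank F C + 5 < 2 * finrank F U) :
    ∃ v c, ∃ hc : f₁.EichlerCond u v c, f₁.Q v = 0 ∧ f₁.B v₀ v = 0 ∧ (v ≠ 0 ∨ c ≠ 0) ∧
      ∃ m ∈ C, m ≠ 0 ∧ ∀ y ∈ C, f.B y (T.kL (f₁.eichler u v c hc) ⊳ m - m) = 0 := by
  obtain ⟨c₀, c₀0, hc₀⟩ := exists_skew hσ hne
  obtain ⟨θ, hθ⟩ := exists_not_fixed hne
  set S := f₁.perp (Submodule.span F {u, v₀}) with hS
  have dS : finrank F S + 2 = finrank F U := h.finrank_perp
  let e := Module.finBasis F S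
  let m := Module.finBasis F C
  let vv : Option (Fin (finrank F S) ⊕ Fin (finrank F S)) → S := fun l =>
    l.elim 0 (Sum.elim e fun i => θ • e i)
  let cc : Option (Fin (finrank F S) ⊕ Fin (finrank F S)) → F := fun l => l.elim c₀ fun _ => 0
  have hcc : ∀ l, σ (cc l) = -cc l := by rintro (_ | _) <;> simp [cc, hc₀]
  let Φ : U → F → V → V → F := fun v c y x => f₂.B (T.cu v y) (T.cu u x) -
    f₂.B (T.cu u y) (T.cu v x) - c * f₂.B (T.cu u y) (T.cu u x)
  obtain ⟨x, hx, x0, h1, h2⟩ := cw_det hσ hne c0 (by simp; omega)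
    (fun l => Matrix.of fun i k => c₀ * Φ (vv l) (cc l) (m i) (m k)) (fun l l' => f₁.B (vv l) (vv l'))
    (fun l i k => by
      simp only [Φ, Matrix.of_apply, map_mul, map_sub, ← herm_symm, hc₀, hcc]; ring)
    fun l l' => (f₁.herm_symm _ _).symm
  obtain ⟨y, y0, hy⟩ := Matrix.exists_mulVec_eq_zero_iff.2 h1
  set v : S := ∑ l, x l • vv l with hv
  have hv' : (v : U) = ∑ l, x l • (vv l : U) := by simp [hv]
  have q : f₁.Q v = 0 := by
    rw [← herm_B_self, ← h2, hv', B_sum_left]
    simp only [B_smul_left, Kind.herm_σ, hx, map_sum, map_smul, smul_eq_mul]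
    exact Finset.sum_congr rfl fun _ _ => Finset.sum_congr rfl fun _ _ => by ring
  have hc : f₁.EichlerCond u v (x none * c₀) := ⟨h.Q_x, (f₁.mem_perp_span_pair.1 v.2).1, by
    simp [q, hx, hc₀]⟩
  refine ⟨v, _, hc, q, (f₁.mem_perp_span_pair.1 v.2).2, ?_, _, (∑ k, y k • m k).2, fun e0 => y0 ?_,
    ?_⟩
  · by_contra H
    push Not at H
    have e1 : ∑ i, (x (some (.inl i)) + x (some (.inr i)) * θ) • e i = 0 := by
      rw [← show v = 0 from Subtype.ext H.1, hv]
      simp [vv, add_smul, Finset.sum_add_distrib, smul_smul]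
    have e2 := Fintype.linearIndependent_iff.1 e.linearIndependent _ e1
    have e3 : ∀ i, x (some (.inr i)) = 0 := fun i => by
      have e4 := congrArg σ (e2 i)
      rw [map_add, map_mul, hx, hx, map_zero] at e4
      exact (mul_eq_zero.1 (by linear_combination e4 - e2 i)).resolve_right (sub_ne_zero.2 hθ)
    refine x0 (funext ?_)
    rintro (_ | i | i)
    · simpa [c₀0] using H.2
    · simpa [e3] using e2 i
    · exact e3 i
  · exact funext (Fintype.linearIndependent_iff.1 m.linearIndependent _ (Subtype.ext e0))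
  · have k : ∀ y' x' : V, c₀ * f.B y' (T.kL (f₁.eichler u v _ hc) ⊳ x' - x') =
        ∑ l, x l * (c₀ * Φ (vv l) (cc l) y' x') := fun y' x' => by
      have k1 : ∀ a b, f.B y' (T.t a b) = f₂.B (T.cu a y') b := fun a b => by
        rw [herm_symm, T.B_cu, ← herm_symm]
      have k2 : ∑ l, x l * cc l = x none * c₀ := by simp [cc]
      rw [T.kL_eich, add_sub_assoc, add_sub_cancel_left, map_sub, k1, k1, ← k2, hv']
      simp only [Φ, T.cu_sum, T.cu_smul, hx, B_sum_left, B_smul_left, Kind.herm_σ, map_add, map_sum,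
        map_smul, smul_eq_mul, Finset.sum_mul, ← Finset.sum_add_distrib, ← Finset.sum_sub_distrib,
        Finset.mul_sum]
      exact Finset.sum_congr rfl fun l _ => by ring
    intro y' hy'
    have k3 : ∀ i, f.B (m i) (T.kL (f₁.eichler u v _ hc) ⊳ (∑ k, y k • m k : C) -
        (∑ k, y k • m k : C)) = 0 := fun i => by
      refine mul_left_cancel₀ c₀0 ?_
      have := congrFun hy i
      simp only [Matrix.mulVec, dotProduct, Matrix.sum_apply, Matrix.smul_apply, Matrix.of_apply,
        smul_eq_mul, ← k, Pi.zero_apply] at this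
      rw [mul_zero, ← this]
      simp only [AddSubmonoidClass.coe_finsetSum, Submodule.coe_smul, map_sum, map_smul, map_sub,
        smul_eq_mul, ← Finset.sum_sub_distrib, Finset.mul_sum]
      exact Finset.sum_congr rfl fun l _ => by ring
    have := congrArg Subtype.val (m.sum_repr ⟨y', hy'⟩)
    rw [show y' = _ from this.symm]
    rw [AddSubmonoidClass.coe_finsetSum, B_sum_left]
    exact Finset.sum_eq_zero fun i _ => by rw [Submodule.coe_smul, B_smul_left, k3, mul_zero]

end CA.H12Uu
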