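import Cfsg.Agent.Lib.Lin.H12Uu4

/-!
Overgroups of the tensor product of two unitary groups, part five: the images of `u ⊗ W`.
-/

set_option autoImplicit false
set_option linter.unusedSectionVars false

namespace CA.H12Uu

open CA.CForm CA.CForm.Form Module

local notation:75 g:76 " ⊳ " v:75 => (Subtype.val g) v

variable {F : Type*} [Field F] [Finite F] {U W V : Type*} [AddCommGroup U] [Module F U]
  [AddCommGroup W] [Module F W] [AddCommGroup V] [Module F V] [FiniteDimensional F U]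
  [FiniteDimensional F W] [FiniteDimensional F V] {σ : F →+* F} {hσ : ∀ a, σ (σ a) = a}
  {f₁ : Form (Kind.herm σ hσ) U} {f₂ : Form (Kind.herm σ hσ) W} {f : Form (Kind.herm σ hσ) V}

/-- non-zero singular vectors -/
structure Sg (f₁ : Form (Kind.herm σ hσ) U) (u : U) : Prop where
  q : f₁.Q u = 0
  ne : u ≠ 0

/-- `M` is an image of some `u ⊗ W` under `X`. -/
def Mem (T : Uu f₁ f₂ f) (X : Subgroup f.Isom) (M : Submodule F V) : Prop :=
  ∃ s ∈ X, ∃ u, Sg f₁ u ∧ M = f.act s (T.M u)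

/-- Distinct members meet in dimension at most `d`. -/
def Mx (T : Uu f₁ f₂ f) (X : Subgroup f.Isom) (d : ℕ) : Prop :=
  ∀ M M', Mem T X M → Mem T X M' → d < finrank F (M ⊓ M' : Submodule F V) → M = M'

variable {T : Uu f₁ f₂ f} {X : Subgroup f.Isom}

theorem mem_std {u : U} (hu : Sg f₁ u) : Mem T X (T.M u) := ⟨1, X.one_mem, u, hu, (f.act_one _).symm⟩

theorem Mem.act {M : Submodule F V} (h : Mem T X M) {g : f.Isom} (hg : g ∈ X) :
    Mem T X (f.act g M) :=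
  let ⟨s, hs, u, hu, e⟩ := h; ⟨g * s, X.mul_mem hg hs, u, hu, by rw [e, act_mul]⟩

theorem Mem.finrank {M : Submodule F V} (h : Mem T X M) : finrank F M = finrank F W := by
  obtain ⟨s, -, u, hu, rfl⟩ := h
  rw [finrank_act, T.finrank_M hu.ne]

theorem Mem.ts {M : Submodule F V} (h : Mem T X M) {x y : V} (hx : x ∈ M) (hy : y ∈ M) :
    f.B x y = 0 := by
  obtain ⟨s, -, u, hu, rfl⟩ := h
  obtain ⟨_, ⟨w, rfl⟩, rfl⟩ := hx
  obtain ⟨_, ⟨w', rfl⟩, rfl⟩ := hy
  simp [T.B_t, f₁.B_self_of_Q hu.q]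

theorem Mx.eq_of {d : ℕ} (h : Mx T X d) {M M' I : Submodule F V} (m : Mem T X M) (m' : Mem T X M')
    (h1 : I ≤ M) (h2 : I ≤ M') (hd : d ≤ finrank F I) {x : V} (x1 : x ∈ M) (x2 : x ∈ M')
    (x3 : x ∉ I) : M = M' :=
  h _ _ m m' (hd.trans_lt (Submodule.finrank_lt_finrank_of_lt
    (lt_of_le_of_ne (le_inf h1 h2) fun e => x3 (e ▸ ⟨x1, x2⟩))))

theorem le_act {I M : Submodule F V} {g : f.Isom} (h : I ≤ M) (e : ∀ x ∈ I, g ⊳ x = x) :
    I ≤ f.act g M := fun x hx => e x hx ▸ f.apply_mem_act.2 (h hx)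

theorem mem_of_act {M : Submodule F V} {g : f.Isom} (e : f.act g M = M) {x : V} (hx : x ∈ M) :
    g ⊳ x ∈ M := by
  have := (f.apply_mem_act (g := g)).2 hx
  rwa [e] at this

theorem M_eq_of_mem {u u' : U} {x : V} (hu' : u' ≠ 0) (h : x ∈ T.M u) (h' : x ∈ T.M u')
    (x0 : x ≠ 0) : T.M u' = T.M u := by
  obtain ⟨w, rfl⟩ := h'
  obtain ⟨a, rfl⟩ := T.smul_of_t_mem (by rintro rfl; simp at x0) h
  exact T.M_smul (left_ne_zero_of_smul hu') u

namespace Ov
variable (O : Ov T X)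
include O

theorem mem_N_of_act {u v : U} (hu : u ≠ 0) (hv : Sg f₁ v) {s : f.Isom} (hs : s ∈ X)
    (e : f.act s (T.M v) = T.M u) : s ∈ T.N := by
  have q : f₁.Q u = 0 := O.sing_of_ts fun w w' =>
    ((mem_std hv).act hs).ts (e ▸ T.t_mem_M ..) (e ▸ T.t_mem_M ..)
  obtain ⟨g, hg, rfl⟩ := O.move q hu hv.q hv.ne
  refine (T.N.mul_mem_cancel_right (T.kL_mem_N g)).1 (O.D q hu (X.mul_mem hs (O.kL g hg)) fun w => ?_)
  rw [isom_mul_apply, T.kL_t, ← e]
  exact f.apply_mem_act.2 (T.t_mem_M ..)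

theorem act_std {v : U} (hv : v ≠ 0) {s : f.Isom} (hs : s ∈ T.N) :
    ∃ u, u ≠ 0 ∧ f.act s (T.M v) = T.M u :=
  let ⟨g, _, e⟩ := hs; ⟨g v, by simpa using hv, T.act_M e v⟩

theorem K1 {M : Submodule F V} (m : Mem T X M) {u : U} (hu : Sg f₁ u)
    (h : ∀ x ∈ M, T.t u (T.cu u x) ∈ M) : ∃ u', u' ≠ 0 ∧ M = T.M u' := by
  obtain ⟨s, hs, v, hv, rfl⟩ := m
  obtain ⟨c, c0, hc⟩ := exists_skew hσ O.hne
  obtain ⟨u', h0, e⟩ := O.K0 hu.ne (tvc hu.q hc) c0 (O.D hv.q hv.ne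
    (X.mul_mem (X.mul_mem (X.inv_mem hs) (O.kLe _)) (X.inv_mem (X.inv_mem hs))) fun w => by
      rw [O.conj_tv, inv_inv]
      exact Submodule.sub_mem _ (T.t_mem_M ..) (Submodule.smul_mem _ _
        (f.mem_act.1 (h _ (f.apply_mem_act.2 (T.t_mem_M ..))))))
  exact O.act_std hv.ne ((T.N.inv_mem_iff).1 (O.mem_N_of_act h0 hu (X.inv_mem hs) e))

theorem K1' {M : Submodule F V} (m : Mem T X M) {u : U} {c : F} (hc : f₁.EichlerCond u 0 c)
    (u0 : u ≠ 0) (c0 : c ≠ 0) (h : f.act (T.kL (f₁.eichler u 0 c hc)) M = M) :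
    ∃ u', u' ≠ 0 ∧ M = T.M u' := O.K1 m ⟨hc.Q_p, u0⟩ fun y hy => by
  simpa [T.kL_tv, M.smul_mem_iff c0] using M.sub_mem hy (mem_of_act h hy)

theorem K_std {d : ℕ} (h : Mx T X d) {M : Submodule F V} (m : Mem T X M) {u : U} (hu : Sg f₁ u)
    (hd : d ≤ finrank F (T.M u ⊓ M : Submodule F V)) {x : V} (hx : x ∈ M) (e : T.cu u x = 0) :
    x ∈ T.M u ∨ ∃ u', u' ≠ 0 ∧ M = T.M u' := by
  obtain ⟨c, c0, hc⟩ := exists_skew hσ O.hne
  refine or_iff_not_imp_left.2 fun hx' => O.K1' m (tvc hu.q hc) hu.ne c0 ?_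
  exact h.eq_of (m.act (O.kLe _)) m
    (le_act inf_le_right fun z hz => by simp [T.kL_tv, T.cu_of_mem hu.q hz.1]) inf_le_right hd
    (le_act (I := F ∙ x) ((Submodule.span_singleton_le_iff_mem _ _).2 hx) (fun z hz => by
      obtain ⟨a, rfl⟩ := Submodule.mem_span_singleton.1 hz
      simp [T.kL_tv, e]) (Submodule.mem_span_singleton_self x)) hx fun e => hx' e.1

theorem K {d : ℕ} (h : Mx T X d) (d0 : 0 < d) {M M' : Submodule F V} (m : Mem T X M)
    (m' : Mem T X M') (hd : d ≤ finrank F (M ⊓ M' : Submodule F V)) {x : V} (hx : x ∈ M')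
    (e : x ∈ f.perp M) : x ∈ M := by
  obtain ⟨s, hs, u, hu, rfl⟩ := m
  have e1 : f.act s⁻¹ (f.act s (T.M u)) = T.M u := by rw [← act_mul, inv_mul_cancel, act_one]
  have hd' : d ≤ finrank F (T.M u ⊓ f.act s⁻¹ M' : Submodule F V) := by
    rwa [← f.finrank_act s⁻¹, act_inf, e1] at hd
  rw [f.mem_act]
  rcases O.K_std h (m'.act (X.inv_mem hs)) hu hd' (f.apply_mem_act.2 hx) (by
    rw [← T.mem_perp_M, ← f.mem_act, act_perp]; exact e) with e2 | ⟨u', h0, e2⟩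
  · exact e2
  · obtain ⟨y, hy, y0⟩ := Submodule.exists_mem_ne_zero_of_ne_bot
      (p := T.M u ⊓ f.act s⁻¹ M') fun e => by rw [e, finrank_bot] at hd'; omega
    rw [← M_eq_of_mem h0 hy.1 (e2 ▸ hy.2) y0, ← e2]
    exact f.apply_mem_act.2 hx

end Ov

/-- A pair of members with maximal non-zero intersection. -/
structure Pr (T : Uu f₁ f₂ f) (X : Subgroup f.Isom) (d : ℕ) (u : U) (M : Submodule F V) : Prop where
  O : Ov T X
  mx : Mx T X d
  pos : 0 < d
  hu : Sg f₁ u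
  mem : Mem T X M
  ne : T.M u ≠ M
  dim : d ≤ finrank F (T.M u ⊓ M : Submodule F V)

namespace Pr
variable {d : ℕ} {u : U} {M : Submodule F V} (P : Pr T X d u M)
include P

theorem dim_eq : finrank F (T.M u ⊓ M : Submodule F V) = d :=
  le_antisymm (not_lt.1 fun h => P.ne (P.mx _ _ (mem_std P.hu) P.mem h)) P.dim

theorem b {x : V} (hx : x ∈ M) (e : T.cu u x = 0) : x ∈ T.M u :=
  P.O.K P.mx P.pos (mem_std P.hu) P.mem P.dim hx (T.mem_perp_M.2 e)

theorem c {g : f.Isom} (hg : g ∈ X) (e : ∀ w, T.t u w ∈ M → g ⊳ T.t u w = T.t u w) {x : V}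
    (hx : x ∈ M) (h : ∀ y ∈ M, f.B y (g ⊳ x - x) = 0) : x ∈ T.M u ∨ f.act g M = M := by
  have e' : ∀ x ∈ T.M u ⊓ M, g ⊳ x = x := by rintro _ ⟨⟨w, rfl⟩, h⟩; exact e w h
  have le := le_act inf_le_right e'
  have := P.O.K P.mx P.pos P.mem (P.mem.act hg)
    (P.dim.trans (Submodule.finrank_mono (le_inf inf_le_right le))) (f.apply_mem_act.2 hx)
    fun y hy => by simpa [P.mem.ts hy hx] using h y hy
  refine or_iff_not_imp_left.2 fun hx' => P.mx.eq_of (P.mem.act hg) P.mem le inf_le_right P.dim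
    (f.apply_mem_act.2 hx) this fun e => hx' ?_
  rw [g.1.injective (e' _ e)] at e
  exact e.1

theorem exists_not_mem : ∃ x ∈ M, x ∉ T.M u := by
  by_contra H
  push Not at H
  exact P.ne (Submodule.eq_of_le_of_finrank_eq H (by rw [P.mem.finrank, T.finrank_M P.hu.ne])).symm

theorem noE {v : U} {c : F} (h : f₁.EichlerCond u v c) (v0 : v ∉ F ∙ u) :
    f.act (T.kL (f₁.eichler u v c h)) M ≠ M := fun e => by
  have k : ∀ x ∈ M, T.t v (T.cu u x) - T.t u (T.cu v x + c • T.cu u x) ∈ M := fun x hx => by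
    have := M.sub_mem (mem_of_act e hx) hx
    rwa [T.kL_eich, add_sub_assoc, add_sub_cancel_left] at this
  obtain ⟨x, hx, hx'⟩ := P.exists_not_mem
  obtain ⟨a, rfl⟩ := T.smul_of_t_mem (v := v) (u := u) (fun e => hx' (P.b hx e))
    ((Submodule.sub_mem_iff_left _ (T.t_mem_M ..)).1 (P.b (k x hx) (by
      simp [h.B_pw, f₁.B_self_of_Q h.Q_p])))
  exact v0 (Submodule.smul_mem _ _ (Submodule.mem_span_singleton_self u))

theorem elim : False := by
  obtain ⟨v₀, h₀⟩ := T.n₁.exists_isHyp P.hu.q P.hu.ne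
  obtain ⟨C, h1, h2⟩ := IsModularLattice.exists_disjoint_and_sup_eq
    (inf_le_right (a := T.M u) (b := M))
  have d := Submodule.finrank_sup_add_finrank_inf_eq (T.M u ⊓ M) C
  rw [h2, h1.eq_bot, finrank_bot, P.dim_eq, P.mem.finrank] at d
  have le : C ≤ M := le_sup_right.trans h2.le
  obtain ⟨v, c, hc, -, hv, ne, m, hm, m0, H⟩ := T.pencil P.O.hne h₀ (C := C) (by
    obtain ⟨x, hx, hx'⟩ := P.exists_not_mem
    refine Nat.pos_of_ne_zero fun e => hx' ?_
    rw [Submodule.finrank_eq_zero.1 e, sup_bot_eq] at h2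
    exact (h2.ge hx).1) (by have := P.O.big; omega)
  rcases P.c (P.O.kLe hc) (fun w _ => E_fix hc w) (le hm) (fun y hy => by
    rw [← h2] at hy
    obtain ⟨a, ⟨⟨w, rfl⟩, -⟩, b, hb, rfl⟩ := Submodule.mem_sup.1 hy
    rw [B_add_left, H b hb, map_sub, T.B_cu, T.B_cu, T.cu_fix (E_fix hc), sub_self, add_zero])
    with e | e
  · exact m0 (Submodule.disjoint_def.1 h1 m ⟨e, le hm⟩ hm)
  by_cases v0 : v = 0
  · subst v0
    obtain ⟨u', h0, e2⟩ := P.O.K1' P.mem hc P.hu.ne (by simpa using ne) e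
    obtain ⟨y, hy, y0⟩ := Submodule.exists_mem_ne_zero_of_ne_bot (p := T.M u ⊓ M) fun e => by
      have := P.dim; have := P.pos; rw [e, finrank_bot] at *; omega
    exact P.ne (by rw [e2, M_eq_of_mem h0 hy.1 (e2 ▸ hy.2) y0])
  · refine P.noE hc (fun e => v0 ?_) e
    obtain ⟨a, rfl⟩ := Submodule.mem_span_singleton.1 e
    rw [map_smul, B_one_symm h₀.B_xy, smul_eq_mul, mul_one] at hv
    rw [hv, zero_smul]

end Pr

namespace Ov
variable (O : Ov T X)
include O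

theorem mx_zero : Mx T X 0 := by
  have : ∀ n d, d + n = finrank F W → Mx T X d := fun n => by
    induction n with
    | zero =>
      intro d e M M' m _ h
      have := Submodule.finrank_mono (inf_le_left (a := M) (b := M'))
      have := m.finrank
      omega
    | succ n ih =>
      intro d e M M' m m' h
      by_contra ne
      obtain ⟨s, hs, u, hu, rfl⟩ := m
      have e1 : f.act s⁻¹ (f.act s (T.M u)) = T.M u := by rw [← act_mul, inv_mul_cancel, act_one]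
      refine Pr.elim (d := d + 1) (u := u) (M := f.act s⁻¹ M') ⟨O, ih _ (by omega), by omega, hu,
        m'.act (X.inv_mem hs), fun e => ne ?_, ?_⟩
      · rw [e, ← act_mul, mul_inv_cancel, act_one]
      · rw [← f.finrank_act s⁻¹, act_inf, e1] at h
        omega
  exact this _ 0 (zero_add _)

theorem F1 {s : f.Isom} (hs : s ∈ X) {u v : U} {w : W} (hu : Sg f₁ u) (hv : Sg f₁ v) (hw : w ≠ 0)
    (e : T.cu u (s ⊳ T.t v w) = 0) : s ∈ T.N := by
  have m := (mem_std (T := T) hv).act hs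
  have hx := (f.apply_mem_act (g := s)).2 (T.t_mem_M v w)
  rcases O.K_std O.mx_zero m hu (Nat.zero_le _) hx e with h | ⟨u', h0, h⟩
  · exact O.mem_N_of_act hu.ne hv hs (O.mx_zero.eq_of m (mem_std hu) bot_le bot_le (Nat.zero_le _) hx h
      (by simpa using T.t_ne_zero hv.ne hw))
  · exact O.mem_N_of_act h0 hv hs h

/-- A quadratic element preserving the decomposition fixes a pure tensor. -/
theorem fix_pure {k : f.Isom} (hk : k ∈ T.N) (h2 : ∀ x, k ⊳ (k ⊳ x - x) = k ⊳ x - x) :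
    ∃ u w, Sg f₁ u ∧ w ≠ 0 ∧ k ⊳ T.t u w = T.t u w := by
  have := O.ntW
  obtain ⟨g, h, e⟩ := hk
  obtain ⟨v, v0, hv⟩ := O.singU
  obtain ⟨w₁, hw₁⟩ := exists_ne (0 : W)
  by_cases H : g v ∈ F ∙ v
  · obtain ⟨a, ha⟩ := Submodule.mem_span_singleton.1 H
    by_cases e1 : k ⊳ T.t v w₁ = T.t v w₁
    · exact ⟨v, w₁, ⟨hv, v0⟩, hw₁, e1⟩
    have e2 : k ⊳ T.t v w₁ - T.t v w₁ = T.t v (a • h w₁ - w₁) := by simp [e, ← ha]
    exact ⟨v, a • h w₁ - w₁, ⟨hv, v0⟩, fun e3 => e1 (by rw [← sub_eq_zero, e2, e3, map_zero]), by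
      rw [← e2, h2]⟩
  have k1 : ∀ y w, f₁.B y (g (g v)) • h (h w) - f₁.B y (g v) • h w =
      f₁.B y (g v) • h w - f₁.B y v • w := fun y w => by
    simpa [e] using congrArg (T.cu y) (h2 (T.t v w))
  obtain ⟨μ, w, w0, hw⟩ : ∃ (μ : F) (w : W), w ≠ 0 ∧ h w = μ • w := by
    obtain ⟨y, y1, y2⟩ := T.n₁.exists_perp_B_eq H 1
    replace y1 := f₁.eq_zero_symm (f₁.mem_perp_span_singleton.1 y1)
    obtain ⟨y', y3, y4⟩ := T.n₁.exists_perp_B_eq (W := F ∙ g v) (u := v) (fun e => H (by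
      obtain ⟨a, ha⟩ := Submodule.mem_span_singleton.1 e
      have a0 : a ≠ 0 := by rintro rfl; exact v0 (by simpa using ha.symm)
      exact (Submodule.smul_mem_iff _ a0).1 (by rw [ha]; exact Submodule.mem_span_singleton_self _))) 1
    replace y3 := f₁.eq_zero_symm (f₁.mem_perp_span_singleton.1 y3)
    have k2 := fun w => k1 y w
    have k3 := fun w => k1 y' w
    simp only [y1, y2, y3, y4, one_smul, zero_smul, sub_zero, zero_sub] at k2 k3
    set β := f₁.B y' (g (g v))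
    by_cases two : (2 : F) = 0
    · obtain ⟨b, hb⟩ := isSquare_of_two_eq_zero two β
      have b0 : b ≠ 0 := by rintro rfl; simpa [hb, hw₁, eq_comm] using k3 w₁
      by_cases e1 : b • h w₁ - w₁ = 0
      · exact ⟨b⁻¹, w₁, hw₁, by rw [eq_inv_smul_iff₀ b0, sub_eq_zero.1 e1]⟩
      refine ⟨b⁻¹, _, e1, ?_⟩
      rw [eq_inv_smul_iff₀ b0, map_sub, map_smul, smul_sub, smul_smul, ← hb, k3, ← sub_eq_zero]
      have : ∀ x : W, (2 : F) • x = 0 := fun x => by rw [two, zero_smul]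
      linear_combination (norm := module) -this (b • h w₁)
    · have β0 : β ≠ 0 := by rintro e1; simpa [e1, hw₁, eq_comm] using k3 w₁
      refine ⟨-(f₁.B y (g (g v)) / (2 * β)), w₁, hw₁, smul_right_injective W (mul_ne_zero two β0) ?_⟩
      simp only [smul_smul, mul_neg, mul_div_cancel₀ _ (mul_ne_zero two β0)]
      linear_combination (norm := module) f₁.B y (g (g v)) • k3 w₁ - β • k2 w₁
  obtain ⟨w', hw'⟩ := T.swap.exists_one w0
  have e2 : ∀ x, k ⊳ T.t x w = T.t (μ • g x) w := fun x => by simp [e, hw]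
  obtain ⟨u, hu⟩ : ∃ u, u = μ • g v - v := ⟨_, rfl⟩
  have e3 : k ⊳ T.t v w - T.t v w = T.t u w := by simp [e2, hu]
  have e4 := h2 (T.t v w)
  rw [e3] at e4
  have u0 : u ≠ 0 := fun e5 => H (by
    rw [hu, sub_eq_zero] at e5
    have a0 : μ ≠ 0 := by rintro rfl; exact v0 (by simpa using e5.symm)
    exact (Submodule.smul_mem_iff _ a0).1 (by rw [e5]; exact Submodule.mem_span_singleton_self _))
  refine ⟨_, w, ⟨?_, u0⟩, w0, e4⟩
  have e5 : ∀ x, f₁.B u (g x) * f₂.B w (h w') = f₁.B u x := fun x => by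
    rw [← T.B_t, ← e, ← e4, B_coe_map, T.B_t, hw', mul_one]
  have e6 : μ • g u = u := T.t_inj' w0 ((e2 u).symm.trans e4)
  have e7 := congrArg (f₁.B u) e6
  have e8 := congrArg (f₁.B u) hu
  rw [map_smul, smul_eq_mul] at e7
  rw [map_sub, map_smul, smul_eq_mul] at e8
  rw [← herm_B_self]
  have n : f₂.B w (h w') ≠ 0 := fun e9 => u0 (T.n₁ u fun x => by rw [← e5, e9, mul_zero])
  refine pow_eq_zero_iff two_ne_zero |>.1 (mul_right_cancel₀ n ?_)
  linear_combination (f₁.B u u * f₂.B w (h w')) * e8 + (μ * f₁.B u u) * e5 v +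
    (f₁.B u v * f₂.B w (h w')) * e7 - (μ * f₁.B u v) * e5 u

/-- A proper overgroup of the isometry groups of the factors preserves the decomposition. -/
theorem main : X ≤ T.N := by
  obtain ⟨u, u0, hu⟩ := O.singU
  intro s hs
  obtain ⟨v₀, h₀⟩ := T.n₁.exists_isHyp hu u0
  have m := (mem_std (T := T) ⟨hu, u0⟩).act hs
  obtain ⟨v, c, hc, q, hv, ne, _, ⟨_, ⟨w, rfl⟩, rfl⟩, m0, H⟩ := T.pencil O.hne h₀
    (C := f.act s (T.M u)) (by have := O.b2; rw [m.finrank]; omega) (by rw [m.finrank]; exact O.big)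
  set E := T.kL (f₁.eichler u v c hc) with hE
  have kN := O.F1 (s := s⁻¹ * E * s) (X.mul_mem (X.mul_mem (X.inv_mem hs) (O.kLe hc)) hs)
    ⟨hu, u0⟩ ⟨hu, u0⟩ (w := w) (by rintro rfl; simp at m0) (T.n₂.eq_zero_right fun w' => by
      have := H _ (f.apply_mem_act.2 (T.t_mem_M u w'))
      rw [map_sub, LinearEquiv.coe_coe, B_coe_map, T.B_t, f₁.B_self_of_Q hu, zero_mul, sub_zero,
        B_isom_left] at this
      rw [← T.B_cu]; exact this)
  obtain ⟨u', w', h1, h2, h3⟩ := O.fix_pure kN fun x => by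
    rw [isom_mul_apply, isom_mul_apply, isom_mul_apply, isom_mul_apply, ← s.1.injective.eq_iff,
      isom_apply_inv_apply, map_sub s.1, isom_apply_inv_apply, hE, T.kL_eich _ (s ⊳ x),
      add_sub_assoc, add_sub_cancel_left, T.kL_eich]
    simp [f₁.B_self_of_Q hu, f₁.B_self_of_Q q, hc.B_pw, f₁.eq_zero_symm hc.B_pw]
  refine O.F1 hs ⟨hu, u0⟩ h1 h2 ?_
  rw [isom_mul_apply, isom_mul_apply, ← s.1.injective.eq_iff, isom_apply_inv_apply, hE, T.kL_eich,
    add_sub_assoc, add_eq_left, sub_eq_zero] at h3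
  by_contra n
  obtain ⟨a, rfl⟩ := T.smul_of_t_mem (u := u) (v := v) n (by rw [h3]; exact T.t_mem_M ..)
  rw [map_smul, B_one_symm h₀.B_xy, smul_eq_mul, mul_one] at hv
  subst hv
  simp only [zero_smul, map_zero, LinearMap.zero_apply, T.cu_zero, zero_add, ne_eq,
    not_true_eq_false, false_or] at h3 ne
  exact T.t_ne_zero u0 (smul_ne_zero ne n) h3.symm

end Ov

end CA.H12Uu
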