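import Cfsg.Agent.Lib.Lin.H12Uu5
import Cfsg.Agent.Lib.Lin.H12Tn8

/-! Maximality of the stabilisers of tensor decompositions of unitary spaces into two
unitary spaces of different dimensions, in terms of matrices. -/

set_option autoImplicit false
set_option linter.unusedSectionVars false

namespace CA.H12Uu

open CA.CForm CA.CForm.Form CA.MaxGL CA.AschFG CA.AschTForm CA.AschKron CA.AschForm CA.AschO1 Module
  TensorProduct Cfsg Cfsg.Geo Matrix
open CA.H12Tn (pe pe_tmul form_pe mem_tensor_iff)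
open scoped Kronecker

local notation:75 g:76 " ⊳ " v:75 => (Subtype.val g) v

variable {F : Type*} [Field F]

theorem Uu.not_le [Finite F] {U W V : Type*} [AddCommGroup U] [Module F U] [AddCommGroup W]
    [Module F W] [AddCommGroup V] [Module F V] [FiniteDimensional F U] [FiniteDimensional F W]
    {σ : F →+* F} {hσ : ∀ a, σ (σ a) = a} {f₁ : Form (Kind.herm σ hσ) U}
    {f₂ : Form (Kind.herm σ hσ) W} {f : Form (Kind.herm σ hσ) V} (T : Uu f₁ f₂ f)
    (hne : σ ≠ RingHom.id F) (h₁ : 2 ≤ finrank F U) (h : 2 ≤ finrank F W) : ¬f.Eich ≤ T.N := fun H => by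
  have : Nontrivial W := finrank_pos_iff.1 (by omega : 0 < finrank F W)
  obtain ⟨u, -, hu, q⟩ := iso_herm hne f₁ ⊤ (by rwa [finrank_top])
  obtain ⟨w, hw⟩ := exists_ne (0 : W)
  obtain ⟨v, q', hv⟩ := T.n₁.exists_partner q hu
  obtain ⟨w₁, h₁⟩ := T.n₂.exists_B_ne_zero hw
  obtain ⟨c, c0, hc⟩ := exists_skew hσ hne
  have d := T.n₂.finrank_perp (F ∙ w)
  rw [finrank_span_singleton hw] at d
  obtain ⟨w₂, h₂, h₃⟩ := Submodule.exists_mem_ne_zero_of_ne_bot (p := f₂.perp (F ∙ w)) fun e => by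
    rw [e, finrank_bot] at d; omega
  obtain ⟨g, k, e⟩ := H (f.eichler_mem_Eich (T.t u w) 0 c (tvc (T.Q_t₀ q w) hc))
  have e1 := e v w₂
  have e2 := e v w₁
  rw [tv_apply, T.B_t, f₂.mem_perp_span_singleton.1 h₂, mul_zero, mul_zero, zero_smul, sub_zero] at e1
  rw [tv_apply, T.B_t, hv, one_mul] at e2
  obtain ⟨a, ha⟩ := T.smul_of_t_mem (u := v) (v := g v) (w := k w₂) (by simpa using h₃)
    (e1 ▸ T.t_mem_M ..)
  obtain ⟨b, hb⟩ := T.smul_of_t_mem (u := v) (v := u) (w := (c * f₂.B w w₁) • w)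
    (smul_ne_zero (mul_ne_zero c0 h₁) hw)
    ⟨w₁ - a • k w₁, by
      rw [map_sub, map_smul, map_smul, sub_eq_iff_eq_add', ← sub_eq_iff_eq_add, e2, ha]; simp⟩
  simp [hb, f₁.B_self_of_Q q'] at hv

variable [Fintype F] {q : ℕ} (hF : Fintype.card F = q ^ 2)
include hF

theorem sf_of_unitaryPow {ι : Type} [Fintype ι] [DecidableEq ι] {f : (ι → F) → (ι → F) → F}
    (h : IsUnitaryFormPow q f) : SF (conj hF) f ∧ Refl (conj hF) 1 f := by
  have r : ∀ u v, f u v = conj hF (f v u) := h.herm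
  exact ⟨⟨conj_conj hF, h.add_left, h.smul_left, fun v x y => by rw [r, h.add_left, map_add, ← r, ← r],
    fun c v x => by rw [r, h.smul_left, map_mul, ← r], h.nondegenerate⟩,
    fun u v => (r u v).trans (one_mul _).symm⟩

theorem exists_fixed_ne (h : q ≠ 2) : ∃ c : F, conj hF c = c ∧ c ≠ 0 ∧ c ≠ 1 := by
  by_contra H
  push Not at H
  have h1 := card_conj_fixed hF
  have h2 : Nat.card {x : F // x ^ q = x} = Nat.card ({0, 1} : Set F) :=
    Nat.card_congr (Equiv.subtypeEquivRight fun x => ⟨fun e => by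
      by_cases x0 : x = 0
      · simp [x0]
      · simp [H x e x0], by
      rintro (rfl | rfl)
      · exact map_zero (conj hF)
      · exact one_pow q⟩)
  rw [h1, Nat.card_coe_set_eq, Set.ncard_pair zero_ne_one] at h2
  exact h h2

theorem su_max_tensor {n n₁ n₂ : ℕ} (h1 : 2 ≤ n₁) (h12 : n₁ < n₂) (big : n₁ + 5 < 2 * n₂)
    (hex : ¬(n₁ = 2 ∧ q = 2)) (e : Fin n ≃ Fin n₁ × Fin n₂) (P : GL (Fin n) F)
    {f₁ : (Fin n₁ → F) → (Fin n₁ → F) → F} {f₂ : (Fin n₂ → F) → (Fin n₂ → F) → F}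
    (hf₁ : IsUnitaryFormPow q f₁) (hf₂ : IsUnitaryFormPow q f₂)
    (hT : IsTensorFormStructure (fun x : F => x ^ q) (hermForm n F q) f₁ f₂ e P) :
    IsMaximalIn (GU n F q ⊓ specialLinear (Fin n) F)
      (tensorProductSubgroup n₁ n₂ e P ⊓ (GU n F q ⊓ specialLinear (Fin n) F)) := by
  obtain ⟨c, c0, hc⟩ := hT
  have ne := conj_ne_id hF
  obtain ⟨s₁, r₁⟩ := sf_of_unitaryPow hF hf₁
  obtain ⟨s₂, r₂⟩ := sf_of_unitaryPow hF hf₂
  have hB : ∀ u w u' w', (hermStd hF n).B (trv e P (pe (u ⊗ₜ w))) (trv e P (pe (u' ⊗ₜ w'))) =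
      c * ((toHerm s₁ r₁ ne).B u u' * (toHerm s₂ r₂ ne).B w w') := fun u w u' w' => by
    have := form_pe (conj hF) (gramMatrix f₁) (gramMatrix f₂) u' u w' w
    rw [← s₁.eq_formOfGram, ← s₂.eq_formOfGram] at this
    rw [hermStd_B]
    exact (hc _ _).trans (congrArg (c * ·) this)
  have hcc : conj hF c = c := by
    have : Nontrivial (Fin n₁ → F) := finrank_pos_iff.1 (by simp; omega : 0 < finrank F (Fin n₁ → F))
    have : Nontrivial (Fin n₂ → F) := finrank_pos_iff.1 (by simp; omega : 0 < finrank F (Fin n₂ → F))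
    obtain ⟨u, hu⟩ := exists_ne (0 : Fin n₁ → F)
    obtain ⟨w, hw⟩ := exists_ne (0 : Fin n₂ → F)
    obtain ⟨u', hu'⟩ := (toHerm_nondeg s₁ r₁ ne).exists_B_ne_zero hu
    obtain ⟨w', hw'⟩ := (toHerm_nondeg s₂ r₂ ne).exists_B_ne_zero hw
    have := hB u w u' w'
    rw [herm_symm, hB, map_mul, map_mul, ← herm_symm, ← herm_symm] at this
    exact mul_right_cancel₀ (mul_ne_zero hu' hw') this
  have r₁' : Refl (conj hF) 1 fun u v => c * f₁ u v := fun u v => by
    simp only [map_mul, hcc, r₁ u v, one_mul]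
  let T : Uu (toHerm (s₁.smul c0) r₁' ne) (toHerm s₂ r₂ ne) (hermStd hF n) :=
    { e := pe ≪≫ₗ trv e P
      hB := fun u w u' w' => (hB u w u' w').trans (mul_assoc _ _ _).symm
      n₁ := toHerm_nondeg _ _ _
      n₂ := toHerm_nondeg _ _ _
      n := hermStd_nondeg hF n }
  have hN : (tensorProductSubgroup n₁ n₂ e P).comap (toGL (hermStd hF n)) = T.swap.N := by
    rw [T.swap_N]
    ext s
    rw [Subgroup.mem_comap, mem_tensor_iff]
    simp only [toGL_mulVec]
    rfl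
  have k := Fintype.card_congr e
  simp only [Fintype.card_fin, Fintype.card_prod] at k
  have h2 : 2 ≤ n := by rw [k]; nlinarith
  have hE := herm_Eich_eq hF T.n (by simpa)
  rw [CA.AschU.SU_eq hF h2]
  refine max_of (fun h => T.swap.not_le ne (by simp; omega) (by simpa) fun s hs => ?_) fun X hX _ => ?_
  · rw [← hN]; exact h ⟨s, hs, rfl⟩
  rw [hN] at *
  refine or_iff_not_imp_right.2 fun H => Ov.main
    ⟨ne, fun g hg => hX ⟨T.swap.kL_mem_N g, hE ▸ T.swap.kL_mem_SIsom hg⟩,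
      fun g hg => hX ⟨T.swap.kR_mem_N g, hE ▸ T.swap.swap_kL g ▸ T.swap.swap.kL_mem_SIsom hg⟩, H,
      by simpa, by simpa, by simpa, ?_⟩
  by_cases h2 : q = 2
  · exact .inl (by simp; omega)
  · exact .inr (exists_fixed_ne hF h2)

end CA.H12Uu
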