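import Cfsg.Agent.Lib.Grp.H7Lge

/-! The centralizer of a transvection over the field with two elements. -/

set_option autoImplicit false
set_option linter.unusedSectionVars false

namespace CA.H13Hol

open Subgroup Cfsg CA.BG CA.H7Lge Module

variable {W : Type*} [AddCommGroup W] [Module (ZMod 2) W]

theorem z2 : ∀ a : ZMod 2, a = 0 ∨ a = 1 := by decide

theorem aa (W : Type*) [AddCommGroup W] [Module (ZMod 2) W] (u : W) : u + u = 0 := by
  rw [← two_smul (ZMod 2), show (2 : ZMod 2) = 0 from rfl, zero_smul]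

/-- the elements fixing a vector and a functional -/
def T (c : ZMod 2) (a : Dual (ZMod 2) W) (b : W) (A : End (ZMod 2) W) :
    End (ZMod 2) ((ZMod 2 × W) × ZMod 2) where
  toFun x := ((x.1.1 + x.2 * c + a x.1.2, x.2 • b + A x.1.2), x.2)
  map_add' x y := by
    ext <;> simp [add_mul, add_smul] <;> abel
  map_smul' r x := by
    ext <;> simp [mul_add, mul_assoc, smul_smul]

variable {c c' : ZMod 2} {a a' : Dual (ZMod 2) W} {b b' : W} {A A' : End (ZMod 2) W}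

theorem T_apply (x : (ZMod 2 × W) × ZMod 2) :
    T c a b A x = ((x.1.1 + x.2 * c + a x.1.2, x.2 • b + A x.1.2), x.2) := rfl

theorem T_mul : T c a b A * T c' a' b' A' = T (c + c' + a b') (a' + a ∘ₗ A') (b + A b') (A * A') := by
  refine LinearMap.ext fun x => ?_
  ext <;> simp [T_apply, mul_add] <;> abel

theorem T_one : T 0 0 0 (1 : End (ZMod 2) W) = 1 := LinearMap.ext fun x => by simp [T_apply]

theorem T_inj (h : T c a b A = T c' a' b' A') : c = c' ∧ a = a' ∧ b = b' ∧ A = A' := by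
  have h1 := LinearMap.congr_fun h ((0, 0), 1)
  have h2 := fun y => LinearMap.congr_fun h ((0, y), 0)
  simp only [T_apply, zero_add, one_mul, map_zero, add_zero, one_smul, Prod.mk.injEq, and_true,
    zero_mul, zero_smul] at h1 h2
  exact ⟨h1.1, LinearMap.ext fun y => (h2 y).1, h1.2, LinearMap.ext fun y => (h2 y).2⟩

theorem eq_T {L : End (ZMod 2) ((ZMod 2 × W) × ZMod 2)} (hL : Function.Injective L)
    (h : L * T 1 0 0 1 = T 1 0 0 1 * L) : ∃ c a b A, L = T c a b A := by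
  have h1 : ∀ x : (ZMod 2 × W) × ZMod 2, x.2 • L ((1, 0), 0) = (((L x).2, 0), 0) := fun x => by
    have := LinearMap.congr_fun h x
    have e : ∀ x : (ZMod 2 × W) × ZMod 2, T 1 0 0 1 x = x + ((x.2, 0), 0) := fun x => by
      ext <;> simp [T_apply]
    rw [End.mul_apply, End.mul_apply, e, e, map_add, add_right_inj] at this
    rw [← this, ← map_smul]
    simp
  have h2 : L ((1, 0), 0) = ((1, 0), 0) := by
    have := h1 (0, 1)
    rw [one_smul] at this
    rcases z2 (L (0, 1)).2 with e | e <;> rw [e] at this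
    · exact absurd (hL (this.trans (map_zero L).symm)) (by simp)
    · exact this
  have h3 : ∀ x, (L x).2 = x.2 := fun x => by simpa [h2] using (h1 x).symm
  let j : W →ₗ[ZMod 2] ZMod 2 × W := LinearMap.fst _ _ _ ∘ₗ L ∘ₗ LinearMap.inl _ _ _ ∘ₗ LinearMap.inr _ _ _
  refine ⟨(L (0, 1)).1.1, LinearMap.fst _ _ _ ∘ₗ j, (L (0, 1)).1.2, LinearMap.snd _ _ _ ∘ₗ j,
    LinearMap.ext fun x => ?_⟩
  have e : L x = x.1.1 • L ((1, 0), 0) + x.2 • L (0, 1) + L ((0, x.1.2), 0) := by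
    rw [← map_smul, ← map_smul, ← map_add, ← map_add]
    congr 1
    ext <;> simp
  refine Prod.ext ?_ (h3 x)
  rw [e, h2]
  ext <;> simp [T_apply, j]

theorem exists_dual {x y : W} (hx : x ≠ 0) (h : x ≠ y) : ∃ l : Dual (ZMod 2) W, l x = 1 ∧ l y = 0 := by
  obtain ⟨l, h1, h2⟩ := Submodule.exists_dual_map_eq_bot_of_notMem (p := Submodule.span (ZMod 2) {y})
    (x := x) (fun e => by
      obtain ⟨r, rfl⟩ := Submodule.mem_span_singleton.1 e
      rcases z2 r with rfl | rfl <;> simp at hx h) inferInstance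
  refine ⟨l, (z2 _).resolve_left h1, ?_⟩
  exact (Submodule.mem_bot _).1 (h2 ▸ Submodule.mem_map_of_mem (Submodule.mem_span_singleton_self y))

theorem core_GL [Finite W] (P : Subgroup (End (ZMod 2) W)ˣ) [hn : P.Normal] (hP : IsPGroup 2 P) :
    P = ⊥ := by
  have := Fact.mk Nat.prime_two
  rcases subsingleton_or_nontrivial W with h | h
  · exact (eq_bot_iff_forall P).2 fun x _ => Subsingleton.elim _ _
  have h2 : 2 ∣ Nat.card W := by
    rw [Module.natCard_eq_pow_finrank (K := ZMod 2), Nat.card_zmod]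
    exact dvd_pow_self 2 Module.finrank_pos.ne'
  obtain ⟨x, h3, h4⟩ := hP.exists_fixed_point_of_prime_dvd_card_of_fixed_point W h2 (a := 0)
    fun g => smul_zero g
  refine (eq_bot_iff_forall P).2 fun g hg => Units.ext (LinearMap.ext fun y => ?_)
  have h5 : ∀ g ∈ P, g.1 x = x := fun g hg => h3 ⟨g, hg⟩
  by_cases e : x = y
  · exact e ▸ h5 g hg
  obtain ⟨l, l1, l2⟩ := exists_dual h4.symm e
  have h6 : (1 + l.smulRight y : End (ZMod 2) W) * (1 + l.smulRight y) = 1 := LinearMap.ext fun w => by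
    simp [l2, add_assoc, aa]
  have h7 := congrArg (1 + l.smulRight y : End (ZMod 2) W)
    (h5 _ (hn.conj_mem g hg ⟨_, _, h6, h6⟩))
  change (1 + l.smulRight y : End (ZMod 2) W) ((1 + l.smulRight y : End (ZMod 2) W)
    (g.1 ((1 + l.smulRight y : End (ZMod 2) W) x))) = _ at h7
  rw [← End.mul_apply, h6] at h7
  simpa [l1, h5 g hg] using h7

variable {G : Type*} [Group G] [Finite G] [Finite W] [Nontrivial W]

theorem main (f : G →* End (ZMod 2) ((ZMod 2 × W) × ZMod 2)) (hf : Function.Injective f) {z : G}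
    (hz : f z = T 1 0 0 1) (hs : ∀ c a b (A : (End (ZMod 2) W)ˣ), ∃ g, f g = T c a b A) {Q : Subgroup G}
    (hQ : Q = 𝓞({2}, 𝓒₁(z))) : EX Q z ∧ 𝓒₁(z) ≤ 𝓝(Q) ∧ 𝓒(Q) ≤ Q ∧
      ♯Q = 2 ^ (2 * finrank (ZMod 2) W + 1) ∧ (∀ c a b g, f g = T c a b 1 → g ∈ Q) ∧
      (∃ E ≤ Q, IsElementaryAbelian 2 E ∧ ♯E = 2 ^ (finrank (ZMod 2) W + 1)) ∧
      ∃ K ≤ 𝓒₁(z), Q ⊓ K = ⊥ ∧ Q ⊔ K = 𝓒₁(z) ∧ Nonempty (K ≃* (End (ZMod 2) W)ˣ) := by
  choose t ht using hs
  have c0 : ∀ a : Dual (ZMod 2) W, a ∘ₗ (1 : End (ZMod 2) W) = a := fun _ => rfl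
  have h1 : ∀ g ∈ 𝓒₁(z), ∃ c a b A, f g = T c a b A := fun g hg => eq_T
    ((End.isUnit_iff _).1 ((Group.isUnit g).map f)).1 (by rw [← hz, ← map_mul, mem_cent1.1 hg, map_mul])
  have h2 : ∀ g c a b A, f g = T c a b A → g ∈ 𝓒₁(z) := fun g c a b A e =>
    mem_cent1.2 (hf (by simp [e, hz, T_mul, add_comm, c0]))
  choose κ α β γ hγ using fun g : 𝓒₁(z) => h1 g g.2
  let ρ₀ : 𝓒₁(z) →* End (ZMod 2) W :=
    { toFun := γ
      map_one' := (T_inj ((hγ 1).symm.trans (f.map_one.trans T_one.symm))).2.2.2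
      map_mul' := fun g h => (T_inj ((hγ _).symm.trans
        ((f.map_mul g h).trans (by rw [hγ, hγ, T_mul])))).2.2.2 }
  let ρ := ρ₀.toHomUnits
  have hρ : ∀ (g : 𝓒₁(z)) c a b A, f g = T c a b A → (ρ g).1 = A := fun g c a b A e =>
    (T_inj ((hγ g).symm.trans e)).2.2.2
  let σ : (End (ZMod 2) W)ˣ →* G := MonoidHom.mk' (t 0 0 0) fun A B => hf (by simp [ht, T_mul])
  have hσ : ∀ A, f (σ A) = T 0 0 0 A := ht 0 0 0
  have σC : ∀ A, σ A ∈ 𝓒₁(z) := fun A => h2 _ _ _ _ _ (hσ A)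
  have ρσ : ∀ A, ρ ⟨σ A, σC A⟩ = A := fun A => Units.ext (hρ _ _ _ _ _ (hσ A))
  have h3 : ∀ g, g ∈ ρ.ker.map 𝓒₁(z).subtype ↔ ∃ c a b, f g = T c a b 1 := fun g =>
    ⟨fun ⟨x, h, e⟩ => ⟨κ x, α x, β x, by
      rw [← e, ← show γ x = 1 from congrArg Units.val h]; exact hγ x⟩,
      fun ⟨c, a, b, e⟩ => ⟨⟨g, h2 _ _ _ _ _ e⟩, Units.ext (hρ _ _ _ _ _ e), rfl⟩⟩
  have cW : Nat.card W = 2 ^ finrank (ZMod 2) W := by
    rw [Module.natCard_eq_pow_finrank (K := ZMod 2), Nat.card_zmod]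
  have c1 : ♯(ρ.ker.map 𝓒₁(z).subtype) = 2 ^ (2 * finrank (ZMod 2) W + 1) := by
    rw [← Nat.card_congr (Equiv.ofBijective (fun x : ZMod 2 × Dual (ZMod 2) W × W =>
      (⟨t x.1 x.2.1 x.2.2 1, (h3 _).2 ⟨_, _, _, ht _ _ _ _⟩⟩ : ρ.ker.map 𝓒₁(z).subtype)) ⟨?_, ?_⟩),
      Nat.card_prod, Nat.card_prod, Module.natCard_eq_pow_finrank (K := ZMod 2) (V := Dual (ZMod 2) W),
      Subspace.dual_finrank_eq, cW, Nat.card_zmod]
    · ring
    · intro x y e
      obtain ⟨e1, e2, e3, -⟩ := T_inj ((ht _ _ _ _).symm.trans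
        ((congrArg (fun g => f g.1) e).trans (ht _ _ _ _)))
      exact Prod.ext e1 (Prod.ext e2 e3)
    · rintro ⟨g, hg⟩
      obtain ⟨c, a, b, e⟩ := (h3 g).1 hg
      exact ⟨(c, a, b), Subtype.ext (hf ((ht _ _ _ _).trans e.symm))⟩
  have n1 : 𝓒₁(z) ≤ 𝓝(ρ.ker.map 𝓒₁(z).subtype) := by
    have := le_normalizer_map (H := ρ.ker) 𝓒₁(z).subtype
    rwa [normalizer_eq_top, ← MonoidHom.range_eq_map, range_subtype] at this
  have h4 : Q = ρ.ker.map 𝓒₁(z).subtype := by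
    rw [hQ]
    refine le_antisymm ?_ (le_core (isPi_of_card_eq_pow Nat.prime_two c1) (map_subtype_le _) n1)
    rw [core_p_eq Nat.prime_two]
    refine map_mono ((Subgroup.map_eq_bot_iff _).1 ?_)
    have := Normal.map (inferInstance : (pCore 2 𝓒₁(z)).Normal) ρ fun A => ⟨_, ρσ A⟩
    have := Fact.mk Nat.prime_two
    refine core_GL _ (IsPGroup.map ?_ _)
    have h5 := (core_pi {2} 𝓒₁(z)).isPGroup Nat.prime_two
    rw [core_p_eq Nat.prime_two] at h5
    exact h5.of_equiv (equivMapOfInjective _ _ (subtype_injective _)).symm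
  rw [← h4] at h3 c1 n1
  have tQ : ∀ c a b, t c a b 1 ∈ Q := fun c a b => (h3 _).2 ⟨_, _, _, ht _ _ _ _⟩
  have zQ : z ∈ Q := (h3 _).2 ⟨_, _, _, hz⟩
  have zz : z * z = 1 := hf (by rw [map_mul, hz, T_mul, map_one, ← T_one]; simp; rfl)
  have h5 : ∀ g c, f g = T c 0 0 1 → g ∈ zpowers z := fun g c e => (mem_two zz).2 <|
    (z2 c).imp (fun h => hf (by rw [e, h, T_one, map_one])) fun h => hf (by rw [e, h, hz])
  have h6 : 𝓒(Q) ≤ zpowers z := fun g hg => by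
    obtain ⟨c, a, b, A, e⟩ := h1 g (mem_cent1.2 (mem_centralizer_iff.1 hg z zQ).symm)
    have k : ∀ a' b', T 0 a' b' 1 * T c a b A = T c a b A * T 0 a' b' 1 := fun a' b' => by
      simpa only [map_mul, ht, e, Units.val_one] using congrArg f (mem_centralizer_iff.1 hg _ (tQ 0 a' b'))
    simp only [T_mul] at k
    have k1 := fun b' => T_inj (k 0 b')
    have k2 := fun a' => (T_inj (k a' 0)).1
    simp only [LinearMap.zero_apply, add_zero, zero_add, left_eq_add, End.one_apply, map_zero,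
      add_eq_left] at k1 k2
    obtain rfl : a = 0 := LinearMap.ext fun y => (k1 y).1
    obtain rfl : A = 1 := LinearMap.ext fun y => by
      have := (k1 y).2.2.1
      rw [add_comm, add_right_inj] at this
      exact this.symm
    obtain rfl : b = 0 := (forall_dual_apply_eq_zero_iff (ZMod 2) b).1 k2
    exact h5 g c e
  have QC : Q ≤ 𝓒₁(z) := h4 ▸ map_subtype_le _
  refine ⟨⟨⟨zQ, fun e => ?_, zz, QC, fun x hx => ?_, fun c hc _ => h6 hc.2⟩, inf_le_right.trans h6,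
    fun h => ?_⟩, n1, h6.trans (zpowers_le.2 zQ), c1, fun c a b g e => (h3 g).2 ⟨c, a, b, e⟩, ?_,
    σ.range, ?_, ?_, ?_, ⟨(MonoidHom.ofInjective fun A B e => ?_).symm⟩⟩
  · rw [e, map_one, ← T_one] at hz
    exact zero_ne_one (T_inj hz).1
  · obtain ⟨c, a, b, e⟩ := (h3 x).1 hx
    exact h5 _ (a b) (by simp [e, T_mul, aa, c0])
  · obtain ⟨b, hb⟩ := exists_ne (0 : W)
    obtain ⟨a, ha, -⟩ := exists_dual hb hb
    have := congrArg (fun x : Q => f x) (h.is_comm.comm ⟨_, tQ 0 a 0⟩ ⟨_, tQ 0 0 b⟩)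
    simp only [coe_mul, map_mul, ht, T_mul] at this
    simpa [ha] using (T_inj this).1
  · let τ : Multiplicative (ZMod 2 × W) →* G := MonoidHom.mk' (fun x => t x.toAdd.1 0 x.toAdd.2 1)
      fun x y => hf (by simp [ht, T_mul])
    have hτ : Function.Injective τ := fun x y e => by
      obtain ⟨e1, -, e3, -⟩ := T_inj ((ht _ _ _ _).symm.trans ((congrArg f e).trans (ht _ _ _ _)))
      exact Multiplicative.toAdd.injective (Prod.ext e1 e3)
    refine ⟨τ.range, by rintro _ ⟨x, rfl⟩; exact tQ _ _ _, ⟨inferInstance, ?_⟩, ?_⟩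
    · rintro _ ⟨x, rfl⟩
      rw [← map_pow, sq, show x * x = 1 from aa (ZMod 2 × W) x.toAdd, map_one]
    · rw [← Nat.card_congr (MonoidHom.ofInjective hτ).toEquiv, Nat.card_congr Multiplicative.toAdd,
        Nat.card_prod, cW, Nat.card_zmod, pow_succ']
  · rintro _ ⟨A, rfl⟩
    exact σC A
  · refine (eq_bot_iff_forall _).2 ?_
    rintro _ ⟨h, A, rfl⟩
    obtain ⟨c, a, b, e⟩ := (h3 _).1 h
    rw [show A = 1 from Units.ext (T_inj ((hσ A).symm.trans e)).2.2.2, map_one]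
  · refine le_antisymm (sup_le QC (by rintro _ ⟨A, rfl⟩; exact σC A)) fun g hg => ?_
    rw [← inv_mul_cancel_right g (σ (ρ ⟨g, hg⟩))]
    refine mul_mem (mem_sup_left ?_) (mem_sup_right ⟨_, rfl⟩)
    rw [h4]
    exact ⟨⟨g, hg⟩ * ⟨_, σC (ρ ⟨g, hg⟩)⟩⁻¹, by simp [ρσ], rfl⟩
  · exact Units.ext (T_inj ((hσ A).symm.trans ((congrArg f e).trans (hσ B)))).2.2.2

end CA.H13Hol
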