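import Cfsg.Agent.Lib.Lin.H15Oa

/-!
Overgroups of the stabiliser of an orthogonal decomposition into four-dimensional subspaces.
-/

set_option autoImplicit false
set_option linter.unusedSectionVars false

namespace CA.H15Four

open Module CA.CForm CA.CForm.Form CA.H15Oa

variable {F : Type*} [Field F] [Finite F] {V : Type*} [AddCommGroup V] [Module F V]
  [FiniteDimensional F V] {ι : Type*} [Finite ι] {f : Form (Kind.orth F) V} {X : Subgroup f.Isom}
  {D : ι → Submodule F V}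

local notation:75 g:76 " ⊳ " v:75 => (g : V ≃ₗ[F] V) v

theorem eich_sub {x a : V} (hx : f.Q x = 0) (h : f.B x a = 0) (w : V) :
    f.eichler x a _ (f.orth_eichlerCond hx h) ⊳ w - w =
      f.B x w • a - (f.B a w + f.Q a * f.B x w) • x := by
  rw [eichler_apply]
  simp
  abel

theorem lev_diff {u d a : V} (hu : f.Q u = 0) (hd : f.Q d = 0) (h1 : f.B u a = 0) (h2 : f.B d a = 0)
    (h3 : f.B d u = 0) (ha : f.Q a ≠ 0) (l1 : f.Lev X u a) (l2 : f.Lev X (u + d) a) :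
    f.Lev X d (a + f.Q a • u) := by
  obtain ⟨c, hc, m⟩ := l1
  obtain ⟨c', hc', m'⟩ := l2
  have e : f.Q (a + f.Q a • u) = f.Q a := by
    simp [f.orth_Q_add, f.orth_Q_smul, hu, f.eq_zero_symm h1]
  have hc'' := f.orth_eichlerCond (w := a + f.Q a • u) hd (by simp [h2, h3])
  refine ⟨_, hc'', ?_⟩
  have := X.mul_mem (X.inv_mem m) m'
  rw [f.eichler_eq_refl_mul hc ha, f.eichler_eq_refl_mul hc' ha, mul_inv_rev, mul_assoc,
    inv_mul_cancel_left, refl_inv] at this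
  rwa [f.eichler_eq_refl_mul hc'' (by rwa [e]), e, add_assoc, ← smul_add]

/-- The setting. -/
structure Cx (f : Form (Kind.orth F) V) (X : Subgroup f.Isom) (D : ι → Submodule F V) : Prop where
  h : f.ODec D
  hX : ∀ g ∈ f.Eich, f.PermD D g → g ∈ X
  hM : f.MLA X D
  four : ∀ i, finrank F (D i) = 4
  ex : (∃ s : F, s ≠ 0 ∧ s ≠ 1) ∨
    ∀ j, ∀ p ∈ D j, ∀ q ∈ D j, f.Q p = 0 → f.Q q = 0 → f.B p q = 0 → p ≠ 0 → q ∈ F ∙ p

namespace Cx
variable (C : Cx f X D)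
include C

theorem nn {j : ι} {x : V} (hx : x ∈ D j) (x0 : x ≠ 0) (hQ : f.Q x = 0) :
    ∃ n ∈ D j, ∃ n' ∈ D j, f.B x n = 0 ∧ f.B x n' = 0 ∧ f.B n n' ≠ 0 := by
  obtain ⟨y, hy, hh⟩ := C.h.exists_isHyp hx x0 hQ
  have d1 := f.finrank_le_inf_perp (D j) x
  have d2 := f.finrank_le_inf_perp (D j ⊓ f.perp (F ∙ x)) y
  have d3 := C.four j
  obtain ⟨n, ⟨⟨n1, n2⟩, n3⟩, n0⟩ := exists_not_mem_of_lt (S := ⊥)
    (T := D j ⊓ f.perp (F ∙ x) ⊓ f.perp (F ∙ y)) (by rw [finrank_bot]; omega)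
  replace n2 := f.mem_perp_span_singleton.1 n2
  replace n3 := f.mem_perp_span_singleton.1 n3
  obtain ⟨m, m1, m2⟩ : ∃ m ∈ D j, f.B m n ≠ 0 := by
    by_contra hc
    push Not at hc
    exact n0 (Submodule.disjoint_def.1 (C.h.disj j) n n1 hc)
  refine ⟨n, n1, m - f.B x m • y, (D j).sub_mem m1 ((D j).smul_mem _ hy), n2, by simp [hh.B_xy], ?_⟩
  simpa [f.eq_zero_symm n3, f.orth_symm m n] using m2

theorem mem_of_all {j : ι} {x w : V} (hx : x ∈ D j) (x0 : x ≠ 0) (hQ : f.Q x = 0)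
    {S : Submodule F V} (H : ∀ a ∈ D j, f.B x a = 0 →
      f.B x w • a - (f.B a w + f.Q a * f.B x w) • x ∈ S) (hn : x ∉ S) : f.B x w = 0 := by
  obtain ⟨n, n1, n', n2, a1, a2, a3⟩ := C.nn hx x0 hQ
  have := S.sub_mem (S.add_mem (H n n1 a1) (H n' n2 a2)) (H _ ((D j).add_mem n1 n2) (by simp [a1, a2]))
  rw [show _ - _ = (f.B n n' * f.B x w) • x by rw [f.orth_Q_add, B_add_left]; module] at this
  by_contra e
  exact hn ((S.smul_mem_iff (mul_ne_zero a3 e)).1 this)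

theorem three {j : ι} {v : V} (hv : v ∈ D j) (Qv : f.Q v ≠ 0) {w : V}
    (H : ∀ x ∈ D j, x ≠ 0 → f.Q x = 0 → f.B v x = 0 → f.B x w = 0) : C.h.pr j w ∈ F ∙ v := by
  have d1 := f.finrank_le_inf_perp (D j) v
  have d3 := C.four j
  obtain ⟨x, hx, x0, hQ⟩ := iso_orth f (D j ⊓ f.perp (F ∙ v)) (by omega)
  obtain ⟨y, hy, hh⟩ := C.h.nondeg.exists_isHyp_mem hQ hx fun hp => by
    obtain ⟨s, rfl⟩ := Submodule.mem_span_singleton.1 (C.h.nondeg.mem_span_of_perp (C.h.disj j) hv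
      hx.1 fun w hw e => f.eq_zero_symm (hp w ⟨hw, f.mem_perp_span_singleton.2 e⟩))
    simp_all [f.orth_Q_smul]
  refine C.h.mem_span_of_perp hv fun a ha e => f.eq_zero_symm (hh.induction_singular hx hy
    (P := fun a => f.B a w = 0) (fun a b h1 h2 => by simp [h1, h2]) (fun z hz hQ => ?_)
    ⟨ha, f.mem_perp_span_singleton.2 e⟩)
  by_cases z0 : z = 0
  · simp [z0]
  exact H z hz.1 z0 hQ (f.mem_perp_span_singleton.1 hz.2)

section
variable {g : f.Isom} (hg : g ∈ X) {i : ι} {u : V} (hu : u ∈ f.act g (D i)) (hQ : f.Q u = 0)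
include hg hu hQ

theorem mem_of_perp {j : ι} {x : V} (hx : x ∈ D j) (hx' : x ∈ f.act g (D i)) (x0 : x ≠ 0)
    (Qx : f.Q x = 0) (hB : f.B x u = 0) : u ∈ D j :=
  C.hM j x hx x0 u ⟨_, _, (C.h.base C.hX i).act hg x hx' u hu _ (f.orth_eichlerCond Qx hB)⟩

variable (u0 : u ≠ 0) (hn : ∀ m, u ∉ D m) {w : V} (hw : w ∈ f.act g (D i)) (hB : f.B u w = 0)
include u0 hn hw hB

theorem E {j : ι} {x a : V} (hx : x ∈ D j) (ha : a ∈ D j) (Qx : f.Q x = 0) (e : f.B x a = 0)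
    (e1 : f.B x u = 0) (e2 : f.B a u = 0) :
    f.B x w • a - (f.B a w + f.Q a * f.B x w) • x ∈ f.act g (D i) := by
  rw [← eich_sub Qx e]
  exact Submodule.sub_mem _ (((C.hM.ml i).act hg).map_mem ((C.h.base C.hX i).act hg) hu u0 hQ hw hB
    (C.h.base C.hX j x hx a ha _ _) (by rw [eichler_apply, e1, e2]; simp)) hw

theorem pr_sing {j : ι} (hQj : f.Q (C.h.pr j u) = 0) : C.h.pr j w ∈ F ∙ C.h.pr j u := by
  have h := C.h
  have key : ∀ x ∈ D j, x ≠ 0 → f.Q x = 0 → h.pr j u ∈ F ∙ x → h.pr j w ∈ F ∙ x := by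
    intro x hx hx0 hxQ hux
    have b : ∀ a ∈ D j, f.B x a = 0 → f.B a u = 0 := fun a ha e => by
      obtain ⟨s, hs⟩ := Submodule.mem_span_singleton.1 hux
      rw [← h.B_pr ha, ← hs, map_smul, f.eq_zero_symm e, smul_zero]
    have bx := b x hx (f.B_self_of_Q hxQ)
    have E := fun a ha e => C.E hg hu hQ u0 hn hw hB hx ha hxQ e bx (b a ha e)
    have hxS : x ∉ f.act g (D i) := fun e => hn j (C.mem_of_perp hg hu hQ hx e hx0 hxQ bx)
    have e2 := C.mem_of_all hx hx0 hxQ E hxS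
    refine h.mem_span_of_perp hx fun a ha e => f.eq_zero_symm ?_
    have := E a ha e
    rw [e2, zero_smul, zero_sub, mul_zero, add_zero, Submodule.neg_mem_iff] at this
    by_contra e3
    exact hxS ((Submodule.smul_mem_iff _ e3).1 this)
  by_cases h0 : h.pr j u = 0
  · obtain ⟨x, hx, hx0, hxQ⟩ := iso_orth f (D j) (by rw [C.four]; omega)
    obtain ⟨y, hy, hh⟩ := h.exists_isHyp hx hx0 hxQ
    obtain ⟨c, e1⟩ := Submodule.mem_span_singleton.1 (key x hx hx0 hxQ (by simp [h0]))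
    obtain ⟨c', e2⟩ := Submodule.mem_span_singleton.1
      (key y hy hh.y_ne_zero hh.Q_y (by simp [h0]))
    have := congrArg (f.B x) (e1.trans e2.symm)
    rw [map_smul, map_smul, hh.B_xx, hh.B_xy, smul_zero, smul_eq_mul, mul_one] at this
    rw [← e2, ← this, zero_smul]
    exact Submodule.zero_mem _
  · exact key _ (h.pr_mem j u) h0 hQj (Submodule.mem_span_singleton_self _)

theorem pr_big {s : F} (s0 : s ≠ 0) (s1 : s ≠ 1) {j : ι} (hQj : f.Q (C.h.pr j u) ≠ 0) :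
    C.h.pr j w ∈ F ∙ C.h.pr j u := by
  have h := C.h
  have hv := h.pr_mem j u
  refine C.three hv hQj fun x hx x0 Qx e => ?_
  have bx : f.B x u = 0 := by rw [← h.B_pr hx, f.eq_zero_symm e]
  obtain ⟨a, a1, a2, a3, a4⟩ : ∃ a ∈ D j, f.B x a = 0 ∧ f.B a u = 0 ∧ f.Q a ≠ 0 := by
    by_cases h2 : (2 : F) = 0
    · exact ⟨_, hv, f.eq_zero_symm e, by rw [← h.B_pr hv, orth_B_self, h2, zero_mul], hQj⟩
    have vv : f.B (h.pr j u) (h.pr j u) ≠ 0 := by rw [orth_B_self]; exact mul_ne_zero h2 hQj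
    have d1 := f.finrank_le_inf_perp (D j) (h.pr j u)
    have d2 := finrank_inf_perp_lt hv vv
    have d3 := C.four j
    obtain ⟨a, a1, a2, a3, -⟩ := h.nondeg.exists_nonsing_of_three (S := D j ⊓ f.perp (F ∙ h.pr j u))
      (Submodule.disjoint_def.2 fun v hv' hp => by
        obtain ⟨s, rfl⟩ := Submodule.mem_span_singleton.1 (h.nondeg.mem_span_of_perp (h.disj j)
          hv hv'.1 fun w hw e => f.eq_zero_symm (hp w ⟨hw, f.mem_perp_span_singleton.2 e⟩))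
        have := f.mem_perp_span_singleton.1 hv'.2
        rw [map_smul, smul_eq_zero, or_iff_left vv] at this
        rw [this, zero_smul]) (by omega) ⟨hx, f.mem_perp_span_singleton.2 e⟩ x0 Qx
    exact ⟨a, a1.1, a2, by
      rw [← h.B_pr a1.1, f.eq_zero_symm (f.mem_perp_span_singleton.1 a1.2)], a3⟩
  have := Submodule.sub_mem _ (Submodule.smul_mem _ s (C.E hg hu hQ u0 hn hw hB hx a1 Qx a2 bx a3))
    (C.E hg hu hQ u0 hn hw hB hx ((D j).smul_mem s a1) Qx (by simp [a2]) bx (by simp [a3]))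
  rw [show _ - _ = (s * (s - 1) * f.Q a * f.B x w) • x by
    rw [f.orth_Q_smul, orth_B_smul_left]; module] at this
  by_contra e3
  exact hn j (C.mem_of_perp hg hu hQ hx ((Submodule.smul_mem_iff _ (by
    simp [s0, sub_ne_zero.2 s1, a4, e3])).1 this) x0 Qx bx)

omit hw hB in
theorem lemN {j : ι} (hQj : f.Q (C.h.pr j u) ≠ 0) {a : V} (ha : a ∈ D j) (ha' : a ∈ f.act g (D i))
    (e : f.B u a = 0) (Qa : f.Q a ≠ 0) : ∃ l, l ≠ j ∧ a + f.Q a • u ∈ D l := by
  have h := C.h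
  obtain ⟨l, hl, hQl⟩ : ∃ l, l ≠ j ∧ f.Q (h.pr l u) ≠ 0 := by
    by_contra hc
    push Not at hc
    have := h.Q_eq_zero (v := u - h.pr j u) fun l => by
      by_cases e : l = j
      · rw [e, h.pr_of_perp (h.sub_pr j u), Q_zero]
      · rw [map_sub, h.pr_of_ne e (h.pr_mem j u), sub_zero, hc l e]
    have e := f.orth_Q_add (h.pr j u) (u - h.pr j u)
    rw [add_sub_cancel, hQ, this, h.sub_pr j u _ (h.pr_mem j u), add_zero, add_zero] at e
    exact hQj e.symm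
  have d1 := f.finrank_le_inf_perp (D l) u
  have d3 := C.four l
  obtain ⟨d, ⟨hd, hd'⟩, d0, Qd⟩ := iso_orth f (D l ⊓ f.perp (F ∙ u)) (by omega)
  replace hd' := f.eq_zero_symm (f.mem_perp_span_singleton.1 hd')
  obtain ⟨n, n1, n2, n3⟩ : ∃ n ∈ D l, f.B d n = 0 ∧ f.B u n ≠ 0 := by
    by_contra hc
    push Not at hc
    obtain ⟨s, hs⟩ := Submodule.mem_span_singleton.1 (h.mem_span_of_perp hd hc)
    exact hQl (hs ▸ f.Q_smul_of_Q Qd s)
  have l1 : f.Lev X u a := ⟨_, _, (h.base C.hX i).act hg u hu a ha' _ (f.orth_eichlerCond hQ e)⟩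
  have l2 := l1.map (h.base C.hX l d hd n n1 _ (f.orth_eichlerCond Qd n2))
  have da := h.orth l j hl ha d hd
  rw [eichler_apply_of_B _ _ _ _ _ hd', eichler_apply_of_B _ _ _ _ _ da, h.orth l j hl ha n n1,
    mul_zero, zero_smul, sub_zero, sub_eq_add_neg, ← neg_smul] at l2
  exact ⟨l, hl, C.hM l _ ((D l).smul_mem _ hd) (smul_ne_zero (by simpa [f.orth_symm u n] using n3) d0)
    _ (lev_diff hQ (f.Q_smul_of_Q Qd _) e (by simp [da]) (by simp [hd']) Qa l1 l2)⟩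

theorem sing_w (h1 : ∀ s : F, s ≠ 0 → s = 1) (hm : ∀ j, ∀ p ∈ D j, ∀ q ∈ D j, f.Q p = 0 →
    f.Q q = 0 → f.B p q = 0 → p ≠ 0 → q ∈ F ∙ p) {j : ι} (hQj : f.Q (C.h.pr j u) ≠ 0)
    (hγ : f.B (C.h.pr j u) w ≠ 0) : f.Q (C.h.pr j w) = 0 := by
  have h := C.h
  have h2 : (2 : F) = 0 := by
    by_contra e
    exact one_ne_zero (α := F) (by linear_combination h1 2 e)
  have hv := h.pr_mem j u
  have hw' := h.pr_mem j w
  have vu : f.B (h.pr j u) u = 0 := by rw [← h.B_pr hv, orth_B_self, h2, zero_mul]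
  have ns : ∀ x ∈ D j ⊓ f.perp (F ∙ h.pr j u) ⊓ f.perp (F ∙ h.pr j w), x ≠ 0 → f.Q x = 1 :=
    fun x hx x0 => h1 _ fun Qx => by
      have b1 := f.eq_zero_symm (f.mem_perp_span_singleton.1 hx.1.2)
      have b2 := f.eq_zero_symm (f.mem_perp_span_singleton.1 hx.2)
      have b3 := b1
      rw [h.B_pr hx.1.1] at b2 b3
      have := C.E hg hu hQ u0 hn hw hB hx.1.1 hv Qx b1 b3 vu
      rw [b2, zero_smul, zero_sub, mul_zero, add_zero, Submodule.neg_mem_iff] at this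
      exact hn j (C.mem_of_perp hg hu hQ hx.1.1 ((Submodule.smul_mem_iff _ hγ).1 this) x0 Qx b3)
  have d1 := f.finrank_le_inf_perp (D j) (h.pr j u)
  have d2 := f.finrank_le_inf_perp (D j ⊓ f.perp (F ∙ h.pr j u)) (h.pr j w)
  have d3 := C.four j
  obtain ⟨a, ha, b, hb, a0, ab⟩ := exists_two
    (W := D j ⊓ f.perp (F ∙ h.pr j u) ⊓ f.perp (F ∙ h.pr j w)) (by omega)
  have b0 : b ≠ 0 := fun e => ab (e ▸ Submodule.zero_mem _)
  have q1 := ns a ha a0
  have q2 := ns b hb b0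
  have q3 := ns _ (Submodule.add_mem _ ha hb) fun e => ab (Submodule.mem_span_singleton.2
    ⟨-1, by linear_combination (norm := module) -e⟩)
  rw [orth_Q_add, q1, q2] at q3
  have q4 : f.B a b = 1 := by linear_combination q3 - h2 + (1 - f.B a b) * 0
  by_contra Qw
  replace Qw := h1 _ Qw
  replace hQj := h1 _ hQj
  rw [← h.B_pr hv] at hγ
  replace hγ := h1 _ hγ
  have a1 := f.mem_perp_span_singleton.1 ha.1.2
  have a2 := f.mem_perp_span_singleton.1 ha.2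
  have b1 := f.mem_perp_span_singleton.1 hb.1.2
  have b2 := f.mem_perp_span_singleton.1 hb.2
  generalize h.pr j u = v at *
  generalize h.pr j w = w' at *
  obtain ⟨s, hs⟩ := Submodule.mem_span_singleton.1 (hm j (v + a) ((D j).add_mem hv ha.1.1) (w' + b)
    ((D j).add_mem hw' hb.1.1) (by rw [orth_Q_add, hQj, q1, a1]; linear_combination h2)
    (by rw [orth_Q_add, Qw, q2, b2]; linear_combination h2)
    (by simp [hγ, b1, q4, f.eq_zero_symm a2]; linear_combination h2) fun e => by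
      have := congrArg (f.B w') e
      simp [a2, f.orth_symm v w', hγ] at this)
  have := congrArg (f.B v) hs
  simp [a1, b1, hγ, f.orth_B_self, h2] at this

theorem pr_mem (j : ι) : C.h.pr j w ∈ F ∙ C.h.pr j u := by
  have h := C.h
  by_cases hQj : f.Q (C.h.pr j u) = 0
  · exact C.pr_sing hg hu hQ u0 hn hw hB hQj
  by_cases hs : ∃ s : F, s ≠ 0 ∧ s ≠ 1
  · obtain ⟨s, s0, s1⟩ := hs
    exact C.pr_big hg hu hQ u0 hn hw hB s0 s1 hQj
  have hm := C.ex.resolve_left hs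
  push Not at hs
  have h2 : (2 : F) = 0 := by
    by_contra e
    exact one_ne_zero (α := F) (by linear_combination hs 2 e)
  have hv := h.pr_mem j u
  refine C.three hv hQj fun x hx x0 Qx e => ?_
  by_contra β
  have bx : f.B x u = 0 := by rw [← h.B_pr hx, f.eq_zero_symm e]
  have vu : f.B (h.pr j u) u = 0 := by rw [← h.B_pr hv, orth_B_self, h2, zero_mul]
  have m := C.E hg hu hQ u0 hn hw hB hx hv Qx (f.eq_zero_symm e) bx vu
  rw [hs _ β, hs _ hQj, one_smul, one_mul] at m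
  by_cases γ : f.B (h.pr j u) w = 0
  · rw [γ, zero_add, one_smul] at m
    have q : f.Q (h.pr j u - x) = 1 := by
      rw [sub_eq_add_neg, orth_Q_add, Q_neg, Qx, map_neg, e, hs _ hQj]; simp
    obtain ⟨l, hl, m'⟩ := C.lemN hg hu hQ u0 hn hQj ((D j).sub_mem hv hx) m (by
      rw [map_sub, f.eq_zero_symm vu, f.eq_zero_symm bx, sub_zero]) (q ▸ one_ne_zero)
    have := h.pr_of_ne hl.symm m'
    rw [q, one_smul, map_add, h.pr_of_mem ((D j).sub_mem hv hx)] at this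
    exact x0 (by linear_combination (norm := module) -this + h2 • h.pr j u)
  rw [hs _ γ, one_add_one_eq_two, h2, zero_smul, sub_zero] at m
  obtain ⟨l, hl, m'⟩ := C.lemN hg hu hQ u0 hn hQj hv m (f.eq_zero_symm vu) hQj
  rw [hs _ hQj, one_smul] at m'
  have e1 : h.pr l u = h.pr j u + u := by
    rw [← h.pr_of_mem m', map_add, h.pr_of_ne hl hv, zero_add]
  have Qw : f.Q w = 0 := h.Q_eq_zero fun m => by
    by_cases c1 : m = j
    · exact c1 ▸ C.sing_w hg hu hQ u0 hn hw hB hs hm hQj γ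
    by_cases c2 : m = l
    · exact c2 ▸ C.sing_w hg hu hQ u0 hn hw hB hs hm (by
        rw [e1, orth_Q_add, hQ, vu]; simpa using hQj) (by rw [e1]; simpa [hB] using γ)
    have e2 := h.pr_of_ne c2 m'
    rw [map_add, h.pr_of_ne c1 hv, zero_add] at e2
    have := C.pr_sing hg hu hQ u0 hn hw hB (j := m) (by rw [e2, Q_zero])
    rw [e2, Submodule.span_zero_singleton, Submodule.mem_bot] at this
    rw [this, Q_zero]
  obtain ⟨s, hs'⟩ := Submodule.mem_span_singleton.1 (hm i _ (f.mem_act.1 hu) _ (f.mem_act.1 hw)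
    (by rw [Q_coe_map, hQ]) (by rw [Q_coe_map, Qw]) (by rw [B_coe_map, hB]) (by simpa using u0))
  rw [← map_smul] at hs'
  exact γ (by rw [← (g⁻¹ : f.Isom).1.injective hs', map_smul, vu, smul_zero])

end

theorem alt {g : f.Isom} (hg : g ∈ X) (i : ι) : (∃ j, f.act g (D i) ≤ D j) ∨
    ((∀ j, ∀ x ∈ f.act g (D i), x ∈ D j → f.Q x = 0 → x = 0) ∧
      ∀ j, 3 ≤ finrank F (f.act g (D i) ⊓ f.perp (D j) : Submodule F V)) := by
  have h := C.h
  have hS := disjoint_act (h.disj i) g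
  have hS4 : finrank F (f.act g (D i)) = 4 := by rw [finrank_act, C.four]
  have A := fun u hu hQ u0 hn w hw hB j => C.pr_mem hg (i := i) (u := u) hu hQ u0 hn (w := w) hw hB j
  have M : ∀ j, ∀ x ∈ D j, x ∈ f.act g (D i) → x ≠ 0 → f.Q x = 0 → ∀ w ∈ f.act g (D i),
      f.B x w = 0 → w ∈ D j := fun j x hx hx' x0 Qx w hw e =>
    C.hM j x hx x0 w ⟨_, _, (h.base C.hX i).act hg x hx' w hw _ (f.orth_eichlerCond Qx e)⟩
  generalize f.act g (D i) = S at *
  obtain ⟨x, hx, hx0, hxQ⟩ := iso_orth f S (by omega)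
  obtain ⟨y, hy, hh⟩ := h.nondeg.exists_isHyp_mem hxQ hx fun hp =>
    hx0 (Submodule.disjoint_def.1 hS x hx hp)
  have one : ∀ v : V, finrank F (F ∙ v : Submodule F V) ≤ 1 := fun v => by
    simpa using finrank_span_le_card (R := F) ({v} : Set V)
  refine or_iff_not_imp_left.2 fun hc => ?_
  have h1 : ∀ j, ∀ x ∈ S, x ∈ D j → f.Q x = 0 → x = 0 := fun j z a1 a2 a3 => by
    by_contra a4
    refine hc ⟨j, fun v hv => hh.induction_singular hx hy (P := (· ∈ D j))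
      (fun _ _ => (D j).add_mem) (fun u hu Qu => ?_) hv⟩
    by_contra b1
    have b4 : f.B z u ≠ 0 := fun e => b1 (M j z a2 a1 a4 a3 u hu e)
    have d1 := f.finrank_le_inf_perp S u
    have d2 := f.finrank_le_inf_perp (S ⊓ f.perp (F ∙ u)) z
    obtain ⟨w, ⟨⟨c1, c2⟩, c3⟩, c0⟩ := exists_not_mem_of_lt (S := F ∙ h.pr j u)
      (T := S ⊓ f.perp (F ∙ u) ⊓ f.perp (F ∙ z)) (by have := one (h.pr j u); omega)
    have := A u hu Qu (by rintro rfl; simp at b1) (fun m hm => by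
      by_cases e : j = m
      · exact b1 (e ▸ hm)
      · exact b4 (h.orth j m e hm z a2)) w c1 (f.mem_perp_span_singleton.1 c2) j
    rw [h.pr_of_mem (M j z a2 a1 a4 a3 w c1 (f.mem_perp_span_singleton.1 c3))] at this
    exact c0 this
  refine ⟨h1, fun j => ?_⟩
  have h2 : ∀ u ∈ S, u ≠ 0 → f.Q u = 0 →
      2 ≤ finrank F (S ⊓ f.perp (D j) ⊓ f.perp (F ∙ u) : Submodule F V) := fun u hu u0 Qu => by
    have d1 := f.finrank_le_inf_perp S u
    have d2 := rk (h.pr j) (A := S ⊓ f.perp (F ∙ u)) (B := F ∙ h.pr j u)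
      (K := S ⊓ f.perp (D j) ⊓ f.perp (F ∙ u)) (fun w hw => A u hu Qu u0
        (fun m hm => u0 (h1 m u hu hm Qu)) w hw.1 (f.mem_perp_span_singleton.1 hw.2) j)
      fun w hw e => ⟨⟨hw.1, h.mem_perp_of_pr e⟩, hw.2⟩
    have := one (h.pr j u)
    omega
  by_contra hc
  have d1 := (h2 x hx hx0 hxQ).trans (Submodule.finrank_mono inf_le_left)
  obtain ⟨κ, a1, a2⟩ := exists_not_mem_of_lt (S := ⊥) (T := S ⊓ f.perp (D j))
    (by rw [finrank_bot]; omega)
  refine a2 (Submodule.disjoint_def.1 hS κ a1.1 fun v hv => hh.induction_singular hx hy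
    (P := fun v => f.B v κ = 0) (fun a b ha hb => by simp [ha, hb]) (fun u b1 b2 => ?_) hv)
  by_cases b3 : u = 0
  · simp [b3]
  have := h2 u b1 b3 b2
  exact f.mem_perp_span_singleton.1 ((Submodule.eq_of_le_of_finrank_le
    (inf_le_left (b := f.perp (F ∙ u))) (by omega)).ge a1).2

theorem mem {g : f.Isom} (hg : g ∈ X) (i : ι) {u : V} (hu : u ∈ f.act g (D i)) (u0 : u ≠ 0) :
    ∃ j, u ∈ D j := by
  have h := C.h
  obtain ⟨j, hj⟩ | ⟨G1, G2⟩ := C.alt hg i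
  · exact ⟨j, hj hu⟩
  exfalso
  obtain ⟨j, hj⟩ : ∃ j, h.pr j u ≠ 0 := by
    by_contra hc
    push Not at hc
    exact u0 (h.eq_zero hc)
  obtain ⟨x, hx, hxQ, hxu⟩ : ∃ x ∈ D j, f.Q x = 0 ∧ f.B x u ≠ 0 := by
    by_contra hc
    push Not at hc
    obtain ⟨x, hx, hx0, hxQ⟩ := iso_orth f (D j) (by rw [C.four]; omega)
    obtain ⟨y, hy, hh⟩ := h.exists_isHyp hx hx0 hxQ
    exact hj (h.pr_of_perp fun v hv => hh.induction_singular hx hy
      (P := fun v => f.B v u = 0) (fun a b ha hb => by simp [ha, hb]) hc hv)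
  have hx0 : x ≠ 0 := by rintro rfl; simp at hxu
  obtain ⟨e, e1, e2, e3⟩ : ∃ e ∈ X, e ∈ f.fix (f.perp (D j)) ∧ e ⊳ u ∉ f.act g (D i) := by
    by_contra hc
    push Not at hc
    refine hxu (C.mem_of_all hx hx0 hxQ (S := f.act g (D i)) (fun a ha e => ?_)
      fun e => hx0 (G1 j x e hx hxQ))
    rw [← eich_sub hxQ e]
    exact Submodule.sub_mem _ (hc _ (h.base C.hX j x hx a ha _ _) (eichler_mem_fix hx ha _ _)) hu
  have e4 : f.act g⁻¹ (f.act g (D i) ⊓ f.perp (D j)) ≤ f.act (g⁻¹ * e * g) (D i) ⊓ D i := by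
    rintro _ ⟨v, hv, rfl⟩
    exact ⟨⟨_, f.mem_act.1 hv.1, by simp [isom_mul_apply, e2 v hv.2]⟩, f.mem_act.1 hv.1⟩
  have e5 := Submodule.finrank_mono e4
  rw [finrank_act] at e5
  have G3 := G2 j
  obtain ⟨m, hm⟩ | ⟨-, G4⟩ := C.alt (X.mul_mem (X.mul_mem (X.inv_mem hg) e1) hg) i
  · obtain ⟨κ, a1, a2⟩ := exists_not_mem_of_lt (S := ⊥) (T := f.act (g⁻¹ * e * g) (D i) ⊓ D i)
      (by rw [finrank_bot]; omega)
    rw [h.eq_of_mem (hm a1.1) a1.2 a2] at hm
    exact e3 (f.mem_act.2 (hm ⟨_, f.mem_act.1 hu, by simp [isom_mul_apply]⟩))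
  have G5 := G4 i
  have e6 := Submodule.finrank_sup_add_finrank_inf_eq (f.act (g⁻¹ * e * g) (D i) ⊓ D i)
    (f.act (g⁻¹ * e * g) (D i) ⊓ f.perp (D i))
  have e7 := Submodule.finrank_mono (sup_le (inf_le_left (b := D i)) (inf_le_left
    (a := f.act (g⁻¹ * e * g) (D i)) (b := f.perp (D i))))
  rw [((h.disj i).mono inf_le_right inf_le_right).eq_bot, finrank_bot] at e6
  rw [finrank_act] at e7
  have := C.four i
  omega

end Cx

theorem four_max (h : f.ODec D) (hX : ∀ g ∈ f.Eich, f.PermD D g → g ∈ X)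
    (h4 : ∀ i, finrank F (D i) = 4) (ht : ∀ i j : ι, ∃ l, l ≠ i ∧ l ≠ j)
    (ex : (∃ s : F, s ≠ 0 ∧ s ≠ 1) ∨
      ∀ j, ∀ p ∈ D j, ∀ q ∈ D j, f.Q p = 0 → f.Q q = 0 → f.B p q = 0 → p ≠ 0 → q ∈ F ∙ p) :
    (∀ g ∈ X, f.PermD D g) ∨ f.Eich ≤ X :=
  h.max_of_mla hX (fun i => .inl (by rw [h4]; omega))
    (fun i => (h.nondeg_restrict i).orth_irrI fun c => by have := h4 i; omega)
    (fun i => iso_orth f _ (by rw [h4]; omega)) (h.third ht)
    fun hM _ hg i _ hu h0 _ => Cx.mem ⟨h, hX, hM, h4, ex⟩ hg i hu h0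

open Cfsg Cfsg.Geo CA.AschBase CA.AschTForm CA.AschProp CA.AschFG CA.AschFG5 CA.AschFG7
  CA.AschO1 CA.MaxGL in
theorem orth_max_decomp4 {ι : Type} [Fintype ι] [DecidableEq ι] {F : Type*} [Field F] [Fintype F]
    {φ : Form (Kind.orth F) (ι → F)} (hφ : φ.Nondeg) {t : ℕ} {D : Fin t → Submodule F (ι → F)}
    (hD : IsOrthogonalMDecomposition φ.Q 4 D) (ht : 3 ≤ t)
    (hex : ¬(Fintype.card F = 2 ∧ ∃ i, IsPlusTypeOn φ.Q (D i))) :
    IsMaximalIn (omegaGL φ.Q) (decompositionStabilizer D ⊓ omegaGL φ.Q) := by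
  obtain ⟨h1, h2⟩ := orthDecomp_iff.1 hD
  have h := odec hφ h1 h2
  have h3 := decomp_card h1.decomp
  have h5 : 5 ≤ Fintype.card ι := by omega
  have h6 := h1.decomp.finrank_eq
  rw [omega_eq hφ h5]
  refine max_decomp h1.decomp (not_le_orth hφ h5 h1.decomp (.inr (by omega))) fun X hX =>
    four_max h hX h6 (exists_third ht) ?_
  by_cases hq : Fintype.card F = 2
  swap
  · exact .inl (exists_ne_zero_ne_one hq)
  refine .inr fun j p hp q hq' Qp Qq hB p0 => ?_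
  by_contra hn
  refine hex ⟨hq, j, Submodule.span F {p, q}, Submodule.span_le.2 (by
    rintro _ (rfl | rfl) <;> assumption), fun v hv => ?_, ?_⟩
  · obtain ⟨s, t, rfl⟩ := Submodule.mem_span_pair.1 hv
    simp [φ.orth_Q_add, φ.orth_Q_smul, Qp, Qq, hB]
  · have d1 := finrank_span_pair_le (F := F) p q
    have d4 := Submodule.finrank_lt_finrank_of_lt (lt_of_le_of_ne (Submodule.span_mono (by simp))
      fun e => hn (e ▸ Submodule.subset_span (by simp)) : F ∙ p < Submodule.span F {p, q})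
    rw [finrank_span_singleton p0] at d4
    rw [h6]
    omega

end CA.H15Four
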