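import Cfsg.Agent.Lib.Lin.MaxU7

/-!
Overgroups of the special monomial group of an orthonormal frame in a unitary group of dimension
at least ten: elements fixing a frame vector, columns with zeros.
-/

set_option autoImplicit false
set_option linter.unusedSectionVars false

namespace CA.CForm

open Module CA.MaxF Pi Equiv Finset

namespace Form
variable {F : Type*} [Field F] [Fintype F] {ι : Type*} [Fintype ι] [DecidableEq ι]
  {s : F →+* F} {hs : ∀ a, s (s a) = a}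

local notation:75 g:76 " ⊳ " v:75 => (Subtype.val g) v
local notation "𝐞" i:max => (Pi.single i 1 : ι → F)

/-- `X` is a proper overgroup of the special monomial group of the standard frame. -/
structure Fv (f : Form (Kind.herm s hs) (ι → F)) (X : Subgroup f.Isom) : Prop where
  hk : HK s
  big : 10 ≤ Fintype.card ι
  st : f.St
  dg_mem : ∀ i j, i ≠ j → ∀ z, z * s z = 1 →
    ∃ g ∈ X, ∀ u, g ⊳ u = u + ((z - 1) * u i) • 𝐞 i + ((s z - 1) * u j) • 𝐞 j
  perm_mem : ∀ σ : Perm ι, Perm.sign σ = 1 ∨ (2 : F) = 0 → ∃ g ∈ X, ∀ u, g ⊳ u = u ∘ σ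
  det : X ≤ f.SIsom
  not_le : ¬f.Eich ≤ X

variable {f : Form (Kind.herm s hs) (ι → F)} {X : Subgroup f.Isom} {g : f.Isom}

namespace Fv
variable (h : f.Fv X)
include h

theorem out (s : Finset ι) (hs : s.card ≤ 9) : ∃ k, k ∉ s :=
  exists_notMem_of_lt (by have := h.big; omega)

theorem quot (p : ι → Prop) [DecidablePred p] (hp : 5 ≤ Fintype.card {j // p j}) {ρ : ι → F}
    (h0 : ∀ j, p j → ρ j = 0) (hρ : f.B ρ ρ = 0)
    (hr : ∀ j, p j → ∀ z, z * s z = 1 → ∃ g ∈ X, (∃ a : F, a ≠ 0 ∧ g ⊳ ρ = a • ρ) ∧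
      ∀ u, (∀ i, ¬p i → u i = 0) → g ⊳ u = u + ((z - 1) * u j) • 𝐞 j) :
    (∀ g ∈ X, ∀ a : F, a ≠ 0 → g ⊳ ρ = a • ρ →
      (∀ u, (∀ i, ¬p i → u i = 0) → ∃ b, ∀ i, ¬p i → (g ⊳ u) i = b * ρ i) →
      ∀ j, p j → ∃ (j' : ι) (c b : F), g ⊳ 𝐞 j = c • 𝐞 j' + b • ρ) ∨
    ∀ x w c hc, (∀ i, ¬p i → x i = 0) → (∀ i, ¬p i → w i = 0) → ∃ g ∈ X,
      ∀ u, (∀ i, ¬p i → u i = 0) → ∃ b : F, g ⊳ u = f.eichler x w c hc ⊳ u + b • ρ := by
  let f' := f.comap (xp p)
  have st : f'.St := fun j u => by rw [comap_B, xp_single, h.st, xp_val]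
  let Y : Subgroup f'.Isom :=
    { carrier := {g' | ∃ g ∈ X, (∃ a : F, a ≠ 0 ∧ g ⊳ ρ = a • ρ) ∧
        ∀ v, ∃ b : F, g ⊳ xp p v = xp p (g' ⊳ v) + b • ρ}
      one_mem' := ⟨1, one_mem _, ⟨1, one_ne_zero, (one_smul ..).symm⟩, fun _ => ⟨0, by simp⟩⟩
      mul_mem' := fun ⟨g, hg, ⟨a, a0, ha⟩, e⟩ ⟨g', hg', ⟨a', a0', ha'⟩, e'⟩ =>
        ⟨g * g', mul_mem hg hg', ⟨a' * a, mul_ne_zero a0' a0, by
          rw [isom_mul_apply, ha', map_smul, ha, smul_smul]⟩, fun v => by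
          obtain ⟨b', hb'⟩ := e' v
          obtain ⟨b, hb⟩ := e _
          exact ⟨b + b' * a, by
            rw [isom_mul_apply, hb', map_add, hb, map_smul, ha, isom_mul_apply]; module⟩⟩
      inv_mem' := fun {g'} ⟨g, hg, ⟨a, a0, ha⟩, e⟩ => by
        have k : g⁻¹ ⊳ ρ = a⁻¹ • ρ := by
          rw [eq_inv_smul_iff₀ a0, ← map_smul, ← ha, isom_inv_apply_apply]
        refine ⟨g⁻¹, inv_mem hg, ⟨_, inv_ne_zero a0, k⟩, fun v => ?_⟩
        obtain ⟨b, hb⟩ := e (g'⁻¹ ⊳ v)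
        rw [isom_apply_inv_apply, ← sub_eq_iff_eq_add] at hb
        exact ⟨-(b * a⁻¹), by
          rw [← hb, map_sub, isom_inv_apply_apply, map_smul, k]; module⟩ }
  refine or_iff_not_imp_right.2 fun H g hg a a0 ha e j hj => ?_
  have H' : f'.Fg Y := by
    refine ⟨h.hk, hp, st, fun j => ⟨by simp [st _ _], fun z hz => ?_⟩, fun σ hσ => ?_,
      fun k => H fun x w c hc hx hw => ?_⟩
    · obtain ⟨g, hg, k, e⟩ := hr j j.2 z hz
      refine ⟨f'.qrefl (single j 1) (z - 1) (by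
        simp [QreflCond, ← herm_B_self, st _ _]; linear_combination hz), ⟨g, hg, k, fun v => ⟨0, ?_⟩⟩,
        f'.qrefl_apply _ _ _⟩
      rw [e _ (xp_not v), qrefl_apply, st, map_add, map_smul, xp_single, xp_val, zero_smul, add_zero]
    · obtain ⟨g, hg, e⟩ := h.perm_mem (Perm.ofSubtype σ) (.inl (by rw [Perm.sign_ofSubtype, hσ]))
      refine ⟨⟨LinearEquiv.funCongrLeft F F σ, f'.herm_mem_Isom.2 fun x y => by
        rw [st.B_eq, st.B_eq]
        exact Equiv.sum_comp σ fun i => s (x i) * y i⟩, ⟨g, hg, ⟨1, one_ne_zero, ?_⟩, fun v => ⟨0, ?_⟩⟩,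
        fun _ => rfl⟩ <;> rw [e] <;> ext j <;> by_cases hj : p j
      · simp [Perm.ofSubtype_apply_of_mem σ hj, h0 _ hj, h0 _ (σ _).2]
      · simp [Perm.ofSubtype_apply_of_not_mem σ hj]
      · rw [Function.comp, Perm.ofSubtype_apply_of_mem σ hj, xp_val, zero_smul, add_zero]
        exact (xp_val (v ∘ σ) ⟨j, hj⟩).symm
      · simp [Perm.ofSubtype_apply_of_not_mem σ hj, xp_not _ _ hj]
    · have c2 : f'.EichlerCond (fun j => x j) (fun j => w j) c := ⟨by rw [comap_Q, xp_res hx, hc.1],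
        by rw [comap_B, xp_res hx, xp_res hw, hc.2], by rw [comap_Q, xp_res hw, hc.3]⟩
      obtain ⟨g, hg, -, e⟩ := k (f'.eichler_mem_Eich _ _ _ c2)
      refine ⟨g, hg, fun u hu => (e fun j => u j).imp fun b hb => ?_⟩
      rwa [eichler_apply, map_sub, map_add, map_smul, map_smul, comap_B, comap_B,
        xp_res hx, xp_res hw, xp_res hu, ← eichler_apply] at hb
  let φ : ({j // p j} → F) →ₗ[F] ({j // p j} → F) :=
    LinearMap.funLeft F F Subtype.val ∘ₗ g.1.toLinearMap ∘ₗ xp p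
  have k1 : ∀ v, ∃ b : F, g ⊳ xp p v = xp p (φ v) + b • ρ := fun v =>
    (e _ (xp_not v)).imp fun b hb => funext fun i => by
      by_cases hi : p i
      · rw [Pi.add_apply, Pi.smul_apply, h0 i hi, smul_zero, add_zero]
        exact (xp_val (φ v) ⟨i, hi⟩).symm
      · rw [hb i hi, Pi.add_apply, xp_not _ _ hi, zero_add]; rfl
  have k2 : ∀ v, f.B ρ (xp p v) = 0 := fun v => by
    rw [h.st.B_eq]
    exact sum_eq_zero fun i _ => by by_cases hi : p i <;> simp [h0, xp_not, hi]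
  have k3 : ∀ v w, f'.B (φ v) (φ w) = f'.B v w := fun v w => by
    obtain ⟨b, hb⟩ := k1 v
    obtain ⟨b', hb'⟩ := k1 w
    simpa [f', hb, hb', k2, hρ, f.eq_zero_symm (k2 _)] using f.B_coe_map g (xp p v) (xp p w)
  obtain ⟨j', c, hc⟩ := H'.mon (g := ⟨.ofInjectiveEndo φ (st.nondeg.injective_of_B f' φ k3),
    f'.herm_mem_Isom.2 k3⟩) ⟨g, hg, ⟨a, a0, ha⟩, k1⟩ ⟨j, hj⟩
  obtain ⟨b, hb⟩ := k1 (single ⟨j, hj⟩ 1)
  refine ⟨j', c, b, ?_⟩
  rwa [xp_single, show φ _ = _ from hc, map_smul, xp_single] at hb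

theorem move (i j : ι) : ∃ t ∈ X, t ∈ f.MonU ∧ t ⊳ 𝐞 j = 𝐞 i ∧ ∀ u, (t ⊳ u) i = u j := by
  obtain ⟨k, hk⟩ := h.out {i, j} (card_le_two.trans (by omega))
  obtain ⟨l, hl⟩ := h.out {k, i, j} (card_le_three.trans (by omega))
  simp only [mem_insert, mem_singleton, not_or] at hk hl
  obtain ⟨σ, h1, h2⟩ : ∃ σ : Perm ι, Perm.sign σ = 1 ∧ σ i = j := by
    by_cases e : i = j
    · exact ⟨1, by simp, e⟩
    · exact ⟨swap i j * swap k l, by simp [e, Ne.symm hl.1],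
        by simp [swap_apply_of_ne_of_ne (Ne.symm hk.1) (Ne.symm hl.2.1)]⟩
  obtain ⟨s, hs, e⟩ := h.perm_mem σ (.inl h1)
  exact ⟨s, hs, fun m => ⟨σ.symm m, 1, by rw [e, single_comp, one_smul]⟩,
    by rw [e, single_comp, ← h2, σ.symm_apply_apply], fun u => by rw [e, ← h2]; rfl⟩

theorem not_lev (i : ι) :
    ¬∀ x w : ι → F, x i = 0 → w i = 0 → f.Q x = 0 → f.B x w = 0 → f.Lev X x w := fun H => by
  have st : ∀ i u, f.B (𝐞 i) u = u i := h.st
  have H' : ∀ j (x w : ι → F), x j = 0 → w j = 0 → f.Q x = 0 → f.B x w = 0 → f.Lev X x w :=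
    fun j x w h1 h2 h3 h4 => by
      obtain ⟨s, hs, -, -, e⟩ := h.move i j
      simpa using (H (s ⊳ x) (s ⊳ w) (by rw [e, h1]) (by rw [e, h2]) (by rw [Q_coe_map, h3])
        (by rw [B_coe_map, h4])).map (X.inv_mem hs)
  obtain ⟨a, ha⟩ := h.out {i} (by simp)
  obtain ⟨b, hb⟩ := h.out {a, i} (card_le_two.trans (by omega))
  obtain ⟨j, hj⟩ := h.out {b, a, i} (card_le_three.trans (by omega))
  simp only [mem_insert, mem_singleton, not_or] at ha hb hj
  obtain ⟨t, e⟩ := exists_norm_eq s hs h.hk.ne (-1) (by simp)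
  set x : ι → F := 𝐞 a + t • 𝐞 b with hx
  have xi : x i = 0 := by simp [hx, Ne.symm ha, Ne.symm hb.2]
  have xj : x j = 0 := by simp [hx, hj.1, hj.2.1]
  have xa : x a = 1 := by simp [hx, Ne.symm hb.1]
  have xx : f.B x x = 0 := by
    nth_rw 1 [hx]
    simp only [B_add_left, herm_B_smul_left, st, xa]
    simp [hx, hb.1]
    linear_combination e
  have qx : f.Q x = 0 := (f.herm_B_self x).symm.trans xx
  obtain ⟨z, z1, z2⟩ := h.hk.exists_ne
  have z3 : z - 1 ≠ 0 := fun e => z2 (by rw [sub_eq_zero.1 e, map_one])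
  obtain ⟨g, hg, eg⟩ := h.dg_mem a j (Ne.symm hj.2.1) z z1
  have h3 : ∀ w, f.B x w = 0 → f.Lev X x w := fun w h1 => by
    simpa using (H' i x (w - w i • 𝐞 i) xi (by simp) qx (by simp [h1, xi, h.st.right])).add
      (H' j x (w i • 𝐞 i) xj (by simp [hj.2.2]) qx (by simp [h.st.right, xi]))
  have h4 : 3 ≤ finrank F (ι → F) := by have := h.big; simp; omega
  refine h.not_le (h.st.nondeg.Eich_le_of_Qgrp' (.inl h4) qx (Qgrp_le_of_lev
    (h.st.nondeg.Tgrp_le_of_lev h4 (herm_exists_sub_eq hs h.hk.ne) h3) h3) hg ?_)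
  simp [eg, xx, xa, xj, h.st.right, z3]

theorem mon_of_fix (hg : g ∈ X) {i : ι} {a : F} (e : g ⊳ 𝐞 i = a • 𝐞 i) : g ∈ f.MonU := by
  have st : ∀ i u, f.B (𝐞 i) u = u i := h.st
  rcases h.quot (· ≠ i) (by have := h.big; simp; omega) (ρ := 0) (fun _ _ => rfl) (by simp)
    (fun j hj z hz => (h.dg_mem j i hj z hz).imp fun g hg => ⟨hg.1, ⟨1, one_ne_zero, by simp⟩,
      fun u hu => by simp [hg.2, hu i]⟩) with H | H
  · intro j
    by_cases hj : j = i
    · exact ⟨i, a, hj ▸ e⟩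
    have a0 : a ≠ 0 := by
      rintro rfl
      rw [zero_smul, LinearEquiv.map_eq_zero_iff] at e
      simpa using congrFun e i
    simpa using H g hg 1 one_ne_zero (by simp) (fun u hu => ⟨0, fun k hk => by
      obtain rfl : k = i := by simpa using hk
      simpa [e, st, hu k, a0] using f.B_coe_map g (𝐞 k) u⟩) j hj
  refine (h.not_lev i fun x w h1 h3 h4 h5 => ?_).elim
  obtain ⟨c, hc⟩ := f.exists_eichlerCond h4 h5
  obtain ⟨t, ht, e⟩ := H x w c hc (by simpa using h1) (by simpa using h3)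
  replace e : ∀ v, v i = 0 → t ⊳ v = f.eichler _ _ _ hc ⊳ v := fun v hv => by
    simpa using e v (by simpa using hv)
  have e2 : ∀ v, (f.eichler _ _ _ hc ⊳ v) i = v i := fun v => by simp [eichler_apply, h1, h3]
  have e3 : f.eichler _ _ _ hc ⊳ 𝐞 i = 𝐞 i := by simp [eichler_apply, h.st.right, h1, h3]
  have e4 : t ⊳ 𝐞 i = (t ⊳ 𝐞 i) i • 𝐞 i := funext fun j => by
    by_cases hj : j = i
    · simp [hj]
    have := f.B_coe_map t ((f.eichler _ _ _ hc)⁻¹ ⊳ 𝐞 j) (𝐞 i)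
    have k : ((f.eichler _ _ _ hc)⁻¹ ⊳ 𝐞 j) i = 0 := by
      rw [← e2 ((f.eichler _ _ _ hc)⁻¹ ⊳ 𝐞 j), isom_apply_inv_apply]; simp [Ne.symm hj]
    rw [e _ k, isom_apply_inv_apply, st, h.st.right, k] at this
    simpa [hj] using this
  have e5 := f.B_coe_map t (𝐞 i) (𝐞 i)
  generalize (t ⊳ 𝐞 i) i = b at e4
  simp only [e4, herm_B_smul_left, st, Pi.smul_apply, single_eq_same, smul_eq_mul] at e5
  have c1 : f.QreflCond (𝐞 i) (b - 1) := by
    simp [QreflCond, ← herm_B_self, st]; linear_combination e5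
  have e6 : t = f.eichler _ _ _ hc * f.qrefl _ _ c1 := f.isom_ext fun v => by
    rw [← sub_add_cancel v (v i • 𝐞 i), map_add, map_add, map_smul, map_smul, isom_mul_apply,
      isom_mul_apply, e _ (by simp), qrefl_apply_of_B _ _ _ _ (by simp [st]), e4, qrefl_apply]
    simp [st, e3, sub_smul]
  have e7 := Units.ext_iff.1 (mem_SIsom.1 (h.det ht))
  rw [e6, map_mul, mem_SIsom.1 (f.Eich_le_SIsom (f.eichler_mem_Eich _ _ _ hc)), one_mul,
    detHom_qrefl, st] at e7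
  refine ⟨c, hc, (f.isom_ext fun v => ?_ : t = f.eichler _ _ _ hc) ▸ ht⟩
  rw [e6, isom_mul_apply, qrefl_apply, show b = 1 by simpa using e7]
  simp

theorem mon_of_ev (hg : g ∈ X) {i j : ι} {a : F} (e : g ⊳ 𝐞 i = a • 𝐞 j) : g ∈ f.MonU := by
  obtain ⟨s, hs, hm, e', -⟩ := h.move i j
  exact (Subgroup.mul_mem_cancel_left _ hm).1 (h.mon_of_fix (mul_mem hs hg) (i := i) (a := a)
    (by rw [isom_mul_apply, e, map_smul, e']))

theorem perm_frame (hg : g ∈ X) {t : f.Isom} (ht : t ∈ X) {p : ι}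
    (e : t ⊳ g ⊳ 𝐞 p = g ⊳ 𝐞 p) (q : ι) :
    (∃ a : F, t ⊳ g ⊳ 𝐞 q = a • g ⊳ 𝐞 q) ∨ f.B (g ⊳ 𝐞 q) (t ⊳ g ⊳ 𝐞 q) = 0 := by
  obtain ⟨r, a, e'⟩ := h.mon_of_fix (mul_mem (mul_mem (inv_mem hg) ht) hg) (i := p) (a := 1)
    (by rw [isom_mul_apply, isom_mul_apply, e, isom_inv_apply_apply, one_smul]) q
  have := congrArg g.1 e'
  rw [isom_mul_apply, isom_mul_apply, isom_apply_inv_apply, map_smul] at this
  by_cases hr : r = q
  · exact .inl ⟨a, hr ▸ this⟩
  · exact .inr (by simp [this, h.st _ _, Ne.symm hr])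

theorem unit (g : f.Isom) (i : ι) : f.B (g ⊳ 𝐞 i) (g ⊳ 𝐞 i) = 1 := by simp [h.st _ _]

theorem mon_of_four (hg : g ∈ X) {p : ι} {T : Finset ι} (hT : T.card ≤ 6)
    (e : ∀ k, k ∉ T → (g ⊳ 𝐞 p) k = 0) : g ∈ f.MonU := by
  by_contra ng
  obtain ⟨k, hk⟩ := h.out T (by omega)
  obtain ⟨q, hq⟩ : ∃ q, (g ⊳ 𝐞 q) k ≠ 0 := by
    by_contra! H
    have : g⁻¹ ⊳ 𝐞 k = 0 := funext fun q => by
      simpa [H, h.st.right, h.st _ _] using (f.B_isom_left g (𝐞 q) (𝐞 k)).symm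
    have h1 := h.unit g⁻¹ k
    rw [this] at h1
    simp at h1
  have y1 := h.unit g q
  obtain ⟨z, z1, z2⟩ := h.hk.exists_ne
  have key : ∀ i j, i ∉ T → j ∉ T → i ≠ j → (g ⊳ 𝐞 q) i ≠ 0 → (g ⊳ 𝐞 q) j ≠ 0 ∧
      1 + (z - 1) * (g ⊳ 𝐞 q) i * s ((g ⊳ 𝐞 q) i) + (s z - 1) * (g ⊳ 𝐞 q) j * s ((g ⊳ 𝐞 q) j) = 0 :=
    fun i j hi hj ij i0 => by
      obtain ⟨t, ht, et⟩ := h.dg_mem i j ij z z1
      rcases h.perm_frame hg ht (p := p) (by simp [et, e i hi, e j hj]) q with ⟨a, ha⟩ | ha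
      · rw [et] at ha
        obtain rfl : z = a := mul_right_cancel₀ i0 (by
          have := congrFun ha i
          simp [ij] at this
          linear_combination this)
        refine (ng (h.mon_of_ev hg (i := q) (j := i) (a := (g ⊳ 𝐞 q) i) (funext fun m => ?_))).elim
        have := congrFun ha m
        by_cases mi : m = i
        · simp [mi]
        by_cases mj : m = j
        · simp [mj, ij.symm] at this ⊢
          exact mul_left_cancel₀ (sub_ne_zero.2 z2) (by linear_combination -this)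
        · simp [mi, mj] at this ⊢
          exact mul_left_cancel₀ (show z - 1 ≠ 0 from fun e => z2 (by rw [sub_eq_zero.1 e, map_one]))
            (by linear_combination -this)
      · simp only [et, map_add, map_smul, y1, h.st.right, smul_eq_mul] at ha
        refine ⟨fun j0 => ?_, ha⟩
        have := congrArg s ha
        simp only [j0, map_add, map_mul, map_sub, map_one, map_zero, hs] at this ha
        exact mul_ne_zero (sub_ne_zero.2 z2) (mul_ne_zero i0 ((map_ne_zero s).2 i0))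
          (by linear_combination ha - this)
  have c1 := card_insert_le k T
  obtain ⟨l, hl⟩ := h.out (insert k T) (by omega)
  have c2 := card_insert_le l (insert k T)
  obtain ⟨m, hm⟩ := h.out (insert l (insert k T)) (by omega)
  have c3 := card_insert_le m (insert l (insert k T))
  obtain ⟨n, hn⟩ := h.out (insert m (insert l (insert k T))) (by omega)
  simp only [mem_insert, not_or] at hl hm hn
  obtain ⟨l0, k1⟩ := key k l hk hl.2 (Ne.symm hl.1) hq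
  obtain ⟨-, k2⟩ := key m n hm.2.2 hn.2.2.2 (Ne.symm hn.1) (key k m hk hm.2.2 (Ne.symm hm.2.1) hq).1
  obtain ⟨t, ht, et⟩ := h.dg_mem k l (Ne.symm hl.1) z z1
  obtain ⟨t', ht', et'⟩ := h.dg_mem m n (Ne.symm hn.1) z z1
  rcases h.perm_frame hg (mul_mem ht' ht) (p := p) (by
    simp [et, et', e k hk, e l hl.2, e m hm.2.2, e n hn.2.2.2]) q with ⟨a, ha⟩ | ha
  · have a1 := congrFun ha k
    have a2 := congrFun ha l
    simp [Ne.symm, *] at a1 a2
    exact mul_ne_zero (sub_ne_zero.2 z2) (mul_ne_zero hq l0)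
      (by linear_combination (g ⊳ 𝐞 q) l * a1 - (g ⊳ 𝐞 q) k * a2)
  · simp [et, et', y1, h.st.right, hm.1, hm.2.1, hn.2.1, hn.2.2.1] at ha
    exact one_ne_zero (by linear_combination k1 + k2 - ha : (1 : F) = 0)

theorem mon_of_two (hg : g ∈ X) {p k l : ι} (kl : k ≠ l) (hk : (g ⊳ 𝐞 p) k = 0)
    (hl : (g ⊳ 𝐞 p) l = 0) : g ∈ f.MonU := by
  obtain ⟨z, z1, z2⟩ := h.hk.exists_ne
  have z3 : 1 - z ≠ 0 := fun e => z2 (by rw [← sub_eq_zero.1 e, map_one])
  obtain ⟨t, ht, et⟩ := h.dg_mem k l kl z z1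
  have hm := h.mon_of_fix (mul_mem (mul_mem (inv_mem hg) ht) hg) (i := p) (a := 1)
    (by rw [isom_mul_apply, isom_mul_apply, et, hk, hl]; simp)
  obtain ⟨T, h1, h2⟩ := MonU.supp hm (z := g⁻¹ ⊳ 𝐞 k) (z' := g⁻¹ ⊳ 𝐞 l) z3
    (by rw [h.unit]; exact one_ne_zero) (by rw [B_coe_map, h.st, single_eq_of_ne kl]) fun m =>
      ⟨(1 - s z) * (g ⊳ 𝐞 m) l, by
        rw [isom_mul_apply, isom_mul_apply, et, map_add, map_add, map_smul, map_smul,
          isom_inv_apply_apply, ← h.st.right, B_isom_left, inv_inv, h.st]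
        module⟩
  exact (Subgroup.inv_mem_iff _).1 (h.mon_of_four (inv_mem hg) (h1.trans (by omega)) h2)

theorem mon_of_supp (hg : g ∈ X) {p : ι} {T : Finset ι} (hT : T.card ≤ 8)
    (e : ∀ k, k ∉ T → (g ⊳ 𝐞 p) k = 0) : g ∈ f.MonU := by
  obtain ⟨k, hk⟩ := h.out T (by omega)
  obtain ⟨l, hl⟩ := h.out (insert k T) ((card_insert_le ..).trans (by omega))
  rw [mem_insert, not_or] at hl
  exact h.mon_of_two hg (Ne.symm hl.1) (e k hk) (e l hl.2)

end Fv
end Form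
end CA.CForm
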