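import Cfsg.Agent.Lib.Lin.H15Fu1

/-!
Overgroups of the special monomial group of a unitary frame in characteristic two (dimension at
least ten).
-/

set_option autoImplicit false
set_option linter.unusedSectionVars false

namespace CA.CForm

open Module CA.MaxF Pi Equiv Finset

namespace Form
variable {F : Type*} [Field F] [Fintype F] {ι : Type*} [Fintype ι] [DecidableEq ι]
  {σ : F →+* F} {hσ : ∀ a, σ (σ a) = a}

section
local notation:75 g:76 " ⊳ " v:75 => (Subtype.val g) v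
local notation "𝐞" i:max => (Pi.single i 1 : ι → F)

variable {f : Form (Kind.herm σ hσ) (ι → F)} {X : Subgroup f.Isom} {g t : f.Isom} {w w' : ι → F}

namespace Fv
variable (h : f.Fv X) (two : (2 : F) = 0)
include h two

theorem B_root {k l : ι} (kl : k ≠ l) : f.B (𝐞 k + 𝐞 l) (𝐞 k + 𝐞 l) = 0 := by
  simp [h.st _ _, kl, kl.symm]
  linear_combination two

theorem tv_mem {k l : ι} (kl : k ≠ l) : ∃ t ∈ X, TvU t (𝐞 k + 𝐞 l) :=
  (h.perm_mem (swap k l) (.inr two)).imp fun t ht => ⟨ht.1, fun u => funext fun j => by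
    rw [ht.2, B_add_left, h.st, h.st]
    by_cases jk : j = k
    · simp [jk, kl]; linear_combination u l * two
    by_cases jl : j = l
    · simp [jl, kl.symm]; linear_combination u k * two
    simp [jk, jl, swap_apply_of_ne_of_ne]⟩

theorem root_fix (hg : g ∈ X) {k l : ι} (kl : k ≠ l) {a : F}
    (e : g ⊳ (𝐞 k + 𝐞 l) = a • (𝐞 k + 𝐞 l)) : g ∈ f.MonU := by
  have st : ∀ i u, f.B (𝐞 i) u = u i := h.st
  have c2 := card_le_two (a := k) (b := l)
  obtain ⟨m, hm⟩ := h.out {k, l} (by omega)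
  rcases h.quot (· ∉ ({k, l} : Finset ι)) (by
      have := h.big
      rw [Fintype.card_subtype_compl, Fintype.card_coe]; omega)
    (ρ := 𝐞 k + 𝐞 l) (fun j hj => by simp_all) (h.B_root two kl) (fun j hj z hz => by
      simp only [mem_insert, mem_singleton, not_or] at hj
      obtain ⟨y, hy⟩ := isSquare_of_two_eq_zero two (σ z)
      have y1 : z = σ y * σ y := by rw [← map_mul, ← hy, hσ]
      have y2 : y * σ y = 1 := sub_eq_zero.1 (pow_eq_zero_iff two_ne_zero |>.1 (by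
        rw [y1, ← map_mul, hσ] at hz
        simp only [map_mul] at hz
        linear_combination hz + (1 - y * σ y) * two))
      obtain ⟨r, hr, er⟩ := h.dg_mem k j (Ne.symm hj.1) y y2
      obtain ⟨r', hr', er'⟩ := h.dg_mem l j (Ne.symm hj.2) y y2
      refine ⟨r * r', mul_mem hr hr', ⟨y, left_ne_zero_of_mul_eq_one y2, ?_⟩, fun u hu => ?_⟩
      · simp [er, er', kl, kl.symm, hj.1, hj.2]
        module
      · simp [er, er', hu k, hu l, Ne.symm hj.1, y1]
        module) with H | H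
  · have a0 : a ≠ 0 := by
      rintro rfl
      rw [zero_smul, LinearEquiv.map_eq_zero_iff] at e
      simpa [kl] using congrFun e k
    obtain ⟨j, c, b, e'⟩ := H g hg a a0 e (fun u hu => ⟨(g ⊳ u) k, fun i hi => by
      have := f.B_coe_map g (𝐞 k + 𝐞 l) u
      simp [e, st, hu k, hu l, a0, ← mul_add] at this
      obtain rfl | rfl : i = k ∨ i = l := by simpa using not_not.1 hi
      · simp [kl]
      · simp [kl.symm]; linear_combination this - (g ⊳ u) k * two⟩) m hm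
    exact h.mon_of_supp hg (p := m) (T := {j, k, l}) (card_le_three.trans (by omega))
      fun i hi => by simp_all
  exfalso
  obtain ⟨i, hi⟩ := h.out {m, k, l} (card_le_three.trans (by omega))
  obtain ⟨j, hj⟩ := h.out {i, m, k, l} (card_le_four.trans (by omega))
  simp only [mem_insert, mem_singleton, not_or] at hm hi hj
  obtain ⟨c, hc⟩ := f.exists_eichlerCond (p := 𝐞 i + 𝐞 j) (w := 𝐞 m)
    ((f.herm_B_self _).symm.trans (h.B_root two (Ne.symm hj.1))) (by simp [st, hi.1, hj.2.1])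
  have k0 : ∀ n, n ≠ k → n ≠ l → ∀ i, ¬i ∉ ({k, l} : Finset ι) → (𝐞 n) i = 0 := fun n h1 h2 i hi =>
    single_eq_of_ne (by rintro rfl; simp [h1, h2] at hi) _
  obtain ⟨t, ht, e⟩ := H _ _ c hc (fun n hn => by
    rw [Pi.add_apply, k0 i hi.2.1 hi.2.2 n hn, k0 j hj.2.2.1 hj.2.2.2 n hn, add_zero])
    (k0 m hm.1 hm.2)
  obtain ⟨b, e⟩ := e _ (k0 m hm.1 hm.2)
  rw [eichler_apply_of_B _ _ _ _ _ hc.2] at e
  obtain ⟨r, d, e'⟩ := h.mon_of_supp ht (p := m) (T := {m, i, j, k, l})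
    (card_le_five.trans (by omega)) (fun n hn => by simp_all) m
  have k1 := congrFun (e.symm.trans e') m
  have k2 := congrFun (e.symm.trans e') i
  by_cases c : r = m
  · simp [st, *] at k2
  · simp [st, Ne.symm, *] at k1

theorem root_move (hg : g ∈ X) {a b m r : ι} (ab : a ≠ b) (mr : m ≠ r) {c d : F} (c0 : c ≠ 0)
    (e : g ⊳ (𝐞 a + 𝐞 b) = c • 𝐞 m + d • 𝐞 r) : g ∈ f.MonU := by
  have k1 := f.B_coe_map g (𝐞 a + 𝐞 b) (𝐞 a + 𝐞 b)
  rw [h.B_root two ab, e] at k1
  simp [h.st _ _, mr, mr.symm] at k1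
  have d0 : d ≠ 0 := by rintro rfl; simp [c0] at k1
  obtain ⟨n, hn⟩ := h.out {m, r} (card_le_two.trans (by omega))
  simp only [mem_insert, mem_singleton, not_or] at hn
  obtain ⟨s, hs, es⟩ := h.dg_mem r n (Ne.symm hn.2) (c / d) (by
    have := (map_ne_zero σ).2 d0
    rw [map_div₀]
    field_simp
    linear_combination k1 - d * σ d * two)
  obtain ⟨τ, t1, t2⟩ : ∃ τ : Perm ι, τ a = m ∧ τ b = r := ⟨swap (swap a m b) r * swap a m, by
    rw [Perm.mul_apply, swap_apply_left, swap_apply_of_ne_of_ne _ mr]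
    exact fun e => ab ((swap a m).injective (by rw [← e, swap_apply_left])), by simp⟩
  obtain ⟨s', hs', es'⟩ := h.perm_mem τ (.inr two)
  refine (Subgroup.mul_mem_cancel_left _ (mul_mem (fun m => ⟨τ.symm m, 1, by
    rw [es', single_comp, one_smul]⟩) (h.mon_of_fix hs (i := m) (a := 1) (by
    simp [es, mr.symm, hn.1])))).1 (h.root_fix two (mul_mem (mul_mem hs' hs) hg) ab (a := c) ?_)
  rw [isom_mul_apply, isom_mul_apply, e, show s ⊳ (c • 𝐞 m + d • 𝐞 r) = c • (𝐞 m + 𝐞 r) by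
    simp [es, mr.symm, hn.1, hn.2]; match_scalars <;> field_simp; ring, map_smul, es', add_comp,
    single_comp, single_comp, ← t1, ← t2, symm_apply_apply, symm_apply_apply]

theorem le_mon_even : X ≤ f.MonU := fun g hg => by
  by_contra ng
  have big := h.big
  obtain ⟨a, b, ab⟩ := Fintype.exists_pair_of_one_lt_card (show 1 < Fintype.card ι by omega)
  obtain ⟨t₀, ht₀, e₀⟩ := h.tv_mem two ab
  have ht := mul_mem (mul_mem hg ht₀) (inv_mem hg)
  have et := e₀.conj g
  have ww : f.B (g ⊳ (𝐞 a + 𝐞 b)) (g ⊳ (𝐞 a + 𝐞 b)) = 0 := by rw [B_coe_map, h.B_root two ab]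
  generalize g * t₀ * g⁻¹ = t at ht et
  have nt : t ∉ f.MonU := fun hm => by
    obtain ⟨m, h0⟩ : ∃ m, (g ⊳ (𝐞 a + 𝐞 b)) m ≠ 0 := by
      by_contra! H
      simpa [ab] using congrFun ((LinearEquiv.map_eq_zero_iff _).1 (funext H)) a
    obtain ⟨r, c, e⟩ := hm m
    have k0 := (map_ne_zero σ).2 h0
    rw [et, h.st.right, sub_eq_iff_eq_add, ← sub_eq_iff_eq_add', eq_comm, ← eq_inv_smul_iff₀ k0,
      smul_sub, smul_smul, sub_eq_add_neg, ← neg_smul] at e
    by_cases mr : m = r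
    · rw [← mr, ← add_smul] at e
      obtain ⟨d, e⟩ : ∃ d : F, g ⊳ (𝐞 a + 𝐞 b) = d • 𝐞 m := ⟨_, e⟩
      rw [e] at ww h0
      simp [h.st _ _] at ww h0
      exact h0 ww
    · exact ng (h.root_move two hg ab mr (inv_ne_zero k0) e)
  generalize g ⊳ (𝐞 a + 𝐞 b) = w at et ww
  have w0 : ∀ m, w m ≠ 0 := fun m e => nt (h.mon_of_fix ht (i := m) (a := 1)
    (by simp [et _, h.st.right, e]))
  have dih : ∀ k l, k ≠ l → ∃ u ∈ KU X w (𝐞 k + 𝐞 l) ∅, ∃ c : F, u ⊳ (𝐞 k + 𝐞 l) = c • w :=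
    fun k l kl => by
    have k0 : f.B w (𝐞 k + 𝐞 l) ≠ 0 := fun e => nt (h.root_fix two ht kl (a := 1)
      (by rw [et, e, zero_smul, sub_zero, one_smul]))
    have k1 : f.B (𝐞 k + 𝐞 l) w ≠ 0 := fun e => k0 (f.eq_zero_symm e)
    have k2 := h.B_root two kl
    obtain ⟨s, hs, es⟩ := h.tv_mem two kl
    generalize 𝐞 k + 𝐞 l = ρ at *
    rcases CA.H12Tn.dihedral (KU X w ρ ∅) (x := t) (y := s)
      ⟨ht, fun v => ⟨-f.B w v, 0, fun j _ => by simp [et v]⟩⟩
      ⟨hs, fun v => ⟨0, -f.B ρ v, fun j _ => by simp [es v]⟩⟩ (et.mul_self two ww)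
      (es.mul_self two k2) with ⟨u, hu, e⟩ | ⟨z, hz, z1, zz, zt, zs, -⟩
    · exact ⟨u, hu, (es.conj u).eq (e ▸ et) (v := u ⊳ w) (by rwa [B_coe_map])⟩
    have fx : ∀ {t : f.Isom} {w v : ι → F}, TvU t w → z * t = t * z → f.B w v ≠ 0 → z ⊳ w = w :=
      fun {t w v} e zt hv => by
        obtain ⟨c, hc⟩ := (e.conj z).eq (w' := w) (by rwa [zt, mul_inv_cancel_right]) (v := z ⊳ v)
          (by rwa [B_coe_map])
        have := congrArg (fun x => f.B x v) (show z ⊳ z ⊳ w = w by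
          rw [← isom_mul_apply, zz, isom_one_apply])
        simp only [hc, map_smul, herm_B_smul_left] at this
        rw [hc, show c = 1 from hσ c ▸ (map_one σ) ▸ congrArg σ (sub_eq_zero.1
          (pow_eq_zero_iff two_ne_zero |>.1 (mul_right_cancel₀ hv (by
            linear_combination this + (1 - σ c) * f.B w v * two)))), one_smul]
    refine (z1 (f.isom_ext fun v => ?_)).elim
    obtain ⟨α, β, e⟩ := hz.2 v
    replace e : z ⊳ v = v + α • w + β • ρ := funext fun j => by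
      have := e j (by simp)
      simp only [Pi.sub_apply, Pi.add_apply, Pi.smul_apply, smul_eq_mul] at this ⊢
      linear_combination this
    have l1 := f.B_coe_map z w v
    have l2 := f.B_coe_map z ρ v
    rw [fx et zt k0, e] at l1
    rw [fx es zs k1, e] at l2
    simp [ww, k0, k1, k2] at l1 l2
    simp [e, l1, l2]
  obtain ⟨k, hk⟩ := h.out {a, b} (card_le_two.trans (by omega))
  obtain ⟨l, hl⟩ := h.out {k, a, b} (card_le_three.trans (by omega))
  simp only [mem_insert, mem_singleton, not_or] at hk hl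
  obtain ⟨u, hu, c, eu⟩ := dih a b ab
  obtain ⟨u', hu', c', eu'⟩ := dih k l (Ne.symm hl.1)
  have c0 : c ≠ 0 := by
    rintro rfl
    rw [zero_smul, LinearEquiv.map_eq_zero_iff] at eu
    simpa [ab] using congrFun eu a
  have c0' : c' ≠ 0 := by
    rintro rfl
    rw [zero_smul, LinearEquiv.map_eq_zero_iff] at eu'
    simpa [hl.1] using congrFun eu' l
  have km : ∀ {i j : ι}, i ∈ ({a, b, k, l} : Finset ι) → j ∈ ({a, b, k, l} : Finset ι) →
      KU X w (𝐞 i + 𝐞 j) ∅ ≤ KU X w 0 {a, b, k, l} := fun {i j} hi hj u hu => ⟨hu.1, fun v => by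
    obtain ⟨α, β, e⟩ := hu.2 v
    refine ⟨α, 0, fun n hn => ?_⟩
    rw [e n (by simp), Pi.add_apply, single_eq_of_ne (by rintro rfl; exact hn hi),
      single_eq_of_ne (by rintro rfl; exact hn hj)]
    simp⟩
  have hν := mul_mem (inv_mem (km (by simp) (by simp) hu)) (km (by simp) (by simp) hu')
  obtain ⟨T, c1, c2⟩ := MonU.few (h.root_move two hν.1 (Ne.symm hl.1) ab (c := c' / c) (d := c' / c)
    (div_ne_zero c0' c0) (by
      rw [isom_mul_apply, eu', ← smul_add, ← f.isom_inv_apply_apply u (𝐞 a + 𝐞 b), eu, ← map_smul,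
        smul_smul, div_mul_cancel₀ _ c0])) fun m _ => hν.2 (𝐞 m)
  have c3 := card_le_four (a := a) (b := b) (c := k) (d := l)
  obtain ⟨m, hm⟩ := h.out ({a, b, k, l} ∪ T) ((card_union_le ..).trans (by omega))
  obtain ⟨n, hn⟩ := h.out {a, b, k, l} (by omega)
  rw [mem_union, not_or] at hm
  have k1 : u' ⊳ 𝐞 m = u ⊳ 𝐞 m := by simpa using congrArg u.1 (c2 m hm.1 hm.2)
  simp only [mem_insert, mem_singleton, not_or] at hm hn
  obtain ⟨α, β, k2⟩ := hu.2 (𝐞 m)
  obtain ⟨α', β', k3⟩ := hu'.2 (𝐞 m)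
  rw [k1] at k3
  have k4 := (k2 n (by simp)).symm.trans (k3 n (by simp))
  have k5 := (k2 a (by simp)).symm.trans (k3 a (by simp))
  simp [hn, w0] at k4
  simp [k4, ab, Ne.symm hk.1, Ne.symm hl.2.1] at k5
  have k6 : u ⊳ 𝐞 m = 𝐞 m + α • w := funext fun j => by
    have := k2 j (by simp)
    simp only [k5, Pi.sub_apply, Pi.add_apply, Pi.smul_apply, smul_eq_mul] at this ⊢
    linear_combination this
  have k7 := f.B_coe_map u (𝐞 a + 𝐞 b) (𝐞 m)
  rw [eu, k6] at k7
  simp [h.st.right, ww, hm, c0, w0] at k7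

end Fv

end
end Form
end CA.CForm
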