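import Cfsg.Agent.Lib.Lin.H15Fu2

/-!
Overgroups of the special monomial group of a unitary frame in odd characteristic (dimension at
least ten), and the maximality of the stabiliser of a unitary frame.
-/

set_option autoImplicit false
set_option linter.unusedSectionVars false

namespace CA.CForm

open Module CA.MaxF Pi Equiv Finset

namespace Form
variable {F : Type*} [Field F] [Fintype F] {ι : Type*} [Fintype ι] [DecidableEq ι]
  {σ : F →+* F} {hσ : ∀ a, σ (σ a) = a}

local notation:75 g:76 " ⊳ " v:75 => (Subtype.val g) v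

section
local notation "𝐞" i:max => (Pi.single i 1 : ι → F)

section
variable {f : Form (Kind.herm σ hσ) (ι → F)} {X : Subgroup f.Isom} {g s s' : f.Isom}
  {I J : Finset ι}

/-- `s` changes the signs of the coordinates in `I`. -/
def FlS (s : f.Isom) (I : Finset ι) : Prop := ∀ u j, (s ⊳ u) j = if j ∈ I then -u j else u j

theorem FlS.mul (e : FlS s I) (e' : FlS s' J) : FlS (s * s') (symmDiff I J) := fun u j => by
  rw [isom_mul_apply, e, e']
  by_cases h1 : j ∈ I <;> by_cases h2 : j ∈ J <;> simp [h1, h2, mem_symmDiff]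

theorem FlS.eq_one (e : FlS s ∅) : s = 1 := f.isom_ext fun u => funext fun j => by simp [e u j]

theorem FlS.mul_self (e : FlS s I) : s * s = 1 := FlS.eq_one (by simpa using e.mul e)

theorem FlS.mon (e : FlS s I) : s ∈ f.MonU := fun i => ⟨i, if i ∈ I then -1 else 1, funext fun j => by
  rw [e]
  by_cases h : j = i
  · subst h; simp
  · simp [h]⟩

theorem FlS.eq (two : (2 : F) ≠ 0) (e : FlS s I) (e' : FlS s J) : I = J := Finset.ext fun j => by
  have := (e 1 j).symm.trans (e' 1 j)
  by_cases h1 : j ∈ I <;> by_cases h2 : j ∈ J <;> simp only [h1, h2, if_true, if_false,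
    Pi.one_apply] at this ⊢
  · exact (two (by linear_combination -this)).elim
  · exact (two (by linear_combination this)).elim

theorem FlS.conj (st : f.St) (e : FlS s I) (hg : g ∈ f.MonU) :
    ∃ J : Finset ι, J.card = I.card ∧ FlS (g * s * g⁻¹) J := by
  choose π a h using hg
  have k : ∀ i v, σ (a i) * (g ⊳ v) (π i) = v i := fun i v => by
    have := f.B_coe_map g (𝐞 i) v
    rwa [h, herm_B_smul_left, st, st] at this
  have a0 : ∀ i, σ (a i) ≠ 0 := fun i e => by simpa [e] using k i (𝐞 i)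
  have inj : Function.Injective π := fun i j e => by
    by_contra c
    have := k i (𝐞 j)
    rw [h, e, single_eq_of_ne c] at this
    simp only [Pi.smul_apply, single_eq_same, smul_eq_mul, mul_one] at this
    exact mul_ne_zero (a0 i) (fun c => a0 j (by rw [c, map_zero])) this
  refine ⟨I.map ⟨π, inj⟩, card_map _, fun u j => ?_⟩
  obtain ⟨i, rfl⟩ := Finite.injective_iff_surjective.1 inj j
  refine mul_left_cancel₀ (a0 i) ?_
  have h1 := k i (g⁻¹ ⊳ u)
  rw [isom_apply_inv_apply] at h1
  rw [isom_mul_apply, isom_mul_apply, k, e, ← h1]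
  have : π i ∈ I.map ⟨π, inj⟩ ↔ i ∈ I := mem_map' ⟨π, inj⟩
  simp only [this]
  split_ifs <;> simp

theorem MonU.fixed (hg : g ∈ f.MonU) {N : Submodule F (ι → F)} (hN : ∀ u, g ⊳ u - u ∈ N)
    (hd : 2 * finrank F N < Fintype.card ι) : ∃ m, g ⊳ 𝐞 m = 𝐞 m := by
  by_contra! H
  have key : ∀ k : ℕ, k ≤ finrank F N + 1 → ∃ S : Finset ι, S.card ≤ 2 * k ∧ ∃ W : Submodule F (ι → F),
      W ≤ N ∧ k ≤ finrank F W ∧ ∀ w ∈ W, ∀ j, j ∉ S → w j = 0 := fun k hk => by
    induction k with
    | zero => exact ⟨∅, by simp, ⊥, bot_le, by simp, fun w hw j _ => by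
        rw [Submodule.mem_bot] at hw; simp [hw]⟩
    | succ k ih =>
      obtain ⟨S, h1, W, h2, h3, h4⟩ := ih (by omega)
      obtain ⟨m, hm⟩ := exists_notMem_of_lt (s := S) (by omega)
      obtain ⟨r, a, e⟩ := hg m
      refine ⟨insert m (insert r S), ?_, W ⊔ F ∙ (g ⊳ 𝐞 m - 𝐞 m), sup_le h2
        ((Submodule.span_singleton_le_iff_mem _ _).2 (hN _)), ?_, fun w hw j hj => ?_⟩
      · have := card_insert_le m (insert r S)
        have := card_insert_le r S
        omega
      · refine h3.trans_lt (Submodule.finrank_lt_finrank_of_lt (lt_of_le_of_ne le_sup_left fun c => ?_))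
        exact H m (MonU.diag e (h4 _ (c ▸ Submodule.mem_sup_right
          (Submodule.mem_span_singleton_self _)) m hm))
      · obtain ⟨x, hx, y, hy, rfl⟩ := Submodule.mem_sup.1 hw
        obtain ⟨c, rfl⟩ := Submodule.mem_span_singleton.1 hy
        simp only [mem_insert, not_or] at hj
        simp [h4 x hx j hj.2.2, e, hj.1, hj.2.1]
  obtain ⟨S, -, W, h2, h3, -⟩ := key _ le_rfl
  have := Submodule.finrank_mono h2
  omega

namespace Fv
variable (h : f.Fv X)
include h

theorem fl_pair {i j : ι} (ij : i ≠ j) : ∃ g ∈ X, FlS g {i, j} :=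
  (h.dg_mem i j ij (-1) (by simp)).imp fun g hg => ⟨hg.1, fun u k => by
    rw [hg.2]
    by_cases h1 : k = i
    · subst h1; simp [ij]; ring
    by_cases h2 : k = j
    · subst h2; simp [ij.symm]; ring
    simp [h1, h2]⟩

variable (two : (2 : F) ≠ 0)
include two

theorem mon_of_comm {z : f.Isom} (hz : z ∈ X) (e : FlS s I) (e' : FlS s' J) (c : z * s' = s * z)
    (hI : 2 ≤ I.card) (hJ : J.card ≤ 9) : z ∈ f.MonU := by
  obtain ⟨m, hm⟩ := h.out J hJ
  obtain ⟨k, hk, l, hl, kl⟩ := one_lt_card.1 hI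
  have k1 : s' ⊳ 𝐞 m = 𝐞 m := funext fun j => by
    rw [e']
    split_ifs with c
    · rw [single_eq_of_ne (by rintro rfl; exact hm c), neg_zero]
    · rfl
  have k2 : ∀ j ∈ I, (z ⊳ 𝐞 m) j = 0 := fun j hj => by
    have := congrArg (fun t : f.Isom => (t ⊳ 𝐞 m) j) c
    simp only [isom_mul_apply, k1, e _ j, hj, if_true] at this
    exact mul_left_cancel₀ two (by linear_combination this)
  exact h.mon_of_two hz kl (k2 k hk) (k2 l hl)

theorem mon_of_conj (hg : g ∈ X) (e : FlS s I) (h2 : 2 ≤ I.card) (h4 : I.card ≤ 4)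
    (H : g * s * g⁻¹ ∈ f.MonU) : g ∈ f.MonU := by
  classical
  obtain ⟨m, hm⟩ := MonU.fixed H (N := Submodule.span F (I.image fun i => g ⊳ 𝐞 i)) (fun u => by
    have : s ⊳ g⁻¹ ⊳ u = g⁻¹ ⊳ u + ∑ i ∈ I, (-2 * (g⁻¹ ⊳ u) i) • 𝐞 i := funext fun j => by
      rw [e]
      simp only [Pi.add_apply, Finset.sum_apply, Pi.smul_apply, single_apply, smul_eq_mul, mul_ite,
        mul_one, mul_zero, sum_ite_eq]
      split_ifs <;> ring
    rw [isom_mul_apply, isom_mul_apply, this, map_add, isom_apply_inv_apply, add_sub_cancel_left,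
      map_sum]
    exact sum_mem fun i hi => by
      rw [map_smul]
      exact Submodule.smul_mem _ _ (Submodule.subset_span (by
        simp only [coe_image]; exact ⟨i, hi, rfl⟩))) (by
    have h1 := finrank_span_finset_le_card (R := F) (I.image fun i => g ⊳ 𝐞 i)
    have h3 := card_image_le (s := I) (f := fun i => g ⊳ 𝐞 i)
    have := h.big
    rw [Set.finrank] at h1
    omega)
  obtain ⟨k, hk, l, hl, kl⟩ := one_lt_card.1 h2
  have k2 : ∀ j ∈ I, (g⁻¹ ⊳ 𝐞 m) j = 0 := fun j hj => by
    have := congrArg (fun v => (g⁻¹ ⊳ v) j) hm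
    simp only [isom_mul_apply, isom_inv_apply_apply, e _ j, hj, if_true] at this
    exact mul_left_cancel₀ two (by linear_combination -this)
  exact (Subgroup.inv_mem_iff _).1 (h.mon_of_two (inv_mem hg) kl (k2 k hk) (k2 l hl))

theorem core {r z y : f.Isom} (e : FlS s I) (e' : FlS s' J) (hI : I.card = 2 ∨ I.card = 4)
    (hJ : J.card = 4) (hr : r ∈ X) (hy : y ∈ X) (hz : z ∈ f.MonU) (z1 : z ≠ 1)
    (ez : z * s = r * s' * r⁻¹) (c : z * y = y * z) : y ∈ f.MonU := by
  obtain ⟨K, k1, k2⟩ := e'.conj h.st (h.mon_of_conj two hr e' (by omega) (by omega)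
    (ez ▸ mul_mem hz e.mon))
  have k3 := k2.mul e
  rw [← ez, mul_assoc, e.mul_self, mul_one] at k3
  have c0 : (symmDiff K I).card ≠ 0 := fun c => z1 (FlS.eq_one (card_eq_zero.1 c ▸ k3))
  have c1 : (symmDiff K I).card = (K \ I).card + (I \ K).card := by
    rw [_root_.symmDiff_def, sup_eq_union, card_union_of_disjoint disjoint_sdiff_sdiff]
  have c2 := card_sdiff_add_card_inter K I
  have c3 := card_sdiff_add_card_inter I K
  rw [inter_comm] at c3
  exact h.mon_of_comm two hy k3 k3 c.symm (by omega) (by omega)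

theorem le_mon_odd : X ≤ f.MonU := fun g hg => by
  have : Finite f.Isom := Finite.of_injective (fun g : f.Isom => (g.1 : (ι → F) → (ι → F)))
    fun _ _ e => Subtype.ext (DFunLike.coe_injective e)
  obtain ⟨a, -⟩ := h.out ∅ (by simp)
  obtain ⟨b, ba⟩ := h.out {a} (by simp)
  obtain ⟨c, hc⟩ := h.out {a, b} (card_le_two.trans (by omega))
  obtain ⟨d, hd⟩ := h.out {a, b, c} (card_le_three.trans (by omega))
  simp only [mem_insert, mem_singleton, not_or] at ba hc hd
  obtain ⟨s₀, h₀, e₀⟩ := h.fl_pair (Ne.symm ba)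
  obtain ⟨s₁, h₁, e₁⟩ := h.fl_pair (Ne.symm hd.2.2)
  have e := e₀.mul e₁
  have hs := mul_mem h₀ h₁
  have c2 := card_pair (Ne.symm ba)
  have c4 : (symmDiff ({a, b} : Finset ι) {c, d}).card = 4 := by
    rw [Disjoint.symmDiff_eq_sup (by simp [Ne.symm, hc, hd]), sup_eq_union,
      card_union_of_disjoint (by simp [Ne.symm, hc, hd]), c2, card_pair (Ne.symm hd.2.2)]
  generalize s₀ * s₁ = s at e hs
  generalize symmDiff ({a, b} : Finset ι) {c, d} = I at e c4
  generalize ({a, b} : Finset ι) = A at e₀ c2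
  have hx := mul_mem (mul_mem hg h₀) (inv_mem hg)
  rcases CA.H12Tn.dihedral X (x := g * s₀ * g⁻¹) (y := s) hx hs
    (by rw [conj_mul, e₀.mul_self, mul_one, mul_inv_cancel]) e.mul_self with
    ⟨r, hr, er⟩ | ⟨z, hz, z1, -, c1, c3, ⟨r, hr, er⟩ | ⟨r, hr, er⟩⟩
  · have k1 : r⁻¹ * g * s₀ * (r⁻¹ * g)⁻¹ = s := by
      simpa [mul_assoc] using congrArg (fun t => r⁻¹ * t * r) er
    obtain ⟨J, k2, k3⟩ := e₀.conj h.st (h.mon_of_comm two (mul_mem (inv_mem hr) hg) e e₀
      (by rw [← k1, inv_mul_cancel_right]) (by omega) (by omega))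
    have := (k1 ▸ k3).eq two e
    subst this
    omega
  · have hz' := mul_mem (mul_mem (inv_mem hg) hz) hg
    have k1 : g⁻¹ * z * g * s₀ = s₀ * (g⁻¹ * z * g) := by
      simpa [mul_assoc] using congrArg (fun t => g⁻¹ * t * g) c1
    refine (Subgroup.inv_mem_iff _).1 (h.mon_of_conj two (inv_mem hg) e (by omega) (by omega) ?_)
    exact h.core two e₀ e (.inl c2) c4 (mul_mem (inv_mem hg) hr)
      (mul_mem (mul_mem (inv_mem hg) hs) (inv_mem (inv_mem hg)))
      (h.mon_of_comm two hz' e₀ e₀ k1 (by omega) (by omega))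
      (fun c => z1 (by simpa [mul_assoc] using congrArg (fun t => g * t * g⁻¹) c))
      (by simpa [mul_assoc] using congrArg (fun t => g⁻¹ * t * g) er)
      (by simpa [mul_assoc] using congrArg (fun t => g⁻¹ * t * g) c3)
  · exact h.mon_of_conj two hg e₀ (by omega) (by omega) (h.core two e e (.inr c4) c4 hr hx
      (h.mon_of_comm two hz e e c3 (by omega) (by omega)) z1 er c1)

end Fv

theorem Fv.le_mon (h : f.Fv X) : X ≤ f.MonU :=
  (eq_or_ne (2 : F) 0).elim h.le_mon_even h.le_mon_odd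
end

theorem frame_stdV {f : Form (Kind.herm σ hσ) (ι → F)} {X : Subgroup f.Isom} (hk : HK σ)
    (h13 : 10 ≤ Fintype.card ι) (st : f.St)
    (hX : ∀ g ∈ f.SIsom, f.PermD (fun i => F ∙ 𝐞 i) g → g ∈ X) (hX' : X ≤ f.SIsom) :
    (∀ g ∈ X, f.PermD (fun i => F ∙ 𝐞 i) g) ∨ f.Eich ≤ X := by
  have pm : ∀ g ∈ f.MonU, f.PermD (fun i => F ∙ 𝐞 i) g := fun g hg i => by
    obtain ⟨j, a, e⟩ := hg i
    refine ⟨j, fun v hv => ?_⟩
    obtain ⟨b, rfl⟩ := Submodule.mem_span_singleton.1 hv
    exact Submodule.mem_span_singleton.2 ⟨b * a, by rw [map_smul, e, smul_smul]⟩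
  let ψ : Perm ι →* f.Isom :=
    { toFun τ := ⟨LinearEquiv.funCongrLeft F F τ⁻¹, f.herm_mem_Isom.2 fun x y => by
        rw [st.B_eq, st.B_eq]
        exact Equiv.sum_comp τ⁻¹ fun i => σ (x i) * y i⟩
      map_one' := rfl
      map_mul' _ _ := rfl }
  have dψ : ∀ τ, (f.detHom (ψ τ) : F) = ((Perm.sign τ : ℤ) : F) := fun τ => by
    induction τ using Perm.swap_induction_on with
    | one => simp
    | swap_mul τ k l kl ih =>
      have q : f.B (𝐞 k - 𝐞 l) (𝐞 k - 𝐞 l) = 2 := by simp [st _ _, kl, kl.symm]; ring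
      have hc : f.QreflCond (𝐞 k - 𝐞 l) (-1) := by
        rw [QreflCond, ← herm_B_self, q]; simp; ring
      have : ψ (swap k l) = f.qrefl _ _ hc := f.isom_ext fun u => funext fun j => by
        rw [qrefl_apply, B_sub_left, st, st]
        change u (swap k l j) = _
        by_cases jk : j = k
        · simp [jk, kl]
        by_cases jl : j = l <;> simp [jk, jl, kl.symm, swap_apply_of_ne_of_ne]
      rw [map_mul, map_mul, Units.val_mul, ih, this, detHom_qrefl, q]
      simp [kl]
      ring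
  have qc : ∀ i z, z * σ z = 1 → f.QreflCond (𝐞 i) (z - 1) := fun i z hz => by
    simp [QreflCond, ← herm_B_self, st _ _]; linear_combination hz
  refine or_iff_not_imp_right.2 fun H g hg => pm g (Fv.le_mon ⟨hk, h13, st, fun i j ij z hz => ?_,
    fun τ hτ => ⟨ψ τ⁻¹, hX _ (mem_SIsom.2 (Units.ext ?_)) (pm _ fun j => ⟨τ.symm j, 1,
      (single_comp j (1 : F) τ).trans (one_smul ..).symm⟩), fun _ => rfl⟩, hX', H⟩ hg)
  · have hz' : σ z * σ (σ z) = 1 := by rw [hσ, mul_comm, hz]
    have e : ∀ u, (f.qrefl _ _ (qc i z hz) * f.qrefl _ _ (qc j _ hz')) ⊳ u =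
        u + ((z - 1) * u i) • 𝐞 i + ((σ z - 1) * u j) • 𝐞 j := fun u => by
      simp [qrefl_apply, st _ _, ij]
      module
    refine ⟨_, hX _ (mem_SIsom.2 (Units.ext ?_)) (pm _ fun k =>
      ⟨k, if k = i then z else if k = j then σ z else 1, ?_⟩), e⟩
    · simp [detHom_qrefl, st _ _, hz]
    rw [e]
    by_cases k1 : k = i
    · simp [k1, ij.symm]; module
    by_cases k2 : k = j
    · simp [k2, ij, ij.symm]; module
    simp [k1, k2, Ne.symm k1, Ne.symm k2]
  · rw [dψ, Perm.sign_inv]
    rcases hτ with e | e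
    · simp [e]
    · rcases Int.units_eq_one_or (Perm.sign τ) with c | c <;> simp [c]
      linear_combination -e
end

variable {V : Type*} [AddCommGroup V] [Module F V] [FiniteDimensional F V]
  {f : Form (Kind.herm σ hσ) V} {D : ι → Submodule F V} {X : Subgroup f.Isom}

namespace ODec
variable (h : f.ODec D) (hX : ∀ g ∈ f.Eich, f.PermD D g → g ∈ X)
include h hX

theorem frame_maxV (hk : HK σ) (hX' : X ≤ f.Eich) (h1 : ∀ i, finrank F (D i) = 1)
    (h7 : 10 ≤ Fintype.card ι) (hV : Fintype.card ι = finrank F V) :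
    (∀ g ∈ X, f.PermD D g) ∨ f.Eich ≤ X := by
  choose b b1 b2 using fun i => f.herm_exists_Q_eq hk.ne (h.disj i)
    (fun e => by have := h1 i; rw [e] at this; simp at this) (map_one σ)
  have hb : ∀ i, D i = F ∙ b i := fun i => (Submodule.eq_of_le_of_finrank_eq
    ((Submodule.span_singleton_le_iff_mem _ _).2 (b1 i)) (by
      rw [h1, finrank_span_singleton fun e => by simpa [e] using b2 i])).symm
  have hO : ∀ i j, f.B (b i) (b j) = if i = j then 1 else 0 := fun i j => by
    split_ifs with c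
    · rw [c, herm_B_self, b2]
    · exact h.orth i j c (b1 j) _ (b1 i)
  let B := basisOfTopLeSpanOfCardEqFinrank b (by
    rw [← h.top]
    exact iSup_le fun i => hb i ▸ Submodule.span_mono (by simp)) hV
  let J := B.equivFun.symm
  have hJ : ∀ u, J u = ∑ i, u i • b i := fun u => by simp [J, B]
  have J1 : ∀ i, J (single i 1) = b i := fun i => by simp [hJ, single_apply]
  have hP : (f.comap J.toLinearMap).Pres f J := ⟨fun _ _ => rfl, fun _ => rfl⟩
  have hf : (f.comap J.toLinearMap).Nondeg := h.nondeg.comap_equiv J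
  have E := h.nondeg.herm_eq hk.ne (by omega)
  have E' := hf.herm_eq hk.ne (by simp; omega)
  have dt : ∀ g, isomCongr J hP g ∈ f.Eich ↔ g ∈ (f.comap J.toLinearMap).SIsom := fun g => by
    rw [E, mem_SIsom, mem_SIsom, detHom_isomCongr]
  have key : ∀ g, (f.comap J.toLinearMap).PermD (fun i => F ∙ single i 1) g ↔
      f.PermD D (isomCongr J hP g) := fun g => forall_congr' fun i => exists_congr fun j => by
    have : ∀ i v, v ∈ F ∙ (single i 1 : ι → F) ↔ J v ∈ D i := fun i v => by
      rw [hb, ← J1, Submodule.mem_span_singleton, Submodule.mem_span_singleton]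
      exact exists_congr fun a => by rw [← map_smul, J.injective.eq_iff]
    simp only [this, isomCongr_apply]
    exact ⟨fun H v hv => H _ (by simpa using hv), fun H v hv => by simpa using H _ hv⟩
  rcases frame_stdV (f := f.comap J.toLinearMap) (X := X.comap (isomCongr J hP).toMonoidHom) hk
    h7 (fun i u => by rw [comap_B]; change f.B (J _) (J _) = _; rw [J1]; simp [hJ, hO])
    (fun g hg H => hX _ ((dt g).2 hg) ((key g).1 H)) (fun g hg => (dt g).1 (hX' hg)) with H | H
  · refine .inl fun g hg => ?_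
    simpa using (key _).1 (H ((isomCongr J hP).symm g) (by simpa using hg))
  · refine .inr fun g hg => ?_
    exact (isomCongr J hP).apply_symm_apply g ▸ H (E' ▸ (dt _).1 (by simpa using hg))

end ODec
end Form
end CA.CForm

namespace CA.MaxGL

open CA.CForm CA.CForm.Form CA.AschFG CA.AschO1 CA.AschProp Cfsg Cfsg.Geo Module

theorem herm_max_decomp10 {ι : Type} [Fintype ι] [DecidableEq ι] {F : Type*} [Field F] [Fintype F]
    {q : ℕ} (hF : Fintype.card F = q ^ 2) {φ : Form (hermKind hF) (ι → F)} (hφ : φ.Nondeg)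
    (hG : QS (EG φ)) (hn : 10 ≤ Fintype.card ι) {t k : ℕ} {D : Fin t → Submodule F (ι → F)}
    (hD : IsNondegenerateMDecomposition (fn φ) k D) (hex : ¬(k = 2 ∧ q = 2)) :
    IsMaximalIn (EG φ) (decompositionStabilizer D ⊓ EG φ) := by
  have hne := conj_ne_id hF
  have h1 := hD.decomp.finrank_eq
  have h2 := hD.decomp.pos
  have h4 := decomp_card hD.decomp
  have h := odec hφ hD fun i j => Nondeg.herm_equivalent
    ((φ.nondeg_restrict_iff _).2 (nondegOn_iff.1 (hD.nondegenerate i))) hne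
    ((φ.nondeg_restrict_iff _).2 (nondegOn_iff.1 (hD.nondegenerate j))) (by rw [h1, h1])
  obtain ⟨x, hx0, hx⟩ := herm_exists_singular' hF (f := φ) (by simp; omega)
  refine max_of (not_le_of_tv hφ hG hx hx0 (exists_π_herm hF) hD.decomp) fun X a b =>
    Or.imp_left (fun (h : ∀ g ∈ X, φ.PermD D g) g hg =>
      (mem_comap_decomp hD.decomp).2 (h g hg)) ?_
  have hX : ∀ g ∈ φ.Eich, φ.PermD D g → g ∈ X := fun g hg e =>
    a ⟨(mem_comap_decomp hD.decomp).2 e, hg⟩
  by_cases k4 : 4 ≤ k
  · exact h.max_large hX (iso_herm hne φ) two_pos (fun i => (h1 i).symm ▸ k4)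
      fun i => (h.nondeg_restrict i).herm_irrI hne
  by_cases k1 : k = 1
  · subst k1
    exact h.frame_maxV hX (hk_conj hF) b h1 (by simp; omega) (by simp [h4])
  refine h.herm_max_small hX hne (fun i => by rw [h1]; omega) (fun i j => ?_)
    (or_iff_not_imp_right.2 fun k3 => ?_)
  · simpa using exists_notMem_of_lt (s := {i, j}) (Finset.card_le_two.trans_lt (by
      simp only [Fintype.card_fin]; nlinarith))
  · have q2 := two_le_of_card_sq hF
    have : q ≠ 2 := fun e => hex ⟨by_contra fun c => k3 fun i => by rw [h1]; omega, e⟩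
    by_contra! H
    classical
    have k := card_conj_fixed hF
    have := Nat.card_le_card_of_injective (fun x : {x : F // x ^ q = x} => decide (x.1 = 0))
      fun x y e => Subtype.ext (by
        by_cases c : x.1 = 0
        · simp_all
        · have c' : y.1 ≠ 0 := by simpa [c] using e
          rw [by_contra fun k => H _ c k x.2, by_contra fun k => H _ c' k y.2])
    rw [k, Nat.card_eq_fintype_card, Fintype.card_bool] at this
    omega

theorem herm_max_frame10 {ι : Type} [Fintype ι] [DecidableEq ι] {F : Type*} [Field F] [Fintype F]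
    {q : ℕ} (hF : Fintype.card F = q ^ 2) {φ : Form (hermKind hF) (ι → F)} (hφ : φ.Nondeg)
    (hG : QS (EG φ)) (hn : 10 ≤ Fintype.card ι) {t : ℕ} {D : Fin t → Submodule F (ι → F)}
    (hD : IsNondegenerateMDecomposition (fn φ) 1 D) :
    IsMaximalIn (EG φ) (decompositionStabilizer D ⊓ EG φ) :=
  herm_max_decomp10 hF hφ hG hn hD (by omega)

end CA.MaxGL
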