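import Cfsg.Agent.Lib.Lin.MaxGL5

/-!
Overgroups of `Ω₃(q^r)` in `O_{3r}(q)`: basic lemmas.
-/

set_option autoImplicit false
set_option linter.unusedSectionVars false

namespace CA.H15Oa

open Module CA.CForm CA.CForm.Form

section Field
variable {F L : Type*} [Field F] [Field L] [Algebra F L]

theorem sq_mem (hr : (finrank F L).Prime) (h3 : 3 ≤ finrank F L) {c : L}
    (h : c * c ∈ (⊥ : Subalgebra F L)) : c ∈ (⊥ : Subalgebra F L) := by
  have := Subalgebra.isSimpleOrder_of_finrank_prime F L hr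
  have : FiniteDimensional F L := Module.finite_of_finrank_pos hr.pos
  obtain ⟨t, ht⟩ := Algebra.mem_bot.1 h
  let A : Subalgebra F L :=
    { carrier := Submodule.span F {1, c}
      mul_mem' := fun {a b} ha hb => by
        obtain ⟨a1, a2, rfl⟩ := Submodule.mem_span_pair.1 ha
        obtain ⟨b1, b2, rfl⟩ := Submodule.mem_span_pair.1 hb
        refine Submodule.mem_span_pair.2 ⟨a1 * b1 + a2 * b2 * t, a1 * b2 + a2 * b1, ?_⟩
        simp only [Algebra.smul_def, map_add, map_mul, ht]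
        ring
      add_mem' := Submodule.add_mem _
      algebraMap_mem' := fun a => Submodule.mem_span_pair.2 ⟨a, 0, by simp [Algebra.smul_def]⟩ }
  rcases eq_bot_or_eq_top A with e | e
  · exact e.le (show c ∈ Submodule.span F {1, c} from Submodule.subset_span (by simp))
  · have h1 := finrank_span_pair_le (F := F) (1 : L) c
    have h2 : Submodule.span F {1, c} = ⊤ := top_unique fun v _ => e.ge (Algebra.mem_top (x := v))
    rw [h2, finrank_top] at h1
    omega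

theorem exists_sq [Finite L] (hr : (finrank F L).Prime) (h3 : 3 ≤ finrank F L) (h2 : (2 : L) ≠ 0)
    {z : L} (hz : z ≠ 0) : ∃ (t : F) (s : L), t ≠ 0 ∧ s ≠ 0 ∧ s * s = t • z := by
  by_cases e : IsSquare z
  · obtain ⟨s, rfl⟩ := e
    exact ⟨1, s, one_ne_zero, left_ne_zero_of_mul hz, (one_smul _ _).symm⟩
  have := Finite.of_injective _ (algebraMap F L).injective
  have h2' : (2 : F) ≠ 0 := fun e => h2 (by rw [← map_ofNat (algebraMap F L), e, map_zero])
  obtain ⟨t, ht⟩ := FiniteField.exists_nonsquare (F := F) fun e => h2' (by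
    exact_mod_cast (ringChar.spec F 2).2 (e ▸ dvd_rfl))
  have t0 : t ≠ 0 := by rintro rfl; exact ht IsSquare.zero
  have n : ¬IsSquare (algebraMap F L t) := fun ⟨s, hs⟩ => by
    obtain ⟨u, rfl⟩ := Algebra.mem_bot.1 (sq_mem hr h3 (c := s) (hs ▸ Algebra.mem_bot.2 ⟨t, rfl⟩))
    exact ht ⟨u, (algebraMap F L).injective (by rw [map_mul]; exact hs)⟩
  obtain ⟨s, hs⟩ := isSquare_mul_of_not n e
  refine ⟨t, s, t0, ?_, by rw [Algebra.smul_def, hs]⟩
  rintro rfl
  simp [t0, hz] at hs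

end Field

theorem rk {F V V' : Type*} [Field F] [AddCommGroup V] [Module F V] [AddCommGroup V'] [Module F V']
    [FiniteDimensional F V] [FiniteDimensional F V'] (N : V →ₗ[F] V') {A K : Submodule F V}
    {B : Submodule F V'} (h1 : ∀ v ∈ A, N v ∈ B) (h2 : ∀ v ∈ A, N v = 0 → v ∈ K) :
    finrank F A ≤ finrank F B + finrank F K := by
  rw [← LinearMap.finrank_range_add_finrank_ker (N ∘ₗ A.subtype),
    ← Submodule.finrank_map_subtype_eq]
  refine add_le_add (Submodule.finrank_mono ?_) (Submodule.finrank_mono ?_)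
  · rintro _ ⟨v, rfl⟩
    exact h1 v v.2
  · rintro _ ⟨v, hv, rfl⟩
    exact h2 v v.2 hv

theorem exists_two {F V : Type*} [Field F] [AddCommGroup V] [Module F V] [FiniteDimensional F V]
    {W : Submodule F V} (h : 2 ≤ finrank F W) : ∃ w ∈ W, ∃ w' ∈ W, w ≠ 0 ∧ w' ∉ F ∙ w := by
  obtain ⟨w, hw, w0⟩ := Submodule.exists_mem_ne_zero_of_ne_bot (p := W) fun e => by
    rw [e, finrank_bot] at h; omega
  obtain ⟨w', hw', hn⟩ := exists_not_mem_of_lt (S := F ∙ w) (T := W)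
    (by rw [finrank_span_singleton w0]; omega)
  exact ⟨w, hw, w', hw', w0, hn⟩

variable {F : Type*} [Field F] {V : Type*} [AddCommGroup V] [Module F V] [FiniteDimensional F V]
  {L : Type*} [Field L] [Algebra F L] [Module L V] [IsScalarTower F L V] [Finite L]
  [FiniteDimensional L V]

local notation:75 g:76 " ⊳ " v:75 => (g : V ≃ₗ[F] V) v

theorem mem_line {ψ : Form (Kind.orth L) V} (hψ : ψ.Nondeg) (h3 : finrank L V = 3) {u a b w : V}
    (u0 : u ≠ 0) (ha : a ∉ L ∙ u) (b0 : b ≠ 0) (h1 : ψ.B u b = 0) (h2 : ψ.B a b = 0)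
    (h4 : ψ.B u w = 0) (h5 : ψ.B a w = 0) : ∃ c : L, c • b = w := by
  have d1 := hψ.finrank_perp (Submodule.span L {u, a})
  have d4 := Submodule.finrank_lt_finrank_of_lt (lt_of_le_of_ne (Submodule.span_mono (by simp))
    fun e => ha (e ▸ Submodule.subset_span (by simp)) : L ∙ u < Submodule.span L {u, a})
  rw [finrank_span_singleton u0] at d4
  refine Submodule.mem_span_singleton.1 ((Submodule.eq_of_le_of_finrank_le
    ((Submodule.span_singleton_le_iff_mem _ _).2 (ψ.mem_perp_span_pair.2 ⟨h1, h2⟩)) ?_).ge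
      (ψ.mem_perp_span_pair.2 ⟨h4, h5⟩))
  rw [finrank_span_singleton b0]
  omega

theorem exists_third {ψ : Form (Kind.orth L) V} (hψ : ψ.Nondeg) (h3 : finrank L V = 3) (u a : V) :
    ∃ b, b ≠ 0 ∧ ψ.B u b = 0 ∧ ψ.B a b = 0 := by
  have d1 := hψ.finrank_perp_pair u a
  obtain ⟨b, b1, b0⟩ := Submodule.exists_mem_ne_zero_of_ne_bot
    (p := ψ.perp (Submodule.span L {u, a})) fun e => by rw [e, finrank_bot] at d1; omega
  exact ⟨b, b0, ψ.mem_perp_span_pair.1 b1⟩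

/-- The setting. -/
structure Ctx (f : Form (Kind.orth F) V) (ψ : Form (Kind.orth L) V) (θ : L →ₗ[F] F)
    (X : Subgroup f.Isom) : Prop where
  ext : f.Ext ψ θ
  hb : f.EBase ψ X
  two : (2 : L) ≠ 0
  pr : (finrank F L).Prime
  five : 5 ≤ finrank F L
  three : finrank L V = 3
  nd : ¬f.Eich ≤ X

/-- A singular vector with an orthogonal non-singular vector. -/
structure Fr (ψ : Form (Kind.orth L) V) (x b : V) : Prop where
  x0 : x ≠ 0
  Qx : ψ.Q x = 0
  Bxb : ψ.B x b = 0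
  Qb : ψ.Q b ≠ 0

variable {f : Form (Kind.orth F) V} {ψ : Form (Kind.orth L) V} {θ : L →ₗ[F] F}
  {X : Subgroup f.Isom} {d : ℕ}

variable (ψ) in
/-- Root elements. -/
def Rt (x b : V) (a : L) (g : f.Isom) : Prop :=
  ∀ v, g ⊳ v = v + (a * ψ.B x v) • b - (a * ψ.B b v + a ^ 2 * ψ.Q b * ψ.B x v) • x

namespace Fr
variable {x b : V} (hF : Fr ψ x b)
include hF

theorem Bxx : ψ.B x x = 0 := ψ.B_self_of_Q hF.Qx
theorem Bbx : ψ.B b x = 0 := ψ.eq_zero_symm hF.Bxb
theorem b0 : b ≠ 0 := fun e => hF.Qb (by simp [e])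

theorem ind {s t : L} (e : s • b = t • x) : s = 0 := by
  have := congrArg ψ.Q e
  simpa [ψ.orth_Q_smul, hF.Qx, hF.Qb] using this

theorem fix {a : L} {g : f.Isom} (hg : Rt ψ x b a g) (c : L) : g ⊳ (c • x) = c • x := by
  simp [hg _, hF.Bxx, hF.Bbx]

theorem fix' {a : L} {g : f.Isom} (hg : Rt ψ x b a g) (v : V) (hv : v ∈ lpt F L x) : g ⊳ v = v := by
  obtain ⟨c, rfl⟩ := mem_lpt.1 hv
  exact hF.fix hg c

omit hF in
theorem perp {a : L} {g : f.Isom} (hg : Rt ψ x b a g) {v : V} (hv : ψ.B x v = 0) :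
    g ⊳ v = v - (a * ψ.B b v) • x := by
  simp [hg _, hv]

theorem mul {a a' : L} {g g' g'' : f.Isom} (hg : Rt ψ x b a g) (hg' : Rt ψ x b a' g')
    (hg'' : Rt ψ x b (a + a') g'') : g'' = g * g' := f.isom_ext fun v => by
  rw [isom_mul_apply, hg, hg', hg'']
  simp only [map_add, map_sub, map_smul, hF.Bxx, hF.Bbx, hF.Bxb, ψ.orth_B_self, smul_eq_mul]
  module

omit hF in
theorem zero {g : f.Isom} (hg : Rt ψ x b 0 g) : g = 1 := f.isom_ext fun v => by simp [hg v]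

end Fr

namespace Ctx
variable (C : Ctx f ψ θ X)
include C

theorem hT : f.HasT ψ X := fun x y hh t => C.hb _
  (hh.torus_mul_self_mem_Eich C.ext.nondeg (by have := C.three; omega) t)

theorem root {x b : V} (hF : Fr ψ x b) (a : L) : ∃ g ∈ X, Rt ψ x b a g := by
  obtain ⟨g, g1, g2⟩ := C.hb.eich (ψ.orth_eichlerCond (w := a • b) hF.Qx (by simp [hF.Bxb]))
  exact ⟨g, g1, fun v => by simp [g2, ψ.orth_Q_smul, smul_smul, mul_comm a]⟩

theorem px {x b v : V} (hF : Fr ψ x b) (h1 : ψ.B x v = 0) (h2 : ψ.B b v = 0) : v ∈ lpt F L x :=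
  mem_lpt.2 (mem_line C.ext.nondeg C.three hF.x0 (fun e => by
    obtain ⟨t, ht⟩ := Submodule.mem_span_singleton.1 e
    exact one_ne_zero (hF.ind (s := 1) (by rw [one_smul, ht]))) hF.x0 hF.Bxx hF.Bbx h1 h2)

theorem dec {x b v : V} (hF : Fr ψ x b) (h1 : ψ.B x v = 0) : ∃ s t : L, v = s • b + t • x := by
  obtain ⟨t, ht⟩ := mem_lpt.1 (C.px (v := v - (ψ.B b v / (2 * ψ.Q b)) • b) hF (by
    simp [h1, hF.Bxb]) (by simp [ψ.orth_B_self, C.two, hF.Qb]))
  exact ⟨_, t, by rw [ht, add_sub_cancel]⟩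

theorem frame {x u : V} (x0 : x ≠ 0) (hx : ψ.Q x = 0) (κ : ψ.B x u ≠ 0) :
    ∃ b, Fr ψ x b ∧ ψ.B b u = 0 := by
  obtain ⟨b, b0, b1, b2⟩ := exists_third C.ext.nondeg C.three x u
  refine ⟨b, ⟨x0, hx, b1, fun e => ?_⟩, ψ.eq_zero_symm b2⟩
  by_cases n : b ∈ L ∙ x
  · obtain ⟨t, rfl⟩ := Submodule.mem_span_singleton.1 n
    rw [map_smul, ψ.orth_symm x u] at b2
    simp_all
  obtain ⟨s, hs⟩ := mem_line C.ext.nondeg C.three x0 n x0 (ψ.B_self_of_Q hx) (ψ.eq_zero_symm b1)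
    b1 (ψ.B_self_of_Q e)
  exact n (Submodule.mem_span_singleton.2 ⟨s, hs⟩)

theorem frame' {x : V} (x0 : x ≠ 0) (hx : ψ.Q x = 0) : ∃ b, Fr ψ x b := by
  obtain ⟨y, hy⟩ := C.ext.nondeg.exists_isHyp hx x0
  exact (C.frame x0 hx (hy.B_xy ▸ one_ne_zero)).imp fun _ h => h.1

theorem fix_iff {x b v : V} (hF : Fr ψ x b) {a : L} (a0 : a ≠ 0) {g : f.Isom} (hg : Rt ψ x b a g)
    (hv : g ⊳ v = v) : v ∈ lpt F L x := by
  have e := hg v
  rw [hv, add_sub_assoc, left_eq_add, sub_eq_zero] at e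
  have h1 : ψ.B x v = 0 := by simpa [a0] using hF.ind e
  rw [h1] at e
  exact C.px hF h1 (by simpa [a0, hF.x0] using e.symm)

theorem semi0 {x : V} (x0 : x ≠ 0) (hx : ψ.Q x = 0) {τ : f.Isom} (hτ : τ ∈ X)
    (hs : f.act τ (lpt F L x) = lpt F L x) {T : L →ₗ[F] L} (hT1 : ∀ a, τ ⊳ (a • x) = T a • x)
    (c y : L) : T (c * y) * T 1 = T c * T y := by
  have h := C.ext
  have h3 : 3 ≤ finrank L V := C.three.ge
  have h3' : 3 ≤ finrank F V := by
    rw [← Module.finrank_mul_finrank F L V, C.three]; have := C.five; omega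
  have hπ : ∀ c, (Kind.orth F).π c = 0 → ∃ b, b - (Kind.orth F).ε * (Kind.orth F).σ b = c :=
    fun c hc => ⟨0, by simpa using hc.symm⟩
  let R : Subalgebra F (End F L) :=
    { carrier := {ρ | ∀ φ, f.LL ψ X x φ → f.LL ψ X x fun v => ρ (φ v)}
      mul_mem' := fun a b φ hφ => a _ (b φ hφ)
      add_mem' := fun a b φ hφ => (a φ hφ).add (b φ hφ)
      algebraMap_mem' := fun c φ hφ => (h.ll_mul C.hT C.two x0 hx hφ (algebraMap F L c)).congr
        fun v _ => by simp [Algebra.smul_def] }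
  have hK : ∀ a, LinearMap.mulLeft F a ∈ R := fun a φ hφ => h.ll_mul C.hT C.two x0 hx hφ a
  have hs' : f.act τ⁻¹ (lpt F L x) = lpt F L x := by rw [← hs, act_inv_act, hs]
  obtain ⟨T', hT'⟩ := exists_bar x0 hs'
  have e1 : ∀ a, T' (T a) = a := fun a => smul_left_injective L x0 (by
    simp only [← hT', ← hT1, isom_inv_apply_apply])
  by_cases hn : ∃ ρ ∈ R, ∃ a y, ρ (a * y) ≠ a * ρ y
  swap
  · push Not at hn
    have e2 : ∀ c y, T (c * y) = T y * T (c * T' 1) := fun c y => by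
      have := hn (T * LinearMap.mulLeft F c * T') (fun φ hφ => (h.ll_conj (hK c _
        (h.ll_conj hφ (X.inv_mem hτ) hs' hT')) hτ hs hT1).congr fun v _ => by simp) (T y) 1
      simpa [e1] using this
    have e3 := e2 c 1
    rw [mul_one] at e3
    rw [e2 c y, e3]
    ring
  have hR : R = ⊤ := subalg_eq_top C.pr R hK hn
  refine absurd (h.Eich_le (.inl h3') (fun w => h.nondeg'.Tgrp_le_of_lev h3' hπ) x0 hx
    (h.grow C.hb h3 x0 hx fun w hw b hB => h.lev_of_ll h3 hπ x0 hx (fun a b hB => ?_) hw hB)) C.nd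
  obtain ⟨g, g1, g2, -⟩ := C.hb.eich' hx (w := -b) (by simp [hB])
  refine (hR.ge (Algebra.mem_top (x := θ.smulRight a)) (fun v => ψ.B b v) ⟨g, g1, fun v hv => ?_,
    fun c => ?_⟩).congr fun v _ => by simp [h.B_eq]
  · simp [g2 v hv]
  · simp [g2 _ (show ψ.B x (c • x) = 0 by simp [ψ.B_self_of_Q hx]), ψ.eq_zero_symm hB]

theorem scal {U : Submodule F V} (hU : f.Orb ψ X U) {τ : f.Isom} (hτ : τ ∈ X)
    (hs : f.act τ U = U) {w w' : V} (hw : w ∈ U) (hw' : w' ∈ U) (w0 : w ≠ 0) (hn : w' ∉ F ∙ w)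
    {ε ε' : F} (ε0 : ε ≠ 0) (he : ε' * ε' = ε * ε) (e1 : τ ⊳ w = ε • w) (e2 : τ ⊳ w' = ε' • w')
    (v : V) (hv : v ∈ U) : τ ⊳ v = ε • v := by
  obtain ⟨g, hg, z, z0, hz, rfl⟩ := hU
  have n : (g⁻¹ : f.Isom) ⊳ w ≠ 0 := by simpa using w0
  have hz' : ψ.Q ((g⁻¹ : f.Isom) ⊳ w) = 0 := by
    obtain ⟨a, ha⟩ := mem_lpt.1 (f.mem_act.1 hw)
    exact ha ▸ ψ.Q_smul_of_Q hz a
  rw [← lpt_eq (f.mem_act.1 hw) n] at hs hw' hv
  have hs' : f.act (g⁻¹ * τ * g) (lpt F L ((g⁻¹ : f.Isom) ⊳ w)) = lpt F L ((g⁻¹ : f.Isom) ⊳ w) := by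
    rw [act_mul, act_mul, hs, act_inv_act]
  obtain ⟨T, hT⟩ := exists_bar n hs'
  have key := C.semi0 n hz' (X.mul_mem (X.mul_mem (X.inv_mem hg) hτ) hg) hs' hT
  obtain ⟨β, hβ⟩ := mem_lpt.1 (f.mem_act.1 hw')
  obtain ⟨α, hα⟩ := mem_lpt.1 (f.mem_act.1 hv)
  have t1 : T 1 = ε • 1 := smul_left_injective L n (by
    simp only [← hT, one_smul, isom_mul_apply, isom_apply_inv_apply, e1, map_smul, smul_assoc])
  have t2 : T β = ε' • β := smul_left_injective L n (by
    simp only [← hT, hβ, isom_mul_apply, isom_apply_inv_apply, e2, map_smul, smul_assoc])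
  have ε1 : algebraMap F L ε ≠ 0 := by simpa using ε0
  let A : Subalgebra F L :=
    { carrier := {c | T c = ε • c}
      mul_mem' := fun {a b} ha hb => mul_right_cancel₀ ε1 (by
        have := key a b
        rw [t1, show T a = _ from ha, show T b = _ from hb] at this
        simp only [Algebra.smul_def] at this ⊢
        linear_combination this)
      add_mem' := fun {a b} ha hb => by
        change T _ = _
        rw [map_add, show T a = _ from ha, show T b = _ from hb, smul_add]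
      algebraMap_mem' := fun a => by
        change T _ = _
        rw [Algebra.algebraMap_eq_smul_one, map_smul, t1, smul_comm] }
  have := Subalgebra.isSimpleOrder_of_finrank_prime F L C.pr
  rcases eq_bot_or_eq_top A with e | e
  · obtain ⟨t, ht⟩ := Algebra.mem_bot.1 (sq_mem C.pr (by have := C.five; omega) (c := β)
      (e.le (show T _ = _ from mul_right_cancel₀ ε1 (by
        have := key β β
        have he' := congrArg (algebraMap F L) he
        rw [t1, t2] at this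
        simp only [Algebra.smul_def, map_mul] at this he' ⊢
        linear_combination this + β * β * he'))))
    refine absurd (Submodule.mem_span_singleton.2 ⟨t, (g⁻¹ : f.Isom).1.injective ?_⟩) hn
    rw [map_smul, ← hβ, ← ht, algebraMap_smul]
  · have := hT α
    rw [show T α = _ from e.ge (Algebra.mem_top (x := α)), hα, smul_assoc, hα, isom_mul_apply,
      isom_mul_apply, isom_apply_inv_apply, ← map_smul] at this
    exact (g⁻¹ : f.Isom).1.injective this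

theorem scal1 {U : Submodule F V} (hU : f.Orb ψ X U) {τ : f.Isom} (hτ : τ ∈ X)
    (hs : f.act τ U = U) {W : Submodule F V} (hW : W ≤ U) (h2 : 2 ≤ finrank F W)
    (h : ∀ w ∈ W, τ ⊳ w = w) (v : V) (hv : v ∈ U) : τ ⊳ v = v := by
  obtain ⟨w, hw, w', hw', w0, hn⟩ := exists_two h2
  simpa using C.scal hU hτ hs (hW hw) (hW hw') w0 hn one_ne_zero rfl (by simpa using h w hw)
    (by simpa using h w' hw') v hv

theorem sr {x b : V} (hF : Fr ψ x b) {a : L} (a0 : a ≠ 0) {g : f.Isom} (hg : g ∈ X)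
    (hR : Rt ψ x b a g) {U : Submodule F V} (hU : f.Orb ψ X U) (hs : f.act g U = U) :
    lpt F L x = U := by
  let N : V →ₗ[F] V := (g : V ≃ₗ[F] V).toLinearMap - LinearMap.id
  have hN : ∀ v, N v = g ⊳ v - v := fun v => rfl
  have m : ∀ v ∈ U, N v ∈ U := fun v hv => U.sub_mem (hs.le (f.apply_mem_act.2 hv)) hv
  have k : ∀ v ∈ U, N v = 0 → v ∈ U ⊓ lpt F L x := fun v hv e =>
    ⟨hv, C.fix_iff hF a0 hR (sub_eq_zero.1 e)⟩
  have d1 := rk N (B := U ⊓ f.perp (lpt F L x)) (fun v hv => ⟨m v hv, C.ext.mem_perp.2 (by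
    simp [hN, hR v, hF.Bxx, hF.Bxb])⟩) k
  have d2 := rk N (A := U ⊓ f.perp (lpt F L x)) (B := U ⊓ lpt F L x) (fun v hv => ⟨m v hv.1, by
    rw [hN, Fr.perp hR (C.ext.mem_perp.1 hv.2), sub_sub_cancel_left, ← neg_smul]
    exact smul_mem_lpt _ x⟩) fun v hv => k v hv.1
  rw [hU.finrank_eq] at d1
  have := C.five
  exact (hU.eq_of_le (orb_lpt hF.x0 hF.Qx) fun v hv => C.fix_iff hF a0 hR (C.scal1 hU hg hs
    (W := U ⊓ lpt F L x) inf_le_left (by omega) (fun w hw => hF.fix' hR w hw.2) v hv)).symm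

variable (hM : f.MaxI ψ X d) (hd : 0 < d)
include hM hd

theorem opp {x : V} {U : Submodule F V} (hP : f.Pair ψ X d x U) {p : V} (hp : p ∈ U)
    (hB : ψ.B x p = 0) : p ∈ lpt F L x := by
  by_contra hn
  obtain ⟨b, hF⟩ := C.frame' hP.x0 hP.Qx
  have n : ψ.B b p ≠ 0 := fun e => hn (C.px hF hB e)
  obtain ⟨w, hw, w0⟩ := hP.exists_mem hd
  obtain ⟨α, rfl⟩ := mem_lpt.1 hw.1
  obtain ⟨g, hg, hR⟩ := C.root hF (-α / ψ.B b p)
  exact hP.ne (C.sr hF (div_ne_zero (neg_ne_zero.2 (left_ne_zero_of_smul w0)) n) hg hR hP.orb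
    (hM.act_eq hP.orb inf_le_right hP.dim hg (fun v hv => hF.fix' hR v hv.1) hp (fun e => hn e.1) (by
      rw [Fr.perp hR hB, div_mul_cancel₀ _ n, neg_smul, sub_neg_eq_add]
      exact U.add_mem hp hw.2)))

theorem opp' {U U' : Submodule F V} (hU : f.Orb ψ X U) (hU' : f.Orb ψ X U') (hne : U ≠ U')
    (hdim : finrank F (U ⊓ U' : Submodule F V) = d) {p : V} (hp : p ∈ U') (hB : p ∈ f.perp U) :
    p ∈ U := by
  obtain ⟨g, hg, z, z0, hz, rfl⟩ := hU
  rw [← act_perp] at hB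
  exact f.mem_act.2 (C.opp hM hd (pair_of hg z0 hz hU' hne hdim) (f.apply_mem_act.2 hp)
    (C.ext.mem_perp.1 (f.mem_act.1 hB)))

theorem lam {x c : V} {U : Submodule F V} (hP : f.Pair ψ X d x U) (hF : Fr ψ x c)
    (hc : ∀ p ∈ U, ψ.B c p = 0) : False := by
  obtain ⟨u, hu, hn⟩ := hP.exists_right
  have κ : ψ.B x u ≠ 0 := fun e => hn (C.opp hM hd hP hu e)
  obtain ⟨w, hw, w0⟩ := hP.exists_mem hd
  obtain ⟨α, rfl⟩ := mem_lpt.1 hw.1
  obtain ⟨t, s, -, s0, hs⟩ := exists_sq C.pr (by have := C.five; omega) C.two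
    (div_ne_zero (left_ne_zero_of_smul w0) (mul_ne_zero hF.Qb κ))
  obtain ⟨g, hg, hR⟩ := C.root hF s
  have ne : U ≠ f.act g U := fun e => hP.ne (C.sr hF s0 hg hR hP.orb e.symm)
  have e1 : g ⊳ u = u + (s * ψ.B x u) • c - t • α • x := by
    rw [hR, hc u hu, sq, hs, mul_zero, zero_add, smul_mul_assoc, smul_mul_assoc, mul_assoc,
      div_mul_cancel₀ _ (mul_ne_zero hF.Qb κ), smul_assoc]
  refine ne (hM.act_eq hP.orb inf_le_right hP.dim hg (fun v hv => hF.fix' hR v hv.1) hu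
    (fun e => hn e.1) (C.opp' hM hd hP.orb (hP.orb.act hg) ne (le_antisymm (not_lt.1 fun l =>
      ne (hM _ _ hP.orb (hP.orb.act hg) l)) (hP.dim ▸ Submodule.finrank_mono fun w hw =>
        ⟨hw.2, hF.fix' hR w hw.1 ▸ f.apply_mem_act.2 hw.2⟩)) (f.apply_mem_act.2 hu)
          fun p hp => ?_)).symm
  have ts := C.ext.ts hP.orb
  rw [e1, map_sub, map_add, ts.B_eq p hp u hu, ts.B_eq p hp _ (U.smul_mem t hw.2), C.ext.B_smul,
    ψ.eq_zero_symm (hc p hp)]
  simp

end Ctx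
end CA.H15Oa
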