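import Cfsg.Agent.Lib.Lin.H15Oa

/-!
Overgroups of `Ω₃(q^r)` in `O_{3r}(q)`: small intersections.
-/

set_option autoImplicit false
set_option linter.unusedSectionVars false

namespace CA.H15Ob

open Module CA.CForm CA.CForm.Form CA.H15Oa

variable {F : Type*} [Field F] {V : Type*} [AddCommGroup V] [Module F V] [FiniteDimensional F V]
  {L : Type*} [Field L] [Algebra F L] [Module L V] [IsScalarTower F L V] [Finite L]
  [FiniteDimensional L V]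

local notation:75 g:76 " ⊳ " v:75 => (g : V ≃ₗ[F] V) v

variable {f : Form (Kind.orth F) V} {ψ : Form (Kind.orth L) V} {θ : L →ₗ[F] F}
  {X : Subgroup f.Isom} {d : ℕ}

theorem four (h2 : (2 : L) ≠ 0) {g : f.Isom} (H : f.PresP ψ g) {x y b : V} (hx : ψ.Q x = 0)
    (hy : ψ.Q y = 0) (hB : ψ.B x y ≠ 0) (b1 : ψ.B x b = 0) (b3 : ψ.B y b = 0)
    (b2 : ψ.Q b = -ψ.B x y) {a l m : L} (e1 : g ⊳ (a • x) = l • g ⊳ x)
    (e2 : g ⊳ (a • y) = m • g ⊳ y) : l = m := by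
  refine semi_four H h2 (by rintro rfl; simp at hB) hx (by rintro rfl; simp at hB) hy (fun e => ?_)
    (b := b) (fun e => ?_) ?_ ?_ e1 e2
  · obtain ⟨t, rfl⟩ := Submodule.mem_span_singleton.1 e
    simp [ψ.B_self_of_Q hx] at hB
  · have := (ψ.mem_perp_span_pair.2 ⟨b1, b3⟩) b e
    simp [ψ.orth_B_self, h2, b2, hB] at this
  · simp [ψ.orth_Q_add, hx, hy, b2, b1, b3]
  · simp [sub_eq_add_neg, ψ.orth_Q_add, hx, hy, b2, b1, b3]

variable (C : Ctx f ψ θ X)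
include C

theorem semi3 {g : f.Isom} (H : f.PresP ψ g) : f.Semi L g := by
  obtain ⟨x, -, x0, hx⟩ := ψ.iso_orth ⊤ (by rw [finrank_top]; exact C.three.ge)
  refine semi_of H C.ext.nondeg (.inl C.three.ge) x0 hx fun x y hx hy hB a l m e1 e2 => ?_
  have key : ∀ y, y ≠ 0 → ψ.Q y = 0 → ∃ l : L, g ⊳ (a • y) = l • g ⊳ y := fun y y0 hy =>
    (mem_lpt.1 ((H y y0 hy).le (f.apply_mem_act.2 (smul_mem_lpt a y)))).imp fun _ => Eq.symm
  have y0 : y ≠ 0 := by rintro rfl; simp at hB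
  obtain ⟨b, hF, hb⟩ := C.frame (by rintro rfl; simp at hB) hx hB
  replace hb := ψ.eq_zero_symm hb
  have μ0 : -ψ.Q b / ψ.B x y ≠ 0 := div_ne_zero (neg_ne_zero.2 hF.Qb) hB
  obtain ⟨l₁, h1⟩ := key _ (smul_ne_zero μ0 hF.x0) (ψ.Q_smul_of_Q hx _)
  obtain ⟨m₁, h2⟩ := key _ (smul_ne_zero μ0 y0) (ψ.Q_smul_of_Q hy _)
  have k1 : l = m₁ := four C.two H hx (ψ.Q_smul_of_Q hy _) (by simp [hF.Qb, hB]) hF.Bxb
    (by simp [hb]) (by simp [hB]) e1 h2
  have k2 : l₁ = m := four C.two H (ψ.Q_smul_of_Q hx _) hy (by simp [hF.Qb, hB]) (by simp [hF.Bxb])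
    hb (by simp [hB]) h1 e2
  have k3 : ∀ s : L, g ⊳ (a • (s * s) • y) = m • g ⊳ ((s * s) • y) := fun s => by
    by_cases s0 : s = 0
    · simp [s0]
    obtain ⟨n, h3⟩ := key _ (smul_ne_zero (mul_ne_zero s0 s0) y0) (ψ.Q_smul_of_Q hy _)
    rw [h3, ← k2, four C.two H (b := s • b) (ψ.Q_smul_of_Q hx _) (ψ.Q_smul_of_Q hy _)
      (by simp [hF.Qb, hB, s0]) (by simp [hF.Bxb]) (by simp [hb]) (by
        simp [ψ.orth_Q_smul, hB, sq]) h1 h3]
  have k4 : ∀ μ : L, g ⊳ (a • μ • y) = m • g ⊳ (μ • y) := fun μ => by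
    have := C.two
    rw [show μ = (μ + 1) / 2 * ((μ + 1) / 2) - (μ - 1) / 2 * ((μ - 1) / 2) by field_simp; ring,
      sub_smul, smul_sub, map_sub, map_sub, k3, k3, smul_sub]
  rw [k4] at h2
  exact k1.trans (smul_left_injective L (by simpa using smul_ne_zero μ0 y0) h2).symm

theorem rr {a b : V} (ha : ψ.Q a ≠ 0) (hb : ψ.Q b ≠ 0) (h : IsSquare (ψ.Q a * ψ.Q b)) :
    ∃ g ∈ X, ∀ v, g ⊳ v = (ψ.refl a).1 ((ψ.refl b).1 v) := by
  obtain ⟨g, hg⟩ := C.ext.nondeg.exists_commutator_eq_refl_mul ha hb h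
  exact C.hb (ψ.refl a * ψ.refl b) (C.ext.nondeg.comm_le C.three.ge
    (hg ▸ Subgroup.commutator_mem_commutator trivial trivial))

theorem scal2 (hM : f.MaxI ψ X d) (hd : d ≤ 1) {U : Submodule F V} (hU : f.Orb ψ X U) {τ : f.Isom}
    (hτ : τ ∈ X) {w w' : V} (hw : w ∈ U) (hw' : w' ∈ U) (w0 : w ≠ 0) (hn : w' ∉ F ∙ w)
    {ε ε' : F} (ε0 : ε ≠ 0) (he : ε' * ε' = ε * ε) (e1 : τ ⊳ w = ε • w) (e2 : τ ⊳ w' = ε' • w')
    (v : V) (hv : v ∈ U) : τ ⊳ v = ε • v := by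
  have ε1 : ε' ≠ 0 := by rintro rfl; simp [ε0] at he
  have m : ∀ w ∈ U, ∀ ε : F, ε ≠ 0 → τ ⊳ w = ε • w → w ∈ f.act τ U ⊓ U := fun w hw ε h0 e =>
    ⟨(Submodule.smul_mem_iff _ h0).1 (e ▸ f.apply_mem_act.2 hw), hw⟩
  have := Submodule.finrank_lt_finrank_of_lt (lt_of_le_of_ne
    ((Submodule.span_singleton_le_iff_mem _ _).2 (m w hw ε ε0 e1)) fun e =>
      hn (e.ge (m w' hw' ε' ε1 e2)))
  rw [finrank_span_singleton w0] at this
  exact C.scal hU hτ (hM _ _ (hU.act hτ) hU (by omega)) hw hw' w0 hn ε0 he e1 e2 v hv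

theorem third (hM : f.MaxI ψ X d) (hd : d ≤ 1) {U : Submodule F V} (hU : f.Orb ψ X U) {u v : V}
    (hu : u ∈ U) (hv : v ∈ U) (Qu : ψ.Q u ≠ 0) (Qv : ψ.Q v ≠ 0) (hB : ψ.B u v = 0) :
    ∃ c, ψ.Q c ≠ 0 ∧ ∀ p ∈ U, ψ.B c p = 0 := by
  have h2 := C.two
  have u0 : u ≠ 0 := by rintro rfl; simp at Qu
  have v0 : v ≠ 0 := by rintro rfl; simp at Qv
  have hB' := ψ.eq_zero_symm hB
  have n : v ∉ L ∙ u := fun e => by
    obtain ⟨t, rfl⟩ := Submodule.mem_span_singleton.1 e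
    simp_all [ψ.orth_B_self]
  have n' : v ∉ F ∙ u := fun e => n (by
    obtain ⟨t, rfl⟩ := Submodule.mem_span_singleton.1 e
    exact Submodule.smul_of_tower_mem _ t (Submodule.mem_span_singleton_self u))
  obtain ⟨c, c0, c1, c2⟩ := exists_third C.ext.nondeg C.three u v
  have Qc : ψ.Q c ≠ 0 := fun e => c0 (C.ext.nondeg c fun z => by
    obtain ⟨t, ht⟩ := mem_line C.ext.nondeg C.three u0 n c0 c1 c2
      (w := z - (ψ.B u z / (2 * ψ.Q u)) • u - (ψ.B v z / (2 * ψ.Q v)) • v)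
      (by simp [ψ.orth_B_self, h2, Qu, hB]) (by simp [ψ.orth_B_self, h2, Qv, hB'])
    simpa [ψ.B_self_of_Q e, ψ.eq_zero_symm c1, ψ.eq_zero_symm c2] using
      (congrArg (ψ.B c) ht).symm)
  have c1' := ψ.eq_zero_symm c1
  have c2' := ψ.eq_zero_symm c2
  have nv : v ≠ -v := fun e => smul_ne_zero h2 v0 (by linear_combination (norm := module) e)
  refine ⟨c, Qc, ?_⟩
  obtain h | h | h : IsSquare (ψ.Q u * ψ.Q v) ∨ IsSquare (ψ.Q u * ψ.Q c) ∨
      IsSquare (ψ.Q v * ψ.Q c) := by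
    by_cases a1 : IsSquare (ψ.Q u) <;> by_cases a2 : IsSquare (ψ.Q v) <;>
      by_cases a3 : IsSquare (ψ.Q c)
    exacts [.inl (a1.mul a2), .inl (a1.mul a2), .inr (.inl (a1.mul a3)),
      .inr (.inr (isSquare_mul_of_not a2 a3)), .inr (.inr (a2.mul a3)),
      .inr (.inl (isSquare_mul_of_not a1 a3)), .inl (isSquare_mul_of_not a1 a2),
      .inl (isSquare_mul_of_not a1 a2)]
  · obtain ⟨g, hg, e⟩ := rr C Qu Qv h
    intro p hp
    have := scal2 C hM hd hU hg hu hv u0 n' (ε := -1) (ε' := -1) (by simp) rfl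
      (by rw [e, ψ.refl_apply_of_B hB', ψ.refl_apply_self Qu]; simp)
      (by rw [e, ψ.refl_apply_self Qv, map_neg, ψ.refl_apply_of_B hB]; simp) p hp
    have e2 := congrArg (ψ.B c) this
    rw [e, ψ.refl_apply, ψ.refl_apply v] at e2
    simp [c1', c2'] at e2
    exact (mul_eq_zero.1 (by linear_combination e2)).resolve_left h2
  · obtain ⟨g, hg, e⟩ := rr C Qu Qc h
    have e1 : g ⊳ v = v := by rw [e, ψ.refl_apply_of_B c2', ψ.refl_apply_of_B hB]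
    have := scal2 C hM hd hU hg hu hv u0 n' (ε := -1) (ε' := 1) (by simp) (by simp)
      (by rw [e, ψ.refl_apply_of_B c1', ψ.refl_apply_self Qu]; simp) (by simpa using e1) v hv
    exact absurd (by simpa [e1] using this) nv
  · obtain ⟨g, hg, e⟩ := rr C Qv Qc h
    have e1 : g ⊳ v = -v := by rw [e, ψ.refl_apply_of_B c2', ψ.refl_apply_self Qv]
    have := scal2 C hM hd hU hg hu hv u0 n' (ε := 1) (ε' := -1) (by simp) (by simp)
      (by rw [e, ψ.refl_apply_of_B c1', ψ.refl_apply_of_B hB']; simp) (by simpa using e1) v hv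
    rw [e1, one_smul] at this
    exact absurd this.symm nv

theorem exists_perp {U : Submodule F V} (hU : f.Orb ψ X U) {u : V} (hu : u ∈ U) :
    ∃ v ∈ U, v ≠ 0 ∧ ψ.B u v = 0 := by
  have : FiniteDimensional F L := Module.finite_of_finrank_pos C.pr.pos
  by_contra hn
  push Not at hn
  have d1 := rk ((ψ.B u).restrictScalars F) (A := U) (K := ⊥) (B := LinearMap.ker θ)
    (fun v hv => by
      change θ (ψ.B u v) = 0
      rw [← C.ext.B_eq, (C.ext.ts hU).B_eq u hu v hv])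
    fun v hv e => by_contra fun h => hn v hv h e
  have d2 := Submodule.finrank_lt (mt LinearMap.ker_eq_top.1 C.ext.θ_ne)
  rw [hU.finrank_eq, finrank_bot] at d1
  omega

theorem one (hM : f.MaxI ψ X 1) {x : V} {U : Submodule F V} (hP : f.Pair ψ X 1 x U) : False := by
  obtain ⟨w, hw, w0⟩ := hP.exists_mem one_pos
  replace hP := hP.smul hw.1 w0
  obtain ⟨u, hu, Qu⟩ : ∃ u ∈ U, ψ.Q u ≠ 0 := by
    obtain ⟨u, hu, hn⟩ := hP.exists_right
    by_cases e : ψ.Q u = 0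
    · exact ⟨w + u, U.add_mem hw.2 hu, by
        simpa [ψ.orth_Q_add, e, hP.Qx] using fun e => hn (C.opp hM one_pos hP hu e)⟩
    · exact ⟨u, hu, e⟩
  obtain ⟨v, hv, v0, hB⟩ := exists_perp C hP.orb hu
  by_cases Qv : ψ.Q v = 0
  · have n : u ∉ lpt F L v := fun e => by
      obtain ⟨a, rfl⟩ := mem_lpt.1 e
      exact Qu (ψ.Q_smul_of_Q Qv a)
    have ne : lpt F L v ≠ U := fun e => n (e.ge hu)
    exact n (C.opp hM one_pos ⟨v0, Qv, hP.orb, ne, le_antisymm (not_lt.1 fun l =>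
      ne (hM _ _ (orb_lpt v0 Qv) hP.orb l)) (Nat.pos_of_ne_zero fun e => v0
        ((Submodule.finrank_eq_zero.1 e).le ⟨self_mem_lpt v, hv⟩))⟩ hu (ψ.eq_zero_symm hB))
  obtain ⟨c, Qc, hc⟩ := third C hM le_rfl hP.orb hu hv Qu Qv hB
  exact C.lam hM one_pos hP ⟨w0, hP.Qx, ψ.eq_zero_symm (hc w hw.2), Qc⟩ hc

theorem presP3 (hM : f.MaxI ψ X 0) {g : f.Isom} (hg : g ∈ X) : f.PresP ψ g := fun x x0 hx => by
  by_contra hn
  have hU := (orb_lpt (ψ := ψ) (X := X) x0 hx).act hg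
  have ns : ∀ z ∈ f.act g (lpt F L x), z ≠ 0 → ψ.Q z ≠ 0 := fun z hz z0 hQ =>
    hn (hM.act_lpt hg x0 hx hz z0 hQ)
  have hu := f.apply_mem_act (g := g).2 (self_mem_lpt (F := F) (L := L) x)
  have u0 : g ⊳ x ≠ 0 := by simpa using x0
  generalize g ⊳ x = u at hu u0
  generalize f.act g (lpt F L x) = U at hu ns hU
  obtain ⟨v, hv, v0, hB⟩ := exists_perp C hU hu
  have Qv := ns v hv v0
  obtain ⟨c, Qc, hc⟩ := third C hM zero_le_one hU hu hv (ns u hu u0) Qv hB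
  have h2 := C.two
  obtain ⟨t, ht⟩ : ∃ t : L, t * t * (ψ.Q v / ψ.Q c) ∉ (⊥ : Subalgebra F L) := by
    by_cases e : ψ.Q v / ψ.Q c ∈ (⊥ : Subalgebra F L)
    swap
    · exact ⟨1, by simpa using e⟩
    obtain ⟨s, hs⟩ := Algebra.mem_bot.1 e
    have s0 : algebraMap F L s ≠ 0 := hs ▸ div_ne_zero Qv Qc
    obtain ⟨t, -, ht⟩ := SetLike.exists_of_lt (bot_lt_iff_ne_bot.2 fun e : (⊤ : Subalgebra F L) = ⊥ =>
      by have := Subalgebra.bot_eq_top_iff_finrank_eq_one.1 e.symm; have := C.five; omega)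
    refine ⟨t, fun e => ht (sq_mem C.pr (by have := C.five; omega) ?_)⟩
    obtain ⟨s', hs'⟩ := Algebra.mem_bot.1 e
    exact Algebra.mem_bot.2 ⟨s' / s, by rw [map_div₀, hs', ← hs, mul_div_cancel_right₀ _ s0]⟩
  have t0 : t ≠ 0 := by rintro rfl; simp at ht
  have t1 : t ^ 2 * ψ.Q v + ψ.Q c ≠ 0 := fun e => ht (by
    rw [show t * t * (ψ.Q v / ψ.Q c) = -1 by field_simp; linear_combination e]
    exact neg_mem (one_mem _))
  have t2 : ψ.Q c - t ^ 2 * ψ.Q v ≠ 0 := fun e => ht (by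
    rw [show t * t * (ψ.Q v / ψ.Q c) = 1 by field_simp; linear_combination -e]
    exact one_mem _)
  have cv := hc v hv
  have vc := ψ.eq_zero_symm cv
  have q1 : ψ.Q (t • v + c) = t ^ 2 * ψ.Q v + ψ.Q c := by simp [ψ.orth_Q_add, ψ.orth_Q_smul, vc]
  have p1 : ψ.Q ((ψ.refl (t • v + c)).1 v) = ψ.Q v := ψ.Q_coe_map _ _
  have p2 : ψ.B ((ψ.refl (t • v + c)).1 v) u = 0 := by
    simp [ψ.refl_apply, ψ.eq_zero_symm hB, hc u hu]
  have p3 : ψ.B ((ψ.refl (t • v + c)).1 v) v ≠ 0 := by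
    rw [show ψ.B ((ψ.refl (t • v + c)).1 v) v = 2 * ψ.Q v * (ψ.Q c - t ^ 2 * ψ.Q v) /
      (t ^ 2 * ψ.Q v + ψ.Q c) by
        simp [ψ.refl_apply, q1, cv, ψ.orth_B_self]
        rw [eq_div_iff t1]
        linear_combination (-4 * t ^ 2 * ψ.Q v ^ 2) * inv_mul_cancel₀ t1]
    simp [h2, Qv, t1, t2]
  have p4 : ψ.B c ((ψ.refl (t • v + c)).1 v) ≠ 0 := by
    simp [ψ.refl_apply, q1, cv, ψ.orth_B_self, h2, Qv, Qc, t0, t1]
  generalize (ψ.refl (t • v + c)).1 v = p at p1 p2 p3 p4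
  obtain ⟨τ, hτ, e⟩ := rr C Qv (p1 ▸ Qv) (by rw [p1]; exact ⟨_, rfl⟩)
  have := hc _ ((hM.act_eq hU bot_le (finrank_bot F V) hτ (by simp) hu (by simpa using u0) (by
    rwa [e, ψ.refl_apply_of_B p2, ψ.refl_apply_of_B (ψ.eq_zero_symm hB)])).le
      (f.apply_mem_act.2 hv))
  rw [e, ψ.refl_apply, ψ.refl_apply p] at this
  simp [cv, p1, Qv, p3, p4] at this

end CA.H15Ob
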