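import Cfsg.Agent.Lib.Lin.H15Ob
import Cfsg.Agent.Lib.Perm.FcBasic

/-!
Overgroups of `Ω₃(q^r)` in `O_{3r}(q)`: large intersections.
-/

set_option autoImplicit false
set_option linter.unusedSectionVars false

namespace CA.H15Oc

open Module CA.CForm CA.CForm.Form CA.H15Oa CA.H15Ob

variable {F : Type*} [Field F] {V : Type*} [AddCommGroup V] [Module F V] [FiniteDimensional F V]
  {L : Type*} [Field L] [Algebra F L] [Module L V] [IsScalarTower F L V] [Finite L]
  [FiniteDimensional L V]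

local notation:75 g:76 " ⊳ " v:75 => (g : V ≃ₗ[F] V) v

variable {f : Form (Kind.orth F) V} {ψ : Form (Kind.orth L) V} {θ : L →ₗ[F] F}
  {X : Subgroup f.Isom} {d : ℕ} (C : Ctx f ψ θ X)
include C

theorem exists_ker {x y : V} (hy : ψ.IsHyp x y) {s : f.Isom}
    (h : ∀ v, ψ.B x v = 0 → s ⊳ v = v) : ∃ k : L, k ≠ 0 ∧ s ⊳ (k • y) = k • y := by
  have : FiniteDimensional F L := Module.finite_of_finrank_pos C.pr.pos
  have m : ∀ v, s ⊳ v - v ∈ lpt F L x := C.ext.nondeg'.sub_mem_of_fix fun v hv =>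
    h v (C.ext.mem_perp.1 hv)
  let β : LinearMap.BilinForm F L := LinearMap.mk₂ F (fun k l => f.B (l • y) (s ⊳ (k • y) - k • y))
    (fun a b c => by simp only [add_smul, map_add, map_sub]; ring)
    (fun a b c => by simp only [smul_assoc, map_smul, map_sub, smul_eq_mul]; ring)
    (fun a b c => by simp only [add_smul, B_add_left])
    (fun a b c => by simp [smul_assoc])
  have hA : β.IsAlt := fun k => by
    have := f.orth_Q_add (k • y) (s ⊳ (k • y) - k • y)
    rw [add_sub_cancel, Q_coe_map, (C.ext.ts_lpt hy.Q_x).Q_eq _ (m _)] at this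
    change f.B _ _ = 0
    linear_combination -this
  have hn : ¬(ofAlt β hA).Nondeg := fun e => by
    have := C.five
    rcases C.pr.eq_two_or_odd' with h | h
    · omega
    · exact Nat.not_even_iff_odd.2 h e.symp_even
  simp only [Nondeg, not_forall] at hn
  obtain ⟨k, hk, k0⟩ := hn
  obtain ⟨α, hα⟩ := mem_lpt.1 (m (k • y))
  refine ⟨k, k0, sub_eq_zero.1 ?_⟩
  rw [← hα, C.ext.eq_zero (y := α) fun l => ?_, zero_smul]
  have : f.B (l • y) (s ⊳ (k • y) - k • y) = 0 := hk l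
  rw [← hα, C.ext.B_smul, B_smul_left, ψ.orth_symm x y, hy.B_xy] at this
  simpa [mul_comm] using this

variable (hM : f.MaxI ψ X d) (hd : 0 < d) {x : V} {U : Submodule F V} (hP : f.Pair ψ X d x U)
include hM hd hP

theorem zz {s : f.Isom} (hs : s ∈ X) (h : ∀ v, ψ.B x v = 0 → s ⊳ v = v) : s = 1 := by
  obtain ⟨y, hy⟩ := C.ext.nondeg.exists_isHyp hP.Qx hP.x0
  let K : Submodule F L :=
    { carrier := {k | s ⊳ (k • y) = k • y}
      add_mem' := fun {a b} ha hb => by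
        change s ⊳ _ = _
        rw [add_smul, map_add, show s ⊳ (a • y) = _ from ha, show s ⊳ (b • y) = _ from hb]
      zero_mem' := by simp
      smul_mem' := fun c a ha => by
        change s ⊳ _ = _
        rw [smul_assoc, map_smul, show s ⊳ (a • y) = _ from ha] }
  have hK : ∀ v, s ⊳ v = v ↔ ψ.B x v ∈ K := fun v => by
    have := h (v - ψ.B x v • y) (by simp [hy.B_xy])
    rw [map_sub] at this
    exact ⟨fun e => show s ⊳ _ = _ by linear_combination (norm := module) e - this,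
      fun e => by
        replace e : s ⊳ (ψ.B x v • y) = ψ.B x v • y := e
        linear_combination (norm := module) this + e⟩
  obtain ⟨u, hu, hn⟩ := hP.exists_right
  have κ : ψ.B x u ≠ 0 := fun e => hn (C.opp hM hd hP hu e)
  obtain ⟨w, hw, w0⟩ := hP.exists_mem hd
  have key : ∀ l : L, l ≠ 0 → l * ψ.B x u ∈ K → ∀ p ∈ U, l * ψ.B x p ∈ K := fun l l0 hl p hp => by
    obtain ⟨t, σ, t0, σ0, hσ⟩ := exists_sq C.pr (by have := C.five; omega) C.two l0
    obtain ⟨τ, hτ, e⟩ := C.hT x y hy (Units.mk0 σ σ0)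
    have e1 : ∀ v, (τ * s * τ⁻¹ : f.Isom) ⊳ v = v ↔ l * ψ.B x v ∈ K := fun v => by
      have e2 := ψ.B_coe_map (hy.torus (Units.mk0 σ σ0 * Units.mk0 σ σ0)) x ((τ⁻¹ : f.Isom) ⊳ v)
      rw [← e ((τ⁻¹ : f.Isom) ⊳ v), isom_apply_inv_apply, hy.torus_apply_x] at e2
      replace e2 : σ * σ * ψ.B x v = ψ.B x ((τ⁻¹ : f.Isom) ⊳ v) := by simpa using e2
      rw [← K.smul_mem_iff t0, ← smul_mul_assoc, ← hσ, e2, ← hK, isom_mul_apply, isom_mul_apply]
      exact ⟨fun h => τ.1.injective (by rw [h, isom_apply_inv_apply]), fun h => by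
        rw [h, isom_apply_inv_apply]⟩
    have m := X.mul_mem (X.mul_mem hτ hs) (X.inv_mem hτ)
    have fx : ∀ v ∈ lpt F L x ⊓ U, (τ * s * τ⁻¹ : f.Isom) ⊳ v = v := fun v hv => (e1 v).2 (by
      simp [C.ext.mem_perp.1 ((C.ext.ts_lpt hP.Qx).le_perp hv.1)])
    have fu := (e1 u).2 hl
    refine (e1 p).1 ?_
    simpa using C.scal hP.orb m (hM.act_eq hP.orb inf_le_right hP.dim m fx hu (fun e => hn e.1)
      (by rwa [fu])) hw.2 hu w0 (fun e => hn ((Submodule.span_singleton_le_iff_mem _ _).2 hw.1 e))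
      one_ne_zero rfl (by simpa using fx w hw) (by simpa using fu) p hp
  let A : Subalgebra F L :=
    { carrier := {l | ∀ k ∈ K, l * k ∈ K}
      mul_mem' := fun {a b} ha hb k hk => mul_assoc a b k ▸ ha _ (hb k hk)
      add_mem' := fun {a b} ha hb k hk => add_mul a b k ▸ K.add_mem (ha k hk) (hb k hk)
      algebraMap_mem' := fun c k hk => Algebra.smul_def c k ▸ K.smul_mem c hk }
  have := Subalgebra.isSimpleOrder_of_finrank_prime F L C.pr
  rcases eq_bot_or_eq_top A with e | e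
  · obtain ⟨c, hF, hc⟩ := C.frame hP.x0 hP.Qx κ
    refine (C.lam hM hd hP hF fun p hp => ?_).elim
    obtain ⟨t, ht⟩ := Algebra.mem_bot.1 (e.le (show ψ.B x p / ψ.B x u ∈ A from fun k hk => by
      by_cases k0 : k = 0
      · simp [k0]
      convert key (k / ψ.B x u) (div_ne_zero k0 κ) (by rwa [div_mul_cancel₀ _ κ]) p hp using 1
      ring))
    obtain ⟨a, ha⟩ := mem_lpt.1 (C.opp hM hd hP (U.sub_mem hp (U.smul_mem t hu)) (by
      rw [← algebraMap_smul L t, map_sub, map_smul, ht, smul_eq_mul, div_mul_cancel₀ _ κ, sub_self]))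
    have := congrArg (ψ.B c) ha
    rw [← algebraMap_smul L t] at this
    simpa [hF.Bbx, hc] using this.symm
  · obtain ⟨k, k0, hk⟩ := exists_ker C hy h
    exact f.isom_ext fun v => (hK v).2 (by
      simpa [k0] using e.ge (Algebra.mem_top (x := ψ.B x v / k)) k hk)

omit hM hd hP in
theorem B_fix {g : f.Isom} (hg : ∀ v ∈ lpt F L x, g ⊳ v = v) (v : V) : ψ.B x (g ⊳ v) = ψ.B x v := by
  rw [← sub_eq_zero, ← map_sub]
  exact C.ext.mem_perp.1 fun p hp => by rw [map_sub, ← f.B_coe_map g p v, hg p hp, sub_self]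

theorem ce {b : V} (hF : Fr ψ x b) {g : f.Isom} (hg : g ∈ X) (h1 : ∀ v ∈ lpt F L x, g ⊳ v = v)
    (h2 : ∀ v, ψ.B x v = 0 → g ⊳ v - v ∈ lpt F L x) : ∃ β, Rt ψ x b β g := by
  obtain ⟨u, hu, hn⟩ := hP.exists_right
  have κ : ψ.B x u ≠ 0 := fun e => hn (C.opp hM hd hP hu e)
  obtain ⟨β, μ, e⟩ := C.dec hF (v := g ⊳ u - u) (by rw [map_sub, B_fix C h1, sub_self])
  obtain ⟨e₁, m₁, r₁⟩ := C.root hF (β / ψ.B x u)
  obtain ⟨e₂, m₂, r₂⟩ := C.root hF (-(β / ψ.B x u))
  have inv : e₁ * e₂ = 1 := by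
    obtain ⟨e₀, -, r₀⟩ := C.root hF (β / ψ.B x u + -(β / ψ.B x u))
    rw [← hF.mul r₁ r₂ r₀]
    exact Fr.zero (ψ := ψ) (x := x) (b := b) (by simpa using r₀)
  suffices h : e₂ * g = 1 from ⟨_, by
    rwa [eq_inv_of_mul_eq_one_right h, ← eq_inv_of_mul_eq_one_left inv]⟩
  have k1 : ∀ v ∈ lpt F L x, (e₂ * g : f.Isom) ⊳ v = v := fun v hv => by
    rw [isom_mul_apply, h1 v hv, hF.fix' r₂ v hv]
  have k2 : ∀ v, ψ.B x v = 0 → (e₂ * g : f.Isom) ⊳ v - v ∈ lpt F L x := fun v hv => by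
    rw [isom_mul_apply, Fr.perp r₂ (by rw [B_fix C h1, hv]), sub_right_comm]
    exact Submodule.sub_mem _ (h2 v hv) (smul_mem_lpt _ x)
  obtain ⟨ν, k3⟩ : ∃ ν : L, (e₂ * g : f.Isom) ⊳ u = u + ν • x := ⟨μ - (-(β / ψ.B x u) * ψ.B b (g ⊳ u) +
      (-(β / ψ.B x u)) ^ 2 * ψ.Q b * ψ.B x u), by
    rw [isom_mul_apply, r₂, B_fix C h1, neg_mul, div_mul_cancel₀ _ κ]
    linear_combination (norm := module) e⟩
  have mg := X.mul_mem m₂ hg
  generalize e₂ * g = g' at k1 k2 k3 mg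
  have k4 : ∀ a : L, g' ⊳ (a • b) = a • b := fun a => by
    obtain ⟨e, m, r⟩ := C.root hF (a / ψ.B x u)
    have hc : (e * g')⁻¹ * (g' * e) = 1 := zz C hM hd hP
      (X.mul_mem (X.inv_mem (X.mul_mem m mg)) (X.mul_mem mg m)) fun v hv => by
        have : (g' * e : f.Isom) ⊳ v = (e * g' : f.Isom) ⊳ v := by
          have n := hF.fix' r _ (k2 v hv)
          rw [map_sub, Fr.perp r hv] at n
          rw [isom_mul_apply, isom_mul_apply, Fr.perp r hv, map_sub, k1 _ (smul_mem_lpt _ x)]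
          linear_combination (norm := module) -n
        rw [isom_mul_apply, this, isom_inv_apply_apply]
    have := congrArg (fun g : f.Isom => g ⊳ u) (inv_mul_eq_one.1 hc)
    simp only [isom_mul_apply] at this
    rw [k3, map_add, hF.fix r, r u, map_sub, map_add, k3, k1 _ (smul_mem_lpt _ x),
      div_mul_cancel₀ _ κ] at this
    linear_combination (norm := module) -this
  exact zz C hM hd hP mg fun v hv => by
    obtain ⟨s, t, rfl⟩ := C.dec hF hv
    rw [map_add, k4, k1 _ (smul_mem_lpt _ x)]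

theorem two {h : f.Isom} (hh : h ∈ X) (h1 : ∀ v ∈ lpt F L x, h ⊳ v = v) (h2 : ∀ v ∈ U, h ⊳ v = v) :
    h = 1 := by
  obtain ⟨u, hu, hn⟩ := hP.exists_right
  have κ : ψ.B x u ≠ 0 := fun e => hn (C.opp hM hd hP hu e)
  obtain ⟨b, hF, hb⟩ := C.frame hP.x0 hP.Qx κ
  have h1' : ∀ v ∈ lpt F L x, (h⁻¹ : f.Isom) ⊳ v = v := (f.fix _).inv_mem h1
  have t2 := C.two
  have key : ∀ a : L, ∃ β, β * ψ.B b (h ⊳ b) = a * (2 * ψ.Q b) ∧ h ⊳ ((a * ψ.B x u) • b) =
      (β * ψ.B x u) • b + ((a ^ 2 - β ^ 2) * ψ.Q b * ψ.B x u) • x := fun a => by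
    obtain ⟨e, m, r⟩ := C.root hF a
    obtain ⟨β, hβ⟩ := ce C hM hd hP hF (X.mul_mem (X.mul_mem hh m) (X.inv_mem hh)) (fun v hv => by
      rw [isom_mul_apply, isom_mul_apply, h1' v hv, hF.fix' r v hv, h1 v hv]) fun v hv => by
      rw [isom_mul_apply, isom_mul_apply, Fr.perp r (by rw [B_fix C h1', hv]), map_sub,
        isom_apply_inv_apply, h1 _ (smul_mem_lpt _ x), sub_sub_cancel_left, ← neg_smul]
      exact smul_mem_lpt _ x
    have e1 := Fr.perp hβ (v := h ⊳ b) (by rw [B_fix C h1, hF.Bxb])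
    have e2 := hβ (h ⊳ u)
    rw [isom_mul_apply, isom_mul_apply, isom_inv_apply_apply] at e1 e2
    rw [Fr.perp r hF.Bxb, map_sub, h1 _ (smul_mem_lpt _ x), sub_right_inj, ψ.orth_B_self] at e1
    rw [r u, map_sub, map_add, h1 _ (smul_mem_lpt _ x), h2 u hu, hb] at e2
    exact ⟨β, (smul_left_injective L hF.x0 e1).symm, by linear_combination (norm := module) e2⟩
  have γ : 2 * ψ.Q b ≠ 0 := mul_ne_zero t2 hF.Qb
  obtain ⟨η, a1, a2⟩ := key 1
  have ρ : ψ.B b (h ⊳ b) ≠ 0 := fun e => γ (by simpa [e] using a1.symm)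
  have key' : ∀ a : L, h ⊳ ((a * ψ.B x u) • b) =
      (a * η * ψ.B x u) • b + (a ^ 2 * (1 - η ^ 2) * ψ.Q b * ψ.B x u) • x := fun a => by
    obtain ⟨β, b1, b2⟩ := key a
    rw [b2, show β = a * η from mul_right_cancel₀ ρ (by linear_combination b1 - a * a1)]
    module
  have hη : 1 - η ^ 2 = 0 := by
    have e1 := key' 1
    have e2 := key' (-1)
    rw [neg_mul, neg_smul, map_neg, e1] at e2
    have : (2 * ψ.Q b * ψ.B x u * (1 - η ^ 2)) • x = 0 := by
      linear_combination (norm := module) -e2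
    simpa [γ, κ, hF.x0, t2, hF.Qb] using this
  have key2 : ∀ a : L, h ⊳ (a • b) = (a * η) • b := fun a => by
    have := key' (a / ψ.B x u)
    rw [div_mul_cancel₀ _ κ, hη, mul_right_comm, div_mul_cancel₀ _ κ] at this
    simpa using this
  obtain e | e : η = 1 ∨ η = -1 := mul_self_eq_one_iff.1 (by linear_combination -hη)
  · exact zz C hM hd hP hh fun v hv => by
      obtain ⟨s, t, rfl⟩ := C.dec hF hv
      rw [map_add, key2, h1 _ (smul_mem_lpt _ x), e, mul_one]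
  · refine (C.lam hM hd hP hF fun p hp => ψ.eq_zero_symm ((mul_eq_zero.1 (C.ext.eq_zero
      (y := 2 * ψ.B p b) fun a => ?_)).resolve_left t2)).elim
    have := f.B_coe_map h p (a • b)
    rw [h2 p hp, key2, C.ext.B_smul, C.ext.B_smul, e, ← sub_eq_zero, ← map_sub] at this
    rw [← neg_eq_zero, ← map_neg, ← this]
    congr 1
    ring

theorem big (h2 : 2 ≤ d) : False := by
  have := Finite.of_injective _ (algebraMap F L).injective
  let Y := X ⊓ f.fix (lpt F L x ⊓ U)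
  let P := (f.fix (lpt F L x)).subgroupOf Y
  have nz : ∀ {x b} (_ : Fr ψ x b) a, Rt ψ x b a (1 : f.Isom) → a = 0 := fun hF a r => by
    simpa [ψ.orth_B_self, C.two, hF.Qb, hF.x0, eq_sub_iff_add_eq] using Fr.perp r hF.Bxb
  obtain ⟨b, hF⟩ := C.frame' hP.x0 hP.Qx
  choose e m r using C.root hF
  let φ : Multiplicative L →* P := MonoidHom.mk' (fun a => ⟨⟨e a.toAdd, m _, fun v hv =>
    hF.fix' (r _) v hv.1⟩, hF.fix' (r _)⟩) fun a a' => Subtype.ext (Subtype.ext
      (hF.mul (r _) (r _) (r _)))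
  have hφ : Function.Injective φ := (injective_iff_map_eq_one φ).2 fun a ha =>
    nz hF a.toAdd ((show e a.toAdd = 1 from congrArg (fun g : P => g.1.1) ha) ▸ r _)
  have hFr : Cfsg.IsFrobeniusComplement P := CA.Frob.isFrob_iff.2 ⟨fun e0 => ?_, fun e0 => ?_,
    fun g h hh h0 hc => ?_⟩
  · have hc := ((CA.Fc.of_isFrob hFr).of_injective φ hφ).isCyclic_of_comm ⊤ inferInstance
    obtain ⟨k, hk⟩ := (isCyclic_of_surjective _ Subgroup.topEquiv.surjective).exists_generator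
      (α := Multiplicative L)
    have h1 : Submodule.span F {k.toAdd} = ⊤ := top_unique fun v _ => by
      obtain ⟨n, hn⟩ := hk (Multiplicative.ofAdd v)
      rw [show v = n • k.toAdd from (congrArg Multiplicative.toAdd hn).symm]
      exact Submodule.smul_of_tower_mem _ n (Submodule.mem_span_singleton_self _)
    have h3 := (finrank_span_le_card (R := F) ({k.toAdd} : Set L)).trans (by simp : _ ≤ 1)
    rw [h1, finrank_top] at h3
    have := C.five
    omega
  · exact one_ne_zero (α := L) (hφ (a₁ := Multiplicative.ofAdd 1) (a₂ := 1) (Subtype.ext (by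
      rw [φ.map_one]; exact Subgroup.mem_bot.1 (e0.le (φ _).2))))
  · obtain ⟨g, hg, z, z0, hz, e1⟩ := hP.orb
    obtain ⟨c, hF'⟩ := C.frame' z0 hz
    obtain ⟨k, k1, k2⟩ := C.root hF' 1
    have k3 : ∀ v ∈ U, (g * k * g⁻¹ : f.Isom) ⊳ v = v := fun v hv => by
      rw [isom_mul_apply, isom_mul_apply, hF'.fix' k2 _ (f.mem_act.1 (e1 ▸ hv)), isom_apply_inv_apply]
    have k4 := X.mul_mem (X.mul_mem hg k1) (X.inv_mem hg)
    have := two C hM hd hP k4 (e0.ge (Subgroup.mem_top (⟨_, k4, fun v hv => k3 v hv.2⟩ : Y))) k3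
    rw [conj_eq_one_iff] at this
    exact one_ne_zero (nz hF' 1 (this ▸ k2))
  · by_contra hn
    have gi : ∀ v ∈ lpt F L x ⊓ U, (g.1⁻¹ : f.Isom) ⊳ v = v := (f.fix _).inv_mem g.2.2
    have o := orb_lpt (f := f) (X := X) hP.x0 hP.Qx
    have o' := o.act (X.inv_mem g.2.1)
    have ne : lpt F L x ≠ f.act g.1⁻¹ (lpt F L x) := fun e => hn
      ((f.fix (lpt F L x)).inv_mem_iff.1 (C.scal1 o (X.inv_mem g.2.1) e.symm inf_le_left
        (hP.dim ▸ h2) gi))
    refine h0 (Subtype.ext (two C hM hd ⟨hP.x0, hP.Qx, o', ne, le_antisymm (not_lt.1 fun l =>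
      ne (hM _ _ o o' l)) (hP.dim ▸ Submodule.finrank_mono fun w hw =>
        ⟨hw.1, gi w hw ▸ f.apply_mem_act.2 hw.1⟩)⟩ h.2.1 hh fun v hv => ?_))
    have := hc _ (by simpa using f.mem_act.1 hv : g.1 ⊳ v ∈ lpt F L x)
    change (g.1 * h.1 * g.1⁻¹ : f.Isom) ⊳ _ = _ at this
    rw [isom_mul_apply, isom_mul_apply, isom_inv_apply_apply] at this
    exact g.1.1.injective this

omit C hM hd hP in
theorem orth_max3 (h : f.Ext ψ θ) (hb : f.EBase ψ X) (h2 : (2 : L) ≠ 0) (hr : (finrank F L).Prime)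
    (h5 : 5 ≤ finrank F L) (h3 : finrank L V = 3) : (∀ g ∈ X, f.Semi L g) ∨ f.Eich ≤ X := by
  refine or_iff_not_imp_right.2 fun nd g hg => ?_
  have C : Ctx f ψ θ X := ⟨h, hb, h2, hr, h5, h3, nd⟩
  rcases exists_maxI (ψ := ψ) X with hM | ⟨d, x, U, hd, hM, hP⟩
  · exact semi3 C (presP3 C hM hg)
  by_cases e : d = 1
  · subst e
    exact (one C hM hP).elim
  · exact (big C hM hd hP (by omega)).elim

omit C hM hd hP in
theorem orth_ext3 (hf : f.Nondeg) (hsa : ∀ (a : L) u v, f.B (a • u) v = f.B u (a • v))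
    (h2 : (2 : F) ≠ 0) (hr : (finrank F L).Prime) (h5 : 5 ≤ finrank F L)
    (hn : 3 * finrank F L = finrank F V) (hX : f.LBase L X) :
    (∀ g ∈ X, f.Semi L g) ∨ f.Eich ≤ X := by
  have := Finite.of_injective _ (algebraMap F L).injective
  have h2' : (2 : L) ≠ 0 := by rwa [← map_ofNat (algebraMap F L), map_ne_zero]
  obtain ⟨ψ, h1, h3⟩ := AschO2.exists_kform f hsa
  have hB : ∀ u v, f.B u v = Algebra.trace F L (ψ.B u v) := fun u v => by
    simpa using (h1 1 u v).symm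
  have hQ : ∀ u v, ψ.Q u = ψ.Q v → f.Q u = f.Q v := fun u v e => by
    simpa [e, (by simpa using h3 1 v : Algebra.trace F L (ψ.Q v) = _)] using (h3 1 u).symm
  have H := hf.ext (Algebra.trace_ne_zero F L) hB hQ
  refine orth_max3 H (fun e he => hX.lift hB hQ (hf.comm_le (by omega))
    (.inl (H.nondeg.Eich_le_commutator (ψ.good_of_two_ne_zero h2') he))) h2' hr h5 ?_
  rw [← Module.finrank_mul_finrank F L V, mul_comm] at hn
  exact (mul_left_cancel₀ hr.ne_zero hn).symm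

end CA.H15Oc
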