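import Cfsg.Agent.Lib.Lin.H15Fu3
import Cfsg.Agent.Lib.Lin.H15Ut4
import Cfsg.Agent.Lib.Lin.MaxGL4

/-!
Maximal subgroups of geometric type of `SU_n(q)`, `n ≥ 10`, in the form of the statements.
-/

set_option autoImplicit false
open Cfsg

namespace CA.H15Su

open CA.CForm CA.CForm.Form CA.MaxGL CA.AschFG CA.AschFG7 CA.AschTForm CA.AschO1 CA.AschProp Module

theorem ts {F : Type*} [Field F] [Fintype F] (n q : ℕ) (hF : Fintype.card F = q ^ 2) (hn : 10 ≤ n) (W : Submodule F (Fin n → F)) (hW0 : W ≠ ⊥) (hW : Cfsg.Geo.IsTotallySingularFor (Cfsg.hermForm n F q) W) : Cfsg.Geo.IsMaximalIn (Cfsg.GU n F q ⊓ Cfsg.Geo.specialLinear (Fin n) F) (Cfsg.Geo.subspaceStabilizer W ⊓ (Cfsg.GU n F q ⊓ Cfsg.Geo.specialLinear (Fin n) F)) := by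
  rw [CA.AschU.SU_eq hF (by omega)]
  rw [← CA.AschU.fn_std hF] at hW
  exact max_ts (hermStd_nondeg hF n) (iso_herm (conj_ne_id hF) _) (by simp; omega) (by simp; omega)
    hW0 (herm_ts_iff.2 fun u hu w hw => hW w hw u hu) fun _ _ _ _ => .inr (exists_π_herm hF)

theorem nondeg {F : Type*} [Field F] [Fintype F] (n q : ℕ) (hF : Fintype.card F = q ^ 2) (hn : 10 ≤ n) (W : Submodule F (Fin n → F)) (hW0 : W ≠ ⊥) (hW : Cfsg.Geo.IsNondegenerateOn (Cfsg.hermForm n F q) W) (hdim : 2 * Module.finrank F W < n) : Cfsg.Geo.IsMaximalIn (Cfsg.GU n F q ⊓ Cfsg.Geo.specialLinear (Fin n) F) (Cfsg.Geo.subspaceStabilizer W ⊓ (Cfsg.GU n F q ⊓ Cfsg.Geo.specialLinear (Fin n) F)) := by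
  rw [CA.AschU.SU_eq hF (by omega)]
  rw [← CA.AschU.fn_std hF] at hW
  have hφ := hermStd_nondeg hF n
  have hW' := nondegOn_iff.1 hW
  refine max_nondeg hφ (iso_herm (conj_ne_id hF) _) two_pos (by simp; omega) hW0 (fun e => ?_) hW'
    (((Form.nondeg_restrict_iff _ _).2 hW').herm_irrI (conj_ne_id hF))
    ((nondeg_perp hφ hW').herm_irrI (conj_ne_id hF)) (not_equiv_of_ne hφ (by simp; omega))
  rw [e] at hdim
  simp at hdim
  omega

theorem decomp {F : Type*} [Field F] [Fintype F] (n q : ℕ) (hF : Fintype.card F = q ^ 2) (hn : 10 ≤ n) {t : ℕ} (k : ℕ) (D : Fin t → Submodule F (Fin n → F)) (hD : Cfsg.Geo.IsNondegenerateMDecomposition (Cfsg.hermForm n F q) k D) (hex : ¬ (k = 2 ∧ q = 2)) : Cfsg.Geo.IsMaximalIn (Cfsg.GU n F q ⊓ Cfsg.Geo.specialLinear (Fin n) F) (Cfsg.Geo.decompositionStabilizer D ⊓ (Cfsg.GU n F q ⊓ Cfsg.Geo.specialLinear (Fin n) F)) := by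
  have hG := CA.AschU.qs_SU hF (n := n) (by omega) (by omega)
  rw [CA.AschU.SU_eq hF (by omega)] at hG ⊢
  rw [← CA.AschU.fn_std hF] at hD
  exact herm_max_decomp10 hF (hermStd_nondeg hF n) hG (by simpa using hn) hD hex

theorem pair {F : Type*} [Field F] [Fintype F] (n q : ℕ) (hF : Fintype.card F = q ^ 2) (hn : 10 ≤ n) (k : ℕ) (hk : 2 * k = n) (D : Fin 2 → Submodule F (Fin n → F)) (hD : Cfsg.Geo.IsMDecomposition k D) (hts : ∀ i, Cfsg.Geo.IsTotallySingularFor (Cfsg.hermForm n F q) (D i)) : Cfsg.Geo.IsMaximalIn (Cfsg.GU n F q ⊓ Cfsg.Geo.specialLinear (Fin n) F) (Cfsg.Geo.decompositionStabilizer D ⊓ (Cfsg.GU n F q ⊓ Cfsg.Geo.specialLinear (Fin n) F)) := by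
  have hG := CA.AschU.qs_SU hF (n := n) (by omega) (by omega)
  rw [CA.AschU.SU_eq hF (by omega)] at hG ⊢
  rw [← CA.AschU.fn_std hF] at hts
  have h : (hermStd hF n).TSPair (D 0) (D 1) := ⟨hermStd_nondeg hF n,
    herm_ts_iff.2 fun u hu w hw => hts 0 w hw u hu, herm_ts_iff.2 fun u hu w hw => hts 1 w hw u hu,
    isCompl_of_pair hD⟩
  obtain ⟨x, hx0, hx⟩ := herm_exists_singular' hF (f := hermStd hF n) (by simp; omega)
  exact max_pair' hD h (not_le_of_tv h.nondeg hG hx hx0 (exists_π_herm hF) hD) (by omega)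
    (herm_hπ (conj_ne_id hF)) (h.exists_swap_of_π (decomp_ne_bot hD 0) (exists_π_herm hF))

theorem sub {F : Type*} [Field F] [Fintype F] (n q : ℕ) (hF : Fintype.card F = q ^ 2) (hn : 10 ≤ n) (F₀ : Subfield F) (r : ℕ) (hr : r.Prime) (hro : Odd r) (hcard : Fintype.card F = Nat.card F₀ ^ r) (P : Matrix.GeneralLinearGroup (Fin n) F) (hP : Cfsg.Geo.IsFormRationalStructure (Cfsg.hermForm n F q) F₀ 1 P) : Cfsg.Geo.IsMaximalIn (Cfsg.GU n F q ⊓ Cfsg.Geo.specialLinear (Fin n) F) (Cfsg.Geo.subfieldSubgroup F₀ P ⊓ (Cfsg.GU n F q ⊓ Cfsg.Geo.specialLinear (Fin n) F)) := by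
  rw [CA.AschU.SU_eq hF (by omega)]
  rw [← CA.AschU.fn_std hF] at hP
  exact herm_max_sub (hermStd_nondeg hF n) (by simp; omega) hr hro hcard hP

theorem sub_orth {F : Type*} [Field F] [Fintype F] (n q : ℕ) (hF : Fintype.card F = q ^ 2) (hn : 10 ≤ n) (hodd : Odd q) (F₀ : Subfield F) (hcard : Fintype.card F = Nat.card F₀ ^ 2) (P : Matrix.GeneralLinearGroup (Fin n) F) (hP : Cfsg.Geo.IsFormRationalStructure (Cfsg.hermForm n F q) F₀ 1 P) : Cfsg.Geo.IsMaximalIn (Cfsg.GU n F q ⊓ Cfsg.Geo.specialLinear (Fin n) F) (Cfsg.Geo.subfieldSubgroup F₀ P ⊓ (Cfsg.GU n F q ⊓ Cfsg.Geo.specialLinear (Fin n) F)) := by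
  rw [CA.AschU.SU_eq hF (by omega)]
  rw [← CA.AschU.fn_std hF] at hP
  exact herm_max_sub_orth (hermStd_nondeg hF n) (by simp; omega)
    (two_ne_zero_iff_odd.2 (hF ▸ hodd.pow)) hcard hP

theorem sub_symp {F : Type*} [Field F] [Fintype F] (n q : ℕ) (hF : Fintype.card F = q ^ 2) (hn : 10 ≤ n) (heven : Even n) (F₀ : Subfield F) (hcard : Fintype.card F = Nat.card F₀ ^ 2) (ζ : F) (hζ0 : ζ ≠ 0) (hζ : ζ + ζ ^ q = 0) (P : Matrix.GeneralLinearGroup (Fin n) F) (hP : Cfsg.Geo.IsFormRationalStructure (Cfsg.hermForm n F q) F₀ ζ P) (halt : ∀ u : Fin n → F, (∀ i, u i ∈ F₀) → Cfsg.hermForm n F q (Matrix.mulVec (P : Matrix (Fin n) (Fin n) F) u) (Matrix.mulVec (P : Matrix (Fin n) (Fin n) F) u) = 0) : Cfsg.Geo.IsMaximalIn (Cfsg.GU n F q ⊓ Cfsg.Geo.specialLinear (Fin n) F) (Cfsg.Geo.subfieldSubgroup F₀ P ⊓ (Cfsg.GU n F q ⊓ Cfsg.Geo.specialLinear (Fin n) F)) := by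
  rw [CA.AschU.SU_eq hF (by omega)]
  rw [← CA.AschU.fn_std hF] at hP halt
  exact herm_max_sub_symp (hermStd_nondeg hF n) (by simp; omega) hcard hζ0 hζ hP halt

end CA.H15Su
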