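import Cfsg.Agent.Lib.Lin.H12Uu6

/-!
Overgroups of the tensor product of two unitary groups, with a weaker dimension bound
(copy of the earlier argument), part one.
-/

set_option autoImplicit false
set_option linter.unusedSectionVars false

namespace CA.H12Uu

open CA.CForm CA.CForm.Form Module
open CA.H12Ru (Tr lev_two lev_mul mem_congr tr_zero Tgrp_le_iff)

local notation:75 g:76 " ⊳ " v:75 => (Subtype.val g) v

variable {F : Type*} [Field F] [Finite F] {U W V : Type*} [AddCommGroup U] [Module F U]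
  [AddCommGroup W] [Module F W] [AddCommGroup V] [Module F V] [FiniteDimensional F U]
  [FiniteDimensional F W] [FiniteDimensional F V] {σ : F →+* F} {hσ : ∀ a, σ (σ a) = a}
  {f₁ : Form (Kind.herm σ hσ) U} {f₂ : Form (Kind.herm σ hσ) W} {f : Form (Kind.herm σ hσ) V}

/-- `X` is a proper overgroup of the special isometry groups of the two factors. -/
structure Ow (T : Uu f₁ f₂ f) (X : Subgroup f.Isom) : Prop where
  hne : σ ≠ RingHom.id F
  kL : ∀ g ∈ f₁.Eich, T.kL g ∈ X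
  kR : ∀ h ∈ f₂.Eich, T.kR h ∈ X
  ne : ¬f.Eich ≤ X
  b2 : 2 ≤ finrank F W
  ab : finrank F W < finrank F U
  big : finrank F W + 4 < 2 * finrank F U
  b3 : finrank F W ≤ 3
  hq : 3 ≤ finrank F W ∨ ∃ c : F, σ c = c ∧ c ≠ 0 ∧ c ≠ 1

variable {T : Uu f₁ f₂ f} {X : Subgroup f.Isom}

namespace Ow
variable (O : Ow T X)
include O

theorem a4 : 4 ≤ finrank F U := by have := O.b2; have := O.big; omega

theorem ntU : Nontrivial U := finrank_pos_iff.1 (by have := O.a4; omega : 0 < finrank F U)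

theorem ntW : Nontrivial W := finrank_pos_iff.1 (by have := O.b2; omega : 0 < finrank F W)

theorem kLe {u v : U} {c : F} (h : f₁.EichlerCond u v c) : T.kL (f₁.eichler u v c h) ∈ X :=
  O.kL _ (f₁.eichler_mem_Eich _ _ _ h)

theorem kRe {u v : W} {c : F} (h : f₂.EichlerCond u v c) : T.kR (f₂.eichler u v c h) ∈ X :=
  O.kR _ (f₂.eichler_mem_Eich _ _ _ h)

theorem move {u u' : U} (hu : f₁.Q u = 0) (u0 : u ≠ 0) (hu' : f₁.Q u' = 0) (u0' : u' ≠ 0) :
    ∃ g ∈ f₁.Eich, g ⊳ u = u' :=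
  T.n₁.exists_Eich_eq (iso_herm O.hne f₁) O.a4 u0 hu u0' hu'

theorem singU : ∃ u, u ≠ 0 ∧ f₁.Q u = 0 :=
  let ⟨u, _, h⟩ := iso_herm O.hne f₁ ⊤ (by have := O.a4; rw [finrank_top]; omega); ⟨u, h⟩

theorem singW : ∃ u, u ≠ 0 ∧ f₂.Q u = 0 :=
  let ⟨u, _, h⟩ := iso_herm O.hne f₂ ⊤ (by have := O.b2; rw [finrank_top]; omega); ⟨u, h⟩

theorem allT {u : U} {z : W} {c : F} (hu : f₁.Q u = 0) (u0 : u ≠ 0) (hz : f₂.Q z = 0) (z0 : z ≠ 0)
    (c0 : c ≠ 0) (h : Tr X c (T.t u z)) (u' : U) (z' : W) (c' : F) (hu' : f₁.Q u' = 0)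
    (hz' : f₂.Q z' = 0) (hc : σ c' = -c') : Tr X c' (T.t u' z') := by
  by_cases e : T.t u' z' = 0
  · rw [e]; exact ⟨tvc f.Q_zero hc, by rw [eichler_zero_left]; exact X.one_mem⟩
  by_cases e' : c' = 0
  · rw [e']; exact tr_zero (T.Q_t₀ hu' _)
  obtain ⟨a, ha⟩ := exists_norm_eq σ hσ O.hne (c' / c) (by
    rw [map_div₀, hc, skew_of h.π, neg_div_neg_eq])
  have a0 : a ≠ 0 := by rintro rfl; simp [c0, e', eq_comm] at ha
  obtain ⟨k, hk, μ, μ0, e2⟩ := T.n₂.exists_Eich_smul (.inr (herm_exists_π_eq_zero hσ O.hne)) hz z0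
    hz' (by rintro rfl; simp at e)
  obtain ⟨g, hg, e1⟩ := O.move hu u0 (f₁.Q_smul_of_Q hu' (a / μ))
    (smul_ne_zero (div_ne_zero a0 μ0) (by rintro rfl; simp at e))
  have := h.map (X.mul_mem (O.kL g hg) (O.kR k hk))
  rw [isom_mul_apply, T.kR_t, T.kL_t, e1, e2, map_smul, map_smul, LinearMap.smul_apply, smul_smul,
    mul_div_cancel₀ _ μ0] at this
  have := this.of_smul (T.Q_t₀ hu' _)
  rwa [Kind.herm_σ, ha, div_mul_cancel₀ _ c0] at this

theorem perp_lev (A : ∀ u z c, f₁.Q u = 0 → f₂.Q z = 0 → σ c = -c → Tr X c (T.t u z)) {u : U}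
    {z : W} (hu : f₁.Q u = 0) (u0 : u ≠ 0) (hz : f₂.Q z = 0) (z0 : z ≠ 0) {x : V}
    (hx : T.cu u x = 0) : x ∈ levS X (T.Q_t₀ hu z) := by
  set Y := levS X (T.Q_t₀ hu z) with hY
  obtain ⟨c, c0, hc⟩ := exists_skew hσ O.hne
  obtain ⟨v, hv⟩ := T.n₁.exists_isHyp hu u0
  obtain ⟨p, p', hp, h1, -, h3, -⟩ := frame O.hne T.n₁ O.a4 hv
  have ind : ∀ w, (∀ v, f₁.B u v = 0 → f₁.Q v = 0 → T.t v w ∈ Y) →
      ∀ v, f₁.B u v = 0 → T.t v w ∈ Y := fun w H v hv =>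
    hp.induction_singular (U := f₁.perp (F ∙ u)) (f₁.mem_perp_span_singleton.2 h1)
      (f₁.mem_perp_span_singleton.2 h3) (P := fun v => T.t v w ∈ Y)
      (fun a b ha hb => by simpa using Y.add_mem ha hb)
      (fun v hv q => H v (f₁.mem_perp_span_singleton.1 hv) q) (f₁.mem_perp_span_singleton.2 hv)
  have s1 := ind z fun v hv q => mem_levS.2 fun a => by
    have k : ∀ l : F, Tr X c (T.t v z + l • T.t u z) := fun l => by
      have := A (v + l • u) z c (by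
        rw [f₁.Q_add_smul_of_Q hu, q, f₁.eq_zero_symm hv]; simp) hz hc
      simpa using this
    obtain ⟨hh, h⟩ := lev_two (T.Q_t₀ hu z) (T.Q_t₀ q z) (by simp [T.B_t, hv]) (k (σ (-a / c))) (k 0)
    exact ⟨_, mem_congr h (by simp [hσ, mul_div_cancel₀ _ c0]) rfl⟩
  have mul : ∀ v w y, f₁.Q v = 0 → f₂.Q w = 0 → f₁.B u v = 0 → y ∈ Y → f.B (T.t v w) y ≠ 0 →
      T.t v w ∈ Y := fun v w y q q' hv hy hB => mem_levS.2 fun a => by
    have := lev_mul (lev_of_mem_levS (Y.smul_mem (a / (c * f.B (T.t v w) y)) hy)) (A v w c q q' hc)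
      (by simp [T.B_t, f₁.eq_zero_symm hv])
    convert this using 2
    simp only [map_smul, Kind.herm_ε, smul_eq_mul]
    field_simp
  refine T.ker_ind u0 (fun v w hv => ?_) hx
  refine span_sing T.n₂ hz z0 (Y := Y.comap (T.t v)) (s1 v hv) (fun w q hw => ?_) w
  refine ind w (fun v hv q' => ?_) v hv
  have k : ∀ v, f₁.B u v = 0 → f₁.Q v = 0 → v ∉ F ∙ u → T.t v w ∈ Y := fun v hv q' hn => by
    obtain ⟨y, y1, y2⟩ := T.n₁.exists_perp_B_eq' hn 1
    exact mul v w (T.t y z) q' q hv (s1 y (f₁.mem_perp_span_singleton.1 y1))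
      (by rw [T.B_t, y2, one_mul]; exact fun e => hw (f₂.eq_zero_symm e))
  by_cases hn : v ∈ F ∙ u
  · have n : ∀ p, f₁.B p p' = 1 → p ∉ F ∙ u := fun p e h => by
      obtain ⟨a, rfl⟩ := Submodule.mem_span_singleton.1 h
      simp [h3] at e
    obtain ⟨a, rfl⟩ := Submodule.mem_span_singleton.1 hn
    simpa using Y.sub_mem (k (p + a • u) (by simp [h1, f₁.B_self_of_Q hu]) (by
      rw [f₁.Q_add_smul_of_Q hu, hp.Q_x, f₁.eq_zero_symm h1]; simp) (n _ (by simp [h3, hp.B_xy])))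
      (k p h1 hp.Q_x (n _ hp.B_xy))
  · exact k v hv q' hn

/-- No transvection with a pure centre lies in `X`. -/
theorem not_T {u : U} {z : W} {c : F} (hu : f₁.Q u = 0) (u0 : u ≠ 0) (hz : f₂.Q z = 0) (z0 : z ≠ 0)
    (c0 : c ≠ 0) : ¬Tr X c (T.t u z) := fun h => by
  have A := O.allT hu u0 hz z0 c0 h
  set Y := levS X (T.Q_t₀ hu z) with hY
  obtain ⟨v, hv⟩ := T.n₁.exists_isHyp hu u0
  obtain ⟨z', q', hz'⟩ := T.n₂.exists_partner hz z0
  obtain ⟨p, p', hp, h1, h2, h3, -⟩ := frame O.hne T.n₁ O.a4 hv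
  have s3 : ∀ w, f₂.B z w = 0 → T.t v w ∈ Y := fun w hw => by
    obtain ⟨d, hd, e⟩ := lev_of_mem_levS (O.perp_lev A hp.Q_x (by rintro rfl; simpa using hp.B_xy) hz z0 (x := T.t v w)
      (by simp [f₁.eq_zero_symm h2]))
    have m1 : T.t p' z' ∈ Y := O.perp_lev A hu u0 hz z0 (by simp [h3])
    have m2 : T.t p z ∈ Y := O.perp_lev A hu u0 hz z0 (by simp [h1])
    have := map_mem_levS m1 e (by
      simp [eich_apply, T.B_t, f₂.B_self_of_Q hz, f₂.eq_zero_symm hw])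
    rw [eich_apply, T.B_t, hp.B_xy, hz', one_mul, one_smul] at this
    simpa using Y.sub_mem ((Y.sub_mem_iff_left (Y.smul_mem _ m2)).1 this) m1
  obtain ⟨g, hg, e⟩ := (A v z' c hv.Q_y q' (skew_of h.π)).act
  refine O.ne (T.n.Eich_le_of_Qgrp' (.inr (herm_exists_π_eq_zero hσ O.hne)) (T.Q_t₀ hu z)
    (Qgrp_le_of_lev ((Tgrp_le_iff (T.Q_t₀ hu z)).2 fun c hc => A u z c hu hz (skew_of hc))
    fun y hy => lev_of_mem_levS (hx := T.Q_t₀ hu z) ?_) hg ?_)
  · rw [T.B_cu] at hy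
    simpa using Y.add_mem (O.perp_lev A hu u0 hz z0 (x := y - T.t v (T.cu u y))
      (by simp [hv.B_xy])) (s3 _ hy)
  · simp [e, T.B_t, hv.B_xy, hz', B_one_symm hv.B_xy, B_one_symm hz', f₁.B_self_of_Q hu, c0]

section Z
variable {u : U} (hu : f₁.Q u = 0) (u0 : u ≠ 0)

theorem zl_conj {ρ ρ' : W →ₗ[F] W} (h : Zl T X u ρ) {k : f₂.Isom} (hk : k ∈ f₂.Eich)
    (e : ∀ w, ρ' (k ⊳ w) = k ⊳ ρ w) : Zl T X u ρ' := by
  obtain ⟨g, hg, e1⟩ := h
  refine ⟨T.kR k * g * (T.kR k)⁻¹, X.mul_mem (X.mul_mem (O.kR k hk) hg) (X.inv_mem (O.kR k hk)),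
    fun x => ?_⟩
  obtain ⟨y, rfl⟩ := (T.kR k).1.surjective x
  rw [isom_mul_apply, isom_inv_apply_apply, isom_mul_apply, e1, map_add, T.kR_t, T.cu_kR, e]

include hu u0

theorem zl_smul {ρ : W →ₗ[F] W} (h : Zl T X u ρ) {l : F} (hl : σ l = l) (l0 : l ≠ 0) :
    Zl T X u (l • ρ) := by
  obtain ⟨g, hg, e1⟩ := h
  obtain ⟨a, ha⟩ := exists_norm_eq σ hσ O.hne l hl
  obtain ⟨k, hk, e⟩ := O.move hu u0 (f₁.Q_smul_of_Q hu a)
    (smul_ne_zero (by rintro rfl; simp [eq_comm, l0] at ha) u0)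
  refine ⟨T.kL k * g * (T.kL k)⁻¹, X.mul_mem (X.mul_mem (O.kL k hk) hg) (X.inv_mem (O.kL k hk)),
    fun x => ?_⟩
  obtain ⟨y, rfl⟩ := (T.kL k).1.surjective x
  rw [isom_mul_apply, isom_inv_apply_apply, isom_mul_apply, e1, map_add, T.kL_t, ← T.cu_kL k u y,
    e, T.cu_smul]
  simp [smul_smul, ← ha, mul_comm]

variable {z : W} (hz : f₂.Q z = 0) (z0 : z ≠ 0)
include hz

theorem zl_step {c κ : F} {y : W} (h : Zl T X u (c • (ro f₂ z y + ro f₂ y z) + κ • ro f₂ z z))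
    {w : W} {d : F} (hd : f₂.EichlerCond z w d) :
    Zl T X u (c • (ro f₂ z (f₂.eichler z w d hd ⊳ y - y) +
      ro f₂ (f₂.eichler z w d hd ⊳ y - y) z) + (0 : F) • ro f₂ z z) := by
  set k := f₂.eichler z w d hd with hk
  have e : k ⊳ z = z := f₂.eichler_apply_self ..
  have e' : ∀ x, f₂.B z (k ⊳ x) = f₂.B z x := fun x => by
    conv_lhs => rw [← e, B_coe_map]
  refine ((O.zl_conj h (f₂.eichler_mem_Eich _ _ _ hd)
    (ρ' := c • (ro f₂ z (k ⊳ y) + ro f₂ (k ⊳ y) z) + κ • ro f₂ z z) fun x => ?_).sub hu h).congr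
    fun x => ?_
  · simp [← hk, e, e']
  · simp only [LinearMap.sub_apply, LinearMap.smul_apply, LinearMap.add_apply, ro_apply, B_sub_left]
    module

theorem zl_D {ρ : W →ₗ[F] W} (h : Zl T X u ρ) {c : F} (hc : σ c = -c) :
    Zl T X u (c • (ro f₂ z (ρ z) + ro f₂ (ρ z) z) + (-(c * c * f₂.B z (ρ z))) • ro f₂ z z) := by
  refine ((O.zl_conj h (f₂.eichler_mem_Eich _ _ _ (tvc hz hc)) (ρ' := ρ + (c • (ro f₂ z (ρ z) +
    ro f₂ (ρ z) z) + (-(c * c * f₂.B z (ρ z))) • ro f₂ z z)) fun x => ?_).sub hu h).congr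
    fun x => by simp
  simp only [tv_apply, LinearMap.smul_apply, LinearMap.add_apply, ro_apply, map_sub, map_smul,
    f₂.B_self_of_Q hz, eq_neg_of_add_eq_zero_right (h.skew hu u0 z _)]
  module

include z0

theorem not_ro {c : F} (c0 : c ≠ 0) : ¬Zl T X u (c • ro f₂ z z) := fun h => by
  obtain ⟨y, -, hy⟩ := T.n₂.exists_partner hz z0
  have hc := h.skew hu u0 y y
  simp only [LinearMap.smul_apply, ro_apply, hy, one_smul, map_smul, B_smul_left, B_one_symm hy,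
    smul_eq_mul, mul_one, Kind.herm_σ] at hc
  obtain ⟨g, hg, e⟩ := h
  refine O.not_T hu u0 hz z0 (neg_ne_zero.2 c0) ⟨tvc (T.Q_t₀ hu z) (by
    rw [map_neg]; linear_combination -hc), ?_⟩
  convert hg
  refine f.isom_ext fun x => ?_
  simp [e, tv_apply, T.B_cu, smul_smul]

theorem zl_mem {c κ : F} (c0 : c ≠ 0) {y : W} (hy : f₂.B z y = 0)
    (h : Zl T X u (c • (ro f₂ z y + ro f₂ y z) + κ • ro f₂ z z)) : y ∈ F ∙ z := by
  by_contra hn
  obtain ⟨β, hβ⟩ := Kind.exists_trace_eq σ hσ O.hne 1 (map_one σ)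
  obtain ⟨w, h1, h2⟩ := T.n₂.exists_perp_B_eq hn β
  obtain ⟨d, hd⟩ := f₂.exists_eichlerCond hz (f₂.mem_perp_span_singleton.1 h1)
  refine O.not_ro hu u0 hz z0 (neg_ne_zero.2 c0) ((O.zl_step hu u0 hz h hd).congr fun x => ?_)
  simp only [eich_apply, hy, h2, LinearMap.smul_apply, LinearMap.add_apply, ro_apply, B_sub_left,
    B_add_left, B_smul_left, Kind.herm_σ, map_zero, mul_zero, add_zero]
  match_scalars
  · ring
  · ring
  · linear_combination (-c * f₂.B z x) * hβ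

theorem zl_eig {ρ : W →ₗ[F] W} (h : Zl T X u ρ) : ρ z ∈ F ∙ z := by
  obtain ⟨c, c0, hc⟩ := exists_skew hσ O.hne
  by_cases hμ : f₂.B z (ρ z) = 0
  · exact O.zl_mem hu u0 hz z0 c0 hμ (O.zl_D hu u0 hz h hc)
  exfalso
  rcases O.hq with h3 | ⟨l, hl, l0, l1⟩
  · obtain ⟨w, h1, h2⟩ := exists_not_mem_of_lt (S := F ∙ z) (T := f₂.perp (F ∙ z)) (by
      have := T.n₂.finrank_perp (F ∙ z)
      rw [finrank_span_singleton z0] at this ⊢
      omega)
    rw [f₂.mem_perp_span_singleton] at h1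
    obtain ⟨d, hd⟩ := f₂.exists_eichlerCond hz h1
    have := O.zl_mem hu u0 hz z0 c0 (by simp [eich_apply, h1, f₂.B_self_of_Q hz])
      (O.zl_step hu u0 hz (O.zl_D hu u0 hz h hc) hd)
    rw [eich_apply, add_sub_assoc, add_sub_cancel_left, Submodule.sub_mem_iff_left _
      (Submodule.smul_mem _ _ (Submodule.mem_span_singleton_self z)), Submodule.smul_mem_iff _ hμ] at this
    exact h2 this
  · refine O.not_ro hu u0 hz z0 (c := (l - l * l) * (c * c * f₂.B z (ρ z))) (mul_ne_zero (by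
      rw [← mul_one_sub]; exact mul_ne_zero l0 (sub_ne_zero.2 l1.symm))
      (mul_ne_zero (mul_ne_zero c0 c0) hμ)) (((O.zl_D hu u0 hz h (c := l * c) (by simp [hl, hc])).sub
        hu (O.zl_smul hu u0 (O.zl_D hu u0 hz h hc) hl l0)).congr fun x => ?_)
    simp only [LinearMap.sub_apply, LinearMap.smul_apply, LinearMap.add_apply, ro_apply]
    module

end Z

/-- The elements of `X` fixing `(u ⊗ W)^⊥` pointwise are the transvections of the first factor. -/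
theorem H1 {u : U} (hu : f₁.Q u = 0) (u0 : u ≠ 0) {g : f.Isom} (hg : g ∈ X)
    (h : ∀ x, T.cu u x = 0 → g ⊳ x = x) :
    ∃ c : F, σ c = -c ∧ ∀ x, g ⊳ x = x + c • T.t u (T.cu u x) := by
  obtain ⟨v, hv⟩ := T.exists_one u0
  let ρ : W →ₗ[F] W := T.cu v ∘ₗ ((g.1 : V →ₗ[F] V) - LinearMap.id) ∘ₗ T.t v
  have e' : ∀ x, g ⊳ x = x + T.t u (ρ (T.cu u x)) := fun x => by
    have e1 := h (x - T.t v (T.cu u x)) (by simp [hv])
    have e2 := sub_mem_perp (M := f.perp (T.M u)) (k := g) (fun m hm => h m (T.mem_perp_M.1 hm))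
      (T.t v (T.cu u x))
    rw [T.n.perp_perp] at e2
    obtain ⟨w, e2⟩ := e2
    have e3 : ρ (T.cu u x) = w := by
      simp only [ρ, LinearMap.comp_apply, LinearMap.sub_apply,
        LinearEquiv.coe_coe, LinearMap.id_apply, ← e2, T.cu_t, B_one_symm hv, one_smul]
    rw [e3, e2, ← sub_eq_zero, ← sub_eq_zero.2 e1, map_sub]; abel
  have e : Zl T X u ρ := ⟨g, hg, e'⟩
  obtain ⟨z, z0, hz⟩ := O.singW
  obtain ⟨c, hc⟩ := scalar_of_sing O.hne T.n₂ hz z0 (r := ρ) fun w q => by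
    by_cases w0 : w = 0
    · simp [w0]
    · exact O.zl_eig hu u0 q w0 e
  obtain ⟨y, -, hy⟩ := T.n₂.exists_partner hz z0
  have := e.skew hu u0 z y
  exact ⟨c, by simp [hc, hy] at this; linear_combination this, fun x => by rw [e', hc, map_smul]⟩

end Ow

end CA.H12Uu
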