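import Cfsg.Agent.Lib.Lin.H15Ut1

/-!
Overgroups of the tensor product of two unitary groups, weaker bound, part two.
-/

set_option autoImplicit false
set_option linter.unusedSectionVars false

namespace CA.H12Uu

open CA.CForm CA.CForm.Form Module
open CA.H12Tn (finrank_pair_le)

local notation:75 g:76 " ⊳ " v:75 => (Subtype.val g) v

variable {F : Type*} [Field F] [Finite F] {U W V : Type*} [AddCommGroup U] [Module F U]
  [AddCommGroup W] [Module F W] [AddCommGroup V] [Module F V] [FiniteDimensional F U]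
  [FiniteDimensional F W] [FiniteDimensional F V] {σ : F →+* F} {hσ : ∀ a, σ (σ a) = a}
  {f₁ : Form (Kind.herm σ hσ) U} {f₂ : Form (Kind.herm σ hσ) W} {f : Form (Kind.herm σ hσ) V}
  {T : Uu f₁ f₂ f} {X : Subgroup f.Isom}

namespace Ow
variable (O : Ow T X)
include O

/-- The elements of `X` acting trivially on the flag `u ⊗ W ≤ (u ⊗ W)^⊥`. -/
theorem H2 {u : U} (hu : f₁.Q u = 0) (u0 : u ≠ 0) {k : f.Isom} (hk : k ∈ X)
    (e1 : ∀ w, k ⊳ T.t u w = T.t u w) (e2 : ∀ x, T.cu u x = 0 → k ⊳ x - x ∈ T.M u) :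
    ∃ g ∈ f₁.Qgrp u, k = T.kL g := by
  obtain ⟨v₀, q₀, h₀⟩ := T.n₁.exists_partner hu u0
  let α : W →ₗ[F] V := ((k.1 : V →ₗ[F] V) - LinearMap.id) ∘ₗ T.t v₀
  have hα : ∀ w, k ⊳ T.t v₀ w - T.t v₀ w = α w := fun w => rfl
  have a0 : ∀ w, T.cu u (α w) = 0 := fun w => by simp [α, T.cu_fix e1]
  have m1 : ∀ m ∈ T.M u, k ⊳ m = m := by rintro _ ⟨w, rfl⟩; exact e1 w
  have p1 : ∀ x ∈ f.perp (T.M u), k ⊳ x - x ∈ T.M u := fun x hx => e2 x (T.mem_perp_M.1 hx)
  have adj : ∀ v, f₁.B u v = 0 → ∃ c : F, ∀ w w',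
      f₂.B w (T.cu v (α w')) - f.B (α w) (T.t v w') = c * f₂.B w w' := fun v hv => by
    obtain ⟨d, hd⟩ := f₁.exists_eichlerCond hu hv
    set k' := T.kL (f₁.eichler u v d hd) with hk'
    have e1' : ∀ w, k' ⊳ T.t u w = T.t u w := E_fix hd
    have m2 : ∀ m ∈ T.M u, k' ⊳ m = m := by rintro _ ⟨w, rfl⟩; exact e1' w
    have p2 : ∀ x ∈ f.perp (T.M u), k' ⊳ x - x ∈ T.M u := fun x hx =>
      ⟨-T.cu v x, by simp [hk', T.kL_eich, T.mem_perp_M.1 hx]⟩
    obtain ⟨c, -, hc⟩ := O.H1 hu u0 (X.mul_mem (X.inv_mem (X.mul_mem (O.kLe hd) hk))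
      (X.mul_mem hk (O.kLe hd))) fun x hx => comm_fix m1 m2 p1 p2 (T.mem_perp_M.2 hx)
    refine ⟨c, fun w w' => ?_⟩
    have k1 := comm_B m1 m2 p1 p2 (T.t v₀ w) (T.t v₀ w')
    have k2 := congrArg (fun x => (k' * k) ⊳ x) (hc (T.t v₀ w'))
    simp only [← hk', isom_mul_apply _ (k' * k)⁻¹, isom_apply_inv_apply, map_add, map_smul] at k2
    simp only [isom_mul_apply, e1, e1', T.cu_t, h₀, one_smul] at k2
    have k3 : ∀ w, k' ⊳ T.t v₀ w - T.t v₀ w = T.t v w - T.t u ((f₁.B v v₀ + d) • w) := fun w => by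
      rw [hk', T.kL_eich]; simp only [T.cu_t, h₀, one_smul, add_smul]; abel
    have k4 : ∀ w y, f.B (α w) (T.t u y) = 0 := fun w y => f.eq_zero_symm (by rw [T.B_cu, a0, map_zero])
    rw [k2, hα, hα, k3, k3] at k1
    simp only [map_add, map_sub, B_sub_left, T.B_cu u, T.B_cu v, a0, k4, map_zero, T.B_t,
      map_smul (f.B _), B_one_symm h₀, smul_eq_mul] at k1
    linear_combination -k1
  have := O.ntW
  obtain ⟨y', hy'⟩ := exists_ne (0 : W)
  obtain ⟨y, hy⟩ := T.swap.exists_one hy'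
  let v := T.cw y' (α y)
  have hv : ∀ v₁, f₁.B u v₁ = 0 → ∀ w, T.cu v₁ (α w) = f₁.B v₁ v • w := fun v₁ h₁ => by
    obtain ⟨c, hc⟩ : ∃ c : F, ∀ w, T.cu v₁ (α w) = c • w := by
      obtain ⟨θ, hθ⟩ := exists_not_fixed O.hne
      obtain ⟨c, hc⟩ := adj v₁ h₁
      obtain ⟨c', hc'⟩ := adj (θ • v₁) (by simp [h₁])
      refine ⟨(c' - θ * c) / (σ θ - θ), fun w' => T.n₂.eq_of_B_eq_right fun w => ?_⟩
      have e3 := hc w w'
      have e4 := hc' w w'
      simp only [T.cu_smul, map_smul, LinearMap.smul_apply, smul_eq_mul] at e4 ⊢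
      have := sub_ne_zero.2 hθ
      field_simp
      linear_combination e4 - θ * e3
    intro w
    rw [hc, ← T.cu_cw, hc, map_smul, hy, smul_eq_mul, mul_one]
  have uv : f₁.B u v = 0 := by rw [← T.cu_cw, a0]; simp
  obtain ⟨d, hd⟩ := f₁.exists_eichlerCond hu uv
  obtain ⟨c, sc, hc⟩ := O.H1 hu u0 (g := (T.kL (f₁.eichler u v d hd))⁻¹ * k)
    (X.mul_mem (X.inv_mem (O.kLe hd)) hk) fun x hx => by
    obtain ⟨w', hw'⟩ := e2 x hx
    have : w' = -T.cu v x := T.n₂.eq_of_B_eq_right fun w => by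
      obtain ⟨m, hm⟩ := T.mem_M_of u0 (x := α w - T.t v w) fun v₁ h₁ => by simp [hv v₁ h₁]
      have e := f.B_coe_map k (T.t v₀ w) x
      have e3 : k ⊳ T.t v₀ w = T.t v₀ w + T.t v w + T.t u m := by rw [hm]; simp [α]
      rw [e3, ← eq_sub_iff_add_eq.1 hw'] at e
      simp only [map_add, B_add_left, T.B_t, f₁.B_self_of_Q hu, B_one_symm h₀,
        f₁.eq_zero_symm uv, T.B_cu u, T.B_cu v, hx, map_zero] at e
      rw [map_neg]
      linear_combination e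
    rw [isom_mul_apply, ← eq_sub_iff_add_eq.1 hw', this]
    conv_rhs => rw [← f.isom_inv_apply_apply (T.kL (f₁.eichler u v d hd)) x, T.kL_eich, hx]
    simp [neg_add_eq_sub]
  refine ⟨f₁.eichler u v d hd * f₁.eichler u 0 (-c) (tvc hu (by rw [map_neg, sc])),
    (f₁.Qgrp u).mul_mem (f₁.eichler_mem_Qgrp _ _ _ _) (f₁.eichler_mem_Qgrp _ _ _ _), ?_⟩
  rw [map_mul, ← inv_mul_eq_iff_eq_mul]
  exact f.isom_ext fun x => by rw [hc, T.kL_tv]; simp

theorem SC {r : W →ₗ[F] W} (h : ∀ z c (hc : f₂.EichlerCond z 0 c), ∃ ν : F, ∀ w,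
    r (f₂.eichler z 0 c hc ⊳ w) = f₂.eichler z 0 c hc ⊳ (r w + ν • w)) :
    ∃ c : F, ∀ w, r w = c • w := by
  obtain ⟨z₀, z₁, z₂⟩ := O.singW
  refine scalar_of_sing O.hne T.n₂ z₂ z₁ fun z hz => ?_
  by_cases z0 : z = 0
  · simp [z0]
  obtain ⟨x, hx⟩ := T.swap.exists_one z0
  obtain ⟨c, c0, hc⟩ := exists_skew hσ O.hne
  have k : ∀ l : F, σ l = -l → ∃ ν : F, ∀ w, (l * f₂.B z w) • r z =
      -ν • w + (l * (f₂.B z (r w) + ν * f₂.B z w)) • z := fun l hl => by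
    obtain ⟨ν, h⟩ := h z l (tvc hz hl)
    refine ⟨ν, fun w => ?_⟩
    have := h w
    simp only [tv_apply, map_add, map_sub, map_smul] at this
    linear_combination (norm := module) -this
  have k1 : ∀ l ν : F, (∀ w, (l * f₂.B z w) • r z =
      -ν • w + (l * (f₂.B z (r w) + ν * f₂.B z w)) • z) → ν = l * f₂.B z (r z) := fun l ν h => by
    have := h z
    rw [f₂.B_self_of_Q hz, mul_zero, zero_smul, mul_zero, add_zero, ← add_smul, eq_comm,
      smul_eq_zero] at this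
    linear_combination -this.resolve_right z0
  obtain ⟨ν, h1⟩ := k c hc
  suffices e : ν = 0 by
    have := h1 x
    rw [hx, e, mul_one, neg_zero, zero_smul, zero_add] at this
    exact (Submodule.smul_mem_iff _ c0).1 (Submodule.mem_span_singleton.2 ⟨_, this.symm⟩)
  by_contra n0
  rcases O.hq with h4 | ⟨a, sa, a0, a1⟩
  · obtain ⟨y, -, hy⟩ := exists_not_mem_of_lt (S := Submodule.span F {z, r z}) (T := ⊤) (by
      have := finrank_pair_le (F := F) z (r z)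
      rw [finrank_top]; omega)
    refine hy ((Submodule.smul_mem_iff _ (neg_ne_zero.2 n0)).1 ?_)
    rw [eq_sub_of_add_eq (h1 y).symm]
    exact Submodule.sub_mem _ (Submodule.smul_mem _ _ (Submodule.subset_span (by simp)))
      (Submodule.smul_mem _ _ (Submodule.subset_span (by simp)))
  · obtain ⟨ν', h2⟩ := k (a * c) (by simp [sa, hc])
    have e1 := k1 _ _ h1
    have e2 := k1 _ _ h2
    have e3 := h1 x
    have e4 := h2 x
    rw [hx] at e3 e4
    have : (a * (a - 1) * (c * ν)) • z = 0 := by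
      rw [e2] at e4
      rw [e1] at e3 ⊢
      linear_combination (norm := module) a • e3 - e4
    exact smul_ne_zero (mul_ne_zero (mul_ne_zero a0 (sub_ne_zero.2 a1)) (mul_ne_zero c0 n0)) z0 this

theorem conj_tv (s : f.Isom) {u : U} {c : F} (h : f₁.EichlerCond u 0 c) (x : V) :
    (s * T.kL (f₁.eichler u 0 c h) * s⁻¹) ⊳ x = x - c • s ⊳ T.t u (T.cu u (s⁻¹ ⊳ x)) := by
  rw [isom_mul_apply, isom_mul_apply, T.kL_tv, map_sub, isom_apply_inv_apply, map_smul]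

/-- The stabiliser of `u ⊗ W` preserves the tensor decomposition. -/
theorem D {u : U} (hu : f₁.Q u = 0) (u0 : u ≠ 0) {s : f.Isom} (hs : s ∈ X)
    (hM : ∀ w, s ⊳ T.t u w ∈ T.M u) : s ∈ T.N := by
  obtain ⟨v₀, h₀⟩ := T.exists_one u0
  have st : s ∈ f.stab (T.M u) := f.mem_stab_of_le (by rintro _ ⟨w, rfl⟩; exact hM w)
  have sp : ∀ x, T.cu u x = 0 ↔ T.cu u (s ⊳ x) = 0 := fun x => by
    rw [← T.mem_perp_M, ← T.mem_perp_M]; exact f.stab_le_stab_perp _ st x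
  let h' : W →ₗ[F] W := T.cu v₀ ∘ₗ (s.1 : V →ₗ[F] V) ∘ₗ T.t u
  have e' : ∀ w, s ⊳ T.t u w = T.t u (h' w) := fun w => by
    obtain ⟨w', hw⟩ := hM w
    simp [h', ← hw, B_one_symm h₀]
  let h : W ≃ₗ[F] W := .ofInjectiveEndo h' ((injective_iff_map_eq_zero _).2 fun w hw =>
    T.t_inj u0 (s.1.injective (by rw [e', hw]; simp)))
  have e : ∀ w, s ⊳ T.t u w = T.t u (h w) := e'
  clear_value h
  obtain ⟨c₀, c₀0, hc₀⟩ := exists_skew hσ O.hne
  obtain ⟨c₁, sc₁, hc⟩ := O.H1 hu u0 (X.mul_mem (X.mul_mem hs (O.kLe (tvc hu hc₀))) (X.inv_mem hs))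
    fun x hx => by
      obtain ⟨y, rfl⟩ := s.1.surjective x
      rw [O.conj_tv, isom_inv_apply_apply, (sp y).2 hx]; simp
  obtain ⟨c, sc, hcu⟩ : ∃ c, σ c = c ∧ ∀ x, h (T.cu u x) = c • T.cu u (s ⊳ x) := by
    refine ⟨-c₁ / c₀, by rw [map_div₀, map_neg, sc₁, hc₀, neg_div_neg_eq], fun x => ?_⟩
    have k1 := hc (s ⊳ x)
    rw [O.conj_tv, isom_inv_apply_apply, sub_eq_add_neg, add_right_inj, e] at k1
    have k2 : -(c₀ • h (T.cu u x)) = c₁ • T.cu u (s ⊳ x) := T.t_inj u0 (by simpa using k1)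
    rw [div_eq_inv_mul, mul_smul, neg_smul, ← k2, neg_neg, inv_smul_smul₀ c₀0]
  have hB : ∀ w w', f₂.B (h w) (h w') = c * f₂.B w w' := fun w w' => by
    have k1 := hcu (T.t v₀ w')
    rw [T.cu_t, h₀, one_smul] at k1
    rw [k1, map_smul, ← T.B_cu, ← e, B_coe_map, T.B_t, h₀, one_mul, smul_eq_mul]
  have := O.ntW
  obtain ⟨w₀, hw₀⟩ := exists_ne (0 : W)
  have c0 : c ≠ 0 := by
    rintro rfl
    have k1 := hcu (T.t v₀ w₀)
    simp [h₀, hw₀] at k1
  have key : ∀ z d (hd : f₂.EichlerCond z 0 d), ∃ g : f₁.Isom, (∀ v, f₁.B u (g ⊳ v - v) = 0) ∧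
      (∀ v, f₁.B u v = 0 → g ⊳ v - v ∈ F ∙ u) ∧
      ∀ v p w, T.cu v (s ⊳ T.t p (f₂.eichler z 0 d hd ⊳ w)) =
        h (f₂.eichler z 0 d hd ⊳ h.symm (T.cu (g ⊳ v) (s ⊳ T.t p w))) := by
    intro z d hd
    set t := f₂.eichler z 0 d hd with ht
    have hd' : f₂.EichlerCond (h z) 0 (d / c) := tvc (by
      rw [← herm_B_self, hB, f₂.B_self_of_Q hd.Q_p, mul_zero]) (by
      rw [map_div₀, sc, skew_of hd.π_eq_zero, neg_div])
    set t' := f₂.eichler _ _ _ hd' with ht'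
    have et : ∀ w, t' ⊳ w = h (t ⊳ h.symm w) := fun w => by
      obtain ⟨w, rfl⟩ := h.surjective w
      rw [ht, ht', tv_apply, tv_apply, h.symm_apply_apply, hB, map_sub, map_smul, ← mul_assoc,
        div_mul_cancel₀ _ c0]
    set k := s * T.kR t * s⁻¹ * (T.kR t')⁻¹ with hk
    have kX : k ∈ X :=
      X.mul_mem (X.mul_mem (X.mul_mem hs (O.kRe _)) (X.inv_mem hs)) (X.inv_mem (O.kRe _))
    have e1 : ∀ w, k ⊳ T.t u w = T.t u w := fun w => by
      obtain ⟨w, rfl⟩ := t'.1.surjective w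
      obtain ⟨w, rfl⟩ := h.surjective w
      conv_lhs => rw [← T.kR_t, hk, isom_mul_apply, isom_inv_apply_apply, ← e, isom_mul_apply,
        isom_inv_apply_apply, isom_mul_apply, T.kR_t, e]
      rw [et, h.symm_apply_apply]
    have cm : ∀ {v a} (uv : f₁.EichlerCond u v a), k * T.kL (f₁.eichler u v a uv) =
        T.kL (f₁.eichler u v a uv) * k := fun {v a} uv => by
      set E := T.kL (f₁.eichler u v a uv) with hE
      obtain ⟨g, -, e5⟩ := O.H2 hu u0 (k := s⁻¹ * E * s)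
        (X.mul_mem (X.mul_mem (X.inv_mem hs) (O.kLe _)) hs) (fun w => by
          rw [isom_mul_apply, isom_mul_apply, e, hE, E_fix, ← e, isom_inv_apply_apply])
        (fun x hx => by
          rw [st, isom_mul_apply, isom_mul_apply, map_sub, isom_apply_inv_apply, hE, T.kL_eich,
            (sp x).1 hx]
          exact ⟨-T.cu v (s ⊳ x), by simp⟩)
      have e2 : s⁻¹ * E * s * T.kR t = T.kR t * (s⁻¹ * E * s) := by
        rw [e5, T.kL_comm_kR]
      have e3 : E * (T.kR t')⁻¹ = (T.kR t')⁻¹ * E := by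
        rw [← map_inv]; exact T.kL_comm_kR ..
      calc k * E = s * (T.kR t * (s⁻¹ * E * s)) * s⁻¹ * (T.kR t')⁻¹ := by
            rw [hk, mul_assoc _ _ E, ← e3]; group
        _ = E * k := by rw [hk, ← e2]; group
    have e2 : ∀ x, T.cu u x = 0 → k ⊳ x - x ∈ T.M u := fun x hx => Submodule.mem_comap.1 <|
      T.ker_ind u0 (Y := (T.M u).comap ((k.1 : V →ₗ[F] V) - LinearMap.id)) (fun v w uv => by
        obtain ⟨a, ha⟩ := f₁.exists_eichlerCond hu uv
        have := congrArg (fun g => g ⊳ T.t v₀ w) (cm ha)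
        simp only [isom_mul_apply, T.kL_eich, map_add, map_sub, T.cu_fix e1, e1, T.cu_t, h₀,
          one_smul] at this
        refine ⟨f₁.B v v₀ • w - T.cu v (k ⊳ T.t v₀ w), ?_⟩
        simp only [LinearMap.sub_apply, LinearEquiv.coe_coe, LinearMap.id_apply, map_sub]
        rw [← sub_eq_zero] at this ⊢
        rw [← neg_eq_zero, ← this]; abel) hx
    obtain ⟨g, hg, e5⟩ := O.H2 hu u0 kX e1 e2
    obtain ⟨gu, g2⟩ := (T.n₁.mem_Qgrp_iff hu u0).1 ((f₁.Qgrp u).inv_mem hg)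
    refine ⟨g⁻¹, fun v => by
      rw [map_sub, f₁.B_isom_right, inv_inv, f₁.apply_of_mem_Qgrp hg, sub_self], g2,
      fun v p w => ?_⟩
    have e6 : s * T.kR t = T.kL g * T.kR t' * s := by rw [← e5, hk]; group
    have e7 := congrArg (fun k => k ⊳ T.t p w) e6
    simp only [isom_mul_apply, T.kR_t] at e7
    rw [e7, ← et, ← T.cu_kR, ← T.cu_kL g (g⁻¹ ⊳ v), isom_apply_inv_apply]
  have step : ∀ v p, (∀ g : f₁.Isom, (∀ v, f₁.B u (g ⊳ v - v) = 0) →
      (∀ v, f₁.B u v = 0 → g ⊳ v - v ∈ F ∙ u) → ∃ ν : F, ∀ w,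
        T.cu (g ⊳ v - v) (s ⊳ T.t p w) = ν • h w) →
      ∃ γ : F, ∀ w, T.cu v (s ⊳ T.t p w) = γ • h w := fun v p H => by
    obtain ⟨γ, hγ⟩ := O.SC (r := h.symm.toLinearMap ∘ₗ T.cu v ∘ₗ (s.1 : V →ₗ[F] V) ∘ₗ T.t p)
      fun z d hd => by
        obtain ⟨g, g1, g2, g3⟩ := key z d hd
        obtain ⟨ν, hν⟩ := H g g1 g2
        refine ⟨ν, fun w => ?_⟩
        simp only [LinearMap.comp_apply, LinearEquiv.coe_coe, g3, h.symm_apply_apply]
        rw [← add_sub_cancel v (g ⊳ v), T.cu_add, hν]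
        simp
    exact ⟨γ, fun w => by simpa [h.symm_apply_eq] using hγ w⟩
  have s1 : ∀ v p, f₁.B u v = 0 → ∃ γ : F, ∀ w, T.cu v (s ⊳ T.t p w) = γ • h w :=
    fun v p hv => step v p fun g _ g2 => by
      obtain ⟨a, ha⟩ := Submodule.mem_span_singleton.1 (g2 v hv)
      refine ⟨σ a * (c⁻¹ * f₁.B u p), fun w => ?_⟩
      have := hcu (T.t p w)
      rw [T.cu_t, map_smul] at this
      rw [← ha, T.cu_smul, mul_smul, mul_smul, this, inv_smul_smul₀ c0]
  have s2 : ∀ v p, ∃ γ : F, ∀ w, T.cu v (s ⊳ T.t p w) = γ • h w :=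
    fun v p => step v p fun g g1 _ => s1 _ p (g1 v)
  obtain ⟨z, hz'⟩ := T.swap.exists_one (u := h w₀) (by simpa using hw₀)
  have hz := B_one_symm hz'
  have := O.ntU
  refine T.mem_N_of_lin (T.cw z ∘ₗ (s.1 : V →ₗ[F] V) ∘ₗ T.t.flip w₀) h
    fun p w => sub_eq_zero.1 (T.eq_zero_of_cu fun v => ?_)
  obtain ⟨γ, hγ⟩ := s2 v p
  simp [hγ, ← T.cu_cw, hz]

theorem sing_of_ts {u : U} (h : ∀ w w', f.B (T.t u w) (T.t u w') = 0) : f₁.Q u = 0 := by
  have := O.ntW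
  obtain ⟨w, hw⟩ := exists_ne (0 : W)
  obtain ⟨w', hw'⟩ := T.swap.exists_one hw
  simpa [T.B_t, hw', herm_B_self] using h w w'

/-- The conjugates of transvections of the first factor which preserve the decomposition. -/
theorem K0 {u : U} (u0 : u ≠ 0) {c : F} (hc : f₁.EichlerCond u 0 c) (c0 : c ≠ 0) {s : f.Isom}
    (hN : s * T.kL (f₁.eichler u 0 c hc) * s⁻¹ ∈ T.N) :
    ∃ u', u' ≠ 0 ∧ f.act s (T.M u) = T.M u' := by
  set τ := s * T.kL (f₁.eichler u 0 c hc) * s⁻¹ with hτ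
  have e : ∀ x, τ ⊳ x = x - c • s ⊳ T.t u (T.cu u (s⁻¹ ⊳ x)) := O.conj_tv s hc
  obtain ⟨v₀, h₀⟩ := T.exists_one u0
  have m1 : ∀ x, τ ⊳ x - x ∈ f.act s (T.M u) := fun x => by
    rw [e, sub_sub_cancel_left]
    exact Submodule.neg_mem _ (Submodule.smul_mem _ _ (f.apply_mem_act.2 (T.t_mem_M ..)))
  have d : finrank F (f.act s (T.M u)) = finrank F W := by rw [finrank_act, T.finrank_M u0]
  obtain ⟨g, h, e1⟩ := hN
  obtain ⟨a, ha⟩ := scalar_of (r := h.symm.toLinearMap) fun w => by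
    obtain ⟨w, rfl⟩ := h.surjective w
    rw [LinearEquiv.coe_coe, h.symm_apply_apply]
    by_contra hn
    obtain ⟨z, h1, h2⟩ := T.n₂.exists_perp_B_eq hn 1
    replace h1 := f₂.eq_zero_symm (f₂.mem_perp_span_singleton.1 h1)
    have := LinearMap.finrank_le_finrank_of_injective (f := LinearMap.codRestrict _
      (((τ.1 : V →ₗ[F] V) - LinearMap.id) ∘ₗ T.t.flip w) fun p => m1 (T.t p w))
      ((injective_iff_map_eq_zero _).2 fun p hp => by
        have : T.cw z (τ ⊳ T.t p w - T.t p w) = T.cw z 0 := congrArg (fun x => T.cw z x.1) hp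
        simpa [e1, h1, h2] using this)
    have := O.ab
    omega
  have := O.ntW
  obtain ⟨w₀, hw₀⟩ := exists_ne (0 : W)
  obtain ⟨v, hv⟩ : ∃ v, g v - a • v ≠ 0 := by
    by_contra H
    push Not at H
    have : τ = 1 := T.ext fun v w => by
      obtain ⟨w, rfl⟩ := h.symm.surjective w
      rw [e1, h.apply_symm_apply, sub_eq_zero.1 (H v), isom_one_apply]
      simp [show h.symm w = a • w from ha w]
    have k := e (s ⊳ T.t v₀ w₀)
    rw [this, isom_one_apply, eq_comm, sub_eq_self] at k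
    simp [h₀, T.t_ne_zero u0 hw₀, c0] at k
  refine ⟨_, hv, (Submodule.eq_of_le_of_finrank_eq ?_ (by rw [d, T.finrank_M hv])).symm⟩
  rintro _ ⟨w, rfl⟩
  have := m1 (T.t v (h.symm w))
  rw [e1, h.apply_symm_apply, show h.symm w = a • w from ha w] at this
  simpa using this

end Ow

end CA.H12Uu
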