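import Cfsg.Agent.Lib.Lin.H15Ut2

/-!
Overgroups of the tensor product of two unitary groups, weaker bound, part three.
-/

set_option autoImplicit false
set_option linter.unusedSectionVars false

namespace CA.H12Uu

open CA.CForm CA.CForm.Form Module

local notation:75 g:76 " ⊳ " v:75 => (Subtype.val g) v

variable {F : Type*} [Field F] [Finite F] {U W V : Type*} [AddCommGroup U] [Module F U]
  [AddCommGroup W] [Module F W] [AddCommGroup V] [Module F V] [FiniteDimensional F U]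
  [FiniteDimensional F W] [FiniteDimensional F V] {σ : F →+* F} {hσ : ∀ a, σ (σ a) = a}
  {f₁ : Form (Kind.herm σ hσ) U} {f₂ : Form (Kind.herm σ hσ) W} {f : Form (Kind.herm σ hσ) V}

variable {T : Uu f₁ f₂ f} {X : Subgroup f.Isom}

namespace Ow
variable (O : Ow T X)
include O

theorem mem_N_of_act {u v : U} (hu : u ≠ 0) (hv : Sg f₁ v) {s : f.Isom} (hs : s ∈ X)
    (e : f.act s (T.M v) = T.M u) : s ∈ T.N := by
  have q : f₁.Q u = 0 := O.sing_of_ts fun w w' =>
    ((mem_std hv).act hs).ts (e ▸ T.t_mem_M ..) (e ▸ T.t_mem_M ..)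
  obtain ⟨g, hg, rfl⟩ := O.move q hu hv.q hv.ne
  refine (T.N.mul_mem_cancel_right (T.kL_mem_N g)).1 (O.D q hu (X.mul_mem hs (O.kL g hg)) fun w => ?_)
  rw [isom_mul_apply, T.kL_t, ← e]
  exact f.apply_mem_act.2 (T.t_mem_M ..)

theorem act_std {v : U} (hv : v ≠ 0) {s : f.Isom} (hs : s ∈ T.N) :
    ∃ u, u ≠ 0 ∧ f.act s (T.M v) = T.M u :=
  let ⟨g, _, e⟩ := hs; ⟨g v, by simpa using hv, T.act_M e v⟩

theorem K1 {M : Submodule F V} (m : Mem T X M) {u : U} (hu : Sg f₁ u)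
    (h : ∀ x ∈ M, T.t u (T.cu u x) ∈ M) : ∃ u', u' ≠ 0 ∧ M = T.M u' := by
  obtain ⟨s, hs, v, hv, rfl⟩ := m
  obtain ⟨c, c0, hc⟩ := exists_skew hσ O.hne
  obtain ⟨u', h0, e⟩ := O.K0 hu.ne (tvc hu.q hc) c0 (O.D hv.q hv.ne
    (X.mul_mem (X.mul_mem (X.inv_mem hs) (O.kLe _)) (X.inv_mem (X.inv_mem hs))) fun w => by
      rw [O.conj_tv, inv_inv]
      exact Submodule.sub_mem _ (T.t_mem_M ..) (Submodule.smul_mem _ _
        (f.mem_act.1 (h _ (f.apply_mem_act.2 (T.t_mem_M ..))))))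
  exact O.act_std hv.ne ((T.N.inv_mem_iff).1 (O.mem_N_of_act h0 hu (X.inv_mem hs) e))

theorem K1' {M : Submodule F V} (m : Mem T X M) {u : U} {c : F} (hc : f₁.EichlerCond u 0 c)
    (u0 : u ≠ 0) (c0 : c ≠ 0) (h : f.act (T.kL (f₁.eichler u 0 c hc)) M = M) :
    ∃ u', u' ≠ 0 ∧ M = T.M u' := O.K1 m ⟨hc.Q_p, u0⟩ fun y hy => by
  simpa [T.kL_tv, M.smul_mem_iff c0] using M.sub_mem hy (mem_of_act h hy)

theorem K_std {d : ℕ} (h : Mx T X d) {M : Submodule F V} (m : Mem T X M) {u : U} (hu : Sg f₁ u)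
    (hd : d ≤ finrank F (T.M u ⊓ M : Submodule F V)) {x : V} (hx : x ∈ M) (e : T.cu u x = 0) :
    x ∈ T.M u ∨ ∃ u', u' ≠ 0 ∧ M = T.M u' := by
  obtain ⟨c, c0, hc⟩ := exists_skew hσ O.hne
  refine or_iff_not_imp_left.2 fun hx' => O.K1' m (tvc hu.q hc) hu.ne c0 ?_
  exact h.eq_of (m.act (O.kLe _)) m
    (le_act inf_le_right fun z hz => by simp [T.kL_tv, T.cu_of_mem hu.q hz.1]) inf_le_right hd
    (le_act (I := F ∙ x) ((Submodule.span_singleton_le_iff_mem _ _).2 hx) (fun z hz => by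
      obtain ⟨a, rfl⟩ := Submodule.mem_span_singleton.1 hz
      simp [T.kL_tv, e]) (Submodule.mem_span_singleton_self x)) hx fun e => hx' e.1

theorem K {d : ℕ} (h : Mx T X d) (d0 : 0 < d) {M M' : Submodule F V} (m : Mem T X M)
    (m' : Mem T X M') (hd : d ≤ finrank F (M ⊓ M' : Submodule F V)) {x : V} (hx : x ∈ M')
    (e : x ∈ f.perp M) : x ∈ M := by
  obtain ⟨s, hs, u, hu, rfl⟩ := m
  have e1 : f.act s⁻¹ (f.act s (T.M u)) = T.M u := by rw [← act_mul, inv_mul_cancel, act_one]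
  have hd' : d ≤ finrank F (T.M u ⊓ f.act s⁻¹ M' : Submodule F V) := by
    rwa [← f.finrank_act s⁻¹, act_inf, e1] at hd
  rw [f.mem_act]
  rcases O.K_std h (m'.act (X.inv_mem hs)) hu hd' (f.apply_mem_act.2 hx) (by
    rw [← T.mem_perp_M, ← f.mem_act, act_perp]; exact e) with e2 | ⟨u', h0, e2⟩
  · exact e2
  · obtain ⟨y, hy, y0⟩ := Submodule.exists_mem_ne_zero_of_ne_bot
      (p := T.M u ⊓ f.act s⁻¹ M') fun e => by rw [e, finrank_bot] at hd'; omega
    rw [← M_eq_of_mem h0 hy.1 (e2 ▸ hy.2) y0, ← e2]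
    exact f.apply_mem_act.2 hx

end Ow

/-- A pair of members with maximal non-zero intersection. -/
structure Ps (T : Uu f₁ f₂ f) (X : Subgroup f.Isom) (d : ℕ) (u : U) (M : Submodule F V) : Prop where
  O : Ow T X
  mx : Mx T X d
  pos : 0 < d
  hu : Sg f₁ u
  mem : Mem T X M
  ne : T.M u ≠ M
  dim : d ≤ finrank F (T.M u ⊓ M : Submodule F V)

namespace Ps
variable {d : ℕ} {u : U} {M : Submodule F V} (P : Ps T X d u M)
include P

theorem dim_eq : finrank F (T.M u ⊓ M : Submodule F V) = d :=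
  le_antisymm (not_lt.1 fun h => P.ne (P.mx _ _ (mem_std P.hu) P.mem h)) P.dim

theorem b {x : V} (hx : x ∈ M) (e : T.cu u x = 0) : x ∈ T.M u :=
  P.O.K P.mx P.pos (mem_std P.hu) P.mem P.dim hx (T.mem_perp_M.2 e)

theorem c {g : f.Isom} (hg : g ∈ X) (e : ∀ w, T.t u w ∈ M → g ⊳ T.t u w = T.t u w) {x : V}
    (hx : x ∈ M) (h : ∀ y ∈ M, f.B y (g ⊳ x - x) = 0) : x ∈ T.M u ∨ f.act g M = M := by
  have e' : ∀ x ∈ T.M u ⊓ M, g ⊳ x = x := by rintro _ ⟨⟨w, rfl⟩, h⟩; exact e w h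
  have le := le_act inf_le_right e'
  have := P.O.K P.mx P.pos P.mem (P.mem.act hg)
    (P.dim.trans (Submodule.finrank_mono (le_inf inf_le_right le))) (f.apply_mem_act.2 hx)
    fun y hy => by simpa [P.mem.ts hy hx] using h y hy
  refine or_iff_not_imp_left.2 fun hx' => P.mx.eq_of (P.mem.act hg) P.mem le inf_le_right P.dim
    (f.apply_mem_act.2 hx) this fun e => hx' ?_
  rw [g.1.injective (e' _ e)] at e
  exact e.1

theorem exists_not_mem : ∃ x ∈ M, x ∉ T.M u := by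
  by_contra H
  push Not at H
  exact P.ne (Submodule.eq_of_le_of_finrank_eq H (by rw [P.mem.finrank, T.finrank_M P.hu.ne])).symm

theorem noE {v : U} {c : F} (h : f₁.EichlerCond u v c) (v0 : v ∉ F ∙ u) :
    f.act (T.kL (f₁.eichler u v c h)) M ≠ M := fun e => by
  have k : ∀ x ∈ M, T.t v (T.cu u x) - T.t u (T.cu v x + c • T.cu u x) ∈ M := fun x hx => by
    have := M.sub_mem (mem_of_act e hx) hx
    rwa [T.kL_eich, add_sub_assoc, add_sub_cancel_left] at this
  obtain ⟨x, hx, hx'⟩ := P.exists_not_mem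
  obtain ⟨a, rfl⟩ := T.smul_of_t_mem (v := v) (u := u) (fun e => hx' (P.b hx e))
    ((Submodule.sub_mem_iff_left _ (T.t_mem_M ..)).1 (P.b (k x hx) (by
      simp [h.B_pw, f₁.B_self_of_Q h.Q_p])))
  exact v0 (Submodule.smul_mem _ _ (Submodule.mem_span_singleton_self u))

theorem elim : False := by
  obtain ⟨v₀, h₀⟩ := T.n₁.exists_isHyp P.hu.q P.hu.ne
  obtain ⟨C, h1, h2⟩ := IsModularLattice.exists_disjoint_and_sup_eq
    (inf_le_right (a := T.M u) (b := M))
  have d := Submodule.finrank_sup_add_finrank_inf_eq (T.M u ⊓ M) C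
  rw [h2, h1.eq_bot, finrank_bot, P.dim_eq, P.mem.finrank] at d
  have le : C ≤ M := le_sup_right.trans h2.le
  obtain ⟨v, c, hc, -, hv, ne, m, hm, m0, H⟩ := T.pencil P.O.hne h₀ (C := C) (by
    obtain ⟨x, hx, hx'⟩ := P.exists_not_mem
    refine Nat.pos_of_ne_zero fun e => hx' ?_
    rw [Submodule.finrank_eq_zero.1 e, sup_bot_eq] at h2
    exact (h2.ge hx).1) (by have := P.O.big; have := P.pos; omega)
  rcases P.c (P.O.kLe hc) (fun w _ => E_fix hc w) (le hm) (fun y hy => by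
    rw [← h2] at hy
    obtain ⟨a, ⟨⟨w, rfl⟩, -⟩, b, hb, rfl⟩ := Submodule.mem_sup.1 hy
    rw [B_add_left, H b hb, map_sub, T.B_cu, T.B_cu, T.cu_fix (E_fix hc), sub_self, add_zero])
    with e | e
  · exact m0 (Submodule.disjoint_def.1 h1 m ⟨e, le hm⟩ hm)
  by_cases v0 : v = 0
  · subst v0
    obtain ⟨u', h0, e2⟩ := P.O.K1' P.mem hc P.hu.ne (by simpa using ne) e
    obtain ⟨y, hy, y0⟩ := Submodule.exists_mem_ne_zero_of_ne_bot (p := T.M u ⊓ M) fun e => by
      have := P.dim; have := P.pos; rw [e, finrank_bot] at *; omega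
    exact P.ne (by rw [e2, M_eq_of_mem h0 hy.1 (e2 ▸ hy.2) y0])
  · refine P.noE hc (fun e => v0 ?_) e
    obtain ⟨a, rfl⟩ := Submodule.mem_span_singleton.1 e
    rw [map_smul, B_one_symm h₀.B_xy, smul_eq_mul, mul_one] at hv
    rw [hv, zero_smul]

end Ps

namespace Ow
variable (O : Ow T X)
include O

theorem mx_zero : Mx T X 0 := by
  have : ∀ n d, d + n = finrank F W → Mx T X d := fun n => by
    induction n with
    | zero =>
      intro d e M M' m _ h
      have := Submodule.finrank_mono (inf_le_left (a := M) (b := M'))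
      have := m.finrank
      omega
    | succ n ih =>
      intro d e M M' m m' h
      by_contra ne
      obtain ⟨s, hs, u, hu, rfl⟩ := m
      have e1 : f.act s⁻¹ (f.act s (T.M u)) = T.M u := by rw [← act_mul, inv_mul_cancel, act_one]
      refine Ps.elim (d := d + 1) (u := u) (M := f.act s⁻¹ M') ⟨O, ih _ (by omega), by omega, hu,
        m'.act (X.inv_mem hs), fun e => ne ?_, ?_⟩
      · rw [e, ← act_mul, mul_inv_cancel, act_one]
      · rw [← f.finrank_act s⁻¹, act_inf, e1] at h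
        omega
  exact this _ 0 (zero_add _)

theorem F1 {s : f.Isom} (hs : s ∈ X) {u v : U} {w : W} (hu : Sg f₁ u) (hv : Sg f₁ v) (hw : w ≠ 0)
    (e : T.cu u (s ⊳ T.t v w) = 0) : s ∈ T.N := by
  have m := (mem_std (T := T) hv).act hs
  have hx := (f.apply_mem_act (g := s)).2 (T.t_mem_M v w)
  rcases O.K_std O.mx_zero m hu (Nat.zero_le _) hx e with h | ⟨u', h0, h⟩
  · exact O.mem_N_of_act hu.ne hv hs (O.mx_zero.eq_of m (mem_std hu) bot_le bot_le (Nat.zero_le _) hx h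
      (by simpa using T.t_ne_zero hv.ne hw))
  · exact O.mem_N_of_act h0 hv hs h

/-- A quadratic element preserving the decomposition fixes a pure tensor. -/
theorem fix_pure {k : f.Isom} (hk : k ∈ T.N) (h2 : ∀ x, k ⊳ (k ⊳ x - x) = k ⊳ x - x) :
    ∃ u w, Sg f₁ u ∧ w ≠ 0 ∧ k ⊳ T.t u w = T.t u w := by
  have := O.ntW
  obtain ⟨g, h, e⟩ := hk
  obtain ⟨v, v0, hv⟩ := O.singU
  obtain ⟨w₁, hw₁⟩ := exists_ne (0 : W)
  by_cases H : g v ∈ F ∙ v
  · obtain ⟨a, ha⟩ := Submodule.mem_span_singleton.1 H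
    by_cases e1 : k ⊳ T.t v w₁ = T.t v w₁
    · exact ⟨v, w₁, ⟨hv, v0⟩, hw₁, e1⟩
    have e2 : k ⊳ T.t v w₁ - T.t v w₁ = T.t v (a • h w₁ - w₁) := by simp [e, ← ha]
    exact ⟨v, a • h w₁ - w₁, ⟨hv, v0⟩, fun e3 => e1 (by rw [← sub_eq_zero, e2, e3, map_zero]), by
      rw [← e2, h2]⟩
  have k1 : ∀ y w, f₁.B y (g (g v)) • h (h w) - f₁.B y (g v) • h w =
      f₁.B y (g v) • h w - f₁.B y v • w := fun y w => by
    simpa [e] using congrArg (T.cu y) (h2 (T.t v w))
  obtain ⟨μ, w, w0, hw⟩ : ∃ (μ : F) (w : W), w ≠ 0 ∧ h w = μ • w := by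
    obtain ⟨y, y1, y2⟩ := T.n₁.exists_perp_B_eq H 1
    replace y1 := f₁.eq_zero_symm (f₁.mem_perp_span_singleton.1 y1)
    obtain ⟨y', y3, y4⟩ := T.n₁.exists_perp_B_eq (W := F ∙ g v) (u := v) (fun e => H (by
      obtain ⟨a, ha⟩ := Submodule.mem_span_singleton.1 e
      have a0 : a ≠ 0 := by rintro rfl; exact v0 (by simpa using ha.symm)
      exact (Submodule.smul_mem_iff _ a0).1 (by rw [ha]; exact Submodule.mem_span_singleton_self _))) 1
    replace y3 := f₁.eq_zero_symm (f₁.mem_perp_span_singleton.1 y3)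
    have k2 := fun w => k1 y w
    have k3 := fun w => k1 y' w
    simp only [y1, y2, y3, y4, one_smul, zero_smul, sub_zero, zero_sub] at k2 k3
    set β := f₁.B y' (g (g v))
    by_cases two : (2 : F) = 0
    · obtain ⟨b, hb⟩ := isSquare_of_two_eq_zero two β
      have b0 : b ≠ 0 := by rintro rfl; simpa [hb, hw₁, eq_comm] using k3 w₁
      by_cases e1 : b • h w₁ - w₁ = 0
      · exact ⟨b⁻¹, w₁, hw₁, by rw [eq_inv_smul_iff₀ b0, sub_eq_zero.1 e1]⟩
      refine ⟨b⁻¹, _, e1, ?_⟩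
      rw [eq_inv_smul_iff₀ b0, map_sub, map_smul, smul_sub, smul_smul, ← hb, k3, ← sub_eq_zero]
      have : ∀ x : W, (2 : F) • x = 0 := fun x => by rw [two, zero_smul]
      linear_combination (norm := module) -this (b • h w₁)
    · have β0 : β ≠ 0 := by rintro e1; simpa [e1, hw₁, eq_comm] using k3 w₁
      refine ⟨-(f₁.B y (g (g v)) / (2 * β)), w₁, hw₁, smul_right_injective W (mul_ne_zero two β0) ?_⟩
      simp only [smul_smul, mul_neg, mul_div_cancel₀ _ (mul_ne_zero two β0)]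
      linear_combination (norm := module) f₁.B y (g (g v)) • k3 w₁ - β • k2 w₁
  obtain ⟨w', hw'⟩ := T.swap.exists_one w0
  have e2 : ∀ x, k ⊳ T.t x w = T.t (μ • g x) w := fun x => by simp [e, hw]
  obtain ⟨u, hu⟩ : ∃ u, u = μ • g v - v := ⟨_, rfl⟩
  have e3 : k ⊳ T.t v w - T.t v w = T.t u w := by simp [e2, hu]
  have e4 := h2 (T.t v w)
  rw [e3] at e4
  have u0 : u ≠ 0 := fun e5 => H (by
    rw [hu, sub_eq_zero] at e5
    have a0 : μ ≠ 0 := by rintro rfl; exact v0 (by simpa using e5.symm)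
    exact (Submodule.smul_mem_iff _ a0).1 (by rw [e5]; exact Submodule.mem_span_singleton_self _))
  refine ⟨_, w, ⟨?_, u0⟩, w0, e4⟩
  have e5 : ∀ x, f₁.B u (g x) * f₂.B w (h w') = f₁.B u x := fun x => by
    rw [← T.B_t, ← e, ← e4, B_coe_map, T.B_t, hw', mul_one]
  have e6 : μ • g u = u := T.t_inj' w0 ((e2 u).symm.trans e4)
  have e7 := congrArg (f₁.B u) e6
  have e8 := congrArg (f₁.B u) hu
  rw [map_smul, smul_eq_mul] at e7
  rw [map_sub, map_smul, smul_eq_mul] at e8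
  rw [← herm_B_self]
  have n : f₂.B w (h w') ≠ 0 := fun e9 => u0 (T.n₁ u fun x => by rw [← e5, e9, mul_zero])
  refine pow_eq_zero_iff two_ne_zero |>.1 (mul_right_cancel₀ n ?_)
  linear_combination (f₁.B u u * f₂.B w (h w')) * e8 + (μ * f₁.B u u) * e5 v +
    (f₁.B u v * f₂.B w (h w')) * e7 - (μ * f₁.B u v) * e5 u

omit O in
theorem cw_det1 (hσ : ∀ a, σ (σ a) = a) (hne : σ ≠ RingHom.id F) {ι : Type} [Fintype ι]
    [DecidableEq ι] {j : ℕ} (j0 : 0 < j) (hd : j < Fintype.card ι)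
    (A : ι → Matrix (Fin j) (Fin j) F) (hA : ∀ l i k, σ (A l i k) = A l k i) :
    ∃ x : ι → F, (∀ l, σ (x l) = x l) ∧ x ≠ 0 ∧ (∑ l, x l • A l).det = 0 := by
  let P : Matrix (Fin j) (Fin j) (MvPolynomial ι F) :=
    Matrix.of fun i k => ∑ l, MvPolynomial.C (A l i k) * MvPolynomial.X l
  have eP : ∀ x : ι → F, MvPolynomial.eval x P.det = (∑ l, x l • A l).det := fun x => by
    rw [RingHom.map_det]
    congr 1
    ext i k
    simp [P, Matrix.sum_apply, mul_comm]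
  have dP : P.det.IsHomogeneous j := by
    rw [Matrix.det_apply']
    refine MvPolynomial.IsHomogeneous.sum _ _ _ fun τ _ => ?_
    have := (MvPolynomial.IsHomogeneous.prod Finset.univ (fun i => P (τ i) i) (fun _ => 1) fun i _ =>
      MvPolynomial.IsHomogeneous.sum _ _ _ fun l _ => (MvPolynomial.isHomogeneous_X F l).C_mul _).C_mul
        ((Equiv.Perm.sign τ : ℤ) : F)
    simpa using this
  obtain ⟨x, h1, h2, h3, -⟩ := cw_poly hσ hne P.det 0 (by simpa using dP.totalDegree_le.trans_lt hd)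
    (by rw [eP]; have : Nonempty (Fin j) := ⟨⟨0, j0⟩⟩; simp) (by simp) (fun x hx => by
      rw [eP, RingHom.map_det, ← Matrix.det_transpose]
      congr 1
      ext i k
      simp [Matrix.sum_apply, hx, hA]) (fun x hx => by simp)
  exact ⟨x, h1, h2, eP x ▸ h3⟩

omit O in
theorem pencil1 (hne : σ ≠ RingHom.id F) {ι : Type} [Fintype ι] [DecidableEq ι]
    {C : Submodule F V} (c0 : 0 < finrank F C) (hd : finrank F C < Fintype.card ι)
    (N : ι → V →ₗ[F] V) (hN : ∀ l x y, f.B y (N l x) = f.B (N l y) x) :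
    ∃ x : ι → F, (∀ l, σ (x l) = x l) ∧ x ≠ 0 ∧ ∃ m ∈ C, m ≠ 0 ∧
      ∀ y ∈ C, f.B y (∑ l, x l • N l m) = 0 := by
  let m := Module.finBasis F C
  obtain ⟨x, hx, x0, h1⟩ := cw_det1 hσ hne c0 hd
    (fun l => Matrix.of fun i k => f.B (m i) (N l (m k))) fun l i k => by
      simp only [Matrix.of_apply]; rw [← herm_symm, hN]
  obtain ⟨y, y0, hy⟩ := Matrix.exists_mulVec_eq_zero_iff.2 h1
  refine ⟨x, hx, x0, _, (∑ k, y k • m k).2, fun e0 => y0 ?_, fun y' hy' => ?_⟩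
  · exact funext (Fintype.linearIndependent_iff.1 m.linearIndependent _ (Subtype.ext e0))
  · have k3 : ∀ i, f.B (m i) (∑ l, x l • N l (∑ k, y k • m k : C)) = 0 := fun i => by
      have := congrFun hy i
      simp only [Matrix.mulVec, dotProduct, Matrix.sum_apply, Matrix.smul_apply, Matrix.of_apply,
        smul_eq_mul, Pi.zero_apply, Finset.sum_mul] at this
      rw [← this, Finset.sum_comm]
      simp only [AddSubmonoidClass.coe_finsetSum, Submodule.coe_smul, map_sum, map_smul,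
        smul_eq_mul, Finset.mul_sum]
      exact Finset.sum_congr rfl fun l _ => Finset.sum_congr rfl fun k _ => by ring
    have := congrArg Subtype.val (m.sum_repr ⟨y', hy'⟩)
    rw [show y' = _ from this.symm]
    rw [AddSubmonoidClass.coe_finsetSum, B_sum_left]
    exact Finset.sum_eq_zero fun i _ => by rw [Submodule.coe_smul, B_smul_left, k3, mul_zero]

/-- A proper overgroup of the isometry groups of the factors preserves the decomposition. -/
theorem main : X ≤ T.N := by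
  obtain ⟨u, u0, hu⟩ := O.singU
  intro s hs
  obtain ⟨v₀, h₀⟩ := T.n₁.exists_isHyp hu u0
  obtain ⟨p, p', hp, h1, h2, h3, h4⟩ := frame O.hne T.n₁ O.a4 h₀
  obtain ⟨c₀, c₀0, hc₀⟩ := exists_skew hσ O.hne
  obtain ⟨θ, hθ⟩ := exists_not_fixed O.hne
  have uu := f₁.B_self_of_Q hu
  have pp := f₁.B_self_of_Q hp.Q_x
  have pu := f₁.eq_zero_symm h1
  have m := (mem_std (T := T) ⟨hu, u0⟩).act hs
  have k1 : ∀ a b y, f.B y (T.t a b) = f₂.B (T.cu a y) b := fun a b y => by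
    rw [herm_symm, T.B_cu, ← herm_symm]
  obtain ⟨x, hx, x0, _, ⟨_, ⟨w, rfl⟩, rfl⟩, m0, H⟩ := pencil1 (f := f) O.hne (ι := Fin 4)
    (C := f.act s (T.M u)) (by have := O.b2; rw [m.finrank]; omega)
    (by have := O.b3; rw [m.finrank]; simp; omega)
    ![T.t u ∘ₗ T.cu u, T.t p ∘ₗ T.cu p, T.t p ∘ₗ T.cu u + T.t u ∘ₗ T.cu p,
      θ • T.t p ∘ₗ T.cu u + σ θ • T.t u ∘ₗ T.cu p] fun l x y => by
      fin_cases l <;> simp [k1, T.B_cu, hσ, add_comm]
  set a := x 0 * c₀ with ha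
  set b := x 1 * c₀ with hb
  set η := -((x 2 + x 3 * θ) * c₀) with hη
  have sa : σ a = -a := by simp [ha, hx, hc₀]
  have sb : σ b = -b := by simp [hb, hx, hc₀]
  have sη : σ η = (x 2 + x 3 * σ θ) * c₀ := by simp [hη, hx, hc₀]
  have c1 : f₁.EichlerCond u (η • p) a := ⟨hu, by simp [h1], by simp [f₁.Q_smul_of_Q hp.Q_x, sa]⟩
  set E := T.kL (f₁.eichler u (η • p) a c1) * T.kL (f₁.eichler p 0 b (tvc hp.Q_x sb)) with hE
  have EX : E ∈ X := X.mul_mem (O.kLe _) (O.kLe _)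
  have e1 : ∀ z, E ⊳ z = z + (T.t p (η • T.cu u z - b • T.cu p z) -
      T.t u (σ η • T.cu p z + a • T.cu u z)) := fun z => by
    rw [hE, isom_mul_apply, T.kL_tv, T.kL_eich]
    simp only [map_sub, map_smul, T.cu_t, h1, pp, T.cu_smul, zero_smul, smul_zero, sub_zero, map_add,
      LinearMap.smul_apply, B_smul_left, mul_zero]
    module
  clear_value E
  have kN := O.F1 (s := s⁻¹ * E * s) (X.mul_mem (X.mul_mem (X.inv_mem hs) EX) hs)
    ⟨hu, u0⟩ ⟨hu, u0⟩ (w := w) (by rintro rfl; simp at m0) (T.n₂.eq_zero_right fun w' => by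
      have := H _ (f.apply_mem_act.2 (T.t_mem_M u w'))
      rw [← T.B_cu, isom_mul_apply, isom_mul_apply, ← f.B_coe_map s, isom_apply_inv_apply, e1,
        map_add, B_coe_map, T.B_t, uu, zero_mul, zero_add, sη]
      simp only [Fin.sum_univ_four, Matrix.cons_val, LinearEquiv.coe_coe, LinearMap.comp_apply,
        LinearMap.add_apply, LinearMap.smul_apply, map_add, map_smul, map_sub, smul_eq_mul] at this ⊢
      linear_combination -c₀ * this)
  obtain ⟨u', w', k2, k3, k4⟩ := O.fix_pure kN fun x => by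
    rw [isom_mul_apply, isom_mul_apply, isom_mul_apply, isom_mul_apply, ← s.1.injective.eq_iff,
      isom_apply_inv_apply, map_sub s.1, isom_apply_inv_apply, e1 (s ⊳ x),
      add_sub_cancel_left, e1]
    simp [uu, pp, h1, pu]
  rw [isom_mul_apply, isom_mul_apply, ← s.1.injective.eq_iff, isom_apply_inv_apply, e1,
    add_eq_left, sub_eq_zero] at k4
  have l1 := congrArg (T.cu p') k4
  have l2 := congrArg (T.cu v₀) k4
  rw [T.cu_t, T.cu_t, B_one_symm hp.B_xy, f₁.eq_zero_symm h3, one_smul, zero_smul] at l1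
  rw [T.cu_t, T.cu_t, B_one_symm h₀.B_xy, h2, one_smul, zero_smul] at l2
  have q : ∀ α β : F, f₁.Q (α • u + β • p) = 0 := fun α β => by
    rw [← herm_B_self]; simp [uu, pp, h1, pu]
  by_cases n1 : σ η • u + b • p = 0
  · refine O.F1 hs (u := (-a) • u + η • p) ⟨q _ _, fun n2 => x0 ?_⟩ k2 k3 (by
      rw [T.cu_add, T.cu_smul, T.cu_smul, map_neg, sa, neg_neg, add_comm, l2])
    have z1 := congrArg (f₁.B p') n1
    have z2 := congrArg (f₁.B p') n2
    have z3 := congrArg (f₁.B v₀) n2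
    have z4 := congrArg (f₁.B v₀) n1
    simp only [map_add, map_smul, B_one_symm hp.B_xy, f₁.eq_zero_symm h3, B_one_symm h₀.B_xy, h2,
      smul_eq_mul, mul_zero, mul_one, zero_add, add_zero, map_zero, sη] at z1 z2 z3 z4
    have z5 : x 3 = 0 := mul_right_cancel₀ (mul_ne_zero (sub_ne_zero.2 hθ) c₀0) (by
      linear_combination z4 + z2 - hη)
    funext l
    fin_cases l
    · simpa [ha, c₀0] using z3
    · simpa [hb, c₀0] using z1
    · simpa [z5, c₀0] using z4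
    · exact z5
  · exact O.F1 hs ⟨q _ _, n1⟩ k2 k3 (by
      rw [T.cu_add, T.cu_smul, T.cu_smul, hσ, sb, neg_smul b, ← sub_eq_add_neg, l1])

end Ow

end CA.H12Uu
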