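/-
The Hall algebra of pairs (vector space, endomorphism) over a finite field: convolution, the Möbius
function, and the Mackey formula.
-/
import Mathlib

set_option autoImplicit false

namespace CA.H25Cusp

open Module

universe u
variable {F : Type u} [Field F]

/-- a finite-dimensional vector space with an endomorphism -/
structure Ob (F : Type u) [Field F] : Type (u + 1) where
  V : Type u
  [ab : AddCommGroup V]
  [md : Module F V]
  [fd : Module.Finite F V]
  h : V →ₗ[F] V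

attribute [instance] Ob.ab Ob.md Ob.fd

namespace Ob

/-- invariant subspaces -/
def Inv (X : Ob F) (W : Submodule F X.V) : Prop := ∀ v ∈ W, X.h v ∈ W
/-- subobjects -/
abbrev sub (X : Ob F) (W : Submodule F X.V) (hW : X.Inv W) : Ob F := ⟨W, X.h.restrict hW⟩
/-- quotient objects -/
abbrev quo (X : Ob F) (W : Submodule F X.V) (hW : X.Inv W) : Ob F := ⟨X.V ⧸ W, W.mapQ W X.h hW⟩
/-- extensions -/
abbrev ext (A B : Ob F) (T : B.V →ₗ[F] A.V) : Ob F :=
  ⟨A.V × B.V, (A.h ∘ₗ LinearMap.fst F _ _ + T ∘ₗ LinearMap.snd F _ _).prod (B.h ∘ₗ LinearMap.snd F _ _)⟩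
/-- isomorphism -/
def Iso (X Y : Ob F) : Prop := ∃ e : X.V ≃ₗ[F] Y.V, ∀ v, e (X.h v) = Y.h (e v)

theorem ext_h (A B : Ob F) (T : B.V →ₗ[F] A.V) (a : A.V) (b : B.V) :
    (ext A B T).h (a, b) = (A.h a + T b, B.h b) := rfl

theorem Iso.symm {X Y : Ob F} (h : Iso X Y) : Iso Y X := by
  obtain ⟨e, he⟩ := h
  exact ⟨e.symm, fun v => e.injective (by rw [he]; simp)⟩

theorem Iso.trans {X Y Z : Ob F} (h : Iso X Y) (h' : Iso Y Z) : Iso X Z := by
  obtain ⟨e, he⟩ := h
  obtain ⟨e', he'⟩ := h'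
  exact ⟨e.trans e', fun v => by simp [he, he']⟩

theorem quo_iso {X Y : Ob F} {W : Submodule F X.V} (hW : X.Inv W) (π : X.V →ₗ[F] Y.V)
    (hs : Function.Surjective π) (hk : LinearMap.ker π = W) (h : ∀ v, π (X.h v) = Y.h (π v)) :
    Iso (X.quo W hW) Y := by
  subst hk
  refine ⟨π.quotKerEquivOfSurjective hs, fun v => ?_⟩
  induction v using Submodule.Quotient.induction_on with
  | H v => exact h v

theorem sub_iso {X Y : Ob F} {W : Submodule F X.V} (hW : X.Inv W) (i : Y.V →ₗ[F] X.V)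
    (hs : Function.Injective i) (hk : LinearMap.range i = W) (h : ∀ v, i (Y.h v) = X.h (i v)) :
    Iso Y (X.sub W hW) := by
  subst hk
  exact ⟨LinearEquiv.ofInjective i hs, fun v => Subtype.ext (h v)⟩

theorem inv_bot (X : Ob F) : X.Inv ⊥ := fun v hv => by simp [(Submodule.mem_bot F).1 hv]
theorem inv_top (X : Ob F) : X.Inv ⊤ := fun _ _ => trivial

theorem quo_bot (X : Ob F) (h : X.Inv ⊥) : Iso (X.quo ⊥ h) X :=
  quo_iso h LinearMap.id Function.surjective_id LinearMap.ker_id fun _ => rfl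

theorem sub_top (X : Ob F) (h : X.Inv ⊤) : Iso X (X.sub ⊤ h) :=
  sub_iso h LinearMap.id Function.injective_id LinearMap.range_id fun _ => rfl

theorem finrank_quo_lt (X : Ob F) {W : Submodule F X.V} (hW : X.Inv W) (h : W ≠ ⊥) :
    finrank F (X.quo W hW).V < finrank F X.V := by
  have := W.finrank_quotient_add_finrank
  have h2 : finrank F W ≠ 0 := fun e => h (Submodule.finrank_eq_zero.1 e)
  change finrank F (X.V ⧸ W) < _
  omega

end Ob

open Ob

/-- class functions -/
def Cls (φ : Ob F → ℂ) : Prop := ∀ X Y, Iso X Y → φ X = φ Y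

open Classical in
/-- a term of the convolution -/
noncomputable def tm (φ ψ : Ob F → ℂ) (X : Ob F) (W : Submodule F X.V) : ℂ :=
  if hW : X.Inv W then φ (X.sub W hW) * ψ (X.quo W hW) else 0

theorem tm_pos (φ ψ : Ob F → ℂ) {X : Ob F} {W : Submodule F X.V} (hW : X.Inv W) :
    tm φ ψ X W = φ (X.sub W hW) * ψ (X.quo W hW) := dif_pos hW
theorem tm_neg (φ ψ : Ob F → ℂ) {X : Ob F} {W : Submodule F X.V} (hW : ¬ X.Inv W) : tm φ ψ X W = 0 := dif_neg hW

theorem inv_map {X Y : Ob F} {e : X.V ≃ₗ[F] Y.V} (he : ∀ v, e (X.h v) = Y.h (e v)) (W : Submodule F X.V) :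
    Y.Inv (W.map (e : X.V →ₗ[F] Y.V)) ↔ X.Inv W := by
  constructor
  · intro h v hv
    obtain ⟨w, hw, e1⟩ := h _ ⟨v, hv, rfl⟩
    rwa [← e.injective (e1.trans (he v).symm)]
  · rintro h _ ⟨v, hv, rfl⟩
    exact ⟨_, h v hv, he v⟩

theorem quo_map {X Y : Ob F} {e : X.V ≃ₗ[F] Y.V} (he : ∀ v, e (X.h v) = Y.h (e v)) {W : Submodule F X.V}
    (h : X.Inv W) (h' : Y.Inv (W.map (e : X.V →ₗ[F] Y.V))) : Iso (X.quo W h) (Y.quo _ h') :=
  quo_iso (Y := Y.quo _ h') h ((W.map (e : X.V →ₗ[F] Y.V)).mkQ ∘ₗ e)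
    ((Submodule.mkQ_surjective _).comp e.surjective)
    (by rw [LinearMap.ker_comp, Submodule.ker_mkQ, Submodule.comap_map_eq_of_injective e.injective])
    fun v => congrArg (W.map (e : X.V →ₗ[F] Y.V)).mkQ (he v)

theorem sub_map {X Y : Ob F} {e : X.V ≃ₗ[F] Y.V} (he : ∀ v, e (X.h v) = Y.h (e v)) {W : Submodule F X.V}
    (h : X.Inv W) (h' : Y.Inv (W.map (e : X.V →ₗ[F] Y.V))) : Iso (X.sub W h) (Y.sub _ h') :=
  sub_iso (Y := X.sub W h) h' ((e : X.V →ₗ[F] Y.V) ∘ₗ W.subtype) (e.injective.comp W.injective_subtype)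
    (by rw [LinearMap.range_comp, Submodule.range_subtype]) fun v => he v.1

theorem tm_map {φ ψ : Ob F → ℂ} (hφ : Cls φ) (hψ : Cls ψ) {X Y : Ob F} {e : X.V ≃ₗ[F] Y.V}
    (he : ∀ v, e (X.h v) = Y.h (e v)) (W : Submodule F X.V) :
    tm φ ψ Y (W.map (e : X.V →ₗ[F] Y.V)) = tm φ ψ X W := by
  by_cases h : X.Inv W
  · have h' := (inv_map he W).2 h
    rw [tm_pos _ _ h, tm_pos _ _ h', hφ _ _ (sub_map he h h'), hψ _ _ (quo_map he h h')]
  · rw [tm_neg _ _ h, tm_neg _ _ (mt (inv_map he W).1 h)]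

open Classical in
/-- the unit -/
noncomputable def dl (X : Ob F) : ℂ := if Subsingleton X.V then 1 else 0

theorem cls_dl : Cls (dl : Ob F → ℂ) := fun _ _ ⟨e, _⟩ => by rw [dl, dl, e.toEquiv.subsingleton_congr]

theorem card_mul_sum_comp {G H : Type*} [AddGroup G] [AddGroup H] [Fintype G] [Fintype H] (f : G →+ H)
    (hf : Function.Surjective f) (g : H → ℂ) :
    (Fintype.card H : ℂ) * ∑ x, g (f x) = Fintype.card G * ∑ y, g y := by
  classical
  have key : ∀ y, (Finset.univ.filter fun x => f x = y).card = (Finset.univ.filter fun x => f x = 0).card :=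
    fun y => AddMonoidHom.card_fiber_eq_of_mem_range f (hf y) ⟨0, map_zero f⟩
  have e : ∀ g : H → ℂ, ∑ x, g (f x) = (Finset.univ.filter fun x => f x = 0).card * ∑ y, g y := fun g => by
    rw [← Finset.sum_fiberwise_of_maps_to (g := f) (t := Finset.univ) (fun _ _ => Finset.mem_univ _), Finset.mul_sum]
    refine Finset.sum_congr rfl fun y _ => ?_
    rw [Finset.sum_congr rfl (g := fun _ => g y) (fun x hx => by rw [(Finset.mem_filter.1 hx).2]), Finset.sum_const,
      key, nsmul_eq_mul]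
  have := e fun _ => 1
  simp only [Finset.sum_const, Finset.card_univ, nsmul_eq_mul, mul_one] at this
  rw [e, this]; ring

variable [Finite F]

instance (X : Ob F) : Finite X.V := Module.finite_of_finite F

noncomputable instance fintypeSub (V : Type u) [AddCommGroup V] [Module F V] [Module.Finite F V] :
    Fintype (Submodule F V) :=
  have : Finite V := Module.finite_of_finite F
  Fintype.ofFinite _

noncomputable instance fintypeHom (V W : Type u) [AddCommGroup V] [Module F V] [Module.Finite F V] [AddCommGroup W]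
    [Module F W] [Module.Finite F W] : Fintype (V →ₗ[F] W) :=
  have : Finite (V →ₗ[F] W) := Module.finite_of_finite F
  Fintype.ofFinite _

/-- the Hall product -/
noncomputable def conv (φ ψ : Ob F → ℂ) (X : Ob F) : ℂ := ∑ W, tm φ ψ X W

theorem Cls.conv {φ ψ : Ob F → ℂ} (hφ : Cls φ) (hψ : Cls ψ) : Cls (conv φ ψ) := fun _ _ ⟨e, he⟩ =>
  Fintype.sum_equiv (Submodule.orderIsoMapComap e).toEquiv _ _ fun W => (tm_map hφ hψ he W).symm

open Classical in
/-- the Möbius function -/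
noncomputable def mu (X : Ob F) : ℂ :=
  if Subsingleton X.V then 1 else -∑ W : {W : Submodule F X.V // X.Inv W ∧ W ≠ ⊥}, mu (X.quo W.1 W.2.1)
termination_by finrank F X.V
decreasing_by exact X.finrank_quo_lt W.2.1 W.2.2

open Classical in
theorem mu_eq (X : Ob F) : mu X = dl X - ∑ W ∈ Finset.univ.erase ⊥, tm 1 mu X W := by
  rw [mu, dl]
  split_ifs with h
  · rw [Finset.sum_eq_zero fun W hW => ((Finset.mem_erase.1 hW).1 (Subsingleton.elim _ _)).elim, sub_zero]
  · rw [zero_sub, ← Finset.sum_subset (s₁ := Finset.univ.filter fun W => X.Inv W ∧ W ≠ ⊥)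
      (fun W hW => Finset.mem_erase.2 ⟨(Finset.mem_filter.1 hW).2.2, Finset.mem_univ _⟩)
      (fun W h1 h2 => tm_neg _ _ fun h => h2 (Finset.mem_filter.2 ⟨Finset.mem_univ _, h, (Finset.mem_erase.1 h1).1⟩)),
      Finset.sum_subtype (p := fun W => X.Inv W ∧ W ≠ ⊥) _ (by simp)]
    congr 1
    exact Finset.sum_congr rfl fun W _ => by rw [tm_pos _ _ W.2.1]; simp

theorem cls_mu : Cls (mu : Ob F → ℂ) := by
  classical
  intro X Y h
  induction hn : finrank F X.V using Nat.strong_induction_on generalizing X Y with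
  | _ n ih =>
    rw [mu_eq, mu_eq, cls_dl X Y h]
    obtain ⟨e, he⟩ := h
    congr 1
    refine Finset.sum_equiv (Submodule.orderIsoMapComap e).toEquiv (fun W => by simp) fun W hW => ?_
    change _ = tm 1 mu Y (W.map (e : X.V →ₗ[F] Y.V))
    by_cases h : X.Inv W
    · have h' := (inv_map he W).2 h
      rw [tm_pos _ _ h, tm_pos _ _ h', ih _ (hn ▸ X.finrank_quo_lt h (Finset.mem_erase.1 hW).1) _ _ (quo_map he h h') rfl]
      rfl
    · rw [tm_neg _ _ h, tm_neg _ _ (mt (inv_map he W).1 h)]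

theorem one_conv_mu (X : Ob F) : conv 1 mu X = dl X := by
  classical
  rw [conv, ← Finset.add_sum_erase _ _ (Finset.mem_univ ⊥), tm_pos _ _ X.inv_bot, cls_mu _ _ (X.quo_bot _), mu_eq]
  simp

end CA.H25Cusp
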