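/-
The Mackey formula in the Hall algebra, and primitivity of `b * μ` for additive `b`.
-/
import Cfsg.Agent.Lib.Lin.H25Cusp1

set_option autoImplicit false

namespace CA.H25Cusp

open Module Ob

universe u
variable {F : Type u} [Field F]

section
variable {A B : Type u} [AddCommGroup A] [Module F A] [AddCommGroup B] [Module F B]

/-- a sheared product -/
def gr (X : Submodule F A) (Y : Submodule F B) (S : B →ₗ[F] A) : Submodule F (A × B) :=
  X.comap (LinearMap.fst F A B - S ∘ₗ LinearMap.snd F A B) ⊓ Y.comap (LinearMap.snd F A B)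

theorem mem_gr {X : Submodule F A} {Y : Submodule F B} {S : B →ₗ[F] A} {v : A × B} :
    v ∈ gr X Y S ↔ v.1 - S v.2 ∈ X ∧ v.2 ∈ Y := Iff.rfl

/-- maps sending `Y` into `X` -/
def KK (X : Submodule F A) (Y : Submodule F B) : AddSubgroup (B →ₗ[F] A) where
  carrier := {S | ∀ y ∈ Y, S y ∈ X}
  add_mem' h h' y hy := add_mem (h y hy) (h' y hy)
  zero_mem' _ _ := zero_mem _
  neg_mem' h y hy := neg_mem (h y hy)

theorem comap_gr (X : Submodule F A) (Y : Submodule F B) (S : B →ₗ[F] A) :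
    (gr X Y S).comap (LinearMap.inl F A B) = X := by ext a; simp [mem_gr]

theorem map_gr (X : Submodule F A) (Y : Submodule F B) (S : B →ₗ[F] A) :
    (gr X Y S).map (LinearMap.snd F A B) = Y := by
  ext b
  exact ⟨by rintro ⟨v, hv, rfl⟩; exact hv.2, fun hb => ⟨(S b, b), mem_gr.2 ⟨by simp, hb⟩, rfl⟩⟩

theorem exists_gr (W : Submodule F (A × B)) :
    ∃ S, gr (W.comap (LinearMap.inl F A B)) (W.map (LinearMap.snd F A B)) S = W := by
  obtain ⟨s, hs⟩ := ((LinearMap.snd F A B).submoduleMap W).exists_rightInverse_of_surjective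
    (LinearMap.range_eq_top.2 (LinearMap.submoduleMap_surjective _ _))
  obtain ⟨S, hS⟩ := (LinearMap.fst F A B ∘ₗ W.subtype ∘ₗ s).exists_extend
  have key : ∀ b (hb : b ∈ W.map (LinearMap.snd F A B)), (S b, b) ∈ W := fun b hb => by
    have h1 : S b = (s ⟨b, hb⟩).1.1 := LinearMap.congr_fun hS ⟨b, hb⟩
    have h2 : (s ⟨b, hb⟩).1.2 = b := congrArg Subtype.val (LinearMap.congr_fun hs ⟨b, hb⟩)
    have := (s ⟨b, hb⟩).2
    rwa [← Prod.mk.eta (p := (s ⟨b, hb⟩).1), ← h1, h2] at this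
  refine ⟨S, Submodule.ext fun ⟨a, b⟩ => ⟨fun ⟨h1, h2⟩ => ?_, fun h => ⟨?_, ⟨_, h, rfl⟩⟩⟩⟩
  · simpa using add_mem (show (a - S b, 0) ∈ W from h1) (key b h2)
  · simpa using sub_mem h (key b ⟨_, h, rfl⟩)

theorem gr_eq_iff {X : Submodule F A} {Y : Submodule F B} {S S' : B →ₗ[F] A} :
    gr X Y S = gr X Y S' ↔ S - S' ∈ KK X Y := by
  refine ⟨fun h y hy => (mem_gr.1 (h.le (mem_gr.2 (⟨by simp, hy⟩ : _ ∧ _) : (S y, y) ∈ gr X Y S))).1, fun h => ?_⟩
  ext ⟨a, b⟩
  refine and_congr_left fun hb => ⟨fun h' => ?_, fun h' => ?_⟩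
  · simpa using add_mem (show a - S b ∈ X from h') (h b hb)
  · simpa using sub_mem (show a - S' b ∈ X from h') (h b hb)

/-- the induced maps -/
def ind (X : Submodule F A) (Y : Submodule F B) : KK X Y →+ ((B ⧸ Y) →ₗ[F] (A ⧸ X)) :=
  AddMonoidHom.mk' (fun T => Y.mapQ X T.1 T.2) fun _ _ => by ext; rfl

theorem ind_surj (X : Submodule F A) (Y : Submodule F B) : Function.Surjective (ind X Y) := fun τ => by
  obtain ⟨s, hs⟩ := X.mkQ.exists_rightInverse_of_surjective X.range_mkQ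
  refine ⟨⟨s ∘ₗ τ ∘ₗ Y.mkQ, fun y hy => ?_⟩, ?_⟩
  · simp [(Submodule.Quotient.mk_eq_zero Y).2 hy]
  · ext b
    exact LinearMap.congr_fun hs _

variable [Finite F] [Module.Finite F A] [Module.Finite F B]

theorem sum_gr (f : Submodule F (A × B) → ℂ) :
    ∑ W, f W = ∑ X : Submodule F A, ∑ Y : Submodule F B, (Nat.card (KK X Y) : ℂ)⁻¹ * ∑ S, f (gr X Y S) := by
  classical
  have key : ∀ (X : Submodule F A) (Y : Submodule F B), (Nat.card (KK X Y) : ℂ)⁻¹ * ∑ S, f (gr X Y S) =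
      ∑ W, if W.comap (LinearMap.inl F A B) = X ∧ W.map (LinearMap.snd F A B) = Y then f W else 0 := fun X Y => by
    rw [← Finset.sum_fiberwise_of_maps_to (g := gr X Y) (t := Finset.univ) (fun _ _ => Finset.mem_univ _),
      Finset.mul_sum]
    refine Finset.sum_congr rfl fun W _ => ?_
    rw [Finset.sum_congr rfl (g := fun _ => f W) (fun x hx => by rw [(Finset.mem_filter.1 hx).2]), Finset.sum_const,
      nsmul_eq_mul]
    split_ifs with h
    · obtain ⟨rfl, rfl⟩ := h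
      obtain ⟨S0, h0⟩ := exists_gr W
      have : (Finset.univ.filter fun S => gr (W.comap (LinearMap.inl F A B)) (W.map (LinearMap.snd F A B)) S = W).card =
          Nat.card (KK (W.comap (LinearMap.inl F A B)) (W.map (LinearMap.snd F A B))) := by
        rw [← Fintype.card_subtype, ← Nat.card_eq_fintype_card]
        exact Nat.card_congr ((Equiv.subRight S0).subtypeEquiv fun S => by
          conv_lhs => rw [← h0]
          rw [comap_gr, map_gr]; exact gr_eq_iff)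
      rw [this, ← mul_assoc, inv_mul_cancel₀ (Nat.cast_ne_zero.2 Nat.card_pos.ne'), one_mul]
    · rw [Finset.filter_eq_empty_iff.2 fun S _ e => h (by rw [← e, comap_gr, map_gr]; exact ⟨rfl, rfl⟩)]
      simp
  simp only [key]
  rw [Finset.sum_congr rfl fun X _ => Finset.sum_comm, Finset.sum_comm]
  refine Finset.sum_congr rfl fun W _ => ?_
  simp only [ite_and, Finset.sum_ite_irrel, Finset.sum_ite_eq, Finset.mem_univ, if_true, Finset.sum_const_zero]

end

theorem inv_gr {A B : Ob F} {T S : B.V →ₗ[F] A.V} {X : Submodule F A.V} {Y : Submodule F B.V} :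
    (ext A B T).Inv (gr X Y S) ↔ A.Inv X ∧ B.Inv Y ∧ T + A.h ∘ₗ S - S ∘ₗ B.h ∈ KK X Y := by
  constructor
  · intro h
    refine ⟨fun a ha => ?_, fun b hb => (h (S b, b) (mem_gr.2 ⟨by simp, hb⟩)).2, fun b hb => ?_⟩
    · simpa using (h (a, 0) (mem_gr.2 ⟨by simpa using ha, zero_mem _⟩)).1
    · simpa [add_comm] using (h (S b, b) (mem_gr.2 ⟨by simp, hb⟩)).1
  · rintro ⟨h1, h2, h3⟩ ⟨a, b⟩ ⟨ha, hb⟩
    refine ⟨?_, h2 b hb⟩
    have : A.h (a - S b) + (T b + A.h (S b) - S (B.h b)) ∈ X := add_mem (h1 _ ha) (h3 b hb)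
    change A.h a + T b - S (B.h b) ∈ X
    convert this using 1
    rw [map_sub]; abel

theorem quo_gr {A B : Ob F} {T S : B.V →ₗ[F] A.V} {X : Submodule F A.V} {Y : Submodule F B.V}
    (h : (ext A B T).Inv (gr X Y S)) (hX : A.Inv X) (hY : B.Inv Y) (hT : T + A.h ∘ₗ S - S ∘ₗ B.h ∈ KK X Y) :
    Iso ((ext A B T).quo _ h) (ext (A.quo X hX) (B.quo Y hY) (ind X Y ⟨_, hT⟩)) := by
  refine quo_iso h ((X.mkQ ∘ₗ (LinearMap.fst F _ _ - S ∘ₗ LinearMap.snd F _ _)).prod (Y.mkQ ∘ₗ LinearMap.snd F _ _))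
    (fun ⟨a, b⟩ => ?_) (by ext ⟨a, b⟩; simp [mem_gr, ← Submodule.Quotient.mk_sub]) fun ⟨a, b⟩ => Prod.ext ?_ rfl
  · obtain ⟨a, rfl⟩ := X.mkQ_surjective a
    obtain ⟨b, rfl⟩ := Y.mkQ_surjective b
    exact ⟨(a + S b, b), by simp⟩
  · change X.mkQ (A.h a + T b - S (B.h b)) = X.mkQ (A.h (a - S b)) + X.mkQ (T b + A.h (S b) - S (B.h b))
    rw [← map_add, map_sub A.h]; congr 1; abel

variable [Finite F]

/-- averaging over extensions -/
noncomputable def av (ψ : Ob F → ℂ) (A B : Ob F) : ℂ :=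
  (Fintype.card (B.V →ₗ[F] A.V) : ℂ)⁻¹ * ∑ T, ψ (ext A B T)

open Classical in
theorem mackey {ψ : Ob F → ℂ} (hψ : Cls ψ) (A B : Ob F) (c : Submodule F A.V → Submodule F B.V → ℂ) :
    (Fintype.card (B.V →ₗ[F] A.V) : ℂ)⁻¹ * ∑ T, ∑ W : Submodule F (A.V × B.V),
      c (W.comap (LinearMap.inl F _ _)) (W.map (LinearMap.snd F _ _)) *
      tm 1 ψ (ext A B T) W = ∑ X, ∑ Y, c X Y *
        if hX : A.Inv X then if hY : B.Inv Y then av ψ (A.quo X hX) (B.quo Y hY) else 0 else 0 := by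
  rw [Finset.sum_comm, sum_gr, Finset.mul_sum]
  refine Finset.sum_congr rfl fun X _ => ?_
  rw [Finset.mul_sum]
  refine Finset.sum_congr rfl fun Y _ => ?_
  simp only [comap_gr, map_gr, ← Finset.mul_sum]
  have h0 : (Fintype.card (B.V →ₗ[F] A.V) : ℂ) ≠ 0 := Nat.cast_ne_zero.2 Fintype.card_ne_zero
  split_ifs with hX hY
  · have key : ∀ S, ∑ T, tm 1 ψ (ext A B T) (gr X Y S) =
        ∑ T : KK X Y, ψ (ext (A.quo X hX) (B.quo Y hY) (ind X Y T)) := fun S => by
      rw [← Finset.sum_subset (Finset.subset_univ (Finset.univ.filter fun T => T + A.h ∘ₗ S - S ∘ₗ B.h ∈ KK X Y))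
        fun T _ h => tm_neg _ _ fun h' => h (Finset.mem_filter.2 ⟨Finset.mem_univ _, (inv_gr.1 h').2.2⟩)]
      refine Finset.sum_bij (fun T hT => ⟨_, (Finset.mem_filter.1 hT).2⟩) (fun _ _ => Finset.mem_univ _)
        (fun T _ T' _ e => by simpa using e)
        (fun T _ => ⟨T.1 + S ∘ₗ B.h - A.h ∘ₗ S, by simp, by simp⟩) fun T hT => ?_
      have hT' := (Finset.mem_filter.1 hT).2
      have h := inv_gr.2 ⟨hX, hY, hT'⟩
      rw [tm_pos _ _ h, hψ _ _ (quo_gr h hX hY hT'), Pi.one_apply, one_mul]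
    have h1 := card_mul_sum_comp (ind X Y) (ind_surj X Y) fun τ => ψ (ext (A.quo X hX) (B.quo Y hY) τ)
    have h2 : (Fintype.card ((B.V ⧸ Y) →ₗ[F] (A.V ⧸ X)) : ℂ) ≠ 0 := Nat.cast_ne_zero.2 Fintype.card_ne_zero
    have h3 : (Fintype.card (KK X Y) : ℂ) ≠ 0 := Nat.cast_ne_zero.2 Fintype.card_ne_zero
    simp only [key, Finset.sum_const, Finset.card_univ, nsmul_eq_mul, av, Nat.card_eq_fintype_card]
    rw [(eq_inv_mul_iff_mul_eq₀ h2).2 h1]
    field_simp
  · rw [Finset.sum_eq_zero fun S _ => Finset.sum_eq_zero fun T _ => tm_neg _ _ fun h => hY (inv_gr.1 h).2.1]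
    simp
  · rw [Finset.sum_eq_zero fun S _ => Finset.sum_eq_zero fun T _ => tm_neg _ _ fun h => hX (inv_gr.1 h).1]
    simp

theorem av_iso {ψ : Ob F → ℂ} (hψ : Cls ψ) {A A' B B' : Ob F} (h : Iso A A') (h' : Iso B B') :
    av ψ A B = av ψ A' B' := by
  obtain ⟨e, he⟩ := h
  obtain ⟨e', he'⟩ := h'
  rw [av, av, Fintype.card_congr (LinearEquiv.arrowCongr e' e).toEquiv]
  congr 1
  refine Fintype.sum_equiv (LinearEquiv.arrowCongr e' e).toEquiv _ _ fun T => hψ _ _ ⟨e.prodCongr e', fun ⟨a, b⟩ => ?_⟩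
  simp [he, he']

omit [Finite F] in
theorem dl_ext (A B : Ob F) (T : B.V →ₗ[F] A.V) : dl (ext A B T) = dl A * dl B := by
  have : Subsingleton (A.V × B.V) ↔ Subsingleton A.V ∧ Subsingleton B.V :=
    ⟨fun _ => ⟨(Prod.mk_left_injective (0 : B.V)).subsingleton, (Prod.mk_right_injective (0 : A.V)).subsingleton⟩,
      fun ⟨_, _⟩ => inferInstance⟩
  simp only [dl, this]
  split_ifs <;> simp_all

theorem av_mu (A B : Ob F) : av mu A B = mu A * mu B := by
  classical
  induction hn : finrank F A.V + finrank F B.V using Nat.strong_induction_on generalizing A B with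
  | _ n ih =>
    have h1 := mackey cls_mu A B fun _ _ => 1
    have h0 : (Fintype.card (B.V →ₗ[F] A.V) : ℂ) ≠ 0 := Nat.cast_ne_zero.2 Fintype.card_ne_zero
    have h2 : ∀ T, ∑ W : Submodule F (A.V × B.V), tm 1 mu (ext A B T) W = dl A * dl B := fun T => by
      rw [← dl_ext A B T, ← one_conv_mu]; rfl
    simp only [one_mul, h2, Finset.sum_const, Finset.card_univ, nsmul_eq_mul] at h1
    have key : ∀ (X : Submodule F A.V) (Y : Submodule F B.V), (X, Y) ≠ (⊥, ⊥) → tm 1 mu A X * tm 1 mu B Y =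
        if hX : A.Inv X then if hY : B.Inv Y then av mu (A.quo X hX) (B.quo Y hY) else 0 else 0 := fun X Y hne => by
      split_ifs with hX hY
      · rw [tm_pos _ _ hX, tm_pos _ _ hY, ih _ ?_ _ _ rfl]
        · simp
        · have a1 : finrank F (A.quo X hX).V ≤ finrank F A.V := X.finrank_quotient_le
          have a2 : finrank F (B.quo Y hY).V ≤ finrank F B.V := Y.finrank_quotient_le
          by_cases e : X = ⊥
          · have := B.finrank_quo_lt hY fun e' => hne (by rw [e, e'])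
            omega
          · have := A.finrank_quo_lt hX e
            omega
      · rw [tm_neg _ _ hY]; simp
      · rw [tm_neg _ _ hX]; simp
    rw [inv_mul_cancel_left₀ h0, ← one_conv_mu, ← one_conv_mu, conv, conv, Finset.sum_mul_sum, ← sub_eq_zero,
      ← Fintype.sum_prod_type', ← Fintype.sum_prod_type', ← Finset.sum_sub_distrib,
      Finset.sum_eq_single (⊥, ⊥) (fun p _ hne => sub_eq_zero.2 (key p.1 p.2 hne)) (by simp),
      tm_pos _ _ A.inv_bot, tm_pos _ _ B.inv_bot, dif_pos A.inv_bot, dif_pos B.inv_bot,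
      av_iso cls_mu (A.quo_bot _) (B.quo_bot _), cls_mu _ _ (A.quo_bot _), cls_mu _ _ (B.quo_bot _)] at h1
    simp only [Pi.one_apply, one_mul] at h1
    exact (sub_eq_zero.1 h1).symm

end CA.H25Cusp
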