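/-
The cuspidal class function `b * μ` attached to an additive function `b` of the characteristic polynomial.
-/
import Cfsg.Agent.Lib.Lin.H25Cusp2

set_option autoImplicit false

namespace CA.H25Cusp

open Module Ob Polynomial

universe u
variable {F : Type u} [Field F]

/-- the characteristic polynomial -/
noncomputable def cp (X : Ob F) : F[X] := X.h.charpoly

theorem cp_monic (X : Ob F) : (cp X).Monic := X.h.charpoly_monic

theorem cp_iso {X Y : Ob F} (h : Iso X Y) : cp X = cp Y := by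
  obtain ⟨e, he⟩ := h
  rw [cp, cp, ← e.charpoly_conj]
  congr 1
  ext v
  simp [LinearEquiv.conj_apply, he]

theorem cp_ext (A B : Ob F) (T : B.V →ₗ[F] A.V) : cp (ext A B T) = cp A * cp B := by
  let b₁ := Free.chooseBasis F A.V
  let b₂ := Free.chooseBasis F B.V
  rw [cp, cp, cp, ← A.h.charpoly_toMatrix b₁, ← B.h.charpoly_toMatrix b₂,
    ← LinearMap.charpoly_toMatrix _ (b₁.prod b₂), ← Matrix.charpoly_fromBlocks_zero₂₁ _ (T.toMatrix b₂ b₁)]
  congr 1
  ext (i | i) (j | j) <;> simp [LinearMap.toMatrix_apply]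

/-- perturbation along a subspace -/
abbrev pert (X : Ob F) (W : Submodule F X.V) (T : (X.V ⧸ W) →ₗ[F] W) : Ob F := ⟨X.V, X.h + W.subtype ∘ₗ T ∘ₗ W.mkQ⟩

theorem exists_iso_ext (X : Ob F) {W : Submodule F X.V} (hW : X.Inv W) :
    ∃ T₀, ∀ T, Iso (ext (X.sub W hW) (X.quo W hW) (T₀ + T)) (pert X W T) := by
  obtain ⟨s, hs⟩ := W.mkQ.exists_rightInverse_of_surjective W.range_mkQ
  have hs' : ∀ y, W.mkQ (s y) = y := fun y => LinearMap.congr_fun hs y
  have h0 : ∀ y, (X.h ∘ₗ s - s ∘ₗ (X.quo W hW).h) y ∈ W := fun y => by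
    rw [← Submodule.Quotient.mk_eq_zero, ← Submodule.mkQ_apply]
    simp only [LinearMap.sub_apply, LinearMap.comp_apply, map_sub, hs']
    have : (X.quo W hW).h (W.mkQ (s y)) = W.mkQ (X.h (s y)) := rfl
    rw [← this, hs', sub_self]
  have hb : Function.Bijective (W.subtype.coprod s) := by
    refine ⟨(injective_iff_map_eq_zero _).2 fun ⟨w, y⟩ h => ?_, fun v => ⟨(⟨v - s (W.mkQ v), ?_⟩, W.mkQ v), by simp⟩⟩
    · have h1 := congrArg W.mkQ h
      simp only [LinearMap.coprod_apply, map_add, hs', map_zero, Submodule.subtype_apply, Submodule.mkQ_apply,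
        (Submodule.Quotient.mk_eq_zero W).2 w.2, zero_add] at h1
      subst h1
      simpa using h
    · rw [← Submodule.Quotient.mk_eq_zero, ← Submodule.mkQ_apply, map_sub, hs', sub_self]
  refine ⟨LinearMap.codRestrict W _ h0, fun T => ⟨LinearEquiv.ofBijective _ hb, fun ⟨w, y⟩ => ?_⟩⟩
  change X.h w + ((X.h (s y) - s ((X.quo W hW).h y)) + T y) + s ((X.quo W hW).h y) =
    X.h (w + s y) + T (W.mkQ (w + s y))
  rw [map_add, map_add, hs', W.mkQ_apply, (Submodule.Quotient.mk_eq_zero W).2 w.2, zero_add]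
  abel

theorem cp_pert (X : Ob F) {W : Submodule F X.V} (hW : X.Inv W) (T : (X.V ⧸ W) →ₗ[F] W) :
    cp (pert X W T) = cp (X.sub W hW) * cp (X.quo W hW) := by
  obtain ⟨T₀, h⟩ := exists_iso_ext X hW
  rw [← cp_iso (h T), cp_ext]

theorem cp_sub_quo (X : Ob F) {W : Submodule F X.V} (hW : X.Inv W) : cp X = cp (X.sub W hW) * cp (X.quo W hW) := by
  rw [← cp_pert X hW 0]; simp [cp]

theorem cp_ses {X Y Z : Ob F} (i : X.V →ₗ[F] Z.V) (π : Z.V →ₗ[F] Y.V) (hi : Function.Injective i)
    (hπ : Function.Surjective π) (h : LinearMap.ker π = LinearMap.range i) (h1 : ∀ v, i (X.h v) = Z.h (i v))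
    (h2 : ∀ v, π (Z.h v) = Y.h (π v)) : cp Z = cp X * cp Y := by
  have hW : Z.Inv (LinearMap.range i) := by rintro _ ⟨v, rfl⟩; exact ⟨_, h1 v⟩
  rw [cp_sub_quo Z hW, cp_iso (sub_iso hW i hi rfl h1), cp_iso (quo_iso hW π hπ h h2)]

theorem cp_of_subsingleton (X : Ob F) [Subsingleton X.V] : cp X = 1 :=
  (cp_monic X).natDegree_eq_zero.1 (by rw [cp, LinearMap.charpoly_natDegree, finrank_zero_of_subsingleton])

/-- additive functions -/
def Add (b : F[X] → ℂ) : Prop := ∀ p q : F[X], p.Monic → q.Monic → b (p * q) = b p + b q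

theorem Add.one {b : F[X] → ℂ} (hb : Add b) : b 1 = 0 := by simpa using hb 1 1 monic_one monic_one

theorem cls_cp (b : F[X] → ℂ) : Cls fun X : Ob F => b (cp X) := fun _ _ h => congrArg b (cp_iso h)

variable [Finite F]

/-- the cuspidal function -/
noncomputable def DD (b : F[X] → ℂ) : Ob F → ℂ := conv (fun X => b (cp X)) mu

theorem cls_DD (b : F[X] → ℂ) : Cls (DD b) := (cls_cp b).conv cls_mu

theorem av_DD {b : F[X] → ℂ} (hb : Add b) (A B : Ob F) : av (DD b) A B = DD b A * dl B + dl A * DD b B := by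
  classical
  have h1 := mackey cls_mu A B fun X Y => tm (fun X => b (cp X)) 1 A X + tm (fun X => b (cp X)) 1 B Y
  rw [av]
  convert h1 using 1
  · congr 1
    refine Finset.sum_congr rfl fun T _ => Finset.sum_congr rfl fun W _ => ?_
    by_cases hW : (ext A B T).Inv W
    · have hX : A.Inv (W.comap (LinearMap.inl F _ _)) := fun a ha => by simpa using hW _ ha
      have hY : B.Inv (W.map (LinearMap.snd F _ _)) := by rintro _ ⟨v, hv, rfl⟩; exact ⟨_, hW v hv, rfl⟩
      rw [tm_pos _ _ hW, tm_pos _ _ hW, tm_pos _ _ hX, tm_pos _ _ hY, cp_ses (X := A.sub _ hX) (Y := B.sub _ hY)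
        ((LinearMap.inl F A.V B.V).restrict fun _ h => h) ((LinearMap.snd F A.V B.V).submoduleMap W)
        (fun x y e => Subtype.ext (congrArg Prod.fst (congrArg Subtype.val e))) (LinearMap.submoduleMap_surjective _ _) ?_
        (fun v => Subtype.ext (show (A.h v.1, 0) = (A.h v.1 + T 0, B.h 0) by simp)) (fun v => rfl), hb _ _ (cp_monic _) (cp_monic _)]
      · simp
      · ext ⟨⟨a, y⟩, h⟩
        refine ⟨fun e => ?_, by rintro ⟨v, e⟩; rw [← e]; rfl⟩
        obtain rfl : y = 0 := congrArg Subtype.val e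
        exact ⟨⟨a, h⟩, rfl⟩
    · rw [tm_neg _ _ hW, tm_neg _ _ hW, mul_zero]
  · rw [← one_conv_mu, ← one_conv_mu, DD, conv, conv, conv, conv, Finset.sum_mul_sum, Finset.sum_mul_sum,
      ← Finset.sum_add_distrib]
    refine Finset.sum_congr rfl fun X _ => ?_
    rw [← Finset.sum_add_distrib]
    refine Finset.sum_congr rfl fun Y _ => ?_
    split_ifs with hX hY
    · simp only [tm_pos _ _ hX, tm_pos _ _ hY, av_mu, Pi.one_apply]; ring
    · simp [tm_neg _ _ hY]
    · simp [tm_neg _ _ hX]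

theorem sum_pert {b : F[X] → ℂ} (hb : Add b) (X : Ob F) {W : Submodule F X.V} (hW : X.Inv W) (h0 : W ≠ ⊥)
    (h1 : W ≠ ⊤) : ∑ T, DD b (pert X W T) = 0 := by
  obtain ⟨T₀, h⟩ := exists_iso_ext X hW
  have := av_DD hb (X.sub W hW) (X.quo W hW)
  rw [dl, dl, if_neg (fun h => h1 (Submodule.Quotient.subsingleton_iff.1 h)),
    if_neg (fun h => h0 (Submodule.subsingleton_iff_eq_bot.1 h)), av, mul_zero, zero_mul, add_zero,
    mul_eq_zero, inv_eq_zero, Nat.cast_eq_zero] at this
  rw [← this.resolve_left Fintype.card_ne_zero]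
  exact Fintype.sum_equiv (Equiv.addLeft T₀) _ _ fun T => (cls_DD b _ _ (h T)).symm

theorem sum_eq_zero {b : F[X] → ℂ} (hb : Add b) {V : Type u} [AddCommGroup V] [Module F V] [Module.Finite F V]
    {W : Submodule F V} (h0 : W ≠ ⊥) (h1 : W ≠ ⊤) (u : (V →ₗ[F] V) → ℂ) (hu : ∀ g, u g ≠ 0 → (Ob.mk V g).Inv W)
    (hu' : ∀ g, (Ob.mk V g).Inv W → ∀ T : (V ⧸ W) →ₗ[F] W, u (g + W.subtype ∘ₗ T ∘ₗ W.mkQ) = u g) :
    ∑ g, u g * DD b ⟨V, g⟩ = 0 := by
  have : ∑ T : (V ⧸ W) →ₗ[F] W, ∑ g, u g * DD b ⟨V, g⟩ = 0 := by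
    rw [Finset.sum_congr rfl fun T _ => (Equiv.sum_comp (Equiv.addRight (W.subtype ∘ₗ T ∘ₗ W.mkQ)) _).symm,
      Finset.sum_comm]
    refine Finset.sum_eq_zero fun g _ => ?_
    by_cases h : (Ob.mk V g).Inv W
    · simp only [Equiv.coe_addRight, hu' g h, ← Finset.mul_sum]
      rw [sum_pert hb ⟨V, g⟩ h h0 h1, mul_zero]
    · refine Finset.sum_eq_zero fun T _ => mul_eq_zero_of_left (by_contra fun hn => h fun v hv => ?_) _
      simpa [(Submodule.Quotient.mk_eq_zero W).2 hv] using hu _ hn v hv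
  simpa using this

/-! ### the degree -/

theorem finrank_gr {A B : Type u} [AddCommGroup A] [Module F A] [AddCommGroup B] [Module F B] [Module.Finite F A]
    [Module.Finite F B] (X : Submodule F A) (Y : Submodule F B) (S : B →ₗ[F] A) :
    finrank F (gr X Y S) = finrank F X + finrank F Y := by
  rw [← Module.finrank_prod]
  refine (LinearEquiv.ofBijective (LinearMap.codRestrict (gr X Y S)
    ((X.subtype.coprod (S ∘ₗ Y.subtype)).prod (Y.subtype ∘ₗ LinearMap.snd F X Y)) fun v => mem_gr.2 (by simp))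
    ⟨fun ⟨a, b⟩ ⟨a', b'⟩ e => ?_, fun ⟨⟨a, b⟩, h⟩ => ⟨(⟨_, h.1⟩, ⟨_, h.2⟩), Subtype.ext (by simp)⟩⟩).finrank_eq.symm
  have e1 : ((a : A) + S b, (b : B)) = ((a' : A) + S b', (b' : B)) := congrArg Subtype.val e
  obtain ⟨e2, e3⟩ := Prod.ext_iff.1 e1
  obtain rfl : b = b' := Subtype.ext e3
  exact Prod.ext (Subtype.ext (add_right_cancel e2)) rfl

theorem sum_succ {V : Type u} [AddCommGroup V] [Module F V] [Module.Finite F V] {n : ℕ} (hV : finrank F V = n + 1)
    (f : ℕ → ℂ) : ∑ W : Submodule F V, f (finrank F W) =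
      ∑ Y : Submodule F (Fin n → F), (f (finrank F Y + 1) + (Nat.card F : ℂ) ^ finrank F Y * f (finrank F Y)) := by
  classical
  obtain ⟨e⟩ : Nonempty (V ≃ₗ[F] F × (Fin n → F)) := FiniteDimensional.nonempty_linearEquiv_of_finrank_eq
    (by simp [hV, add_comm])
  rw [Fintype.sum_equiv (Submodule.orderIsoMapComap e).toEquiv _ (fun W => f (finrank F W))
    fun W => congrArg f (LinearEquiv.finrank_map_eq e W).symm, sum_gr, Finset.sum_comm]
  refine Finset.sum_congr rfl fun Y _ => ?_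
  have hu : (Finset.univ : Finset (Submodule F F)) = {⊤, ⊥} := by
    ext X
    rw [Finset.mem_insert, Finset.mem_singleton, or_comm]
    exact iff_of_true (Finset.mem_univ _) (Ideal.eq_bot_or_top X)
  have h0 : (Fintype.card ((Fin n → F) →ₗ[F] F) : ℂ) ≠ 0 := Nat.cast_ne_zero.2 Fintype.card_ne_zero
  have h1 : Nat.card (KK (⊤ : Submodule F F) Y) = Fintype.card ((Fin n → F) →ₗ[F] F) := by
    rw [← Nat.card_eq_fintype_card]
    exact Nat.card_congr (Equiv.subtypeUnivEquiv fun _ _ _ => trivial)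
  have h2 : Fintype.card ((Fin n → F) →ₗ[F] F) = Nat.card F ^ finrank F Y * Nat.card (KK (⊥ : Submodule F F) Y) := by
    have : Nat.card (KK (⊥ : Submodule F F) Y) = Nat.card Y.dualAnnihilator :=
      Nat.card_congr (Equiv.subtypeEquivRight fun S => by rw [Submodule.mem_dualAnnihilator]; rfl)
    rw [this, ← Nat.card_eq_fintype_card, Module.natCard_eq_pow_finrank (K := F),
      Module.natCard_eq_pow_finrank (K := F) (V := Y.dualAnnihilator), ← pow_add,
      Subspace.finrank_add_finrank_dualAnnihilator_eq]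
    simp
  have h3 : (Nat.card (KK (⊥ : Submodule F F) Y) : ℂ) ≠ 0 := Nat.cast_ne_zero.2 Nat.card_pos.ne'
  rw [hu, Finset.sum_pair (show (⊤ : Submodule F F) ≠ ⊥ from
    fun e => one_ne_zero (α := F) ((Submodule.mem_bot F).1 (e.le Submodule.mem_top)))]
  simp only [finrank_gr, Finset.sum_const, Finset.card_univ, nsmul_eq_mul, h1, finrank_top, finrank_self, finrank_bot,
    zero_add]
  rw [inv_mul_cancel_left₀ h0, h2, add_comm 1]
  push_cast
  field_simp

/-- the Möbius function of the identity -/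
noncomputable def nu (q : ℂ) : ℕ → ℂ
  | 0 => 1
  | m + 1 => -q ^ m * nu q m

theorem sum_nu {n : ℕ} (ih : ∀ m ≤ n, ∀ X : Ob F, X.h = LinearMap.id → finrank F X.V = m → mu X = nu (Nat.card F) m) :
    ∑ Y : Submodule F (Fin n → F), nu (Nat.card F) (n - finrank F Y) = if n = 0 then 1 else 0 := by
  have := one_conv_mu (Ob.mk (Fin n → F) (LinearMap.id : _ →ₗ[F] _))
  rw [conv, Finset.sum_congr rfl fun Y _ => tm_pos _ _ (W := Y) fun _ h => h, dl] at this
  convert this using 1
  · refine Finset.sum_congr rfl fun Y _ => ?_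
    have := Y.finrank_quotient_add_finrank
    rw [finrank_fin_fun] at this
    rw [Pi.one_apply, one_mul, ih (n - finrank F Y) (Nat.sub_le _ _) _ (Submodule.mapQ_id _)
      (by change finrank F (_ ⧸ Y) = _; omega)]
  · congr 1
    rw [← finrank_zero_iff (R := F), finrank_fin_fun]

theorem mu_id {n : ℕ} (X : Ob F) (h : X.h = LinearMap.id) (hn : finrank F X.V = n) : mu X = nu (Nat.card F) n := by
  classical
  induction n using Nat.strong_induction_on generalizing X with
  | _ n ih =>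
    cases n with
    | zero => rw [mu, if_pos (finrank_zero_iff.1 hn), nu]
    | succ n =>
      have h1 := sum_succ hn fun k => nu (Nat.card F) (n + 1 - k)
      have h2 := sum_nu (F := F) (n := n) fun m hm X => ih m (by omega) X
      have h3 : ∀ Y : Submodule F (Fin n → F), nu (Nat.card F) (n + 1 - (finrank F Y + 1)) +
          (Nat.card F : ℂ) ^ finrank F Y * nu (Nat.card F) (n + 1 - finrank F Y) =
          (1 - (Nat.card F : ℂ) ^ n) * nu (Nat.card F) (n - finrank F Y) := fun Y => by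
        have := Y.finrank_le
        rw [finrank_fin_fun] at this
        rw [Nat.add_sub_add_right, Nat.sub_add_comm this, nu]
        rw [← pow_mul_pow_sub (Nat.card F : ℂ) this]
        ring
      simp only [h3, ← Finset.mul_sum, h2] at h1
      have h4 : (1 - (Nat.card F : ℂ) ^ n) * (if n = 0 then 1 else 0) = 0 := by split_ifs with h <;> simp [h]
      rw [h4, ← Finset.add_sum_erase _ _ (Finset.mem_univ ⊥), finrank_bot, Nat.sub_zero] at h1
      rw [mu_eq, dl, if_neg (fun h => by rw [finrank_zero_iff.2 h] at hn; omega), zero_sub,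
        eq_neg_of_add_eq_zero_left h1]
      congr 1
      refine Finset.sum_congr rfl fun W hW => ?_
      have hW' : X.Inv W := fun v hv => by rwa [h]
      have := W.finrank_quotient_add_finrank
      have h5 := X.finrank_quo_lt hW' (Finset.mem_erase.1 hW).1
      rw [tm_pos _ _ hW', Pi.one_apply, one_mul, ih _ (hn ▸ h5) _ ?_ rfl]
      · congr 1; change finrank F (X.V ⧸ W) = _; omega
      · ext v; simp [h]

theorem sum_deg (n : ℕ) : ∑ Y : Submodule F (Fin (n + 1) → F), finrank F Y * nu (Nat.card F) (n + 1 - finrank F Y) =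
    ∏ i ∈ Finset.Ico 1 (n + 1), (1 - (Nat.card F : ℂ) ^ i) := by
  have key : ∀ n, ∑ Y : Submodule F (Fin (n + 1) → F), finrank F Y * nu (Nat.card F) (n + 1 - finrank F Y) =
      (if n = 0 then 1 else 0) + (1 - (Nat.card F : ℂ) ^ n) *
        ∑ Y : Submodule F (Fin n → F), finrank F Y * nu (Nat.card F) (n - finrank F Y) := fun n => by
    rw [sum_succ (finrank_fin_fun F) fun k => k * nu (Nat.card F) (n + 1 - k),
      ← sum_nu (F := F) fun m _ X => mu_id X, Finset.mul_sum, ← Finset.sum_add_distrib]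
    refine Finset.sum_congr rfl fun Y _ => ?_
    have := Y.finrank_le
    rw [finrank_fin_fun] at this
    rw [Nat.add_sub_add_right, Nat.sub_add_comm this, nu]
    rw [← pow_mul_pow_sub (Nat.card F : ℂ) this]
    push_cast
    ring
  induction n with
  | zero => rw [key]; simp
  | succ n ih => rw [key, ih, Finset.prod_Ico_succ_top (by omega : 1 ≤ n + 1)]; simp [mul_comm]

theorem DD_id {b : F[X] → ℂ} (hb : Add b) (h1 : b (X - 1) = 1) (n : ℕ) :
    DD b ⟨Fin (n + 1) → F, LinearMap.id⟩ = ∏ i ∈ Finset.Ico 1 (n + 1), (1 - (Nat.card F : ℂ) ^ i) := by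
  have hm : (X - 1 : F[X]).Monic := monic_X_sub_C 1
  have : ∀ k : ℕ, b ((X - 1) ^ k) = k := fun k => by
    induction k with
    | zero => simpa using hb.one
    | succ k ih => rw [pow_succ, hb _ _ (hm.pow k) hm, ih, h1]; simp
  rw [← sum_deg, DD, conv]
  refine Finset.sum_congr rfl fun Y _ => ?_
  have h2 := Y.finrank_quotient_add_finrank
  rw [finrank_fin_fun] at h2
  rw [tm_pos _ _ (W := Y) fun _ h => h, mu_id (n := n + 1 - finrank F Y) _ (Submodule.mapQ_id _)
    (by change finrank F (_ ⧸ Y) = _; omega), ← this (finrank F Y), ← LinearMap.charpoly_one (M := Y)]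
  rfl

end CA.H25Cusp
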