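/-
Cyclic objects of the Hall algebra; counting pairs (endomorphism, vector).
-/
import Cfsg.Agent.Lib.Lin.H25Cusp3

set_option autoImplicit false

namespace CA.H25Cusp

open Module Ob Polynomial

universe u
variable {F : Type u} [Field F]

/-- cyclic objects -/
noncomputable abbrev cyc (p : F[X]) (hp : p.Monic) : Ob F :=
  @Ob.mk F _ (AdjoinRoot p) _ _ hp.finite_adjoinRoot (LinearMap.mulLeft F (AdjoinRoot.root p))

theorem cp_cyc {p : F[X]} (hp : p.Monic) : cp (cyc p hp) = p := by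
  classical
  have := hp.finite_adjoinRoot
  rw [cp, ← LinearMap.charpoly_toMatrix _ (AdjoinRoot.powerBasis hp.ne_zero).basis]
  exact (charpoly_leftMulMatrix (AdjoinRoot.powerBasis hp.ne_zero)).trans (AdjoinRoot.minpoly_powerBasis_gen_of_monic hp)

theorem finrank_cyc {p : F[X]} (hp : p.Monic) : finrank F (AdjoinRoot p) = p.natDegree :=
  (AdjoinRoot.powerBasis' hp).finrank

open Classical in
/-- values on cyclic objects -/
noncomputable def cv (φ : Ob F → ℂ) (p : F[X]) : ℂ := if hp : p.Monic then φ (cyc p hp) else 0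

theorem cv_eq (φ : Ob F → ℂ) {p : F[X]} (hp : p.Monic) : cv φ p = φ (cyc p hp) := dif_pos hp

/-- the invariant subspace attached to a divisor -/
noncomputable def Wd (p g : F[X]) : Submodule F (AdjoinRoot p) := (Ideal.span {AdjoinRoot.mk p g}).restrictScalars F

theorem mk_mem_Wd {p g r : F[X]} (h : g ∣ p) : AdjoinRoot.mk p r ∈ Wd p g ↔ g ∣ r := by
  rw [Wd, Submodule.restrictScalars_mem, Ideal.mem_span_singleton]
  refine ⟨fun ⟨c, hc⟩ => ?_, fun h => map_dvd _ h⟩
  obtain ⟨c, rfl⟩ := AdjoinRoot.mk_surjective c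
  rw [← map_mul, AdjoinRoot.mk_eq_mk] at hc
  simpa using dvd_add (h.trans hc) (dvd_mul_right g c)

theorem inv_Wd {p : F[X]} (hp : p.Monic) (g : F[X]) : (cyc p hp).Inv (Wd p g) := fun _ hv =>
  Ideal.mul_mem_left _ _ hv

theorem quo_Wd {p g : F[X]} (hp : p.Monic) (hg : g.Monic) (h : g ∣ p) :
    Iso ((cyc p hp).quo _ (inv_Wd hp g)) (cyc g hg) := by
  have e : ∀ r, AdjoinRoot.algHomOfDvd F p g h (AdjoinRoot.mk p r) = AdjoinRoot.mk g r := fun r => by
    rw [← AdjoinRoot.aeval_eq, ← aeval_algHom_apply, AdjoinRoot.algHomOfDvd_root, AdjoinRoot.aeval_eq]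
  refine quo_iso (Y := cyc g hg) _ (AdjoinRoot.algHomOfDvd F p g h).toLinearMap (fun y => ?_) ?_ fun v => by simp
  · obtain ⟨y, rfl⟩ := AdjoinRoot.mk_surjective y
    exact ⟨AdjoinRoot.mk p y, e y⟩
  · ext v
    obtain ⟨v, rfl⟩ := AdjoinRoot.mk_surjective v
    rw [mk_mem_Wd h, LinearMap.mem_ker, AlgHom.toLinearMap_apply, e, AdjoinRoot.mk_eq_zero]

theorem aeval_mem {X : Ob F} {W : Submodule F X.V} (hW : X.Inv W) (r : F[X]) {v : X.V} (hv : v ∈ W) :
    aeval X.h r v ∈ W := by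
  induction r using Polynomial.induction_on' with
  | add p q hp hq => simpa using add_mem hp hq
  | monomial n a =>
    rw [aeval_monomial, Module.End.mul_apply, Module.algebraMap_end_apply]
    exact W.smul_mem _ (Module.End.pow_apply_mem_of_forall_mem n hW v hv)

theorem exists_Wd {p : F[X]} (hp : p.Monic) {W : Submodule F (AdjoinRoot p)} (hW : (cyc p hp).Inv W) :
    ∃ g : F[X], g.Monic ∧ g ∣ p ∧ Wd p g = W := by
  let I : Ideal F[X] :=
    { carrier := {r | AdjoinRoot.mk p r ∈ W}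
      add_mem' := fun h h' => by simpa using add_mem h h'
      zero_mem' := by simp
      smul_mem' := fun c r hr => by
        have := aeval_mem hW c hr
        rw [show (cyc p hp).h = Algebra.lmul F _ (AdjoinRoot.root p) from rfl,
          aeval_algHom_apply, AdjoinRoot.aeval_eq] at this
        simpa using this }
  obtain ⟨g, hg⟩ := (IsPrincipalIdealRing.principal I).principal
  have h1 : ∀ r, AdjoinRoot.mk p r ∈ W ↔ g ∣ r := fun r => by
    rw [← Ideal.mem_span_singleton, ← Ideal.submodule_span_eq, ← hg]; rfl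
  have h2 : g ∣ p := (h1 p).1 (by simp)
  have h3 : g ≠ 0 := ne_zero_of_dvd_ne_zero hp.ne_zero h2
  classical
  refine ⟨normalize g, monic_normalize h3, normalize_dvd_iff.2 h2, Submodule.ext fun v => ?_⟩
  obtain ⟨v, rfl⟩ := AdjoinRoot.mk_surjective v
  rw [mk_mem_Wd (normalize_dvd_iff.2 h2), h1, normalize_dvd_iff]

/-- the cyclic subspace generated by a vector -/
noncomputable def Zs {V : Type u} [AddCommGroup V] [Module F V] (g : V →ₗ[F] V) (v : V) : Submodule F V :=
  LinearMap.range (LinearMap.applyₗ v ∘ₗ (aeval (R := F) g).toLinearMap)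

section
variable {V : Type u} [AddCommGroup V] [Module F V] [Module.Finite F V]

omit [Module.Finite F V] in
theorem mem_Zs {g : V →ₗ[F] V} {v w : V} : w ∈ Zs g v ↔ ∃ r : F[X], aeval g r v = w := Iff.rfl

omit [Module.Finite F V] in
theorem self_mem_Zs (g : V →ₗ[F] V) (v : V) : v ∈ Zs g v := mem_Zs.2 ⟨1, by simp⟩

theorem inv_Zs (g : V →ₗ[F] V) (v : V) : (Ob.mk V g).Inv (Zs g v) := by
  rintro _ ⟨r, rfl⟩
  exact mem_Zs.2 ⟨X * r, by simp⟩

theorem Zs_congr {g g' : V →ₗ[F] V} {W : Submodule F V} (hW : (Ob.mk V g).Inv W) (h : ∀ w ∈ W, g' w = g w) {v : V}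
    (hv : v ∈ W) : Zs g' v = Zs g v := by
  have : ∀ r : F[X], aeval g' r v = aeval g r v := fun r => by
    induction r using Polynomial.induction_on' with
    | add p q hp hq => simp [hp, hq]
    | monomial n a =>
      simp only [aeval_monomial, Module.End.mul_apply]
      congr 1
      induction n with
      | zero => rfl
      | succ n ih => rw [pow_succ', pow_succ', Module.End.mul_apply, Module.End.mul_apply, ih,
          h _ (Module.End.pow_apply_mem_of_forall_mem n hW v hv)]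
  ext w
  simp only [mem_Zs, this]

theorem exists_cyc_equiv {g : V →ₗ[F] V} {v : V} (h : Zs g v = ⊤) :
    ∃ e : AdjoinRoot g.charpoly ≃ₗ[F] V, ∀ r, e (AdjoinRoot.mk _ r) = aeval g r v := by
  have hp := g.charpoly_monic
  have := hp.finite_adjoinRoot
  let L := (LinearMap.applyₗ v ∘ₗ (aeval (R := F) g).toLinearMap) ∘ₗ AdjoinRoot.modByMonicHom hp
  have hL : ∀ r, L (AdjoinRoot.mk _ r) = aeval g r v := fun r => by
    change aeval g (r %ₘ g.charpoly) v = _
    rw [aeval_modByMonic_eq_self_of_root g.aeval_self_charpoly]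
  have hs : Function.Surjective L := fun w => by
    obtain ⟨r, rfl⟩ := mem_Zs.1 (h.ge (Submodule.mem_top (x := w)))
    exact ⟨_, hL r⟩
  exact ⟨LinearEquiv.ofBijective L ⟨(LinearMap.injective_iff_surjective_of_finrank_eq_finrank
    (by rw [finrank_cyc hp, g.charpoly_natDegree])).2 hs, hs⟩, hL⟩

theorem iso_cyc {g : V →ₗ[F] V} {v : V} (h : Zs g v = ⊤) : Iso (cyc _ g.charpoly_monic) ⟨V, g⟩ := by
  obtain ⟨e, he⟩ := exists_cyc_equiv h
  refine ⟨e, fun x => ?_⟩
  obtain ⟨x, rfl⟩ := AdjoinRoot.mk_surjective x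
  change e (AdjoinRoot.mk _ X * _) = g (e _)
  rw [← map_mul, he, he]; simp

theorem card_cyc {p : F[X]} (hp : p.Monic) (hn : p.natDegree = finrank F V) :
    Nat.card {x : V × (V →ₗ[F] V) // Zs x.2 x.1 = ⊤ ∧ x.2.charpoly = p} = Nat.card (V ≃ₗ[F] V) := by
  have := hp.finite_adjoinRoot
  obtain ⟨e₀⟩ : Nonempty (AdjoinRoot p ≃ₗ[F] V) :=
    FiniteDimensional.nonempty_linearEquiv_of_finrank_eq ((finrank_cyc hp).trans hn)
  have key : ∀ (e : AdjoinRoot p ≃ₗ[F] V) (r : F[X]),
      aeval (e.conj (LinearMap.mulLeft F (AdjoinRoot.root p))) r (e 1) = e (AdjoinRoot.mk p r) := fun e r => by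
    rw [show e.conj (LinearMap.mulLeft F (AdjoinRoot.root p)) =
      (e.conjAlgEquiv F : _ →ₐ[F] _) (Algebra.lmul F _ (AdjoinRoot.root p)) from rfl, aeval_algHom_apply,
      aeval_algHom_apply, AdjoinRoot.aeval_eq]
    simp [LinearEquiv.conjAlgEquiv_apply]
  rw [← Nat.card_congr (Equiv.mk (fun e : AdjoinRoot p ≃ₗ[F] V => e₀.symm.trans e) (fun e => e₀.trans e)
    (fun e => by ext; simp) (fun e => by ext; simp))]
  have k1 : ∀ e : AdjoinRoot p ≃ₗ[F] V, Zs (e.conj (LinearMap.mulLeft F (AdjoinRoot.root p))) (e 1) = ⊤ := fun e => by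
    refine eq_top_iff.2 fun w _ => ?_
    obtain ⟨w, rfl⟩ := e.surjective w
    obtain ⟨w, rfl⟩ := AdjoinRoot.mk_surjective w
    exact ⟨w, key e w⟩
  refine (Nat.card_eq_of_bijective (fun e : AdjoinRoot p ≃ₗ[F] V => (⟨(e 1, e.conj (LinearMap.mulLeft F (AdjoinRoot.root p))),
    k1 e, (e.charpoly_conj _).trans (cp_cyc hp)⟩ : {x : V × (V →ₗ[F] V) // Zs x.2 x.1 = ⊤ ∧ x.2.charpoly = p}))
    ⟨fun e e' h => ?_, ?_⟩).symm
  · obtain ⟨h1, h2⟩ := Prod.ext_iff.1 (congrArg Subtype.val h)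
    ext w
    obtain ⟨w, rfl⟩ := AdjoinRoot.mk_surjective w
    dsimp only at h1 h2
    rw [← key, ← key, h1, h2]
  · rintro ⟨⟨v, g⟩, h, rfl⟩
    obtain ⟨e, he⟩ := exists_cyc_equiv h
    refine ⟨e, Subtype.ext (Prod.ext (by simpa using he 1) ?_)⟩
    ext w
    obtain ⟨w, rfl⟩ := e.surjective w
    obtain ⟨w, rfl⟩ := AdjoinRoot.mk_surjective w
    change e (AdjoinRoot.mk _ X * e.symm (e _)) = g (e _)
    rw [e.symm_apply_apply, ← map_mul, he, he]; simp

end

variable [Finite F]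

theorem finite_natDegree (n : ℕ) : {g : F[X] | g.natDegree ≤ n}.Finite := by
  have : Finite (degreeLT F (n + 1)) := Finite.of_equiv _ (degreeLTEquiv F (n + 1)).symm.toEquiv
  exact (Set.toFinite (degreeLT F (n + 1) : Set F[X])).subset fun g hg =>
    mem_degreeLT.2 (degree_le_natDegree.trans_lt (by exact_mod_cast Nat.lt_succ_of_le hg))

open Classical in
/-- monic divisors -/
noncomputable def Dv (p : F[X]) : Finset F[X] :=
  (finite_natDegree p.natDegree).toFinset.filter fun g => g.Monic ∧ g ∣ p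

theorem mem_Dv {p g : F[X]} (hp : p.Monic) : g ∈ Dv p ↔ g.Monic ∧ g ∣ p := by
  simpa [Dv] using fun _ h => natDegree_le_of_dvd h hp.ne_zero

open Classical in
/-- monic polynomials of a given degree -/
noncomputable def Mn (F : Type u) [Field F] [Finite F] (n : ℕ) : Finset F[X] :=
  (finite_natDegree n).toFinset.filter fun g => g.Monic ∧ g.natDegree = n

theorem mem_Mn {n : ℕ} {g : F[X]} : g ∈ Mn F n ↔ g.Monic ∧ g.natDegree = n := by
  simpa [Mn] using fun _ h => h.le

theorem conv_cyc (c : F[X] → ℂ) {p : F[X]} (hp : p.Monic) :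
    conv (fun X => c (cp X)) mu (cyc p hp) = ∑ g ∈ Dv p, c (p /ₘ g) * cv mu g := by
  classical
  have := hp.finite_adjoinRoot
  rw [conv, ← Finset.sum_subset (Finset.subset_univ (Finset.univ.filter fun W => (cyc p hp).Inv W))
    fun W _ h => tm_neg _ _ fun h' => h (Finset.mem_filter.2 ⟨Finset.mem_univ _, h'⟩)]
  refine (Finset.sum_bij (fun g _ => Wd p g) (fun g _ => Finset.mem_filter.2 ⟨Finset.mem_univ _, inv_Wd hp g⟩)
    (fun g hg g' hg' e => ?_) (fun W hW => ?_) fun g hg => ?_).symm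
  · rw [mem_Dv hp] at hg hg'
    exact eq_of_monic_of_associated hg.1 hg'.1 (associated_of_dvd_dvd
      ((mk_mem_Wd hg.2).1 (e.ge ((mk_mem_Wd hg'.2).2 dvd_rfl))) ((mk_mem_Wd hg'.2).1 (e.le ((mk_mem_Wd hg.2).2 dvd_rfl))))
  · obtain ⟨g, h1, h2, h3⟩ := exists_Wd hp (Finset.mem_filter.1 hW).2
    exact ⟨g, (mem_Dv hp).2 ⟨h1, h2⟩, h3⟩
  · rw [mem_Dv hp] at hg
    have := cp_sub_quo _ (inv_Wd hp g)
    rw [cp_cyc, cp_iso (quo_Wd hp hg.1 hg.2), cp_cyc] at this
    rw [tm_pos _ _ (inv_Wd hp g), cls_mu _ _ (quo_Wd hp hg.1 hg.2), cv_eq _ hg.1]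
    congr 2
    conv_lhs => rw [this, mul_comm, mul_divByMonic_cancel_left _ hg.1]

open Classical in
theorem sum_cv_mu {p : F[X]} (hp : p.Monic) : ∑ g ∈ Dv p, cv mu g = if p = 1 then 1 else 0 := by
  have := conv_cyc (fun _ => 1) hp
  simp only [one_mul] at this
  rw [← this, show conv (fun _ => 1) mu (cyc p hp) = conv 1 mu (cyc p hp) from rfl, one_conv_mu, dl]
  have := hp.finite_adjoinRoot
  congr 1
  rw [← finrank_zero_iff (R := F), finrank_cyc hp, hp.natDegree_eq_zero]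

theorem count_pairs {b : F[X] → ℂ} (hb : Add b) {V : Type u} [AddCommGroup V] [Module F V] [Module.Finite F V]
    [Nontrivial V] (w : F[X] → ℂ) : ((Nat.card V : ℂ) - 1) * ∑ g : V →ₗ[F] V, w g.charpoly * DD b ⟨V, g⟩ =
      Nat.card (V ≃ₗ[F] V) * ∑ p ∈ Mn F (finrank F V), w p * cv (DD b) p := by
  classical
  have : Finite V := Module.finite_of_finite F
  have := Fintype.ofFinite V
  have h1 : ∀ v : V, ∑ g : V →ₗ[F] V, w g.charpoly * DD b ⟨V, g⟩ =
      (if v = 0 then ∑ g : V →ₗ[F] V, w g.charpoly * DD b ⟨V, g⟩ else 0) +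
        ∑ g : V →ₗ[F] V, if Zs g v = ⊤ then w g.charpoly * DD b ⟨V, g⟩ else 0 := fun v => by
    have e : ∑ g : V →ₗ[F] V, w g.charpoly * DD b ⟨V, g⟩ =
        ∑ W : Submodule F V, ∑ g : V →ₗ[F] V, (if Zs g v = W then w g.charpoly else 0) * DD b ⟨V, g⟩ := by
      rw [Finset.sum_comm]; simp
    conv_lhs => rw [e]
    rw [Finset.sum_eq_add_of_mem ⊥ ⊤ (Finset.mem_univ _) (Finset.mem_univ _) bot_ne_top fun W _ hW =>
      sum_eq_zero hb hW.1 hW.2 _ (fun g hg => by
        by_cases h : Zs g v = W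
        · exact h ▸ inv_Zs g v
        · simp [h] at hg) fun g hg T => ?_]
    · congr 1
      · have : ∀ g : V →ₗ[F] V, Zs g v = ⊥ ↔ v = 0 := fun g =>
          ⟨fun h => (Submodule.mem_bot F).1 (h ▸ self_mem_Zs g v), fun h => eq_bot_iff.2 (by
            rintro _ ⟨r, rfl⟩; simp [h])⟩
        simp only [this]
        split_ifs <;> simp
      · simp
    · by_cases hv : v ∈ W
      · rw [Zs_congr hg (fun w hw => by simp [(Submodule.Quotient.mk_eq_zero W).2 hw]) hv]
        exact congrArg (fun z => if Zs g v = W then w z else 0) ((cp_pert _ hg T).trans (cp_sub_quo _ hg).symm)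
      · have : ∀ g, Zs g v ≠ W := fun g h => hv (h ▸ self_mem_Zs g v)
        rw [if_neg (this _), if_neg (this _)]
  have h2 := Finset.sum_congr rfl fun v (_ : v ∈ Finset.univ) => h1 v
  rw [Finset.sum_add_distrib, Finset.sum_ite_eq', if_pos (Finset.mem_univ _), Finset.sum_const, Finset.card_univ,
    nsmul_eq_mul, ← Nat.card_eq_fintype_card, ← Fintype.sum_prod_type', ← Finset.sum_filter,
    ← Finset.sum_fiberwise_of_maps_to (g := fun x : V × (V →ₗ[F] V) => x.2.charpoly) (t := Mn F (finrank F V))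
      (fun x _ => mem_Mn.2 ⟨x.2.charpoly_monic, x.2.charpoly_natDegree⟩)] at h2
  rw [sub_mul, h2, one_mul, add_sub_cancel_left, Finset.mul_sum]
  refine Finset.sum_congr rfl fun p hp => ?_
  rw [mem_Mn] at hp
  rw [Finset.sum_congr rfl (g := fun _ => w p * cv (DD b) p) fun x hx => ?_, Finset.sum_const, nsmul_eq_mul,
    ← card_cyc hp.1 hp.2, Finset.filter_filter, Nat.card_eq_fintype_card, Fintype.card_subtype]
  simp only [Finset.mem_filter] at hx
  rw [← hx.2, cv_eq _ x.2.charpoly_monic, cls_DD b _ _ (iso_cyc hx.1.2)]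

end CA.H25Cusp
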