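/-
The additive functions given by sums over eigenvalues, and the values of the cuspidal function on cyclic objects.
-/
import Cfsg.Agent.Lib.Lin.H25Cusp4

set_option autoImplicit false

namespace CA.H25Cusp

open Module Ob Polynomial

universe u
variable {F : Type u} [Field F] {K : Type*} [Field K] [Algebra F K] [Fintype K]

/-- the sum over the roots -/
noncomputable def bK (θ : K → ℂ) (P : K[X]) : ℂ := ∑ t, θ t * P.rootMultiplicity t

theorem bK_mul (θ : K → ℂ) {P Q : K[X]} (h : P * Q ≠ 0) : bK θ (P * Q) = bK θ P + bK θ Q := by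
  simp only [bK, rootMultiplicity_mul h, Nat.cast_add, mul_add, Finset.sum_add_distrib]

theorem bK_X_sub_C (θ : K → ℂ) (s : K) : bK θ (X - C s) = θ s := by
  classical simp [bK, rootMultiplicity_X_sub_C]

theorem bK_prod (θ : K → ℂ) (s : ℕ → K) (n : ℕ) :
    bK θ (∏ i ∈ Finset.range n, (X - C (s i))) = ∑ i ∈ Finset.range n, θ (s i) := by
  induction n with
  | zero => simp [bK, rootMultiplicity_eq_zero (show ¬ IsRoot (1 : K[X]) _ from by simp)]
  | succ n ih =>
    rw [Finset.prod_range_succ, bK_mul _ (mul_ne_zero (monic_prod_X_sub_C _ _).ne_zero (X_sub_C_ne_zero _)), ih,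
      bK_X_sub_C, Finset.sum_range_succ]

variable (F) in
/-- the sum over the roots in an extension -/
noncomputable def bb (θ : K → ℂ) (p : F[X]) : ℂ := bK θ (p.map (algebraMap F K))

theorem add_bb (θ : K → ℂ) : Add (bb F θ) := fun p q hp hq => by
  rw [bb, Polynomial.map_mul, bK_mul _ (mul_ne_zero (hp.map _).ne_zero (hq.map _).ne_zero)]; rfl

variable [Fintype F]

theorem integral (t : K) : IsIntegral F t := Algebra.IsIntegral.isIntegral t

theorem pow_dvd_iff (t : K) (k : ℕ) {r : F[X]} (hr : r ≠ 0) :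
    minpoly F t ^ k ∣ r ↔ k ≤ (r.map (algebraMap F K)).rootMultiplicity t := by
  have h0 := minpoly.ne_zero (integral (F := F) t)
  have h1 : ((minpoly F t).map (algebraMap F K)).rootMultiplicity t = 1 := le_antisymm
    (rootMultiplicity_le_one_of_separable (Separable.map (Algebra.IsSeparable.isSeparable F t)) t)
    ((rootMultiplicity_pos (Polynomial.map_ne_zero h0)).2 (by simp [IsRoot, ← aeval_def]))
  have h2 : ∀ r : F[X], minpoly F t * r ≠ 0 → ((minpoly F t * r).map (algebraMap F K)).rootMultiplicity t =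
      (r.map (algebraMap F K)).rootMultiplicity t + 1 := fun r hr => by
    rw [Polynomial.map_mul, rootMultiplicity_mul (by rw [← Polynomial.map_mul]; exact Polynomial.map_ne_zero hr), h1,
      add_comm]
  induction k generalizing r with
  | zero => simp
  | succ k ih =>
    have key : ∀ r : F[X], minpoly F t * r ≠ 0 → (minpoly F t ^ (k + 1) ∣ minpoly F t * r ↔
        k + 1 ≤ ((minpoly F t * r).map (algebraMap F K)).rootMultiplicity t) := fun r hr => by
      rw [h2 r hr, pow_succ']
      exact (mul_dvd_mul_iff_left h0).trans ((ih (right_ne_zero_of_mul hr)).trans Nat.add_le_add_iff_right.symm)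
    refine ⟨fun h => ?_, fun h => ?_⟩
    · obtain ⟨r, rfl⟩ := (dvd_pow_self _ k.succ_ne_zero).trans h
      exact (key r hr).1 h
    · have := (rootMultiplicity_pos (Polynomial.map_ne_zero hr)).1 (k.succ_pos.trans_le h)
      obtain ⟨r, rfl⟩ := minpoly.dvd F t (p := r) (by simpa [IsRoot, ← aeval_def] using this)
      exact (key r hr).2 h

open Classical in
theorem mult_eq (t : K) {r : F[X]} (hr : r ≠ 0) {n : ℕ} (hn : r.natDegree ≤ n) :
    ((r.map (algebraMap F K)).rootMultiplicity t : ℂ) = ∑ k ∈ Finset.Icc 1 n, if minpoly F t ^ k ∣ r then 1 else 0 := by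
  have h1 : (r.map (algebraMap F K)).rootMultiplicity t ≤ n := by
    have := natDegree_le_of_dvd ((pow_dvd_iff t _ hr).2 le_rfl) hr
    rw [natDegree_pow] at this
    have := minpoly.natDegree_pos (integral (F := F) t)
    nlinarith
  simp only [pow_dvd_iff t _ hr, Finset.sum_boole]
  congr 1
  rw [show (Finset.Icc 1 n).filter (· ≤ (r.map (algebraMap F K)).rootMultiplicity t) =
    Finset.Icc 1 ((r.map (algebraMap F K)).rootMultiplicity t) by ext; simp; omega]
  simp

open Classical in
theorem sum_Dv_dvd {p f : F[X]} (hp : p.Monic) (hf : f.Monic) :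
    ∑ g ∈ Dv p, (if f ∣ p /ₘ g then 1 else 0) * cv mu g = if p = f then 1 else 0 := by
  have e : ∀ g ∈ Dv p, f ∣ p /ₘ g ↔ g * f ∣ p := fun g hg => by
    obtain ⟨h1, c, rfl⟩ := (mem_Dv hp).1 hg
    rw [mul_divByMonic_cancel_left _ h1, mul_dvd_mul_iff_left h1.ne_zero]
  rw [Finset.sum_congr rfl fun g hg => by rw [e g hg]]
  simp only [boole_mul, ← Finset.sum_filter]
  by_cases h : f ∣ p
  · obtain ⟨r, rfl⟩ := h
    have hr := hf.of_mul_monic_left hp
    rw [show (Dv (f * r)).filter (fun g => g * f ∣ f * r) = Dv r by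
      ext g
      rw [Finset.mem_filter, mem_Dv hp, mem_Dv hr, mul_comm g, mul_dvd_mul_iff_left hf.ne_zero]
      exact ⟨fun h => ⟨h.1.1, h.2⟩, fun h => ⟨⟨h.1, h.2.mul_left _⟩, h.2⟩⟩, sum_cv_mu hr]
    simp [hf.ne_zero]
  · rw [Finset.filter_eq_empty_iff.2 fun g _ h' => h (dvd_of_mul_left_dvd h'), if_neg fun e : p = f => h (e ▸ dvd_rfl)]
    rfl

open Classical in
theorem cv_DD (θ : K → ℂ) {p : F[X]} (hp : p.Monic) : cv (DD (bb F θ)) p =
    ∑ t, θ t * ∑ k ∈ Finset.Icc 1 p.natDegree, if p = minpoly F t ^ k then 1 else 0 := by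
  rw [cv_eq _ hp, DD, conv_cyc _ hp]
  simp only [bb, bK, Finset.sum_mul]
  rw [Finset.sum_comm]
  refine Finset.sum_congr rfl fun t _ => ?_
  rw [← Finset.sum_congr rfl fun k _ => sum_Dv_dvd hp ((minpoly.monic (integral t)).pow k), Finset.sum_comm,
    Finset.mul_sum]
  refine Finset.sum_congr rfl fun g hg => ?_
  obtain ⟨h1, c, rfl⟩ := (mem_Dv hp).1 hg
  have hc := (h1.of_mul_monic_left hp).ne_zero
  rw [mul_divByMonic_cancel_left _ h1, mult_eq t hc (natDegree_le_of_dvd (dvd_mul_left c g) hp.ne_zero), mul_assoc,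
    Finset.sum_mul]

theorem mem_range_of_pow {c : K} (h : c ^ Fintype.card F = c) : c ∈ Set.range (algebraMap F K) := by
  classical
  have h0 := FiniteField.X_pow_card_sub_X_ne_zero K (Fintype.one_lt_card (α := F))
  have h1 : Finset.univ.image (algebraMap F K) = (X ^ Fintype.card F - X : K[X]).roots.toFinset :=
    Finset.eq_of_subset_of_card_le (fun x hx => by
      obtain ⟨y, -, rfl⟩ := Finset.mem_image.1 hx
      simp [h0, ← map_pow, FiniteField.pow_card]) (by
      rw [Finset.card_image_of_injective _ (algebraMap F K).injective, Finset.card_univ]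
      exact (Multiset.toFinset_card_le _).trans ((card_roots' _).trans_eq
        (FiniteField.X_pow_card_sub_X_natDegree_eq K Fintype.one_lt_card)))
  have : c ∈ Finset.univ.image (algebraMap F K) := by rw [h1]; simp [h0, h]
  simpa using this

theorem exists_pow_eq {t : K} {n : ℕ} (h : t ^ Fintype.card F ^ n = t) : ∃ k, k * (minpoly F t).natDegree = n ∧
    (minpoly F t ^ k).map (algebraMap F K) = ∏ i ∈ Finset.range n, (X - C (t ^ Fintype.card F ^ i)) := by
  set P : K[X] := ∏ i ∈ Finset.range n, (X - C (t ^ Fintype.card F ^ i)) with hP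
  have hm : P.Monic := monic_prod_X_sub_C _ _
  let φ := FiniteField.frobeniusAlgHom F K
  have h1 : P.map (φ : K →+* K) = P := by
    have e1 := Finset.prod_range_succ (fun i => (X - C (t ^ Fintype.card F ^ i) : K[X])) n
    rw [Finset.prod_range_succ', h, pow_zero, pow_one] at e1
    rw [hP, Polynomial.map_prod, ← mul_right_cancel₀ (X_sub_C_ne_zero t) e1]
    refine Finset.prod_congr rfl fun i _ => ?_
    rw [Polynomial.map_sub, map_X, map_C, pow_succ, pow_mul]
    rfl
  obtain ⟨P₀, e1, e2, e3⟩ := lifts_and_natDegree_eq_and_monic ((lifts_iff_coeff_lifts P).2 fun i =>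
    mem_range_of_pow (F := F) (by
      conv_rhs => rw [← h1, coeff_map]
      rfl)) hm
  have h2 : P₀ ∣ minpoly F t ^ n := by
    rw [← map_dvd_map' (algebraMap F K), e1, Polynomial.map_pow, ← Finset.card_range n, ← Finset.prod_const]
    refine Finset.prod_dvd_prod_of_dvd _ _ fun i _ => dvd_iff_isRoot.2 ?_
    have : (φ ^ i) t = t ^ Fintype.card F ^ i := by
      rw [AlgHom.coe_pow, FiniteField.coe_frobeniusAlgHom, pow_iterate]
    rw [IsRoot, eval_map_algebraMap, ← this, aeval_algHom_apply, minpoly.aeval, map_zero]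
  obtain ⟨k, -, hk⟩ := (dvd_prime_pow (minpoly.prime (integral t)) n).1 h2
  have h3 := eq_of_monic_of_associated e3 ((minpoly.monic (integral t)).pow k) hk
  refine ⟨k, ?_, h3 ▸ e1⟩
  rw [← natDegree_pow, ← h3, e2, hP, natDegree_prod_of_monic _ _ fun _ _ => monic_X_sub_C _]
  simp only [natDegree_X_sub_C]
  simp

theorem pow_eq_of_dvd {t : K} {n k : ℕ} (h : k * (minpoly F t).natDegree = n) : t ^ Fintype.card F ^ n = t := by
  classical
  have := Fintype.ofFinite (IntermediateField.adjoin F {t})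
  have h1 := FiniteField.pow_card_pow k (IntermediateField.AdjoinSimple.gen F t)
  rw [Module.card_eq_pow_finrank (K := F), IntermediateField.adjoin.finrank (integral t), ← pow_mul, mul_comm, h] at h1
  exact congrArg Subtype.val h1

open Classical in
theorem sum_Mn (θ : K → ℂ) (w : K[X] → ℂ) {n : ℕ} (hn : 0 < n) :
    ∑ p ∈ Mn F n, w (p.map (algebraMap F K)) * cv (DD (bb F θ)) p =
      ∑ t ∈ Finset.univ.filter (fun t : K => t ^ Fintype.card F ^ n = t),
        θ t * w (∏ i ∈ Finset.range n, (X - C (t ^ Fintype.card F ^ i))) := by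
  rw [Finset.sum_congr rfl fun p hp => by rw [cv_DD θ (mem_Mn.1 hp).1, (mem_Mn.1 hp).2, Finset.mul_sum],
    Finset.sum_comm, Finset.sum_filter]
  refine Finset.sum_congr rfl fun t _ => ?_
  have hd := minpoly.natDegree_pos (integral (F := F) t)
  have e : ∀ k, minpoly F t ^ k ∈ Mn F n ↔ k * (minpoly F t).natDegree = n := fun k => by
    rw [mem_Mn, natDegree_pow, and_iff_right ((minpoly.monic (integral t)).pow k)]
  simp only [mul_left_comm _ (θ t), ← Finset.mul_sum]
  simp only [Finset.mul_sum _ _ (w _)]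
  rw [Finset.sum_comm]
  simp only [mul_boole, Finset.sum_ite_eq', e]
  split_ifs with h
  · obtain ⟨k, h1, h2⟩ := exists_pow_eq h
    rw [Finset.sum_eq_single k (fun j _ hj => if_neg fun e => hj (Nat.eq_of_mul_eq_mul_right hd (e.trans h1.symm)))
      (fun hk => (hk (Finset.mem_Icc.2 ⟨Nat.pos_of_ne_zero (by rintro rfl; omega), by nlinarith⟩)).elim), if_pos h1, h2]
  · rw [Finset.sum_eq_zero fun k _ => if_neg fun e => h (pow_eq_of_dvd e), mul_zero]

end CA.H25Cusp
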