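/-
Generalized characters: sums over orbits, the Brauer lift, and the cuspidal function.
-/
import Cfsg.Agent.Lib.Lin.H25Cusp5
import Cfsg.Agent.Lib.Char.H13Lift

set_option autoImplicit false

namespace CA.H25Cusp

open Cfsg CChar.CharGen CChar.CharFun CA.Ind Polynomial Module Ob MulAction
open scoped ComplexConjugate

theorem gen_orbit {G X : Type*} [Group G] [Finite G] [Fintype X] [MulAction G X] (Φ : G → X → ℂ)
    (h1 : ∀ k g x, Φ (k * g * k⁻¹) (k • x) = Φ g x) (h2 : ∀ g x, g • x ≠ x → Φ g x = 0)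
    (h3 : ∀ x, IsGeneralizedCharacter (stabilizer G x) fun g => Φ g x) :
    IsGeneralizedCharacter G fun g => ∑ x, Φ g x := by
  classical
  have := Fintype.ofFinite G
  have key : (fun g => ∑ x, Φ g x) =
      ∑ ω : orbitRel.Quotient G X, indFun (stabilizer G ω.out) fun g => Φ g ω.out := by
    ext g
    rw [Finset.sum_apply, ← (selfEquivSigmaOrbitsQuotientStabilizer G X).symm.sum_comp, Fintype.sum_sigma]
    refine Finset.sum_congr rfl fun ω _ => ?_
    rw [indFun_eq_sum_quotient _ (gen_classFun (h3 _))]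
    refine Finset.sum_congr rfl fun q _ => ?_
    have e : (selfEquivSigmaOrbitsQuotientStabilizer G X).symm ⟨ω, q⟩ = q.out • ω.out := by
      conv_lhs => rw [← q.out_eq]
      rfl
    have e2 := h1 q.out (q.out⁻¹ * g * q.out) ω.out
    rw [show q.out * (q.out⁻¹ * g * q.out) * q.out⁻¹ = g by group] at e2
    rw [e, e2, ext_eq_dite]
    split_ifs with h
    · rfl
    · exact h2 _ _ h
  rw [key]
  exact gen_sum _ fun ω _ => MatRep.isGenChar_indFun _ (h3 _)

theorem gen_fixed {G X : Type*} [Group G] [Finite G] [Finite X] [MulAction G X] :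
    IsGeneralizedCharacter G fun g => (Nat.card {x : X // g • x = x} : ℂ) := by
  classical
  have := Fintype.ofFinite X
  have := gen_orbit (G := G) (X := X) (fun g x => if g • x = x then 1 else 0)
    (fun k g x => by simp [mul_smul]) (fun g x h => if_neg h)
    fun x => by simpa [show ∀ g : stabilizer G x, (g : G) • x = x from fun g => g.2] using gen_one
  simpa [Fintype.card_subtype] using this

section
variable {K : Type*} [Field K] [Fintype K] {ι : Type*} [Fintype ι] [DecidableEq ι]

theorem card_eig (A : Matrix ι ι K) (hA : A ^ Fintype.card K = A) (z : K) :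
    Nat.card {v : ι → K // A.mulVec v = z • v} = Fintype.card K ^ A.charpoly.rootMultiplicity z := by
  have h1 : Module.End.IsSemisimple (Matrix.toLin' A) :=
    Module.End.isSemisimple_of_squarefree_aeval_eq_zero (p := X ^ Fintype.card K - X)
      (galois_poly_separable (ringChar K) _ (by
        obtain ⟨n, -, h⟩ := FiniteField.card K (ringChar K)
        rw [h]; exact dvd_pow_self _ n.ne_zero)).squarefree
      (by rw [map_sub, map_pow, aeval_X, ← Matrix.toLin'_pow, hA, sub_self])
  rw [← Matrix.charpoly_toLin', ← LinearMap.finrank_maxGenEigenspace_eq,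
    h1.isFinitelySemisimple.maxGenEigenspace_eq_eigenspace, ← Nat.card_eq_fintype_card,
    ← Module.natCard_eq_pow_finrank]
  exact Nat.card_congr (Equiv.subtypeEquivRight fun v => by rw [Module.End.mem_eigenspace_iff]; rfl)

theorem gen_pow_mult {H : Type*} [Group H] [Finite H] (ρ : H →* Matrix ι ι K)
    (hH : Nat.card H ∣ Fintype.card K - 1) :
    IsGeneralizedCharacter (H × Kˣ) fun x => (Fintype.card K : ℂ) ^ (ρ x.1).charpoly.rootMultiplicity (x.2 : K) := by
  letI : MulAction (H × Kˣ) (ι → K) :=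
    { smul := fun x v => x.2⁻¹ • (ρ x.1).mulVec v
      one_smul := fun v => by change (1 : Kˣ)⁻¹ • (ρ 1).mulVec v = v; simp
      mul_smul := fun x y v => by
        change (x.2 * y.2)⁻¹ • (ρ (x.1 * y.1)).mulVec v = x.2⁻¹ • (ρ x.1).mulVec (y.2⁻¹ • (ρ y.1).mulVec v)
        rw [Matrix.mulVec_smul, Matrix.mulVec_mulVec, map_mul, mul_inv, mul_smul] }
  convert gen_fixed (G := H × Kˣ) (X := ι → K) using 2 with x
  rw [← Nat.cast_pow, ← card_eig]
  · exact congrArg _ (Nat.card_congr (Equiv.subtypeEquivRight fun v =>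
      (inv_smul_eq_iff (g := x.2) (a := (ρ x.1).mulVec v) (b := v)).symm))
  · obtain ⟨c, hc⟩ := hH
    rw [← map_pow, ← Nat.sub_add_cancel Fintype.card_pos, hc, pow_succ, pow_mul, pow_card_eq_one', one_pow, one_mul]

theorem bK_eq [Fintype Kˣ] {θ : K → ℂ} (h0 : θ 0 = 0) (P : K[X]) :
    bK θ P = ∑ z : Kˣ, θ z * P.rootMultiplicity (z : K) := by
  classical
  rw [bK, ← Finset.sum_erase _ (a := 0) (by simp [h0])]
  exact (Finset.sum_bij (fun (z : Kˣ) _ => (z : K)) (by simp) (fun _ _ _ _ h => Units.ext h)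
    (fun t ht => ⟨Units.mk0 t (Finset.ne_of_mem_erase ht), by simp, rfl⟩) fun _ _ => rfl).symm

omit [Fintype K] in
theorem charpoly_conj {H : Type*} [Group H] (ρ : H →* Matrix ι ι K) (g h : H) :
    (ρ (h * g * h⁻¹)).charpoly = (ρ g).charpoly := by
  rw [map_mul, Matrix.charpoly_mul_comm, ← map_mul, inv_mul_cancel_left]

theorem gen_bK_reg {H : Type*} [Group H] [Finite H] (ρ : H →* Matrix ι ι K)
    (hH : Nat.card H ∣ Fintype.card K - 1) (θ : K →*₀ ℂ) :
    IsGeneralizedCharacter H fun h => bK θ (ρ h).charpoly := by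
  classical
  have := Fintype.ofFinite H
  refine gen_of_inner_int (fun g h => congrArg _ (charpoly_conj ρ g h)) fun χ hχ => ?_
  set Q := Fintype.card K with hQ
  have hQ1 : 1 < Q := Fintype.one_lt_card
  let m : H × Kˣ → ℕ := fun x => (ρ x.1).charpoly.rootMultiplicity (x.2 : K)
  have hψ : IsGeneralizedCharacter (H × Kˣ) fun x => χ x.1 * conj (θ (x.2 : K)) :=
    gen_mul (gen_comp (gen_of_irr hχ) (MonoidHom.fst H Kˣ)) (gen_conj (gen_of_irr (irr_of_monoidHom
      ((θ : K →* ℂ).comp ((Units.coeHom K).comp (MonoidHom.snd H Kˣ))))))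
  let α : H × Kˣ → ℂ := fun x => conj (χ x.1 * conj (θ (x.2 : K)))
  obtain ⟨π, hπ⟩ := H13Brauer.exists_retraction α (gen_isIntegral (gen_conj hψ))
  have h1 : ∀ j : ℕ, ∃ c : ℤ, ∑ x, (((Q ^ j) ^ m x : ℤ) : ℂ) * α x = (Nat.card H * (Q - 1) * c : ℤ) := fun j => by
    obtain ⟨c, hc⟩ := inner_gen_gen (gen_pow (gen_pow_mult ρ hH) j) hψ
    refine ⟨c, ?_⟩
    rw [classInner, inv_mul_eq_iff_eq_mul₀ (card_ne_zero _), Nat.card_prod, Nat.card_units,
      Nat.card_eq_fintype_card (α := K), ← hQ] at hc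
    push_cast [Nat.cast_sub hQ1.le] at hc ⊢
    rw [← hc]
    refine Finset.sum_congr rfl fun x _ => ?_
    rw [Pi.pow_apply, ← pow_mul, ← pow_mul, mul_comm j]
  choose c hc using h1
  let P : ℤ[X] := ∑ x, C (π x) * X ^ m x
  have h2 : ∀ j, P.eval ((Q : ℤ) ^ j) = Nat.card H * (Q - 1) * c j := fun j => by
    rw [← hπ _ _ _ (hc j)]
    simp [P, eval_finsetSum, mul_comm]
  have h3 : ∑ x, C (α x) * X ^ m x = P.map (Int.castRingHom ℂ) := by
    refine eq_of_infinite_eval_eq _ _ (Set.infinite_of_injective_forall_mem (f := fun j : ℕ => (Q : ℂ) ^ j)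
      (fun a b e => (Nat.pow_right_injective hQ1).eq_iff.1 (by simp only at e; exact_mod_cast e)) fun j => ?_)
    have := eval_intCast_map (Int.castRingHom ℂ) P (Q ^ j)
    rw [Int.cast_id, h2, eq_intCast, ← hc] at this
    push_cast at this
    refine Eq.trans ?_ this.symm
    simp only [eval_finsetSum, eval_mul, eval_C, eval_pow, eval_X]
    exact Finset.sum_congr rfl fun _ _ => mul_comm _ _
  obtain ⟨d, hd⟩ := binomExpansion P 1 (Q - 1)
  obtain ⟨e, he⟩ : (Nat.card H : ℤ) ∣ Q - 1 := by
    have := Int.natCast_dvd_natCast.2 hH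
    rwa [Nat.cast_sub hQ1.le] at this
  have h4 : (derivative P).eval 1 = Nat.card H * (c 1 - c 0 - d * e) := by
    have h5 := h2 1
    have h6 := h2 0
    rw [pow_one] at h5
    rw [pow_zero] at h6
    rw [add_sub_cancel, h5, h6] at hd
    refine mul_left_cancel₀ (a := (Q : ℤ) - 1) (by omega) ?_
    linear_combination -hd - d * (Q - 1) * he
  refine ⟨c 1 - c 0 - d * e, ?_⟩
  have h5 := congrArg (fun p => (derivative p).eval 1) h3
  simp only [derivative_map] at h5
  rw [show (1 : ℂ) = ((1 : ℤ) : ℂ) by simp, eval_intCast_map, Int.cast_id, h4] at h5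
  rw [classInner, inv_mul_eq_iff_eq_mul₀ (card_ne_zero _)]
  refine Eq.trans ?_ (h5.trans (by simp))
  simp only [bK_eq (map_zero θ), Finset.sum_mul, derivative_sum, eval_finsetSum,
    Fintype.sum_prod_type]
  refine Finset.sum_congr rfl fun h _ => Finset.sum_congr rfl fun z _ => ?_
  simp [α, m, derivative_X_pow]
  ring

theorem gen_bK {G : Type*} [Group G] [Finite G] (ρ : G →* Matrix ι ι K)
    (hG : ∀ m, m ∣ Nat.card G → ¬ ringChar K ∣ m → m ∣ Fintype.card K - 1) (θ : K →*₀ ℂ) :
    IsGeneralizedCharacter G fun g => bK θ (ρ g).charpoly := by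
  obtain ⟨n, hp, hn⟩ := FiniteField.card K (ringChar K)
  have : Fact (ringChar K).Prime := ⟨hp⟩
  refine H13Brauer.gen_of_res (fun g h => congrArg _ (charpoly_conj ρ g h)) fun E l hl hE => ?_
  have := H13Lift.nilpotent_of_elementary hl hE
  let f := H13Lift.pRegHom E hp
  have h1 : Nat.card f.range ∣ Fintype.card K - 1 := hG _ ((Subgroup.card_subgroup_dvd_card _).trans
    (Subgroup.card_subgroup_dvd_card _)) fun h => by
      obtain ⟨⟨_, e, rfl⟩, hx⟩ := exists_prime_orderOf_dvd_card' _ h
      exact H12PPart.not_dvd_orderOf_pReg hp e (hx.symm.trans (Subgroup.orderOf_coe _).symm).dvd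
  convert gen_comp (gen_bK_reg (ρ.comp (E.subtype.comp f.range.subtype)) h1 θ) f.rangeRestrict using 3 with e
  obtain ⟨k, hk⟩ := H12PPart.orderOf_pPart hp e
  have h2 : ∀ k : ℕ, (ρ e).charpoly = (ρ (e ^ Fintype.card K ^ k : E)).charpoly := fun k => by
    induction k with
    | zero => simp
    | succ k ih => rw [ih, pow_succ, pow_mul, Subgroup.coe_pow _ _ (Fintype.card K), map_pow,
        FiniteField.Matrix.charpoly_pow_card]
  have h3 : f e ^ Fintype.card K = f e := by
    rw [← Nat.sub_add_cancel (Fintype.card_pos (α := K)), pow_succ, orderOf_dvd_iff_pow_eq_one.1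
      ((Subgroup.orderOf_dvd_natCard _ (MonoidHom.mem_range.2 ⟨e, rfl⟩)).trans h1), one_mul]
  have h4 : e ^ Fintype.card K ^ k = f e := by
    conv_lhs => rw [← H12PPart.pPart_mul_pReg (ringChar K) e, (H12PPart.commute_pPart_pReg hp e).mul_pow]
    rw [orderOf_dvd_iff_pow_eq_one.1 (hk.dvd.trans (pow_dvd_pow_of_dvd (hn ▸ dvd_pow_self _ n.ne_zero) k)), one_mul]
    change f e ^ _ = f e
    clear hk
    induction k with
    | zero => simp
    | succ k ih => rw [pow_succ, pow_mul, ih, h3]
  rw [h2 k, h4]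
  rfl

end

universe u
variable {F : Type u} [Field F] [Finite F]

open Classical in
theorem gen_sum_tm {φ ψ : Ob F → ℂ} (hφ : Cls φ) (hψ : Cls ψ) {G : Type*} [Group G] [Finite G] {V : Type u}
    [AddCommGroup V] [Module F V] [Module.Finite F V] (σ : Representation F G V) (c : ℕ → Prop)
    (h : ∀ W : Submodule F V, c (finrank F W) → ∀ (H : Subgroup G) (σ₁ : Representation F H W)
      (σ₂ : Representation F H (V ⧸ W)), IsGeneralizedCharacter H fun g => φ ⟨W, σ₁ g⟩ * ψ ⟨V ⧸ W, σ₂ g⟩) :
    IsGeneralizedCharacter G fun g => ∑ W : Submodule F V, if c (finrank F W) then tm φ ψ ⟨V, σ g⟩ W else 0 := by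
  let e : G → V ≃ₗ[F] V := fun g => LinearEquiv.ofLinearMap (σ g) (σ g⁻¹)
    (by rw [← Module.End.mul_eq_comp, ← map_mul, mul_inv_cancel, map_one]; rfl)
    (by rw [← Module.End.mul_eq_comp, ← map_mul, inv_mul_cancel, map_one]; rfl)
  letI : MulAction G (Submodule F V) :=
    { smul := fun g W => W.map (e g : V →ₗ[F] V)
      one_smul := fun W => by change W.map (σ 1) = W; rw [map_one]; exact W.map_id
      mul_smul := fun g k W => by change W.map (σ _) = (W.map (σ _)).map (σ _); rw [map_mul]; exact W.map_comp _ _ }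
  refine gen_orbit _ (fun k g W => ?_) (fun g W hW => ?_) fun W => ?_
  · change (if c (finrank F (W.map (e k : V →ₗ[F] V))) then tm φ ψ ⟨V, _⟩ (W.map (e k : V →ₗ[F] V)) else 0) = _
    rw [LinearEquiv.finrank_map_eq, tm_map hφ hψ (X := ⟨V, σ g⟩) (Y := ⟨V, σ (k * g * k⁻¹)⟩) (e := e k) fun v => by
      change σ k (σ g v) = σ _ (σ k v)
      rw [← Module.End.mul_apply, ← Module.End.mul_apply, ← map_mul, ← map_mul, inv_mul_cancel_right]]
  · rw [tm_neg, ite_self]
    exact fun hi => hW (Submodule.eq_of_le_of_finrank_eq (Submodule.map_le_iff_le_comap.2 hi)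
      (LinearEquiv.finrank_map_eq (e g) W))
  · split_ifs with hc
    · have hi : ∀ g : stabilizer G W, W ≤ W.comap (σ g) := fun g => Submodule.map_le_iff_le_comap.1 g.2.le
      convert h W hc _ (Representation.subrepresentation (σ.comp (stabilizer G W).subtype) W hi)
        (Representation.quotient (σ.comp (stabilizer G W).subtype) W hi) using 2 with g
      exact tm_pos _ _ (X := ⟨V, σ g⟩) (hi g)
    · exact gen_zero

open Classical in
theorem gen_mu {G : Type*} [Group G] [Finite G] {V : Type u} [AddCommGroup V] [Module F V] [Module.Finite F V]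
    (σ : Representation F G V) : IsGeneralizedCharacter G fun g => mu ⟨V, σ g⟩ := by
  induction hn : finrank F V using Nat.strong_induction_on generalizing G V with
  | _ n ih =>
    have h1 := gen_sum_tm (φ := 1) (fun _ _ _ => rfl) cls_mu σ (· ≠ 0) fun W hW H σ₁ σ₂ => by
      have := W.finrank_quotient_add_finrank
      simpa using ih _ (by omega) σ₂ rfl
    have h2 : IsGeneralizedCharacter G fun g => dl ⟨V, σ g⟩ := by
      by_cases h : Subsingleton V
      · simpa only [dl, if_pos h] using gen_one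
      · simp only [dl, if_neg h]
        exact gen_zero
    convert gen_sub h2 h1 using 2 with g
    rw [mu_eq, Pi.sub_apply, ← Finset.filter_ne', Finset.sum_filter]
    simp only [ne_eq, Submodule.finrank_eq_zero]

theorem gen_DD {K : Type*} [Field K] [Fintype K] [Algebra F K] (θ : K →*₀ ℂ) {G : Type*} [Group G] [Finite G]
    (hG : ∀ m, m ∣ Nat.card G → ¬ ringChar K ∣ m → m ∣ Fintype.card K - 1) {V : Type u} [AddCommGroup V]
    [Module F V] [Module.Finite F V] (σ : Representation F G V) :
    IsGeneralizedCharacter G fun g => DD (bb F θ) ⟨V, σ g⟩ := by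
  classical
  have h1 := gen_sum_tm (cls_cp (bb F θ)) cls_mu σ (fun _ => True) fun W _ H σ₁ σ₂ => by
    refine gen_mul ?_ (gen_mu σ₂)
    let b := Module.finBasis F W
    convert gen_bK (MatRep.mapHom (algebraMap F K) ((LinearMap.toMatrixAlgEquiv b).toMonoidHom.comp σ₁))
      (fun m hm => hG m (hm.trans H.card_subgroup_dvd_card)) θ using 2 with g
    rw [MatRep.mapHom_apply, Matrix.charpoly_map]
    exact congrArg (bb F θ) (LinearMap.charpoly_toMatrix _ b).symm
  simp only [if_true] at h1
  exact h1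

end CA.H25Cusp
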