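/-
The cuspidal irreducible characters of the general linear groups over finite fields.
-/
import Cfsg.Agent.Lib.Lin.H25Cusp6

set_option autoImplicit false

namespace CA.H25Cusp

open Cfsg CChar.CharGen Polynomial Module Ob
open scoped ComplexConjugate MatrixGroups

universe u
variable {F : Type u} [Field F]

theorem inv_pert (X : Ob F) {W : Submodule F X.V} (hW : X.Inv W) (T : (X.V ⧸ W) →ₗ[F] W) : (pert X W T).Inv W :=
  fun v hv => W.add_mem (hW v hv) (T _).2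

theorem tm_pert {φ ψ : Ob F → ℂ} (hφ : Cls φ) (hψ : Cls ψ) (X : Ob F) {W : Submodule F X.V} (hW : X.Inv W)
    (T : (X.V ⧸ W) →ₗ[F] W) : tm φ ψ (pert X W T) W = tm φ ψ X W := by
  rw [tm_pos _ _ hW, tm_pos _ _ (inv_pert X hW T)]
  congr 1
  · refine hφ _ _ ⟨LinearEquiv.refl _ _, fun v => Subtype.ext ?_⟩
    change X.h v + T (Submodule.Quotient.mk v.1) = X.h v
    simp [(Submodule.Quotient.mk_eq_zero W).2 v.2]
  · refine hψ _ _ ⟨LinearEquiv.refl _ _, fun v => ?_⟩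
    induction v using Submodule.Quotient.induction_on with
    | H v => exact (Submodule.Quotient.eq W).2 (by
        change X.h v + T (Submodule.Quotient.mk v) - X.h v ∈ W
        simp)

theorem sum_conj_DD [Finite F] {b b' : F[X] → ℂ} (hb : Add b) (hb' : Add b') {V : Type u} [AddCommGroup V]
    [Module F V] [Module.Finite F V] (w : F[X] → ℂ) :
    ∑ g : V →ₗ[F] V, w g.charpoly * (DD b ⟨V, g⟩ * conj (DD b' ⟨V, g⟩)) =
      ∑ g : V →ₗ[F] V, (w g.charpoly * conj (b' g.charpoly)) * DD b ⟨V, g⟩ := by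
  have e : ∀ g, DD b' ⟨V, g⟩ = ∑ W : Submodule F V, tm (fun X => b' (cp X)) mu ⟨V, g⟩ W := fun g => rfl
  simp only [e, map_sum, mul_comm (DD b _), ← mul_assoc, Finset.mul_sum, Finset.sum_mul]
  rw [Finset.sum_comm, Finset.sum_eq_single ⊤ (fun W _ h1 => ?_) (by simp)]
  · refine Finset.sum_congr rfl fun g _ => ?_
    rw [tm_pos _ _ (inv_top ⟨V, g⟩), ← cp_iso (sub_top _ _), mu_id (n := 0) _ (Subsingleton.elim _ _)
      finrank_zero_of_subsingleton, nu, mul_one]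
    rfl
  by_cases h0 : W = ⊥
  · subst h0
    refine Finset.sum_eq_zero fun g _ => ?_
    rw [tm_pos _ _ (inv_bot ⟨V, g⟩), cp_of_subsingleton, hb'.one]
    simp
  refine sum_eq_zero hb h0 h1 _ (fun g hg => ?_) fun g hg T => ?_
  · by_contra h
    rw [tm_neg _ _ h] at hg
    simp at hg
  · exact congrArg₂ (fun x y => w x * conj y) ((cp_pert ⟨V, g⟩ hg T).trans (cp_sub_quo ⟨V, g⟩ hg).symm)
      (tm_pert (cls_cp b') cls_mu ⟨V, g⟩ hg T)

theorem sum_roots {K : Type*} [Field K] [Fintype K] [DecidableEq K] {τ : K} {m : ℕ} (hm : m ≠ 0)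
    (hτ : IsPrimitiveRoot τ m) (f : K → ℂ) (h0 : f 0 = 0) :
    ∑ t ∈ Finset.univ.filter (fun t : K => t ^ (m + 1) = t), f t = ∑ j ∈ Finset.range m, f (τ ^ j) := by
  have : NeZero m := ⟨hm⟩
  rw [← Finset.sum_erase _ h0]
  refine (Finset.sum_bij (fun j _ => τ ^ j) (fun j _ => ?_) (fun i hi j hj h => hτ.pow_inj (Finset.mem_range.1 hi)
    (Finset.mem_range.1 hj) h) (fun t ht => ?_) fun _ _ => rfl).symm
  · simp [hτ.ne_zero hm, pow_succ, pow_right_comm τ j, hτ.pow_eq_one]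
  · simp only [Finset.mem_erase, Finset.mem_filter, Finset.mem_univ, true_and, pow_succ] at ht
    obtain ⟨i, hi, e⟩ := hτ.eq_pow_of_pow_eq_one ((mul_left_eq_self₀.1 ht.2).resolve_right ht.1)
    exact ⟨i, Finset.mem_range.2 hi, e⟩

theorem geom {ζ : ℂ} {m : ℕ} (hm : m ≠ 0) (hζ : IsPrimitiveRoot ζ m) (a c : ℕ) :
    ∑ j ∈ Finset.range m, (ζ ^ j) ^ a * conj ((ζ ^ j) ^ c) = if a ≡ c [MOD m] then (m : ℂ) else 0 := by
  have h1 : conj ζ = ζ⁻¹ := (Complex.inv_eq_conj (hζ.norm'_eq_one hm)).symm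
  have h2 := hζ.ne_zero hm
  have h3 : ζ ^ a * ζ⁻¹ ^ c = 1 ↔ a ≡ c [MOD m] := by
    rw [inv_pow, mul_inv_eq_one₀ (pow_ne_zero _ h2), (hζ.isOfFinOrder hm).pow_eq_pow_iff_modEq, ← hζ.eq_orderOf]
  rw [Finset.sum_congr rfl (g := fun j => (ζ ^ a * ζ⁻¹ ^ c) ^ j) fun j _ => by
    rw [map_pow, map_pow, h1, mul_pow, pow_right_comm, pow_right_comm _ j]]
  split_ifs with h
  · simp only [h3.2 h]
    simp
  · rw [geom_sum_eq (mt h3.1 h), mul_pow, pow_right_comm, pow_right_comm _ c, hζ.pow_eq_one, hζ.inv.pow_eq_one]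
    simp

theorem exists_char {K : Type*} [Field K] [Fintype K] {m : ℕ} (hm : m ∣ Fintype.card K - 1) :
    ∃ (e : K →*₀ ℂ) (τ : K), IsPrimitiveRoot τ m ∧ IsPrimitiveRoot (e τ) m := by
  have : NeZero (Nat.card Kˣ) := ⟨Nat.card_pos.ne'⟩
  let f : Kˣ →* ℂˣ := (rootsOfUnity (Nat.card Kˣ) ℂ).subtype.comp
    (mulEquivOfCyclicCardEq (Complex.card_rootsOfUnity _).symm).toMonoidHom
  have hf : Function.Injective f := Subtype.val_injective.comp (MulEquiv.injective _)
  obtain ⟨γ, hγ⟩ := IsCyclic.exists_ofOrder_eq_natCard (α := Kˣ)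
  obtain ⟨c, hc⟩ := hm
  have h1 : IsPrimitiveRoot (γ ^ c) m := (IsPrimitiveRoot.orderOf γ).pow (orderOf_pos γ) (by
    rw [hγ, Nat.card_units, Nat.card_eq_fintype_card, hc, mul_comm])
  refine ⟨(MulChar.ofUnitHom f).toMonoidWithZeroHom, (γ ^ c : Kˣ), IsPrimitiveRoot.coe_units_iff.2 h1, ?_⟩
  have := IsPrimitiveRoot.coe_units_iff.2 (h1.map_of_injective hf)
  rwa [← MulChar.ofUnitHom_coe] at this

theorem exists_ext (F : Type u) [Field F] [Fintype F] {c n : ℕ} (hc : c ≠ 0) (hn : n ≠ 0) :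
    ∃ (K : Type) (_ : Field K) (_ : Fintype K) (_ : Algebra F K),
      (∀ m, m ∣ c → ¬ ringChar K ∣ m → m ∣ Fintype.card K - 1) ∧ Fintype.card F ^ n - 1 ∣ Fintype.card K - 1 := by
  obtain ⟨k, hp, hk⟩ := FiniteField.card F (ringChar F)
  have : Fact (ringChar F).Prime := ⟨hp⟩
  have h1 := Nat.coprime_ordCompl hp hc
  set M := ordCompl[ringChar F] c
  have : NeZero (n * M.totient) := ⟨mul_ne_zero hn (Nat.totient_pos.2 (Nat.ordCompl_pos _ hc)).ne'⟩
  refine ⟨FiniteField.Extension F (ringChar F) (n * M.totient), inferInstance, Fintype.ofFinite _, inferInstance, ?_⟩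
  rw [Fintype.card_eq_nat_card (α := FiniteField.Extension _ _ _), FiniteField.natCard_extension,
    Nat.card_eq_fintype_card, ← Algebra.ringChar_eq F]
  refine ⟨fun m hm hm' => (Nat.dvd_ordCompl_of_dvd_not_dvd hm hm').trans ?_, ?_⟩
  · refine (Nat.modEq_iff_dvd' (Nat.one_le_pow _ _ Fintype.card_pos)).1 (Nat.ModEq.symm ?_)
    rw [pow_mul']
    simpa using (Nat.ModEq.pow_totient (hk ▸ h1.pow_left k)).pow n
  · rw [pow_mul]
    exact Nat.sub_one_dvd_pow_sub_one _ _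

variable [Fintype F] [DecidableEq F] {n : ℕ}

theorem sum_GL (f : ((Fin n → F) →ₗ[F] (Fin n → F)) → ℂ) :
    ∑ g : GL (Fin n) F, f (Matrix.toLin' (g : Matrix (Fin n) (Fin n) F)) =
      ∑ g : (Fin n → F) →ₗ[F] (Fin n → F), (if g.charpoly.coeff 0 ≠ 0 then 1 else 0) * f g := by
  have e : ∀ A : Matrix (Fin n) (Fin n) F, (Matrix.toLin' A).charpoly.coeff 0 ≠ 0 ↔ IsUnit A := fun A => by
    simp [Matrix.charpoly_toLin', Matrix.isUnit_iff_isUnit_det, Matrix.det_eq_sign_charpoly_coeff]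
  simp only [boole_mul, ← Finset.sum_filter]
  refine Finset.sum_bij (fun g _ => Matrix.toLin' (g : Matrix (Fin n) (Fin n) F))
    (fun g _ => Finset.mem_filter.2 ⟨Finset.mem_univ _, (e _).2 g.isUnit⟩)
    (fun _ _ _ _ h => Units.ext (Matrix.toLin'.injective h)) (fun g hg => ?_) fun _ _ => rfl
  obtain ⟨A, rfl⟩ := Matrix.toLin'.surjective g
  obtain ⟨u, rfl⟩ := (e A).1 (Finset.mem_filter.1 hg).2
  exact ⟨u, Finset.mem_univ _, rfl⟩

theorem cuspidal {b : F[X] → ℂ} (hb : Add b) {m : ℕ} (h0 : 0 < m) (h1 : m < n) (c : GL (Fin n) F → Prop)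
    [DecidablePred c] (hc : ∀ g, c g ↔ ∀ i j : Fin n, ¬ (i.val < m ∧ m ≤ j.val) →
      (g : Matrix (Fin n) (Fin n) F) i j = (1 : Matrix (Fin n) (Fin n) F) i j) (s : ℂ) :
    ∑ g : GL (Fin n) F, (if c g then s * DD b ⟨Fin n → F, Matrix.toLin' (g : Matrix (Fin n) (Fin n) F)⟩ else 0) = 0 := by
  classical
  let c' : ((Fin n → F) →ₗ[F] (Fin n → F)) → Prop := fun g => ∀ i j : Fin n, ¬ (i.val < m ∧ m ≤ j.val) →
    LinearMap.toMatrix' g i j = (1 : Matrix (Fin n) (Fin n) F) i j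
  let W : Submodule F (Fin n → F) := Submodule.pi {j | m ≤ j.val} fun _ => ⊥
  have hW : ∀ j : Fin n, Pi.single j (1 : F) ∈ W ↔ j.val < m := fun j => by
    refine ⟨fun h => not_le.1 fun h' => by simpa using (Submodule.mem_bot F).1 (h j h'),
      fun h i hi => Pi.single_eq_of_ne ?_ _⟩
    rintro rfl
    exact h.not_ge hi
  refine (Finset.sum_congr rfl fun g _ => by simp [c', hc]).trans
    ((sum_GL fun g => (if c' g then s else 0) * DD b ⟨Fin n → F, g⟩).trans ?_)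
  simp only [← mul_assoc]
  refine sum_eq_zero hb (W := W) (fun h => ?_) (fun h => ?_) _ (fun g hg v hv i hi => ?_) fun g hg T => ?_
  · simpa [h] using (hW ⟨0, h0.trans h1⟩).2 h0
  · simpa [h] using hW ⟨m, h1⟩
  · have h2 : c' g := by_contra fun h => by simp [h] at hg
    have h3 : LinearMap.toMatrix' g i = (1 : Matrix (Fin n) (Fin n) F) i := funext fun j => h2 i j fun h => h.1.not_ge hi
    change g v i = 0
    rw [← LinearMap.toMatrix'_mulVec, Matrix.mulVec, h3, ← Matrix.mulVec, Matrix.one_mulVec]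
    exact hv i hi
  · have h2 : (g + W.subtype ∘ₗ T ∘ₗ W.mkQ).charpoly = g.charpoly :=
      (cp_pert ⟨_, g⟩ hg T).trans (cp_sub_quo ⟨_, g⟩ hg).symm
    have h3 : c' (g + W.subtype ∘ₗ T ∘ₗ W.mkQ) ↔ c' g := forall₃_congr fun i j h => by
      have : (T (W.mkQ (Pi.single j 1)) : Fin n → F) i = 0 := by
        by_cases hi : m ≤ i.val
        · exact (T _).2 i hi
        · rw [W.mkQ_apply, (Submodule.Quotient.mk_eq_zero W).2 ((hW j).2 (by omega))]
          simp
      rw [LinearMap.toMatrix'_apply, LinearMap.toMatrix'_apply]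
      change g _ i + (T (W.mkQ (Pi.single j 1)) : Fin n → F) i = _ ↔ _
      rw [this, add_zero]
    simp only [h2, h3]

variable {K : Type*} [Field K] [Fintype K] [Algebra F K]

open Classical in
theorem inner_DD (hn : 0 < n) (θ θ' : K → ℂ) (h0 : θ 0 = 0) :
    ((Fintype.card F : ℂ) ^ n - 1) *
      classInner (fun g : GL (Fin n) F => DD (bb F θ) ⟨Fin n → F, Matrix.toLin' (g : Matrix (Fin n) (Fin n) F)⟩)
        (fun g : GL (Fin n) F => DD (bb F θ') ⟨Fin n → F, Matrix.toLin' (g : Matrix (Fin n) (Fin n) F)⟩) =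
      ∑ i ∈ Finset.range n, ∑ t ∈ Finset.univ.filter (fun t : K => t ^ Fintype.card F ^ n = t),
        θ t * conj (θ' (t ^ Fintype.card F ^ i)) := by
  have : Nonempty (Fin n) := ⟨⟨0, hn⟩⟩
  have h1 := count_pairs (add_bb θ) (V := Fin n → F) fun p => (if p.coeff 0 ≠ 0 then 1 else 0) * conj (bb F θ' p)
  have h2 := sum_Mn (F := F) θ (fun P => (if P.coeff 0 ≠ 0 then 1 else 0) * conj (bK θ' P)) hn
  simp only [coeff_map, ne_eq, map_eq_zero] at h2
  rw [finrank_fin_fun, ← Nat.card_congr (Matrix.GeneralLinearGroup.toLin.trans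
    (LinearMap.GeneralLinearGroup.generalLinearEquiv F (Fin n → F))).toEquiv] at h1
  rw [classInner, sum_GL fun g => DD (bb F θ) ⟨Fin n → F, g⟩ * conj (DD (bb F θ') ⟨Fin n → F, g⟩),
    sum_conj_DD (add_bb θ) (add_bb θ') fun p => if p.coeff 0 ≠ 0 then 1 else 0, mul_left_comm,
    inv_mul_eq_iff_eq_mul₀ (CA.Ind.card_ne_zero _), Finset.sum_comm]
  refine Eq.trans (by simp) (h1.trans (congrArg _ (h2.trans (Finset.sum_congr rfl fun t _ => ?_))))
  by_cases ht : t = 0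
  · simp [ht, h0]
  rw [if_pos (by simp [coeff_zero_eq_eval_zero, eval_prod, Finset.prod_eq_zero_iff, ht]), bK_prod, one_mul, map_sum,
    Finset.mul_sum]

theorem inner_DD_pow (hn : 0 < n) {e : K →*₀ ℂ} {τ : K} (hτ : IsPrimitiveRoot τ (Fintype.card F ^ n - 1))
    (he : IsPrimitiveRoot (e τ) (Fintype.card F ^ n - 1)) {a : ℕ} (ha : a ≠ 0) (c : ℕ) :
    classInner
      (fun g : GL (Fin n) F => DD (bb F fun t => e t ^ a) ⟨Fin n → F, Matrix.toLin' (g : Matrix (Fin n) (Fin n) F)⟩)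
      (fun g : GL (Fin n) F => DD (bb F fun t => e t ^ c) ⟨Fin n → F, Matrix.toLin' (g : Matrix (Fin n) (Fin n) F)⟩) =
      ((Finset.range n).filter fun i => a ≡ Fintype.card F ^ i * c [MOD Fintype.card F ^ n - 1]).card := by
  classical
  have h1 : 1 < Fintype.card F ^ n := Nat.one_lt_pow hn.ne' Fintype.one_lt_card
  have h2 : ((Fintype.card F : ℂ) ^ n - 1) = (Fintype.card F ^ n - 1 : ℕ) := by simp [h1.le]
  have h3 : Fintype.card F ^ n - 1 ≠ 0 := by omega
  refine mul_left_cancel₀ (Nat.cast_ne_zero.2 h3) (h2 ▸ (inner_DD hn _ _ (by simp [ha])).trans ?_)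
  rw [h2, Finset.card_filter, Nat.cast_sum, Finset.mul_sum]
  refine Finset.sum_congr rfl fun i _ => ?_
  have := sum_roots h3 hτ (fun t => e t ^ a * conj (e (t ^ Fintype.card F ^ i) ^ c)) (by simp [ha])
  rw [Nat.sub_add_cancel h1.le] at this
  refine Eq.trans (by convert this) ?_
  simp only [map_pow e, ← pow_mul _ (Fintype.card F ^ i) c, geom h3 he]
  split_ifs <;> simp

theorem card_cuspidal (hn : 2 ≤ n) (P : (GL (Fin n) F → ℂ) → Prop) (hP : ∀ (b : F[X] → ℂ) (s : ℂ), Add b →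
      P fun g => s * DD b ⟨Fin n → F, Matrix.toLin' (g : Matrix (Fin n) (Fin n) F)⟩) :
    Nat.totient (Fintype.card F ^ n - 1) / n ≤ Nat.card {χ : IrrCharacter (GL (Fin n) F) //
      χ.1 1 = ∏ i ∈ Finset.Ico 1 n, ((Fintype.card F : ℂ) ^ i - 1) ∧ P χ.1} := by
  classical
  obtain ⟨k, rfl⟩ : ∃ k, n = k + 1 := ⟨n - 1, by omega⟩
  obtain ⟨K, _, _, _, hG, hK⟩ := exists_ext F (Nat.card_pos (α := GL (Fin (k + 1)) F)).ne' k.succ_ne_zero
  obtain ⟨e, τ, hτ, he⟩ := exists_char hK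
  have hq : 1 < Fintype.card F := Fintype.one_lt_card
  have hlt : ∀ i < k + 1, Fintype.card F ^ i - 1 < Fintype.card F ^ (k + 1) - 1 := fun i hi =>
    Nat.sub_lt_sub_right (Nat.one_le_pow _ _ (by omega)) (Nat.pow_lt_pow_right hq hi)
  set m := Fintype.card F ^ (k + 1) - 1 with hm
  have hm1 : 1 < m := by
    have := hlt 1 (by omega)
    rw [pow_one] at this
    omega
  let χ : ℕ → GL (Fin (k + 1)) F → ℂ := fun a g =>
    (-1) ^ k * DD (bb F fun t => e t ^ a) ⟨Fin (k + 1) → F, Matrix.toLin' (g : Matrix _ _ F)⟩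
  have hin : ∀ a, a ≠ 0 → ∀ c, classInner (χ a) (χ c) =
      ((Finset.range (k + 1)).filter fun i => a ≡ Fintype.card F ^ i * c [MOD m]).card := fun a ha c => by
    rw [← inner_DD_pow k.succ_pos hτ he ha c, classInner, classInner]
    refine congrArg _ (Finset.sum_congr rfl fun g _ => ?_)
    simp only [χ, map_mul, map_pow, map_neg, map_one]
    rw [mul_mul_mul_comm, ← mul_pow]
    simp
  have hdeg : ∀ a, χ a 1 = ∏ i ∈ Finset.Ico 1 (k + 1), ((Fintype.card F : ℂ) ^ i - 1) := fun a => by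
    have h1 : bb F (fun t => e t ^ a) (X - 1) = 1 := by
      rw [bb, Polynomial.map_sub, map_X, Polynomial.map_one, ← C_1, bK_X_sub_C, map_one, one_pow]
    simp only [χ, Units.val_one, Matrix.toLin'_one, DD_id (add_bb _) h1, Nat.card_eq_fintype_card]
    rw [Finset.prod_congr rfl fun i _ => (neg_sub _ 1).symm, Finset.prod_neg, ← mul_assoc, Nat.card_Ico,
      Nat.add_sub_cancel, ← mul_pow]
    simp
  have h0 : ∀ a, m.Coprime a → a ≠ 0 := by
    rintro _ h rfl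
    exact hm1.ne' (by simpa using h)
  have hirr : ∀ a, m.Coprime a → IsIrrCharacter _ (χ a) := fun a ha => by
    refine irr_of_gen_norm_one (gen_sign_smul (neg_one_pow_eq_or ℂ k) (gen_DD ((powMonoidWithZeroHom (h0 a ha)).comp e)
      hG ((Matrix.toLinAlgEquiv' (R := F) (n := Fin (k + 1))).toMonoidHom.comp (Units.coeHom _)))) ?_ ?_
    · rw [hin a (h0 a ha), Finset.card_eq_one.2 ⟨0, ?_⟩, Nat.cast_one]
      refine Finset.eq_singleton_iff_unique_mem.2 ⟨by simp [Nat.ModEq.refl], fun i hi => ?_⟩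
      obtain ⟨h1, h2⟩ := Finset.mem_filter.1 hi
      rw [← one_mul a, ← mul_assoc, mul_one] at h2
      have h3 := (Nat.modEq_iff_dvd' (Nat.one_le_pow _ _ (by omega))).1 (Nat.ModEq.cancel_right_of_coprime ha h2)
      have h4 := Nat.eq_zero_of_dvd_of_lt h3 (hlt i (Finset.mem_range.1 h1))
      by_contra h
      have := Nat.one_lt_pow h hq
      omega
    · rw [hdeg, Finset.prod_congr rfl (g := fun i => ((Fintype.card F ^ i - 1 : ℕ) : ℂ)) fun i _ => by
        simp [Nat.one_le_pow _ _ (zero_lt_one.trans hq)], ← Nat.cast_prod, Complex.natCast_re]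
      exact Nat.cast_nonneg _
  refine Nat.div_le_of_le_mul ((Finset.card_le_mul_card_image (f := χ) _ _ fun x hx => ?_).trans
    (Nat.mul_le_mul_left _ ?_))
  · obtain ⟨c, hc, rfl⟩ := Finset.mem_image.1 hx
    refine (Finset.card_le_card (t := (Finset.range (k + 1)).image fun i => Fintype.card F ^ i * c % m)
      fun a ha => ?_).trans (Finset.card_image_le.trans (Finset.card_range _).le)
    simp only [Finset.mem_filter, Finset.mem_range] at ha hc
    have h1 := hin a (h0 a ha.1.2) c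
    rw [← ha.2, (CChar.CharOrth.irr_iff.1 (hirr a ha.1.2)).2] at h1
    obtain ⟨i, hi⟩ := Finset.card_pos.1 (zero_lt_one.trans_eq (Nat.cast_eq_one.1 h1.symm).symm)
    exact Finset.mem_image.2 ⟨i, (Finset.mem_filter.1 hi).1,
      Eq.trans (Finset.mem_filter.1 hi).2.symm (Nat.mod_eq_of_lt ha.1.1)⟩
  · rw [← Nat.card_eq_finsetCard]
    have h1 : ∀ x ∈ ((Finset.range m).filter m.Coprime).image χ, IsIrrCharacter _ x ∧
        x 1 = ∏ i ∈ Finset.Ico 1 (k + 1), ((Fintype.card F : ℂ) ^ i - 1) ∧ P x := fun x hx => by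
      obtain ⟨c, hc, rfl⟩ := Finset.mem_image.1 hx
      exact ⟨hirr c (Finset.mem_filter.1 hc).2, hdeg c, hP _ _ (add_bb _)⟩
    exact Nat.card_le_card_of_injective (fun x => ⟨⟨x.1, (h1 x.1 x.2).1⟩, (h1 x.1 x.2).2⟩)
      fun x y h => Subtype.ext (congrArg (·.1.1) h)

end CA.H25Cusp
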