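import Mathlib
import Cfsg.Agent.Lib.Lin.SLnCard

/-!
The centraliser of a transvection in `SL(5, 2)`: its order, and the centre of its Sylow
2-subgroups.
-/

set_option autoImplicit false

namespace CA.H7L52

open Matrix Subgroup

abbrev SL5 := SpecialLinearGroup (Fin 5) (ZMod 2)

variable {s : SL5}

theorem z2 : ∀ a : ZMod 2, a ≠ 0 → a = 1 := by decide

theorem mem_iff (hs : s.1 = transvection 0 1 1) {g : SL5} : g ∈ centralizer ({s} : Set SL5) ↔
    (∀ i, g.1 i 0 = if i = 0 then 1 else 0) ∧ ∀ j, g.1 1 j = if j = 1 then 1 else 0 := by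
  have e0 : g * s = s * g ↔ g.1 * s.1 = s.1 * g.1 := Subtype.ext_iff
  rw [mem_centralizer_singleton_iff, e0, hs, transvection, mul_add, add_mul, mul_one, one_mul,
    add_right_inj]
  constructor
  · intro h
    have h1 : ∀ i, i ≠ 0 → g.1 i 0 = 0 := fun i hi => by
      simpa [hi] using congrFun (congrFun h i) 1
    have h2 : ∀ j, j ≠ 1 → g.1 1 j = 0 := fun j hj => by
      simpa [hj] using (congrFun (congrFun h 0) j).symm
    have h3 : g.1 0 0 = g.1 1 1 := by simpa using congrFun (congrFun h 0) 1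
    have h4 : g.1 0 0 = 1 := z2 _ fun h0 => by
      have := det_eq_zero_of_column_eq_zero (A := g.1) 0 fun i => by
        by_cases hi : i = 0
        · rw [hi, h0]
        · exact h1 i hi
      rw [g.2] at this
      exact one_ne_zero this
    refine ⟨fun i => ?_, fun j => ?_⟩
    · split_ifs with hi
      · rw [hi, h4]
      · exact h1 i hi
    · split_ifs with hj
      · rw [hj, ← h3, h4]
      · exact h2 j hj
  · rintro ⟨h1, h2⟩
    ext i j
    by_cases hi : i = 0 <;> by_cases hj : j = 1 <;> simp [hi, hj, h1, h2]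

/-- The general element. -/
def build (B : Matrix (Fin 3) (Fin 3) (ZMod 2)) (r : Fin 4 → ZMod 2) (c : Fin 3 → ZMod 2) :
    Matrix (Fin 5) (Fin 5) (ZMod 2) :=
  !![1, r 0, r 1, r 2, r 3; 0, 1, 0, 0, 0; 0, c 0, B 0 0, B 0 1, B 0 2;
    0, c 1, B 1 0, B 1 1, B 1 2; 0, c 2, B 2 0, B 2 1, B 2 2]

theorem det_build (B : Matrix (Fin 3) (Fin 3) (ZMod 2)) (r : Fin 4 → ZMod 2)
    (c : Fin 3 → ZMod 2) : (build B r c).det = B.det := by
  rw [det_succ_column_zero]
  simp [build, Fin.sum_univ_succ, det_succ_row_zero, det_fin_three, Fin.succAbove]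

theorem card_cent (hs : s.1 = transvection 0 1 1) :
    Nat.card (centralizer ({s} : Set SL5)) = 21504 := by
  let f : SpecialLinearGroup (Fin 3) (ZMod 2) × (Fin 4 → ZMod 2) × (Fin 3 → ZMod 2) →
      centralizer ({s} : Set SL5) := fun x =>
    ⟨⟨build x.1.1 x.2.1 x.2.2, by rw [det_build, x.1.2]⟩, (mem_iff hs).2
      ⟨fun i => by fin_cases i <;> rfl, fun j => by fin_cases j <;> rfl⟩⟩
  have hf : Function.Bijective f := by
    constructor
    · rintro ⟨B, r, c⟩ ⟨B', r', c'⟩ h
      have e : build B.1 r c = build B'.1 r' c' := congrArg (fun x => x.1.1) h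
      refine Prod.ext (Subtype.ext ?_) (Prod.ext ?_ ?_)
      · ext i j
        have := congrFun (congrFun e i.succ.succ) j.succ.succ
        fin_cases i <;> fin_cases j <;> exact this
      · funext j
        have := congrFun (congrFun e 0) j.succ
        fin_cases j <;> exact this
      · funext i
        have := congrFun (congrFun e i.succ.succ) 1
        fin_cases i <;> exact this
    · rintro ⟨g, hg⟩
      obtain ⟨h1, h2⟩ := (mem_iff hs).1 hg
      have e : build (Matrix.of fun i j => g.1 i.succ.succ j.succ.succ) (fun j => g.1 0 j.succ)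
          (fun i => g.1 i.succ.succ 1) = g.1 := by
        ext i j
        fin_cases i <;> fin_cases j <;> simp [build, h1, h2]
      exact ⟨⟨⟨_, (det_build _ _ _).symm.trans (e.symm ▸ g.2)⟩, fun j => g.1 0 j.succ,
        fun i => g.1 i.succ.succ 1⟩, Subtype.ext (Subtype.ext e)⟩
  have := SLnCard.card_SL (F := ZMod 2) 3 (by norm_num)
  rw [Nat.card_zmod, Fin.prod_univ_three] at this
  rw [← Nat.card_eq_of_bijective f hf, Nat.card_prod, Nat.card_prod, Nat.card_fun, Nat.card_fun]
  generalize Nat.card (SpecialLinearGroup (Fin 3) (ZMod 2)) = N at this ⊢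
  simp at this
  simp [this]

theorem mv0 (hs : s.1 = transvection 0 1 1) (g : centralizer ({s} : Set SL5)) (c : ZMod 2) :
    g.1.1 *ᵥ Pi.single 0 c = Pi.single 0 c := by
  funext i
  rw [mulVec_single]
  by_cases hi : i = 0 <;> simp [((mem_iff hs).1 g.2).1, hi]

theorem mv1 (hs : s.1 = transvection 0 1 1) (g : centralizer ({s} : Set SL5)) (x : Fin 5 → ZMod 2) :
    (g.1.1 *ᵥ x) 1 = x 1 := by
  simp [mulVec, dotProduct, ((mem_iff hs).1 g.2).2]

theorem mul_mv (g h : centralizer ({s} : Set SL5)) (x : Fin 5 → ZMod 2) :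
    (g * h).1.1 *ᵥ x = g.1.1 *ᵥ h.1.1 *ᵥ x := by
  rw [mulVec_mulVec]; rfl

theorem ext_mv {g h : centralizer ({s} : Set SL5)} (e : ∀ x, g.1.1 *ᵥ x = h.1.1 *ᵥ x) : g = h :=
  Subtype.ext (Subtype.ext (ext_of_mulVec_single fun _ => e _))

theorem one_mv (x : Fin 5 → ZMod 2) : (1 : centralizer ({s} : Set SL5)).1.1 *ᵥ x = x :=
  one_mulVec x

theorem add_self (x : Fin 5 → ZMod 2) : x + x = 0 := by
  funext i
  exact CharTwo.add_self_eq_zero _

theorem sq1 (hs : s.1 = transvection 0 1 1) {g : centralizer ({s} : Set SL5)}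
    (hg : ∀ x, ∃ c, g.1.1 *ᵥ x = x + Pi.single 0 c) : g * g = 1 := ext_mv fun x => by
  obtain ⟨c, hc⟩ := hg x
  rw [mul_mv, one_mv, hc, mulVec_add, hc, mv0 hs, add_assoc, add_self, add_zero]

theorem sq2 (hs : s.1 = transvection 0 1 1) {g : centralizer ({s} : Set SL5)}
    (hg : ∀ x : Fin 5 → ZMod 2, x 1 = 0 → g.1.1 *ᵥ x = x) : g * g = 1 := ext_mv fun x => by
  have h := hg (g.1.1 *ᵥ x + x) (by rw [Pi.add_apply, mv1 hs, CharTwo.add_self_eq_zero])
  rw [mulVec_add, add_comm _ x] at h
  rw [mul_mv, one_mv]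
  exact add_right_cancel h

/-- Elements acting trivially modulo the fixed vector. -/
def Q1 (hs : s.1 = transvection 0 1 1) : Subgroup (centralizer ({s} : Set SL5)) where
  carrier := {g | ∀ x, ∃ c, g.1.1 *ᵥ x = x + Pi.single 0 c}
  one_mem' x := ⟨0, by rw [one_mv]; simp⟩
  mul_mem' {g h} hg hh x := by
    obtain ⟨c, hc⟩ := hh x
    obtain ⟨d, hd⟩ := hg x
    exact ⟨d + c, by rw [mul_mv, hc, mulVec_add, hd, mv0 hs, Pi.single_add, add_assoc]⟩
  inv_mem' {g} hg := by
    rw [inv_eq_of_mul_eq_one_right (sq1 hs hg)]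
    exact hg

/-- Elements acting trivially on the fixed hyperplane. -/
def Q2 (hs : s.1 = transvection 0 1 1) : Subgroup (centralizer ({s} : Set SL5)) where
  carrier := {g | ∀ x : Fin 5 → ZMod 2, x 1 = 0 → g.1.1 *ᵥ x = x}
  one_mem' x _ := one_mv x
  mul_mem' {g h} hg hh x hx := by rw [mul_mv, hh x hx, hg x hx]
  inv_mem' {g} hg := by
    rw [inv_eq_of_mul_eq_one_right (sq2 hs hg)]
    exact hg

theorem Q1_le (hs : s.1 = transvection 0 1 1) (T : Sylow 2 (centralizer ({s} : Set SL5))) :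
    Q1 hs ≤ T := by
  haveI : (Q1 hs).Normal := ⟨fun g hg h x => by
    obtain ⟨c, hc⟩ := hg (h⁻¹.1.1 *ᵥ x)
    exact ⟨c, by rw [mul_mv, mul_mv, hc, mulVec_add, mv0 hs, ← mul_mv, mul_inv_cancel, one_mv]⟩⟩
  exact IsPGroup.le_sylow_of_normal (fun g => ⟨1, Subtype.ext (by
    rw [pow_one, sq]; exact sq1 hs g.2)⟩) T

theorem Q2_le (hs : s.1 = transvection 0 1 1) (T : Sylow 2 (centralizer ({s} : Set SL5))) :
    Q2 hs ≤ T := by
  haveI : (Q2 hs).Normal := ⟨fun g hg h x hx => by
    rw [mul_mv, mul_mv, hg _ ((mv1 hs _ x).trans hx), ← mul_mv, mul_inv_cancel, one_mv]⟩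
  exact IsPGroup.le_sylow_of_normal (fun g => ⟨1, Subtype.ext (by
    rw [pow_one, sq]; exact sq2 hs g.2)⟩) T

/-- The centre of a Sylow 2-subgroup has at most two elements. -/
theorem cent (hs : s.1 = transvection 0 1 1) (T : Sylow 2 (centralizer ({s} : Set SL5)))
    (g : centralizer ({s} : Set SL5)) (hg : ∀ t ∈ T, g * t = t * g) : g.1 = 1 ∨ g.1 = s := by
  obtain ⟨h1, h2⟩ := (mem_iff hs).1 g.2
  have a1 : ∀ k : Fin 5, k ≠ 0 → ∀ j, j ≠ 0 → g.1.1 k j = if j = k then 1 else 0 := by
    intro k hk j hj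
    let t : centralizer ({s} : Set SL5) := ⟨⟨transvection 0 k 1, det_transvection_of_ne _ _ hk.symm _⟩,
      (mem_iff hs).2 ⟨fun i => by simp [transvection, one_apply, hk],
        fun i => by simp [transvection, one_apply, eq_comm]⟩⟩
    have ht : t ∈ Q1 hs := fun x => ⟨x k, by
      show transvection 0 k 1 *ᵥ x = _
      rw [transvection, add_mulVec, one_mulVec, single_mulVec, one_mul]
      rfl⟩
    have e : g.1.1 * transvection 0 k 1 = transvection 0 k 1 * g.1.1 :=
      congrArg (fun x => x.1.1) (hg t (Q1_le hs T ht))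
    rw [transvection, mul_add, add_mul, mul_one, one_mul, add_right_inj] at e
    have := congrFun (congrFun e 0) j
    by_cases hjk : j = k
    · subst hjk
      simpa [h1] using this.symm
    · simpa [hjk] using this.symm
  have a2 : ∀ k : Fin 5, k ≠ 1 → k ≠ 0 → g.1.1 0 k = 0 := by
    intro k hk hk0
    let t : centralizer ({s} : Set SL5) := ⟨⟨transvection k 1 1, det_transvection_of_ne _ _ hk _⟩,
      (mem_iff hs).2 ⟨fun i => by simp [transvection, one_apply],
        fun i => by simp [transvection, one_apply, eq_comm, hk]⟩⟩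
    have ht : t ∈ Q2 hs := fun x hx => by
      show transvection k 1 1 *ᵥ x = _
      rw [transvection, add_mulVec, one_mulVec, single_mulVec, hx]
      simp
    have e : g.1.1 * transvection k 1 1 = transvection k 1 1 * g.1.1 :=
      congrArg (fun x => x.1.1) (hg t (Q2_le hs T ht))
    rw [transvection, mul_add, add_mul, mul_one, one_mul, add_right_inj] at e
    simpa [hk0.symm] using congrFun (congrFun e 0) 1
  by_cases h0 : g.1.1 0 1 = 0
  · left
    ext i j
    by_cases hj : j = 0
    · simp [hj, h1, one_apply]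
    by_cases hi : i = 0
    · by_cases hj1 : j = 1
      · simp [hi, hj1, h0]
      · simp [hi, a2 j hj1 hj, one_apply, Ne.symm hj]
    · simp [a1 i hi j hj, one_apply, eq_comm]
  · right
    ext i j
    rw [hs]
    by_cases hj : j = 0
    · simp [hj, h1, one_apply, transvection]
    by_cases hi : i = 0
    · by_cases hj1 : j = 1
      · simp [hi, hj1, z2 _ h0, transvection]
      · simp [hi, a2 j hj1 hj, one_apply, Ne.symm hj, transvection, Ne.symm hj1]
    · rw [transvection, Matrix.add_apply, single_apply_of_ne (h := fun h => hi h.1.symm)]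
      simp [a1 i hi j hj, one_apply, eq_comm]

end CA.H7L52
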