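import Mathlib

/-!
Eigenspaces of elements normalizing an extraspecial group modulo scalars.
-/

set_option autoImplicit false

namespace CA.H8Eig

open Module Module.End

section Lin

variable {F V : Type*} [Field F] [AddCommGroup V] [Module F V] [FiniteDimensional F V]

theorem rank_null (T : End F V) (U K : Submodule F V) (h : ∀ v ∈ U, T v = 0 → v ∈ K) :
    finrank F U ≤ finrank F K + finrank F (U.map T) := by
  have h1 := LinearMap.finrank_range_add_finrank_ker (T.domRestrict U)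
  rw [LinearMap.range_domRestrict] at h1
  have h2 : finrank F (LinearMap.ker (T.domRestrict U)) ≤ finrank F K :=
    LinearMap.finrank_le_finrank_of_injective (f := (U.subtype.comp (Submodule.subtype _)).codRestrict K
      fun v => h _ v.1.2 v.2) fun a b e => Subtype.ext (Subtype.ext (congrArg Subtype.val e :))
  omega

theorem null_rank (T : End F V) (U K : Submodule F V) (hK : K ≤ U) (h : ∀ v ∈ K, T v = 0) :
    finrank F K + finrank F (U.map T) ≤ finrank F U := by
  have h1 := LinearMap.finrank_range_add_finrank_ker (T.domRestrict U)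
  rw [LinearMap.range_domRestrict] at h1
  have h2 : finrank F K ≤ finrank F (LinearMap.ker (T.domRestrict U)) :=
    LinearMap.finrank_le_finrank_of_injective (f := (Submodule.inclusion hK).codRestrict _
      fun v => h _ v.2) fun a b e => Subtype.ext (congrArg (fun z => z.1.1) e :)
  omega

theorem chain (m : ℕ) (T : ℕ → End F V) (K : ℕ → Submodule F V) (U : Submodule F V)
    (hT : ∀ i j, T i * T j = T j * T i) (hU : ∀ i, ∀ v ∈ U, T i v ∈ U) (hK : ∀ i < m, K i ≤ U)
    (h0 : ∀ i, ∀ v ∈ K i, T i v = 0) (h1 : ∀ i j, ∀ v ∈ K j, T i v ∈ K j)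
    (h2 : ∀ i j, i < j → j < m → ∀ v ∈ K j, T i v = 0 → v = 0) :
    ∑ i ∈ Finset.range m, finrank F (K i) ≤ finrank F U := by
  induction m generalizing T K U with
  | zero => simp
  | succ m ih =>
    rw [Finset.sum_range_succ', add_comm]
    refine le_trans (Nat.add_le_add_left (ih (fun i => T (i + 1)) (fun i => K (i + 1)) (U.map (T 0))
      (fun _ _ => hT _ _) ?_ (fun i hi v hv => ?_) (fun i => h0 _) (fun i j => h1 _ _)
      fun i j h3 h4 => h2 _ _ (by omega) (by omega)) _) (null_rank _ _ _ (hK 0 m.succ_pos) (h0 0))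
    · rintro i _ ⟨v, hv, rfl⟩
      exact ⟨_, hU _ v hv, LinearMap.congr_fun (hT 0 (i + 1)) v⟩
    · have h3 : Function.Injective ((T 0).restrict (h1 0 (i + 1))) := (injective_iff_map_eq_zero _).2 fun w e =>
        Subtype.ext (h2 0 (i + 1) (by omega) (by omega) _ w.2 (congrArg Subtype.val e))
      obtain ⟨w, hw⟩ := (LinearMap.injective_iff_surjective.1 h3) ⟨v, hv⟩
      exact ⟨w, hK _ (by omega) w.2, congrArg Subtype.val hw⟩

theorem le_chain {m : ℕ} {d : ℕ → ℕ} (h : ∀ i, d i ≤ d (i + 1)) : m * d 0 ≤ ∑ i ∈ Finset.range m, d i := by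
  have := Finset.card_nsmul_le_sum (Finset.range m) d (d 0) fun i _ => monotone_nat_of_le_succ h i.zero_le
  simpa using this

variable {G : Type*} [Group G] (ρ : G →* End F V)

omit [FiniteDimensional F V] in
theorem rinj (x : G) {v : V} (h : ρ x v = 0) : v = 0 := by
  have : ρ (x⁻¹ * x) v = 0 := by rw [map_mul, Module.End.mul_apply, h, map_zero]
  simpa using this

theorem mv (x : G) {U U' : Submodule F V} (h : ∀ v ∈ U, ρ x v ∈ U') : finrank F U ≤ finrank F U' :=
  LinearMap.finrank_le_finrank_of_injective (f := (ρ x).restrict h) ((injective_iff_map_eq_zero _).2 fun w e =>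
    Subtype.ext (rinj ρ x (congrArg Subtype.val e)))

omit [FiniteDimensional F V] in
theorem app (x y : G) (v : V) : ρ (x * y) v = ρ x (ρ y v) := by rw [map_mul]; rfl

variable {s : Fˣ →* G} (hρ : ∀ a v, ρ (s a) v = (a : F) • v)

include hρ in
theorem fix_bd {y z : G} {b : Fˣ} {r m : ℕ} (hb : orderOf b = r) (h : y * z = s b * (z * y)) (hm : m ≤ r) :
    m * finrank F (eigenspace (ρ y) 1) ≤ finrank F V := by
  have h1 := chain m (fun i => ρ y - ((b ^ i : Fˣ) : F) • (1 : End F V))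
    (fun i => eigenspace (ρ y) ((b ^ i : Fˣ) : F)) ⊤
    (fun i j => by simp only [sub_mul, mul_sub, smul_mul_assoc, mul_smul_comm, one_mul, mul_one, smul_sub,
      smul_smul, mul_comm]; abel) (fun _ _ _ => trivial) (fun _ _ => le_top)
    (fun i v hv => by simp [mem_eigenspace_iff.1 hv])
    (fun i j v hv => Submodule.sub_mem _ (by
      rw [mem_eigenspace_iff.1 hv]; exact Submodule.smul_mem _ _ hv) (Submodule.smul_mem _ _ hv))
    (fun i j h2 h3 v hv e => by
      rw [LinearMap.sub_apply, mem_eigenspace_iff.1 hv, LinearMap.smul_apply, Module.End.one_apply, ← sub_smul,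
        smul_eq_zero, sub_eq_zero, Units.val_inj] at e
      exact e.resolve_left fun e' => by
        have := pow_injOn_Iio_orderOf (x := b) (show j < _ by omega) (show i < _ by omega) e'
        omega)
  rw [finrank_top] at h1
  refine le_trans ?_ (le_trans (le_chain (d := fun i => finrank F (eigenspace (ρ y) ((b ^ i : Fˣ) : F)))
    fun i => mv ρ z fun v hv => ?_) h1)
  · rw [pow_zero, Units.val_one]
  · rw [mem_eigenspace_iff, ← app, h, app, hρ, app, mem_eigenspace_iff.1 hv, map_smul, smul_smul, pow_succ',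
      Units.val_mul]

theorem two_le {g x y : G} (h : x * g = g * y * x) (c : F) : 2 * finrank F (eigenspace (ρ g) c) ≤
    finrank F ↥(eigenspace (ρ g) c ⊔ eigenspace (ρ (g * y)) c) +
      finrank F ↥(eigenspace (ρ g) c ⊓ eigenspace (ρ (g * y)) c) := by
  rw [Submodule.finrank_sup_add_finrank_inf_eq, two_mul]
  refine Nat.add_le_add_left (mv ρ x fun v hv => ?_) _
  rw [mem_eigenspace_iff, ← app, ← h, app, mem_eigenspace_iff.1 hv, map_smul]

omit [FiniteDimensional F V] in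
theorem fix_of_inf {g y : G} {c : F} {v : V} (h : v ∈ eigenspace (ρ g) c ⊓ eigenspace (ρ (g * y)) c) :
    ρ y v = v := by
  have := rinj ρ g (v := ρ y v - v) (by
    rw [map_sub, ← app, mem_eigenspace_iff.1 h.1, mem_eigenspace_iff.1 h.2, sub_self])
  exact sub_eq_zero.1 this

include hρ in
theorem case_ne {g x y : G} {a : Fˣ} (h : x * g = g * y * x) (hgy : g * y = y * g) (hxy : y * x = s a * (x * y))
    (h1 : a ≠ 1) (h3 : a ^ 3 ≠ 1) {c : F} (hc : c ≠ 0) : 2 * finrank F (eigenspace (ρ g) c) ≤ finrank F V := by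
  have hx : ∀ (b d : F) v, ρ g v = b • v → ρ y v = d • v →
      ρ y (ρ x v) = (a * d) • ρ x v ∧ ρ g (ρ x v) = (b * (a * d)⁻¹) • ρ x v := fun b d v e1 e2 => by
    have e3 : ρ y (ρ x v) = (a * d) • ρ x v := by rw [← app, hxy, app, hρ, app, e2, map_smul, smul_smul]
    refine ⟨e3, ?_⟩
    by_cases hd : d = 0
    · rw [hd, zero_smul] at e2; rw [rinj ρ y e2]; simp
    have e4 := congrArg (fun t => ρ t v) h
    simp only [app, e1, e3, map_smul] at e4
    rw [mul_comm, mul_smul, e4, smul_smul, inv_mul_cancel₀ (mul_ne_zero a.ne_zero hd), one_smul]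
  refine (two_le ρ h c).trans ((Nat.add_le_add_left (mv ρ (x * x) (U' := eigenspace (ρ y) (a * (a * 1)) ⊓
    eigenspace (ρ g) (c * ((a : F) * 1)⁻¹ * ((a : F) * ((a : F) * 1))⁻¹)) fun v hv => ?_) _).trans
      (Submodule.finrank_add_finrank_le_of_disjoint (Submodule.disjoint_def.2 fun v h4 h5 => ?_)))
  · obtain ⟨e1, e2⟩ := hx c 1 v (mem_eigenspace_iff.1 hv.1) (by rw [fix_of_inf ρ hv, one_smul])
    obtain ⟨e3, e4⟩ := hx _ _ _ e2 e1
    rw [app]
    exact ⟨mem_eigenspace_iff.2 e3, mem_eigenspace_iff.2 e4⟩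
  · obtain ⟨u, hu, w, hw, e⟩ := Submodule.mem_sup.1 h4
    have e1 := mem_eigenspace_iff.1 hu
    have e2 := mem_eigenspace_iff.1 hw
    have e3 := mem_eigenspace_iff.1 h5.1
    have e4 := mem_eigenspace_iff.1 h5.2
    have e5 : ρ g (ρ (g * y) v - c • v) - c • (ρ (g * y) v - c • v) = 0 := by
      have e6 : ρ g (ρ (g * y) u) = c • ρ (g * y) u := by
        rw [← app, show g * (g * y) = g * y * g by rw [mul_assoc, ← hgy], app, e1, map_smul]
      rw [← e]
      simp only [map_add, map_sub, map_smul, e1, e2, e6, smul_add, smul_sub]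
      abel
    rw [app, e3] at e5
    simp only [map_smul, map_sub, e4, smul_smul, ← sub_smul, smul_eq_zero] at e5
    refine e5.resolve_left fun e7 => ?_
    have ha := a.ne_zero
    have e8 : c ^ 2 * (1 - a) * (1 - (a : F) ^ 3) = 0 := by
      have := congrArg (· * (a : F) ^ 4) e7
      field_simp at this
      linear_combination this
    simp only [mul_eq_zero, pow_eq_zero_iff two_ne_zero, hc, false_or, sub_eq_zero] at e8
    exact e8.elim (fun e => h1 (Units.ext e.symm)) fun e => h3 (Units.ext e.symm)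

theorem case_eq {g x y : G} {r : ℕ} (hr : r.Prime) (h4 : 4 ≤ r) (hF : (r : F) ≠ 0) (h : x * g = g * y * x)
    (hgy : g * y = y * g) (hxy : y * x = x * y) (hy : y ^ r = 1)
    (hf : 4 * finrank F (eigenspace (ρ y) 1) ≤ finrank F V) (c : F) :
    2 * finrank F (eigenspace (ρ g) c) ≤ finrank F V := by
  have hc : ∀ i j : ℕ, Commute (g * y ^ i) (g * y ^ j) := fun i j =>
    have : Commute g y := hgy
    ((Commute.refl g).mul_right (this.pow_right j)).mul_left
      ((this.symm.pow_left i).mul_right ((Commute.refl y).pow_pow i j))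
  have hI : ∀ t, y * t = t * y → ∀ v ∈ LinearMap.range (ρ y - 1), ρ t v ∈ LinearMap.range (ρ y - 1) := by
    rintro t ht _ ⟨w, rfl⟩
    exact ⟨ρ t w, by simp only [LinearMap.sub_apply, Module.End.one_apply, map_sub, ← app, ht]⟩
  have hI' : ∀ i : ℕ, y * (g * y ^ i) = g * y ^ i * y := fun i => by
    rw [← mul_assoc, ← hgy, mul_assoc, mul_assoc, pow_mul_comm']
  have h1 := chain 4 (fun i => ρ (g * y ^ i) - c • (1 : End F V))
    (fun i => eigenspace (ρ (g * y ^ i)) c ⊓ LinearMap.range (ρ y - 1)) ⊤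
    (fun i j => by
      simp only [sub_mul, mul_sub, smul_mul_assoc, mul_smul_comm, one_mul, mul_one, smul_sub, ← map_mul, (hc i j).eq]
      abel) (fun _ _ _ => trivial) (fun _ _ => le_top)
    (fun i v hv => by rw [LinearMap.sub_apply, mem_eigenspace_iff.1 hv.1]; simp)
    (fun i j v hv => Submodule.sub_mem _ ⟨mem_eigenspace_iff.2 (by
      rw [← app, (hc j i).eq, app, mem_eigenspace_iff.1 hv.1, map_smul]), hI _ (hI' i) v hv.2⟩
      (Submodule.smul_mem _ _ hv))
    (fun i j h2 h3 v hv e => by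
      obtain ⟨d, rfl⟩ := Nat.exists_eq_add_of_lt h2
      have e1 : ρ (y ^ (d + 1)) v = v := by
        refine (sub_eq_zero.1 (rinj ρ (g * y ^ i) ?_)).symm
        rw [map_sub, ← app, mul_assoc, ← pow_add, ← add_assoc, mem_eigenspace_iff.1 hv.1]
        exact e
      have e2 : ∀ (t : G) (n : ℕ), ρ t v = v → ρ (t ^ n) v = v := fun t n ht => by
        induction n with
        | zero => simp
        | succ n ih => rw [pow_succ, app, ht, ih]
      obtain ⟨k, hk⟩ := Nat.exists_mul_mod_eq_one_of_coprime (k := r) (n := d + 1)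
        (Nat.coprime_comm.1 (Nat.coprime_of_lt_prime (by omega) (by omega) hr)) hr.one_lt
      have e3 : ρ y v = v := by
        have := e2 _ k e1
        rwa [← pow_mul, ← Nat.div_add_mod ((d + 1) * k) r, hk.2, pow_add, pow_mul, hy, one_pow, one_mul,
          pow_one] at this
      obtain ⟨w, hw⟩ := hv.2
      have e4 := LinearMap.congr_fun (geom_sum_mul (ρ y) r) w
      rw [Module.End.mul_apply, hw, ← map_pow, hy, map_one, sub_self, LinearMap.sum_apply,
        Finset.sum_congr rfl fun i _ => by rw [← map_pow, e2 _ i e3]] at e4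
      simp only [Finset.sum_const, Finset.card_range, LinearMap.zero_apply] at e4
      rw [← Nat.cast_smul_eq_nsmul F, smul_eq_zero] at e4
      exact e4.resolve_left hF)
  rw [finrank_top] at h1
  have h2 := le_trans (le_chain (d := fun i => finrank F ↥(eigenspace (ρ (g * y ^ i)) c ⊓
    LinearMap.range (ρ y - 1))) fun i => mv ρ x fun v hv => ⟨mem_eigenspace_iff.2 (by
      rw [← app, show g * y ^ (i + 1) * x = x * (g * y ^ i) by
        rw [← mul_assoc, h, pow_succ', mul_assoc, mul_assoc, mul_assoc, mul_assoc,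
          ((show Commute y x from hxy).pow_left i).eq], app, mem_eigenspace_iff.1 hv.1, map_smul]),
      hI _ hxy v hv.2⟩) h1
  have h3 := rank_null (ρ y - 1) (eigenspace (ρ g) c) (eigenspace (ρ y) 1) fun v _ e => by
    rw [mem_eigenspace_iff, one_smul]; exact sub_eq_zero.1 e
  have h5 : finrank F ((eigenspace (ρ g) c).map (ρ y - 1)) ≤
      finrank F ↥(eigenspace (ρ (g * y ^ 0)) c ⊓ LinearMap.range (ρ y - 1)) := Submodule.finrank_mono (by
    rintro _ ⟨v, hv, rfl⟩
    refine ⟨mem_eigenspace_iff.2 ?_, v, rfl⟩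
    rw [pow_zero, mul_one, LinearMap.sub_apply, Module.End.one_apply, map_sub, ← app, hgy, app,
      mem_eigenspace_iff.1 hv, map_smul, smul_sub])
  omega

end Lin

theorem alg {M A : Type*} [Group M] [AddCommGroup A] (β : M → M → A) (σ : MulAut M) {p : ℕ} (hp : Odd p)
    (hσ : σ ^ p = 1) (hl : ∀ u v w, β (u * v) w = β u w + β v w) (hs : ∀ u v, β u v = -β v u)
    (hi : ∀ u v, β (σ u) (σ v) = β u v) (hQ : ∀ x, β (σ x * x⁻¹) (σ (σ x * x⁻¹)) = 0)
    (hne : ∃ w z, β (σ w * w⁻¹) z ≠ 0) : ∃ x, (∃ z, β (σ x * x⁻¹) z ≠ 0) ∧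
      (∀ z, β (σ (σ x * x⁻¹)) z = β (σ x * x⁻¹) z) ∧ ∀ z, p • β (σ x * x⁻¹) z = 0 := by
  have hr : ∀ u v w, β u (v * w) = β u v + β u w := fun u v w => by rw [hs, hl, hs v, hs w]; abel
  have h1 : ∀ w, β 1 w = 0 := fun w => by simpa using hl 1 1 w
  have hl' : ∀ u w, β u⁻¹ w = -β u w := fun u w => by
    rw [eq_neg_iff_add_eq_zero, ← hl, inv_mul_cancel, h1]
  have hr' : ∀ u w, β u w⁻¹ = -β u w := fun u w => by rw [hs, hl', hs w, neg_neg]
  have hi' : ∀ u z, β (σ u) z = β u (σ.symm z) := fun u z => by rw [← hi u, MulEquiv.apply_symm_apply]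
  have hE : ∀ w z, β (σ (σ (σ (σ w)))) z - 2 • β (σ (σ (σ w))) z + 2 • β (σ w) z - β w z = 0 := fun w z => by
    obtain ⟨x, rfl⟩ := (σ.trans σ).surjective z
    have e1 := hQ (w * x)
    have e2 := hQ w
    have e3 := hQ x
    simp only [map_mul, map_inv, mul_inv_rev, hl, hr, hl', hr'] at e1 e2 e3
    rw [hs (σ x) (σ (σ w)), hs (σ x) (σ w), hs x (σ (σ w)), hs x (σ w), ← hi (σ (σ w)) (σ x), ← hi (σ w) (σ x),
      ← hi (σ (σ w)) x, ← hi (σ (σ (σ w))) (σ x), ← hi (σ w) x, ← hi (σ (σ w)) (σ x), ← hi w (σ x)] at e1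
    simp only [MulEquiv.trans_apply]
    linear_combination (norm := abel) e1 - e2 - e3
  have key : ∃ x, (∃ z, β (σ x * x⁻¹) z ≠ 0) ∧ ∀ z, β (σ (σ x * x⁻¹)) z = β (σ x * x⁻¹) z := by
    by_cases h : ∀ w z, β (σ (σ (σ w * w⁻¹))) z = β (σ w * w⁻¹) z
    · obtain ⟨w, hw⟩ := hne
      refine ⟨w, hw, fun z => ?_⟩
      have e : ∀ m z, β ((σ ^ (2 * m)) (σ w * w⁻¹)) z = β (σ w * w⁻¹) z := fun m => by
        induction m with
        | zero => simp
        | succ m ih =>
          intro z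
          rw [mul_add, mul_one, pow_succ', pow_succ', MulAut.mul_apply, MulAut.mul_apply, hi', hi', ih, ← hi',
            ← hi', h]
      obtain ⟨m, rfl⟩ := hp
      rw [← e (m + 1) z, show 2 * (m + 1) = 2 * m + 1 + 1 by ring, pow_succ, hσ, one_mul]
    · push Not at h
      obtain ⟨w, z, h⟩ := h
      refine ⟨σ (σ w * w⁻¹) * (σ w * w⁻¹), ⟨z, fun e => h ?_⟩, fun z => ?_⟩
      · simp only [map_mul, map_inv, mul_inv_rev, hl, hl'] at e ⊢
        linear_combination (norm := abel) e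
      · simp only [map_mul, map_inv, mul_inv_rev, hl, hl']
        linear_combination (norm := abel) hE w z
  obtain ⟨x, h2, h3⟩ := key
  refine ⟨x, h2, h3, fun z => ?_⟩
  have e : ∀ m z, β ((σ ^ m) x) z = β x z + m • β (σ x * x⁻¹) z := fun m => by
    induction m with
    | zero => simp
    | succ m ih =>
      intro z
      rw [pow_succ', MulAut.mul_apply, hi', ih, ← hi', ← hi', h3, succ_nsmul, hl, hl']
      abel
  simpa [hσ] using (e p z).symm

section Main

variable {F V : Type*} [Field F] [AddCommGroup V] [Module F V] [FiniteDimensional F V] {G : Type*} [Group G]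
  (ρ : G →* End F V) {s : Fˣ →* G} (hρ : ∀ a v, ρ (s a) v = (a : F) • v) (hs : Function.Injective s)
  (hc : ∀ a x, s a * x = x * s a) {M : Subgroup G} {r : ℕ} (hr : r.Prime)
  (hM : ∀ u ∈ M, ∀ v ∈ M, ∃ a, a ^ r = 1 ∧ u * v = s a * (v * u))
  (hZ : ∀ u : G, (∀ v ∈ M, u * v = v * u) → ∃ a, u = s a) {g : G} (hg : g ∈ Subgroup.normalizer (M : Set G))
  (hns : ∀ a, g ≠ s a) {c : F}

include hg in
theorem ymem {x : G} (hx : x ∈ M) : g⁻¹ * x * g * x⁻¹ ∈ M :=
  mul_mem ((Subgroup.mem_normalizer_iff''.1 hg x).1 hx) (inv_mem hx)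

theorem yeq (g x : G) : x * g = g * (g⁻¹ * x * g * x⁻¹) * x := by group

include hρ hr hM hZ in
theorem fix_bd' {y : G} (hy : y ∈ M) (h : ∀ a, y ≠ s a) {m : ℕ} (hm : m ≤ r) :
    (r : F) ≠ 0 ∧ m * finrank F (eigenspace (ρ y) 1) ≤ finrank F V := by
  obtain ⟨z, hz, h1⟩ : ∃ z ∈ M, y * z ≠ z * y := by
    by_contra! e
    exact (hZ y e).elim h
  obtain ⟨a, h2, h3⟩ := hM y hy z hz
  haveI := Fact.mk hr
  have h4 := orderOf_eq_prime h2 fun e => h1 (by rw [h3, e, map_one, one_mul])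
  exact ⟨((IsPrimitiveRoot.coe_units_iff.2 (h4 ▸ IsPrimitiveRoot.orderOf a)).neZero' (n := r)).ne,
    fix_bd ρ hρ h4 h3 hm⟩

theorem exists_fix (h : ¬ 2 * finrank F (eigenspace (ρ g) c) ≤ finrank F V) (x : G) :
    ∃ v ≠ 0, ρ g v = c • v ∧ ρ (g⁻¹ * x * g * x⁻¹) v = v := by
  by_contra! e
  have h1 := two_le ρ (yeq g x) c
  rw [(Submodule.eq_bot_iff (eigenspace _ c ⊓ _)).2 fun v hv => by_contra fun h0 =>
    e v h0 (mem_eigenspace_iff.1 hv.1) (fix_of_inf ρ hv), finrank_bot] at h1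
  exact h (h1.trans (Submodule.finrank_le _))

omit [FiniteDimensional F V] in
include hρ in
theorem one_of_fix {a : Fˣ} {v : V} (hv : v ≠ 0) (h : ρ (s a) v = v) : a = 1 := by
  rw [hρ, ← sub_eq_zero, ← one_smul F v, smul_smul, ← sub_smul, mul_one, smul_eq_zero, sub_eq_zero] at h
  exact Units.ext (h.resolve_right hv)

include hρ hZ hns in
theorem exists_ns (h : ¬ 2 * finrank F (eigenspace (ρ g) c) ≤ finrank F V) :
    ∃ x ∈ M, ∀ a, g⁻¹ * x * g * x⁻¹ ≠ s a := by
  by_contra! e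
  refine (hZ g fun x hx => ?_).elim hns
  obtain ⟨a, ha⟩ := e x hx
  obtain ⟨v, h1, -, h2⟩ := exists_fix ρ h x
  rw [yeq g x, ha, one_of_fix (a := a) ρ hρ h1 (ha ▸ h2), map_one, mul_one]

include hρ hr hM hZ hg hns in
theorem bd1 {m : ℕ} (hm : m ≤ r) : 2 * m * finrank F (eigenspace (ρ g) c) ≤ (m + 1) * finrank F V := by
  by_cases h : 2 * finrank F (eigenspace (ρ g) c) ≤ finrank F V
  · nlinarith
  obtain ⟨x, hx, h1⟩ := exists_ns ρ hρ hZ hns h
  have h2 := (fix_bd' ρ hρ hr hM hZ (ymem hg hx) h1 hm).2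
  have h3 := (two_le ρ (yeq g x) c).trans (Nat.add_le_add (Submodule.finrank_le _)
    (Submodule.finrank_mono (t := eigenspace (ρ (g⁻¹ * x * g * x⁻¹)) 1) fun v hv => by
      rw [mem_eigenspace_iff, one_smul]; exact fix_of_inf ρ hv))
  nlinarith

include hρ hs hc hr hM hZ hg hns in
theorem bd2 {p : ℕ} (hp : p.Prime) (ho : Odd p) (hgp : g ^ p = 1) (h5 : p ≠ r ∨ 4 ≤ r) :
    2 * finrank F (eigenspace (ρ g) c) ≤ finrank F V := by
  by_contra h
  choose! b hb1 hb2 using hM
  let σ : MulAut M := M.normalizerMonoidHom ⟨g, hg⟩⁻¹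
  have hσ : ∀ u : M, (σ u : G) = g⁻¹ * u * g := fun u => by
    show g⁻¹ * u * g⁻¹⁻¹ = _; rw [inv_inv]
  have hu : ∀ {u v : G} {a}, u ∈ M → v ∈ M → u * v = s a * (v * u) → b u v = a := fun h1 h2 h3 =>
    hs (mul_right_cancel ((hb2 _ h1 _ h2).symm.trans h3))
  have hy : ∀ x : M, ((σ x * x⁻¹ : M) : G) = g⁻¹ * x * g * (x : G)⁻¹ := fun x => by
    rw [Subgroup.coe_mul, hσ]; rfl
  have hz : ∀ u : M, (∀ z : M, b u z = 1) → ∃ a, (u : G) = s a := fun u e => hZ _ fun v hv => by
    rw [hb2 _ u.2 _ hv, e ⟨v, hv⟩, map_one, one_mul]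
  have hl : ∀ u v w : M, b (u * v : M) w = b u w * b v w := fun u v w => hu (u * v).2 w.2 (by
    rw [Subgroup.coe_mul, mul_assoc, hb2 _ v.2 _ w.2, ← mul_assoc, ← hc, mul_assoc, ← mul_assoc (u : G),
      hb2 _ u.2 _ w.2, mul_comm (b u w), map_mul]
    group)
  obtain ⟨x, ⟨z, h1⟩, h2, h3⟩ := alg (fun u v : M => Additive.ofMul (b u v)) σ ho
    (by rw [← map_pow, inv_pow, show (⟨g, hg⟩ : Subgroup.normalizer (M : Set G)) ^ p = 1 from Subtype.ext hgp,
      inv_one, map_one])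
    (fun u v w => congrArg _ (hl u v w))
    (fun u v => congrArg Additive.ofMul (hu u.2 v.2 (a := (b v u)⁻¹) (by rw [hb2 _ v.2 _ u.2, map_inv]; group)))
    (fun u v => congrArg _ (hu (σ u).2 (σ v).2 (by
      rw [hσ, hσ, show g⁻¹ * u * g * (g⁻¹ * v * g) = g⁻¹ * (u * v) * g by group, hb2 _ u.2 _ v.2, ← mul_assoc, ← hc]
      group)))
    (fun x => by
      obtain ⟨v, e1, e2, e3⟩ := exists_fix ρ h x
      rw [← hy] at e3
      have e4 : ρ (σ (σ x * x⁻¹)) v = v := by
        rw [hσ, app, e2, map_smul, app, e3, ← map_smul, ← e2, ← app, inv_mul_cancel, map_one]; rfl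
      have e5 := congrArg (fun t => ρ t v) (hb2 _ (σ x * x⁻¹).2 _ (σ (σ x * x⁻¹)).2)
      simp only [app, e3, e4] at e5
      exact congrArg _ (one_of_fix ρ hρ e1 e5.symm))
    (by
      obtain ⟨x, hx, e⟩ := exists_ns ρ hρ hZ hns h
      by_contra! e'
      exact (hz _ (e' ⟨x, hx⟩)).elim fun a ha => e a (hy ⟨x, hx⟩ ▸ ha))
  obtain ⟨y, hy'⟩ : ∃ y, y = σ x * x⁻¹ := ⟨_, rfl⟩
  have e0 := hy x
  rw [← hy'] at h1 h2 h3 e0
  haveI := Fact.mk hr
  have h4 : orderOf (b y z) = r := orderOf_eq_prime (hb1 _ y.2 _ z.2) h1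
  have h6 : 4 ≤ r := h5.resolve_left fun e => e ((Nat.prime_dvd_prime_iff_eq hr hp).1
    (h4 ▸ orderOf_dvd_of_pow_eq_one (h3 z))).symm
  have hgy : g * y = y * g := by
    obtain ⟨a, ha⟩ := hz (σ y * y⁻¹) fun w => by
      apply mul_right_cancel (b := b y w)
      rw [← hl, inv_mul_cancel_right, one_mul]; exact h2 w
    obtain ⟨v, e1, -, e2⟩ := exists_fix ρ h y
    rw [hy] at ha
    rw [yeq g y, ha, one_of_fix (a := a) ρ hρ e1 (ha ▸ e2), map_one, mul_one]
  have hxg : x * g = g * y * x := e0 ▸ yeq g x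
  obtain ⟨v, e1, e2, e3⟩ := exists_fix ρ h x
  rw [← e0] at e3
  by_cases e : b y x = 1
  · have h7 : ∀ a, (y : G) ≠ s a := fun a ha => h1 (congrArg _ (hu y.2 z.2 (by rw [ha, hc, map_one, one_mul])))
    obtain ⟨h8, h9⟩ := fix_bd' ρ hρ hr (fun u hu v hv => ⟨_, hb1 u hu v hv, hb2 u hu v hv⟩) hZ y.2 h7 h6
    refine h (case_eq ρ hr h6 h8 hxg hgy (by rw [hb2 _ y.2 _ x.2, e, map_one, one_mul]) ?_ h9 c)
    have e4 : ∀ (n : ℕ) (w : M), b (y ^ n : M) w = b y w ^ n := fun n w => by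
      induction n with
      | zero => exact hu (y ^ 0).2 w.2 (by simp)
      | succ n ih => rw [pow_succ, hl, ih, pow_succ]
    obtain ⟨a, ha⟩ := hz (y ^ r) fun w => by rw [e4, hb1 _ y.2 _ w.2]
    have e5 : ∀ n : ℕ, ρ ((y : G) ^ n) v = v := fun n => by
      induction n with
      | zero => simp
      | succ n ih => rw [pow_succ, app, e3, ih]
    rw [Subgroup.coe_pow] at ha
    rw [ha, one_of_fix (a := a) ρ hρ e1 (ha ▸ e5 r), map_one]
  · refine h (case_ne ρ hρ hxg hgy (hb2 _ y.2 _ x.2) e (fun e' => ?_) fun e' => e1 (rinj ρ g (by simpa [e'] using e2)))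
    have := Nat.le_of_dvd three_pos
      (orderOf_eq_prime (hb1 _ y.2 _ x.2) e ▸ orderOf_dvd_of_pow_eq_one e')
    omega

end Main

end CA.H8Eig
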