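import Mathlib

/-! The Jacobi–Trudi identity in bialternant form and the orthogonality relations it gives. -/

set_option autoImplicit false

namespace CA.JacTru

open Finset Matrix

variable {n : ℕ} {R : Type*} [CommRing R] (x : Fin n → R)

/-- generating series of the complete symmetric functions -/
noncomputable def Hs : PowerSeries R := ∏ k, PowerSeries.mk fun m => x k ^ m

/-- complete symmetric function -/
noncomputable def hh (m : ℕ) : R := PowerSeries.coeff m (Hs x)

theorem hh_zero : hh x 0 = 1 := by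
  simp [hh, Hs, map_prod]

theorem geo (a : R) : (PowerSeries.mk fun m => a ^ m) * (1 - PowerSeries.C a * PowerSeries.X) = 1 := by
  ext m
  rw [mul_sub, mul_one, map_sub, ← mul_assoc]
  cases m with
  | zero => simp
  | succ m => simp [PowerSeries.coeff_succ_mul_X, pow_succ, PowerSeries.coeff_one]

/-- the complementary elementary polynomial -/
noncomputable def Ek (k : Fin n) : Polynomial R := ∏ i ∈ univ.erase k, (1 - Polynomial.C (x i) * Polynomial.X)

theorem Ek_deg (k : Fin n) : (Ek x k).natDegree < n := by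
  refine lt_of_le_of_lt (Polynomial.natDegree_prod_le _ _) (lt_of_le_of_lt (sum_le_card_nsmul _ _ 1 fun i _ => ?_) ?_)
  · compute_degree
  · have := k.2
    simp; omega

theorem Hs_mul (k : Fin n) : Hs x * (Ek x k : PowerSeries R) = PowerSeries.mk fun m => x k ^ m := by
  rw [Hs, ← mul_prod_erase _ _ (mem_univ k), Ek, ← Polynomial.coeToPowerSeries.ringHom_apply, map_prod, mul_assoc,
    ← prod_mul_distrib, prod_eq_one, mul_one]
  intro i _
  simpa using geo (x i)

/-- the Jacobi–Trudi matrix -/
noncomputable def Hm (l : Fin n → ℕ) : Matrix (Fin n) (Fin n) R :=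
  of fun i j => if j.1 ≤ l i then hh x (l i - j) else 0

/-- the alternant matrix -/
def Am (l : Fin n → ℕ) : Matrix (Fin n) (Fin n) R := of fun i k => x k ^ l i

theorem Am_eq (l : Fin n → ℕ) : Am x l = Hm x l * of fun (j k : Fin n) => (Ek x k).coeff j := by
  ext i k
  have := congrArg (PowerSeries.coeff (l i)) (Hs_mul x k)
  rw [PowerSeries.coeff_mk, mul_comm, PowerSeries.coeff_mul, Nat.sum_antidiagonal_eq_sum_range_succ_mk] at this
  rw [Am, of_apply, ← this, mul_apply]
  simp only [Hm, of_apply, Polynomial.coeff_coe]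
  rw [Fin.sum_univ_eq_sum_range (fun j => (if j ≤ l i then hh x (l i - j) else 0) * (Ek x k).coeff j) n]
  have e1 : ∀ N, n ≤ N → ∑ j ∈ range n, (if j ≤ l i then hh x (l i - j) else 0) * (Ek x k).coeff j =
      ∑ j ∈ range N, (if j ≤ l i then hh x (l i - j) else 0) * (Ek x k).coeff j := fun N hN =>
    sum_subset (range_subset_range.2 hN) fun j _ hj => by
      rw [Polynomial.coeff_eq_zero_of_natDegree_lt ((Ek_deg x k).trans_le (by simpa using hj)), mul_zero]
  rw [e1 (n + (l i + 1)) (by omega), ← sum_subset (range_subset_range.2 (Nat.le_add_left (l i + 1) n))]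
  · exact sum_congr rfl fun j hj => by rw [if_pos (by simpa [Nat.lt_succ_iff] using hj), mul_comm]; rfl
  · intro j _ hj
    rw [if_neg (by simpa [Nat.lt_succ_iff] using hj), zero_mul]

theorem det_Hm_id : (Hm x fun i => i.1).det = 1 := by
  rw [det_of_isLowerTriangular]
  · exact prod_eq_one fun i _ => by simp [Hm, hh_zero]
  · intro i j h
    exact if_neg (not_le.2 h)

theorem jacobi_trudi (l : Fin n → ℕ) : (Am x l).det = (Hm x l).det * (Am x fun i => i.1).det := by
  rw [Am_eq, Am_eq x fun i => i.1, det_mul, det_mul, det_Hm_id, one_mul]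

theorem det_Hm (l : Fin n → ℕ) : (Hm x l).det = ∑ κ : Equiv.Perm (Fin n),
    if ∀ i, (κ i).1 ≤ l i then ((Equiv.Perm.sign κ : ℤ) : R) * ∏ i, hh x (l i - κ i) else 0 := by
  rw [← det_transpose, det_apply']
  refine sum_congr rfl fun κ _ => ?_
  simp only [Hm, transpose_apply, of_apply, Fintype.prod_ite_zero]
  split_ifs <;> simp

open MvPolynomial

/-- a function as a finsupp -/
noncomputable def fs (a : Fin n → ℕ) : Fin n →₀ ℕ := Finsupp.equivFunOnFinite.symm a

@[simp] theorem fs_apply (a : Fin n → ℕ) (i : Fin n) : fs a i = a i := rfl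

theorem fs_inj {a b : Fin n → ℕ} : fs a = fs b ↔ a = b := Finsupp.equivFunOnFinite.symm.injective.eq_iff

theorem prod_X (a : Fin n → ℕ) : ∏ k, (X k : MvPolynomial (Fin n) R) ^ a k = monomial (fs a) 1 := by
  rw [prod_X_pow]; congr 2; ext i; simp

theorem hh_X (m : ℕ) : hh (X : Fin n → MvPolynomial (Fin n) R) m = ∑ d ∈ finsuppAntidiag univ m, monomial d 1 := by
  rw [hh, Hs, PowerSeries.coeff_prod]
  refine sum_congr rfl fun d _ => ?_
  simp only [PowerSeries.coeff_mk]
  rw [prod_X]; congr 2; ext i; simp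

theorem det_Am (l : Fin n → ℕ) : (Am (X : Fin n → MvPolynomial (Fin n) R) l).det =
    ∑ σ : Equiv.Perm (Fin n), monomial (fs fun k => l (σ k)) ((Equiv.Perm.sign σ : ℤ) : R) := by
  rw [det_apply']
  refine sum_congr rfl fun σ _ => ?_
  simp only [Am, of_apply]
  rw [prod_X, ← map_intCast (C : R →+* MvPolynomial (Fin n) R), C_mul_monomial, mul_one]

/-- the number of matrices with given row and column sums -/
def MM (a b : Fin n → ℕ) : ℕ :=
  #{m ∈ Fintype.piFinset fun i => piAntidiag univ (a i) | ∀ j, ∑ i, m i j = b j}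

theorem coeff_prod_hh (a b : Fin n → ℕ) :
    coeff (fs b) (∏ i, hh (X : Fin n → MvPolynomial (Fin n) R) (a i)) = MM a b := by
  have e : ∀ m, hh (X : Fin n → MvPolynomial (Fin n) R) m = ∑ d ∈ piAntidiag univ m, monomial (fs d) 1 := by
    intro m
    rw [hh_X]
    refine sum_bij' (fun d _ => d) (fun d _ => fs d) ?_ ?_ ?_ ?_ ?_ <;> simp [fs]
  simp only [e]
  rw [prod_univ_sum, coeff_sum, MM, card_filter, Nat.cast_sum]
  refine sum_congr rfl fun m _ => ?_
  rw [← monomial_sum_one, coeff_monomial]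
  simp [Finsupp.ext_iff, Finsupp.finsetSum_apply]

theorem coeff_det_Am {l l' : Fin n → ℕ} (h : StrictMono l) (h' : StrictMono l') :
    coeff (fs l') (Am (X : Fin n → MvPolynomial (Fin n) R) l).det = if l = l' then 1 else 0 := by
  rw [det_Am, coeff_sum, sum_eq_single 1]
  · simp [coeff_monomial, fs_inj]
  · intro σ _ hσ
    rw [coeff_monomial, if_neg]
    intro e
    have e' := fs_inj.1 e
    refine hσ (Equiv.ext fun i => StrictMono.apply_eq (f := σ) fun a b hab => h.lt_iff_lt.1 ?_)
    rw [congrFun e' a, congrFun e' b]; exact h' hab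
  · simp

/-- orthogonality -/
theorem orth {l l' : Fin n → ℕ} (h : StrictMono l) (h' : StrictMono l') :
    (∑ κ : Equiv.Perm (Fin n), ∑ τ : Equiv.Perm (Fin n),
      if (∀ i, (κ i).1 ≤ l i) ∧ ∀ i, (τ i).1 ≤ l' i then ((Equiv.Perm.sign κ : ℤ) : R) * ((Equiv.Perm.sign τ : ℤ) : R) *
        MM (fun i => l i - κ i) (fun i => l' i - τ i) else 0) = if l = l' then 1 else 0 := by
  rw [← coeff_det_Am h h', jacobi_trudi, det_Hm, det_Am, sum_mul_sum]
  simp only [coeff_sum]
  refine sum_congr rfl fun κ _ => sum_congr rfl fun τ _ => ?_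
  rw [coeff_mul_monomial']
  by_cases h1 : ∀ i, (κ i).1 ≤ l i
  · by_cases h2 : ∀ i, (τ i).1 ≤ l' i
    · rw [if_pos ⟨h1, h2⟩, if_pos h1, if_pos (show fs (fun k => (τ k).1) ≤ fs l' from h2),
        ← map_intCast (C : R →+* MvPolynomial (Fin n) R), coeff_C_mul, ← coeff_prod_hh,
        show fs l' - fs (fun k => (τ k).1) = fs fun i => l' i - τ i by ext; simp]
      ring
    · rw [if_neg (fun h => h2 h.2), if_neg (show ¬ fs (fun k => (τ k).1) ≤ fs l' from h2)]
  · rw [if_neg (fun h => h1 h.1), if_neg h1]; simp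

end CA.JacTru
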