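import Cfsg.Agent.Lib.Lin.PGL2Dickson
import Cfsg.Agent.Lib.Grp.H28Simp

/-!
Three involutions of `PGL₂(k)`, two of which commute.
-/

set_option autoImplicit false

namespace CA.MaxF

open Matrix OnePoint CA.PGL2Act CA.PGL2Dickson
open scoped MatrixGroups

variable {k : Type*} [Field k]

/-- The values `4 cos² θ` for rotations of order `3, 4, 5`. -/
def Gd (α : k) : Prop := α = 1 ∨ α = 2 ∨ α ^ 2 - 3 * α + 1 = 0

/-- Matrices of trace zero. -/
def ph (x y w : k) : Matrix (Fin 2) (Fin 2) k := !![-x, y + w; y - w, x]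

theorem ph_sq {x y w : k} (h : x ^ 2 + y ^ 2 - w ^ 2 = 1) : ph x y w * ph x y w = 1 := by
  ext i j
  fin_cases i <;> fin_cases j <;> simp [ph, mul_apply, Fin.sum_univ_two] <;>
    first | linear_combination h | ring

theorem ph_anti (x y w x' y' w' : k) : ph x y w * ph x' y' w' + ph x' y' w' * ph x y w =
    (2 * (x * x' + y * y' - w * w')) • 1 := by
  ext i j
  fin_cases i <;> fin_cases j <;> simp [ph, mul_apply, Fin.sum_univ_two] <;> ring

/-- The involution with matrix `ph x y w`. -/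
def iv (x y w : k) (h : x ^ 2 + y ^ 2 - w ^ 2 = 1) : GL (Fin 2) k :=
  ⟨ph x y w, ph x y w, ph_sq h, ph_sq h⟩

theorem mk_eq_one {m : GL (Fin 2) k} : ProjGenLinGroup.mk m = 1 ↔
    m.val 0 1 = 0 ∧ m.val 1 0 = 0 ∧ m.val 0 0 = m.val 1 1 := by
  rw [← map_one ProjGenLinGroup.mk, eq_comm, ProjGenLinGroup.mk_eq_mk_iff]
  constructor
  · rintro ⟨u, rfl⟩
    simp
  · rintro ⟨h1, h2, h3⟩
    have hd := m.det_ne_zero
    rw [det_fin_two, h1, h3] at hd
    refine ⟨Units.mk0 (m.val 1 1) fun e => by simp [e] at hd, ?_⟩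
    ext i j
    fin_cases i <;> fin_cases j <;> simp [h1, h2, h3]

theorem dihedral_aux {n : ℕ} {a b c : DihedralGroup n} (ha : a * a = 1) (hb : b * b = 1)
    (hc : c * c = 1) (h1 : a * c ≠ c * a) (h2 : b * c ≠ c * b) : (a * b * c) ^ 2 = 1 := by
  have key : ∀ (i : ZMod n) (x : DihedralGroup n), DihedralGroup.r i * DihedralGroup.r i = 1 →
      DihedralGroup.r i * x = x * DihedralGroup.r i := fun i x h => by
    rw [DihedralGroup.r_mul_r, DihedralGroup.one_def, DihedralGroup.r.injEq] at h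
    rcases x with j | j
    · simp [add_comm]
    · simp only [DihedralGroup.r_mul_sr, DihedralGroup.sr_mul_r, DihedralGroup.sr.injEq]
      linear_combination -h
  rcases a with i | i
  · exact absurd (key i c ha) h1
  rcases b with j | j
  · exact absurd (key j c hb) h2
  rcases c with l | l
  · exact absurd (key l _ hc).symm h1
  simp [sq]

theorem perm4 (g : Equiv.Perm (Fin 4)) : g ^ 3 = 1 ∨ g ^ 4 = 1 := by revert g; decide +kernel

theorem alt5 (g : alternatingGroup (Fin 5)) : g ^ 3 = 1 ∨ g ^ 4 = 1 ∨ g ^ 5 = 1 := by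
  obtain ⟨g, hg⟩ := g
  simp only [Subtype.ext_iff, Subgroup.coe_pow, Subgroup.coe_one]
  rw [Equiv.Perm.mem_alternatingGroup] at hg
  revert g; decide +kernel

theorem three_invol [IsAlgClosed k] [DecidableEq k] (p : ℕ) [CharP k p] (h2 : (2 : k) ≠ 0)
    {a b d : k} (ha : a ≠ 0) (hb : b ≠ 0) (hd : d ≠ 0) (h : a ^ 2 + b ^ 2 - d ^ 2 = 1)
    (G : Subgroup PGL(2, k)) [Finite G] (hU : .mk (iv 1 0 0 (by simp)) ∈ G)
    (hV : .mk (iv 0 1 0 (by simp)) ∈ G) (hC : .mk (iv a b d h) ∈ G) :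
    Gd (4 * a ^ 2) ∨ ∃ g ∈ G, g ≠ 1 ∧ g ^ p = 1 := by
  set U : GL (Fin 2) k := iv 1 0 0 (by simp) with eU
  set V : GL (Fin 2) k := iv 0 1 0 (by simp) with eV
  set C : GL (Fin 2) k := iv a b d h with eC
  have sq : ∀ x y w h, (ProjGenLinGroup.mk (iv x y w h) : PGL(2, k)) * .mk (iv x y w h) = 1 :=
    fun x y w h => by
      rw [← map_mul, ← map_one ProjGenLinGroup.mk]
      exact congrArg _ (Units.ext (ph_sq h))
  have fin : ∀ g : G, g.1 = .mk (U * C) → g ^ 3 = 1 ∨ g ^ 4 = 1 ∨ g ^ 5 = 1 → Gd (4 * a ^ 2) := by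
    intro g e H
    simp only [Subtype.ext_iff, Subgroup.coe_pow, Subgroup.coe_one, e, ← map_pow, mk_eq_one] at H
    simp [eU, eC, iv, ph, pow_succ, mul_apply, Fin.sum_univ_two] at H
    have hb' : 2 * b ≠ 0 := mul_ne_zero h2 hb
    rcases H with ⟨h1, h3, -⟩ | ⟨h1, h3, -⟩ | ⟨h1, h3, -⟩
    · left
      apply mul_left_cancel₀ hb'
      linear_combination h3 - h1 + (2 * b) * h
    · right; left
      apply mul_left_cancel₀ (mul_ne_zero hb' (mul_ne_zero h2 ha))
      linear_combination h3 - h1 + (8 * a * b) * h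
    · right; right
      apply mul_left_cancel₀ hb'
      linear_combination h3 - h1 + (2 * b * (12 * a ^ 2 - 1 - (a ^ 2 + b ^ 2 - d ^ 2))) * h
  have hUC : ProjGenLinGroup.mk (U * C) ∈ G := by rw [map_mul]; exact mul_mem hU hC
  rcases dickson G with ⟨x, hx⟩ | ⟨n, -, -, ⟨e⟩⟩ | ⟨-, ⟨e⟩⟩ | ⟨-, ⟨e⟩⟩ | ⟨h60, hs, -⟩ |
    ⟨K, γ, -, -, hK⟩
  · exfalso
    have h1 := hx _ hU
    have h3 := hx _ hV
    have e1 : ProjGenLinGroup.mk U = A (-1) 0 := congrArg _ (Units.ext (by simp [eU, iv, ph]))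
    have e2 : ProjGenLinGroup.mk V = W := congrArg _ (Units.ext (by simp [eV, iv, ph]))
    rw [e1] at h1
    rw [e2] at h3
    induction x using OnePoint.rec with
    | infty => simp [W_smul_infty] at h3
    | coe z =>
      rw [A_smul_coe, OnePoint.coe_eq_coe] at h1
      obtain rfl : z = 0 := mul_left_cancel₀ h2 (by simp at h1; linear_combination -h1)
      simp [W_smul_zero] at h3
  · exfalso
    have nc : ∀ (x y : GL (Fin 2) k) hx hy, x * x = 1 → y * y = 1 →
        e ⟨.mk x, hx⟩ * e ⟨.mk y, hy⟩ = e ⟨.mk y, hy⟩ * e ⟨.mk x, hx⟩ →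
        ProjGenLinGroup.mk (x * y * (x * y)) = 1 := fun x y hx hy h1 h3 h4 => by
      rw [← map_mul, ← map_mul, e.apply_eq_iff_eq, Subtype.ext_iff] at h4
      simp only [Subgroup.coe_mul] at h4
      rw [map_mul, map_mul]
      nth_rw 2 [h4]
      rw [← map_mul, ← map_mul, ← map_mul, mul_assoc, ← mul_assoc y, h3, one_mul, h1, map_one]
    have s1 : ∀ x y w h hx, e ⟨.mk (iv x y w h), hx⟩ * e ⟨.mk (iv x y w h), hx⟩ = 1 :=
      fun x y w h hx => by rw [← map_mul, ← map_one e]; exact congrArg _ (Subtype.ext (sq ..))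
    have s2 : ∀ (x y w : k) h, iv x y w h * iv x y w h = 1 := fun x y w h => Units.ext (ph_sq h)
    have h4 := dihedral_aux (s1 _ _ _ _ hU) (s1 _ _ _ _ hV) (s1 _ _ _ _ hC) (fun c => ?_) fun c => ?_
    · rw [← map_mul, ← map_mul, ← map_pow, map_eq_one_iff _ e.injective, Subtype.ext_iff] at h4
      simp only [Subgroup.coe_mul, Subgroup.coe_pow, Subgroup.coe_one, ← map_mul, ← map_pow,
        mk_eq_one] at h4
      simp [iv, ph, pow_succ, mul_apply, Fin.sum_univ_two] at h4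
      exact mul_ne_zero (mul_ne_zero h2 ha) hd (by linear_combination -h4.1)
    · have := mk_eq_one.1 (nc _ _ _ _ (s2 ..) (s2 ..) c)
      simp [iv, ph, mul_apply, Fin.sum_univ_two] at this
      exact mul_ne_zero (mul_ne_zero h2 h2) (mul_ne_zero ha hb)
        (by linear_combination this.2.1 - this.1)
    · have := mk_eq_one.1 (nc _ _ _ _ (s2 ..) (s2 ..) c)
      simp [iv, ph, mul_apply, Fin.sum_univ_two] at this
      exact mul_ne_zero h2 (mul_ne_zero ha hb) (by linear_combination this.1)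
  · refine .inl (fin ⟨_, hUC⟩ rfl ?_)
    rcases perm4 (e ⟨_, hUC⟩).1 with c | c
    · exact .inl (e.injective (by rw [map_pow, map_one]; exact Subtype.ext c))
    · exact .inr (.inl (e.injective (by rw [map_pow, map_one]; exact Subtype.ext c)))
  · refine .inl (fin ⟨_, hUC⟩ rfl ?_)
    rcases perm4 (e ⟨_, hUC⟩) with c | c
    · exact .inl (e.injective (by rw [map_pow, map_one]; exact c))
    · exact .inr (.inl (e.injective (by rw [map_pow, map_one]; exact c)))
  · obtain ⟨e⟩ := CA.H28Simp.simple_60 h60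
    refine .inl (fin ⟨_, hUC⟩ rfl ?_)
    simpa only [← map_pow, map_eq_one_iff _ e.injective] using alt5 (e ⟨_, hUC⟩)
  · have : A (1 : kˣ) (1 : k) ∈ G.map (MulAut.conj γ).toMonoidHom := by
      have e : ProjGenLinGroup.map K.subtype (A 1 1) = A (1 : kˣ) (1 : k) := by
        classical
        rw [map_A]; simp
      rcases hK with hK | ⟨-, hK⟩ <;> rw [hK]
      · exact ⟨_, e⟩
      · exact ⟨_, by rw [MonoidHom.comp_apply, toPGL_transvection01, e]⟩
    obtain ⟨g, hg, e⟩ := this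
    refine .inr ⟨g, hg, fun c => ?_, (MulAut.conj γ).injective ?_⟩
    · rw [c, map_one, eq_comm, A_eq_one_iff] at e
      exact one_ne_zero e.2
    · rw [map_pow, map_one]
      exact (congrArg (· ^ p) e).trans (by simp [A_one_pow, A_one])

end CA.MaxF
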