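import Cfsg.Agent.Lib.Lin.MaxF2

/-!
Overgroups of the monomial group of an orthonormal frame over a prime field: growth.
-/

set_option autoImplicit false
set_option linter.unusedSectionVars false

namespace CA.CForm

open Module CA.MaxF Pi Equiv Finset

namespace Form
variable {F : Type*} [Field F] [Fintype F] {ι : Type*} [Fintype ι] [DecidableEq ι]

local notation:75 g:76 " ⊳ " v:75 => (g : (ι → F) ≃ₗ[F] (ι → F)) v
local notation "𝐞" i:max => (Pi.single i 1 : ι → F)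

/-- `Y` is a proper overgroup of the monomial group of the standard frame. -/
structure Fr (f : Form (Kind.orth F) (ι → F)) (Y : Subgroup f.Isom) (c : F) : Prop where
  c_ne : c ≠ 0
  two : (2 : F) ≠ 0
  prime : (Fintype.card F).Prime
  seven : 7 ≤ Fintype.card ι
  B_eq : ∀ u v, f.B u v = 2 * c * (u ⬝ᵥ v)
  refl_mem : ∀ i, f.refl (𝐞 i) ∈ Y
  perm_mem : ∀ σ : Perm ι, Perm.sign σ = 1 → ∃ g ∈ Y, ∀ u, g ⊳ u = u ∘ σ
  not_le : ¬f.Eich ≤ Y

/-- Unit vectors whose reflection lies in `Y`. -/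
def DD (f : Form (Kind.orth F) (ι → F)) (Y : Subgroup f.Isom) (u : ι → F) : Prop :=
  u ⬝ᵥ u = 1 ∧ f.refl u ∈ Y

/-- The restriction of a vector to a set of coordinates. -/
def rs (I : Finset ι) (u : ι → F) : ι → F := fun i => if i ∈ I then u i else 0

theorem dot_rs (I : Finset ι) (u : ι → F) : u ⬝ᵥ rs I u = ∑ i ∈ I, u i ^ 2 := by
  simp [rs, dotProduct, sq]

theorem rs_dot (I : Finset ι) (u : ι → F) : rs I u ⬝ᵥ rs I u = ∑ i ∈ I, u i ^ 2 := by
  rw [← dot_rs]
  exact sum_congr rfl fun i _ => by simp only [rs]; split_ifs <;> simp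

theorem single_comp (i : ι) (a : F) (σ : Perm ι) :
    (single i a : ι → F) ∘ σ = single (σ.symm i) a := by
  ext j
  simp [single_apply, eq_symm_apply]

theorem exists_out {u : ι → F} {I : Finset ι} (h : ∑ i ∈ I, u i ^ 2 ≠ u ⬝ᵥ u) :
    ∃ l, l ∉ I ∧ u l ≠ 0 := by
  by_contra! H
  refine h ((dot_rs I u).symm.trans (congrArg _ (funext fun i => ?_)))
  by_cases hi : i ∈ I <;> simp [rs, hi, H]

variable {f : Form (Kind.orth F) (ι → F)} {Y : Subgroup f.Isom} {c : F} {u v w x y : ι → F}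

namespace Fr
variable (h : f.Fr Y c)
include h

theorem Q_eq (u : ι → F) : f.Q u = c * (u ⬝ᵥ u) :=
  mul_left_cancel₀ h.two (by rw [← orth_B_self, h.B_eq, mul_assoc])

theorem B_zero : f.B u v = 0 ↔ u ⬝ᵥ v = 0 := by simp [h.B_eq, h.two, h.c_ne]

theorem Q_zero : f.Q u = 0 ↔ u ⬝ᵥ u = 0 := by simp [h.Q_eq, h.c_ne]

theorem nondeg : f.Nondeg := fun x hx => funext fun i => by simpa [h.B_zero] using hx (𝐞 i)

theorem refl_eq (hu : u ⬝ᵥ u = 1) (v : ι → F) : f.refl u ⊳ v = v - (2 * (u ⬝ᵥ v)) • u := by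
  have := h.c_ne
  rw [refl_apply, h.Q_eq, h.B_eq, hu]
  congr 2
  field_simp

theorem dot_map (g : f.Isom) (u v : ι → F) : (g ⊳ u) ⬝ᵥ (g ⊳ v) = u ⬝ᵥ v :=
  mul_left_cancel₀ (mul_ne_zero h.two h.c_ne) (by rw [← h.B_eq, ← h.B_eq, B_coe_map])

theorem map (hu : f.DD Y u) {g : f.Isom} (hg : g ∈ Y) : f.DD Y (g ⊳ u) :=
  ⟨by rw [h.dot_map, hu.1], f.conj_refl g u ▸ mul_mem (mul_mem hg hu.2) (inv_mem hg)⟩

theorem unit (i : ι) : f.DD Y (𝐞 i) := ⟨by simp, h.refl_mem i⟩

theorem refl (hu : f.DD Y u) (hv : f.DD Y v) : f.DD Y (v - (2 * (u ⬝ᵥ v)) • u) :=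
  h.refl_eq hu.1 v ▸ h.map hv hu.2

theorem flip (I : Finset ι) : ∃ g ∈ Y, ∀ u, g ⊳ u = u - (2 : F) • rs I u := by
  induction I using Finset.induction_on with
  | empty => exact ⟨1, one_mem _, fun u => by ext i; simp [rs]⟩
  | insert a I ha ih =>
    obtain ⟨g, hg, e⟩ := ih
    refine ⟨_, mul_mem (h.refl_mem a) hg, fun u => ?_⟩
    rw [isom_mul_apply, h.refl_eq (by simp), e]
    ext i
    by_cases hi : i = a <;> simp [rs, hi, ha]

theorem exists_two {s : Finset ι} (hs : s.card ≤ 5) : ∃ l l', l ≠ l' ∧ l ∉ s ∧ l' ∉ s := by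
  obtain ⟨l, hl, l', hl', e⟩ := one_lt_card.1
    (show 1 < sᶜ.card by rw [card_compl]; have := h.seven; omega)
  exact ⟨l, l', e, mem_compl.1 hl, mem_compl.1 hl'⟩

theorem perm {s : Finset ι} (hs : s.card ≤ 5) (hu : ∀ i, i ∉ s → u i = 0) (σ : Perm ι) :
    ∃ g ∈ Y, g ⊳ u = u ∘ σ := by
  rcases Int.units_eq_one_or (Perm.sign σ) with e | e
  · obtain ⟨g, hg, H⟩ := h.perm_mem σ e
    exact ⟨g, hg, H u⟩
  · obtain ⟨l, l', h1, h2, h3⟩ := h.exists_two hs
    obtain ⟨g, hg, H⟩ := h.perm_mem (swap l l' * σ) (by simp [e, h1])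
    refine ⟨g, hg, (H u).trans (funext fun i => ?_)⟩
    simp only [Function.comp, Perm.mul_apply, swap_apply_def]
    split_ifs with h4 h5 <;> simp [*]

theorem perm' {s : Finset ι} (hs : s.card ≤ 5) (hu : ∀ i, i ∉ s → u i = 0) (hD : f.DD Y u)
    (σ : Perm ι) : f.DD Y (u ∘ σ) := by
  obtain ⟨g, hg, e⟩ := h.perm hs hu σ
  exact e ▸ h.map hD hg

theorem lev_of (hw : f.DD Y w) (hw' : f.DD Y (w + y)) (hy : f.Q y = 0) (hB : y ⬝ᵥ w = 0) :
    w ∈ levS Y hy := by
  have hc := h.c_ne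
  have hQ : f.Q w = c := by rw [h.Q_eq, hw.1, mul_one]
  have h1 := f.orth_eichlerCond (f.Q_smul_of_Q hy c⁻¹) (w := w) (by simp [h.B_zero, hB])
  have h2 : f.Lev Y (c⁻¹ • y) w := ⟨_, h1, by
    rw [f.eichler_eq_refl_mul h1 (hQ ▸ hc), hQ, smul_inv_smul₀ hc]
    exact mul_mem hw.2 hw'.2⟩
  have := Submodule.smul_mem _ c ((h2.smul_left hy (inv_ne_zero hc)).mem_levS h.prime hy)
  rwa [Kind.orth_σ, smul_inv_smul₀ hc] at this

theorem add_smul {hy : f.Q y = 0} (hl : w ∈ levS Y hy) (hw : f.DD Y w) (a : F) :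
    f.DD Y (w + a • y) := by
  obtain ⟨d, hd, hm⟩ := hl (-a / (2 * c))
  have := h.map hw hm
  rw [f.eichler_apply_of_B _ _ _ _ (lev_of_mem_levS hl).B_eq] at this
  convert this using 1
  have := h.c_ne
  have := h.two
  rw [sub_eq_add_neg, ← neg_smul, h.B_eq, smul_dotProduct, hw.1]
  congr 2
  simp
  field_simp

theorem lev_refl {hy : f.Q y = 0} (hl : w ∈ levS Y hy) (hv : f.DD Y v) (h1 : v ⬝ᵥ y = 0)
    (h2 : v ⬝ᵥ w ≠ 0) : v ∈ levS Y hy := by
  have := sub_mem hl (map_mem_levS hl hv.2 (f.refl_apply_of_B (h.B_zero.2 h1)))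
  rwa [h.refl_eq hv.1, sub_sub_cancel, Submodule.smul_mem_iff _ (mul_ne_zero h.two h2)] at this

theorem core (hu : f.DD Y u) {I : Finset ι} (hy : f.Q (rs I u) = 0) {l : ι} (hl : l ∉ I)
    (h0 : u l ≠ 0) : 𝐞 l ∈ levS Y hy := by
  obtain ⟨g, hg, e⟩ := h.flip I
  have h1 : rs I u ⬝ᵥ u = 0 := by rw [dotProduct_comm, dot_rs, ← rs_dot, ← h.Q_zero, hy]
  have h2 := h.lev_of (w := g ⊳ u) (y := (2 : F) • rs I u) (h.map hu hg) (by simpa [e] using hu)
    (f.Q_smul_of_Q hy 2) (by simp [e, h1, h.Q_zero.1 hy])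
  have h3 := ((lev_of_mem_levS h2).smul_left hy h.two).mem_levS h.prime hy
  exact h.lev_refl h3 (h.unit l) (by simp [rs, hl]) (by simp [e, rs, hl, h0, h.two])

theorem grow {i j k l : ι} (ij : i ≠ j) (ik : i ≠ k) (jk : j ≠ k) (il : i ≠ l) (jl : j ≠ l)
    (kl : k ≠ l) {a b d : F} (hd : d ≠ 0) (hy : f.Q (single i a + single j b + single k d) = 0)
    (hl : 𝐞 l ∈ levS Y hy) : False := by
  obtain ⟨m, -, -, hm, -⟩ := h.exists_two (s := {i, j, k, l}) (card_le_four.trans (by omega))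
  simp only [mem_insert, mem_singleton, not_or] at hm
  obtain ⟨mi, mj, mk, ml⟩ := hm
  have ji := ij.symm
  have ki := ik.symm
  have kj := jk.symm
  have im := Ne.symm mi
  have jm := Ne.symm mj
  have km := Ne.symm mk
  have lm := Ne.symm ml
  have li := il.symm
  have lj := jl.symm
  have lk := kl.symm
  have e := h.Q_zero.1 hy
  have E1 : (𝐞 l + (1 : F) • (single i a + single j b + single k d)) ∘ ⇑(swap i j * swap k m) =
      𝐞 l + (single j a + single i b + single m d) := by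
    clear hl hy e
    simp only [one_smul, add_comp, single_comp]
    simp [swap_apply_of_ne_of_ne, Perm.mul_def, *]
  have E2 : 𝐞 l + (single j a + single i b + single m d) - (2 * (𝐞 j ⬝ᵥ (𝐞 l + (single j a +
      single i b + single m d)))) • 𝐞 j = single i b - single j a + single m d + 𝐞 l := by
    clear hl hy e E1
    ext x
    simp [*]
    simp only [single_apply]
    split_ifs <;> ring
  have E3 : (single i b - single j a + single m d + 𝐞 l) ⬝ᵥ
      (single i a + single j b + single k d) = 0 := by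
    clear hl hy e E1 E2
    simp [*, mul_comm]
  have E4 : ∀ v, (single i a + single j b + single k d) ⬝ᵥ v = a * v i + b * v j + d * v k := by
    simp
  rw [E4] at e
  simp [ij, ik, jk, ji, ki, kj] at e
  have h1 := h.add_smul hl (h.unit l) 1
  have h2 := h.perm' (s := {i, j, k, l}) (card_le_four.trans (by omega))
    (fun x hx => by simp at hx; simp [hx]) h1
  have h3 : ∀ m, i ≠ m → j ≠ m → k ≠ m → 𝐞 m ∈ levS Y hy := fun m im jm km =>
    h.lev_of (h.unit m) (by
      simpa [add_comp, single_comp, swap_apply_of_ne_of_ne, il, jl, kl, im, jm, km] using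
        h2 (swap l m)) hy (by simp [im.symm, jm.symm, km.symm])
  have h4 := h.refl (h.unit j) (h2 (swap i j * swap k m))
  rw [E1, E2] at h4
  have h5 := h.lev_refl hl h4 E3 (by simp [li, lj, lm])
  have h6 := sub_mem (sub_mem h5 hl) (Submodule.smul_mem _ d (h3 m im jm km))
  rw [← single_smul, smul_eq_mul, mul_one, add_sub_cancel_right, add_sub_cancel_right] at h6
  refine h.not_le (h.nondeg.Eich_le_of_Qgrp' (.inl ?_) hy (Qgrp_le_of_levS (hx := hy) fun v hv => ?_)
    (h.refl_mem k) ?_)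
  · have := h.seven
    simp; omega
  · have h7 := sum_mem (S := levS Y hy) (t := {i, j, k}ᶜ) (f := fun x => v x • 𝐞 x) fun x hx => by
      simp only [mem_compl, mem_insert, mem_singleton, not_or] at hx
      exact Submodule.smul_mem _ _ (h3 x (Ne.symm hx.1) (Ne.symm hx.2.1) (Ne.symm hx.2.2))
    rw [h.B_zero, E4] at hv
    convert add_mem h7 (add_mem (Submodule.smul_mem _ (v k / d) (self_mem_levS hy))
      (Submodule.smul_mem _ ((a * v j - b * v i) / d ^ 2) h6)) using 1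
    ext x
    simp only [Pi.add_apply, Finset.sum_apply, Pi.smul_apply, single_apply, Pi.sub_apply, smul_eq_mul,
      mul_ite, mul_one, mul_zero, sum_ite_eq, mem_compl, mem_insert, mem_singleton]
    by_cases xi : x = i
    · subst xi; simp [ij, ik]; field_simp; linear_combination v x * e - a * hv
    by_cases xj : x = j
    · subst xj; simp [ji, jk]; field_simp; linear_combination v x * e - b * hv
    by_cases xk : x = k
    · subst xk; simp [ki, kj, hd]
    simp [xi, xj, xk]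
  · rw [B_refl, f.B_self_of_Q hy]
    simp [h.Q_eq, h.B_eq, h.c_ne, h.two, ki, kj, hd]

theorem small {I : Finset ι} (hI : I.card ≤ 3) (h1 : ∀ i, i ∉ I → y i = 0) {k l : ι} (hk : y k ≠ 0)
    (hl : l ∉ I) (hy : f.Q y = 0) (hm : 𝐞 l ∈ levS Y hy) : False := by
  obtain ⟨J, h2, h3, h4⟩ := exists_subsuperset_card_eq (n := 3) (t := univ.erase l)
    (fun x hx => mem_erase.2 ⟨fun e => hl (e ▸ hx), mem_univ _⟩) hI
    (by have := h.seven; simp; omega)
  have kJ : k ∈ J := h2 (by_contra fun c => hk (h1 k c))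
  obtain ⟨i, j, ij, e⟩ := card_eq_two.1 (show (J.erase k).card = 2 by simp [kJ, h4])
  have hi : i ∈ J.erase k := by simp [e]
  have hj : j ∈ J.erase k := by simp [e]
  rw [mem_erase] at hi hj
  obtain e' : y = single i (y i) + single j (y j) + single k (y k) := funext fun x => by
    by_cases xi : x = i
    · simp [xi, ij, hi.1]
    by_cases xj : x = j
    · simp [xj, ij.symm, hj.1]
    by_cases xk : x = k
    · simp [xk, hi.1.symm, hj.1.symm]
    have : x ∉ J.erase k := by simp [e, xi, xj]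
    simp [xi, xj, xk, h1 x fun c => this (mem_erase.2 ⟨xk, h2 c⟩)]
  refine h.grow ij hi.1 hj.1 (mem_erase.1 (h3 hi.2)).1 (mem_erase.1 (h3 hj.2)).1
    (mem_erase.1 (h3 kJ)).1 hk (e' ▸ hy) ?_
  convert hm using 2
  exact e'.symm

theorem small' (hu : f.DD Y u) {I : Finset ι} (hI : I.card ≤ 3) {k : ι} (hk : k ∈ I) (h0 : u k ≠ 0)
    (hs : ∑ i ∈ I, u i ^ 2 = 0) : False := by
  obtain ⟨l, hl, h1⟩ := exists_out (u := u) (I := I) (by simp [hs, hu.1])
  have hy : f.Q (rs I u) = 0 := by rw [h.Q_zero, rs_dot, hs]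
  exact h.small hI (fun i hi => by simp [rs, hi]) (k := k) (by simp [rs, hk, h0]) hl hy
    (h.core hu hy hl h1)

end Fr
end Form
end CA.CForm
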