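import Cfsg.Agent.Lib.Lin.MaxF3

/-!
Overgroups of the monomial group of an orthonormal frame over a prime field: coordinates.
-/

set_option autoImplicit false
set_option linter.unusedSectionVars false

namespace CA.CForm

open Module CA.MaxF Pi Equiv Finset

namespace Form
variable {F : Type*} [Field F] [Fintype F] {ι : Type*} [Fintype ι] [DecidableEq ι]

local notation:75 g:76 " ⊳ " v:75 => (g : (ι → F) ≃ₗ[F] (ι → F)) v
local notation "𝐞" i:max => (Pi.single i 1 : ι → F)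

/-- The admissible values of `4 cos² θ`. -/
def Ok (α : F) : Prop := α ≠ 4 ∧ (α = 0 ∨ Gd α)

theorem pow_of_char (hp : (Fintype.card F).Prime) {n : ℕ} (hn : n.Prime) (h : (n : F) = 0) {t : F}
    (ht : t ≠ 0) : t ^ (n - 1) = 1 := by
  have := charP_of_card_eq_prime (R := F) (hp := ⟨hp⟩) rfl
  rw [← (Nat.prime_dvd_prime_iff_eq hp hn).1 ((CharP.cast_eq_zero_iff F _ n).1 h)]
  exact FiniteField.pow_card_sub_one_eq_one t ht

theorem rs_compl (I : Finset ι) (u : ι → F) :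
    rs Iᶜ u ⬝ᵥ rs Iᶜ u = u ⬝ᵥ u - ∑ x ∈ I, u x ^ 2 := by
  rw [rs_dot, eq_sub_iff_add_eq, sum_compl_add_sum]
  simp [dotProduct, sq]

variable {f : Form (Kind.orth F) (ι → F)} {Y : Subgroup f.Isom} {c : F} {u v w x y z : ι → F}

namespace Fr
variable (h : f.Fr Y c)
include h

theorem four : (4 : F) ≠ 0 := fun e => mul_ne_zero h.two h.two (by linear_combination e)

theorem full {i j : ι} (ij : i ≠ j) (hz : z ⬝ᵥ z ≠ 0) (hi : z i = 0) (hj : z j = 0)
    (H : (∃ x ∈ Submodule.span F {𝐞 i, 𝐞 j, z}, ∃ w ∈ Submodule.span F {𝐞 i, 𝐞 j, z},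
      x ≠ 0 ∧ f.Q x = 0 ∧ w ∉ F ∙ x ∧ f.Lev Y x w) ∨ ∃ a b : F, a ≠ 0 ∧ b ≠ 0 ∧
        ¬Gd (4 * a ^ 2) ∧ f.DD Y (a • 𝐞 i + b • 𝐞 j + z)) :
    f.Base Y (Submodule.span F {𝐞 i, 𝐞 j, z}) ∧ ∀ a b d : F, a ^ 2 + b ^ 2 + d ^ 2 * (z ⬝ᵥ z) = 1 →
      f.DD Y (a • 𝐞 i + b • 𝐞 j + d • z) := by
  have hc := h.c_ne
  obtain ⟨h1, h2⟩ := h.nondeg.full_three h.prime h.two (u := 𝐞 i) (v := 𝐞 j) (z := z)
    (by simp [h.Q_zero]) (by simp [h.Q_zero]) (by simpa [h.Q_zero]) (by simp [h.B_zero, ij])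
    (by simp [h.B_zero, hi]) (by simp [h.B_zero, hj]) (h.refl_mem i) (h.refl_mem j)
    (H.imp_right fun ⟨a, b, ha, hb, h1, h2⟩ => ⟨a, b, ha, hb, h1, by simp [h.Q_eq],
      by rw [h.Q_eq, h.Q_eq, h2.1]; simp, h2.2⟩)
  refine ⟨h1, fun a b d e => ?_⟩
  have : (a • 𝐞 i + b • 𝐞 j + d • z) ⬝ᵥ (a • 𝐞 i + b • 𝐞 j + d • z) = 1 := by
    simp [ij, ij.symm, hi, hj]
    linear_combination e
  exact ⟨this, h2 _ (Submodule.mem_span_triple.2 ⟨a, b, d, rfl⟩)
    (by rw [h.Q_eq, h.Q_eq, this]; simp)⟩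

theorem plane (h3 : (3 : F) ≠ 0) (h5 : (5 : F) ≠ 0) {i j : ι} (ij : i ≠ j) {a b : F} (ha : a ≠ 0)
    (hb : b ≠ 0) (hG : ¬Gd (4 * a ^ 2)) (hD : f.DD Y (a • 𝐞 i + b • 𝐞 j)) : False := by
  obtain ⟨k, l, kl, hk, hl⟩ := h.exists_two (s := {i, j}) (card_le_two.trans (by omega))
  simp only [mem_insert, mem_singleton, not_or] at hk hl
  obtain ⟨ki, kj⟩ := hk
  obtain ⟨li, lj⟩ := hl
  have ji := ij.symm
  have ik := Ne.symm ki
  have jk := Ne.symm kj
  have il := Ne.symm li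
  have jl := Ne.symm lj
  have lk := kl.symm
  have h2 := h.two
  have h4 := h.four
  have e1 : 1 - 2 * a ^ 2 ≠ 0 := fun e => hG (.inr (.inl (by linear_combination -2 * e)))
  have h6 := h.perm' (s := {i, j}) (card_le_two.trans (by omega))
    (fun x hx => by simp at hx; simp [hx]) hD (swap j k * swap i j)
  have E1 : (a • 𝐞 i + b • 𝐞 j) ∘ ⇑(swap j k * swap i j) = a • 𝐞 j + b • 𝐞 k := by
    simp only [add_comp, smul_comp, single_comp]
    simp [swap_apply_of_ne_of_ne, Perm.mul_def, ik, ij, ki, kj]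
  have h7 := h.refl (E1 ▸ h6) hD
  have E2 : a • 𝐞 i + b • 𝐞 j - (2 * ((a • 𝐞 j + b • 𝐞 k) ⬝ᵥ (a • 𝐞 i + b • 𝐞 j))) •
      (a • 𝐞 j + b • 𝐞 k) = a • 𝐞 i + (b * (1 - 2 * a ^ 2)) • 𝐞 j + (-2 * a * b ^ 2) • 𝐞 k := by
    simp only [add_dotProduct, smul_dotProduct, single_dotProduct, Pi.add_apply, Pi.smul_apply,
      single_apply, ji, ki, kj, if_true, if_false, smul_eq_mul]
    module
  have hd : -2 * a * b ^ 2 ≠ 0 := by simp [h2, ha, hb]
  obtain ⟨h8, h9⟩ := h.full ij (z := (-2 * a * b ^ 2) • 𝐞 k) (by simp [h2, ha, hb])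
    (by simp [ik]) (by simp [jk]) (.inr ⟨a, _, ha, mul_ne_zero hb e1, hG, E2 ▸ h7⟩)
  have := charP_of_card_eq_prime (R := F) (hp := ⟨h.prime⟩) rfl
  have := NeZero.mk h.prime.ne_zero
  obtain ⟨α, β, e⟩ := CharP.sq_add_sq F (Fintype.card F) (-1)
  generalize (α : F) = α at e
  generalize (β : F) = β at e
  rw [Int.cast_neg, Int.cast_one] at e
  have hy : f.Q (single i α + single j β + single k 1) = 0 := by
    simp [h.Q_zero, ij, ik, jk, ji, ki, kj]
    linear_combination e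
  have m1 : ∀ a' b' d', a' • 𝐞 i + b' • 𝐞 j + d' • (-2 * a * b ^ 2) • 𝐞 k ∈
      Submodule.span F {𝐞 i, 𝐞 j, (-2 * a * b ^ 2) • 𝐞 k} := fun a b d =>
    Submodule.mem_span_triple.2 ⟨a, b, d, rfl⟩
  have h10 := h8.mem_levS (w := β • 𝐞 i - α • 𝐞 j) (by
      have := m1 α β (-2 * a * b ^ 2)⁻¹
      rw [inv_smul_smul₀ hd] at this
      simpa only [← single_smul, smul_eq_mul, mul_one] using this) hy
    (by convert m1 β (-α) 0 using 1; module) (h.B_zero.2 (by simp [ij, ji, ki, kj, mul_comm]))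
  have h11 := h.perm' (s := {i, j, k}) (card_le_three.trans (by omega))
    (fun x hx => by simp at hx; simp [hx])
    (h9 (3 / 4 * β) (-(3 / 4 * α)) (5 / 4 / (-2 * a * b ^ 2)) (by
      simp
      field_simp
      linear_combination 9 * e)) (swap k l)
  have E3 : ((3 / 4 * β) • 𝐞 i + -(3 / 4 * α) • 𝐞 j + (5 / 4 / (-2 * a * b ^ 2)) •
      (-2 * a * b ^ 2) • 𝐞 k) ∘ ⇑(swap k l) = (3 / 4 : F) • (β • 𝐞 i - α • 𝐞 j) + (5 / 4 : F) • 𝐞 l := by
    simp only [add_comp, smul_comp, single_comp, smul_smul, div_mul_cancel₀ _ hd]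
    simp [swap_apply_of_ne_of_ne, ik, il, jk, jl]
    module
  rw [E3] at h11
  have h12 := h.lev_refl h10 h11 (by simp [ij, ji, ik, jk, il, jl, kl]; ring) (by
    simp [ij, ji, li, lj]
    intro c
    exact div_ne_zero h3 h4 (by linear_combination -c + 3 / 4 * e))
  have h13 := sub_mem h12 (Submodule.smul_mem _ (3 / 4 : F) h10)
  rw [add_sub_cancel_left, Submodule.smul_mem_iff _ (div_ne_zero h5 h4)] at h13
  exact h.grow ij ik jk il jl kl one_ne_zero hy h13

theorem plane' (h3 : (3 : F) ≠ 0) (h5 : (5 : F) ≠ 0) (h7 : (7 : F) ≠ 0) {i j : ι} (ij : i ≠ j)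
    (H : ∀ a b d : F, a ^ 2 + b ^ 2 + d ^ 2 * (z ⬝ᵥ z) = 1 →
      f.DD Y (a • 𝐞 i + b • 𝐞 j + d • z)) : False := by
  have h2 := h.two
  have h4 := h.four
  have h1 := H (3 / 5) (4 / 5) 0 (by field_simp; ring)
  rw [zero_smul, add_zero] at h1
  have e : 4 * (3 / 5 : F) ^ 2 + 4 * (4 / 5) ^ 2 = 4 := by field_simp; ring
  have e' : 4 * (3 / 5 : F) ^ 2 ≠ 2 := fun e => by
    field_simp at e
    exact mul_ne_zero h2 h7 (by linear_combination -e)
  by_cases c1 : Gd (4 * (3 / 5 : F) ^ 2)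
  · refine h.plane h3 h5 ij.symm (div_ne_zero h4 h5) (div_ne_zero h3 h5) (fun c2 => ?_)
      (by rwa [add_comm])
    generalize 4 * (3 / 5 : F) ^ 2 = s at *
    generalize 4 * (4 / 5 : F) ^ 2 = t at *
    obtain rfl : t = 4 - s := by linear_combination e
    rcases c1 with c1 | c1 | c1 <;> rcases c2 with c2 | c2 | c2
    · exact h2 (by linear_combination c1 + c2)
    · exact one_ne_zero (by linear_combination c1 + c2 : (1 : F) = 0)
    · exact one_ne_zero (by linear_combination c2 - (s - 4) * c1 : (1 : F) = 0)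
    · exact e' c1
    · exact e' c1
    · exact e' c1
    · exact one_ne_zero (by linear_combination c1 + s * c2 : (1 : F) = 0)
    · exact e' (by linear_combination -c2)
    · exact e' (mul_left_cancel₀ h2 (by linear_combination c1 - c2))
  · exact h.plane h3 h5 ij (div_ne_zero h3 h5) (div_ne_zero h4 h5) c1 h1

theorem typeA7 (h7 : (7 : F) = 0) {hy : f.Q y = 0} {i j k : ι} (hi : y i = 0) (hj : y j ≠ 0)
    (hk : y k ≠ 0) (jk : y j ^ 2 ≠ y k ^ 2) (hl : 𝐞 i ∈ levS Y hy) : False := by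
  have ji : j ≠ i := fun e => hj (e ▸ hi)
  have ki : k ≠ i := fun e => hk (e ▸ hi)
  have jk' : j ≠ k := fun e => jk (e ▸ rfl)
  have h1 := pow_of_char h.prime (n := 7) (by norm_num) h7 hj
  have h2 := pow_of_char h.prime (n := 7) (by norm_num) h7 hk
  have h3 : y j ^ 4 + y j ^ 2 * y k ^ 2 + y k ^ 4 = 0 :=
    mul_left_cancel₀ (sub_ne_zero.2 jk) (by linear_combination h1 - h2)
  refine h.small' (h.add_smul hl (h.unit i) (y j * y k)) (I := {i, j, k}) card_le_three (k := i)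
    (by simp) (by simp [hi]) ?_
  rw [sum_insert (by simp [ji.symm, ki.symm]), sum_pair jk']
  simp [hi, ji, ki]
  linear_combination y j ^ 2 * h3 - h1

theorem typeA {hy : f.Q y = 0} {i j : ι} (hi : y i = 0) (hj : y j ≠ 0) (hl : 𝐞 i ∈ levS Y hy) :
    False := by
  have ji : j ≠ i := fun e => hj (e ▸ hi)
  have h0 := h.Q_zero.1 hy
  have h2 := h.two
  obtain ⟨k, hk, hk0⟩ := exists_out (u := y) (I := {j}) (by simp [h0, hj])
  rw [mem_singleton] at hk
  have ki : k ≠ i := fun e => hk0 (e ▸ hi)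
  by_cases h3 : (3 : F) = 0
  · have h1 := pow_of_char h.prime (n := 3) (by norm_num) h3 hj
    have h2 := pow_of_char h.prime (n := 3) (by norm_num) h3 hk0
    refine h.small' (h.add_smul hl (h.unit i) 1) (I := {i, j, k}) card_le_three (k := i)
      (by simp) (by simp [hi]) ?_
    rw [sum_insert (by simp [ji.symm, ki.symm]), sum_pair (Ne.symm hk)]
    simp [hi, ji, ki]
    linear_combination h1 + h2 + h3
  by_cases h5 : (5 : F) = 0
  · refine h.small' (h.add_smul hl (h.unit i) (2 / y j)) (I := {i, j})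
      (card_le_two.trans (by omega)) (k := i) (by simp) (by simp [hi]) ?_
    rw [sum_pair ji.symm]
    simp [hi, ji, hj]
    linear_combination h5
  by_cases h7 : (7 : F) = 0
  · by_cases H : ∀ l, y l ≠ 0 → y j ^ 2 = y l ^ 2
    swap
    · push Not at H
      obtain ⟨l, h1, h4⟩ := H
      exact h.typeA7 h7 hi hj h1 h4 hl
    obtain ⟨l, hl', hl0⟩ := exists_out (u := y) (I := {j, k}) (by
      rw [sum_pair (Ne.symm hk), ← H k hk0, h0, ← two_mul]
      exact mul_ne_zero h2 (pow_ne_zero _ hj))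
    simp only [mem_insert, mem_singleton, not_or] at hl'
    have li : l ≠ i := fun e => hl0 (e ▸ hi)
    have h4 := h.refl (h.add_smul hl (h.unit i) (2 / y j)) (h.unit j)
    generalize e : 𝐞 j - (_ : F) • _ = u at h4
    have ui : u i = -4 := by simp [← e, hi, ji, ji.symm, hj]; norm_num
    have um : ∀ m, m ≠ i → m ≠ j → y m ≠ 0 → u m ^ 2 = 1 := fun m mi mj hm => by
      have : u m * y j = -8 * y m := by
        simp [← e, ji, hj, mi, mj]
        field_simp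
        ring
      refine mul_right_cancel₀ (pow_ne_zero 2 hj) ?_
      rw [← mul_pow, this]
      linear_combination -64 * H m hm + 9 * y j ^ 2 * h7
    have u0 : ∀ m, u m ^ 2 = 1 → u m ≠ 0 := fun m hm c => by simp [c] at hm
    have hy' : f.Q (rs {k}ᶜ u) = 0 := by simp [h.Q_zero, rs_compl, um k ki hk hk0, h4.1]
    refine h.typeA7 h7 (i := k) (j := i) (k := l) (by simp [rs]) ?_ ?_ ?_
      (h.core h4 hy' (by simp) (u0 k (um k ki hk hk0)))
    · simpa [rs, ki.symm, ui] using h.four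
    · simpa [rs, hl'.2] using u0 l (um l li hl'.1 hl0)
    · simp only [rs, mem_compl, mem_singleton, ki.symm, hl'.2, ui, um l li hl'.1 hl0,
        not_false_eq_true, if_true]
      exact fun c => one_ne_zero (by linear_combination c - 2 * h7 : (1 : F) = 0)
  refine h.plane' h3 h5 h7 ji.symm (h.full ji.symm (z := y - y j • 𝐞 j) ?_ (by simp [hi, ji.symm])
    (by simp) (.inl ⟨y, Submodule.mem_span_triple.2 ⟨0, y j, 1, by module⟩, 𝐞 i,
      Submodule.subset_span (by simp), fun e => hj (by simp [e]), hy, fun c => ?_,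
      lev_of_mem_levS hl⟩)).2
  · simp [h0, hj]
  · obtain ⟨a, e⟩ := Submodule.mem_span_singleton.1 c
    simpa [hi] using congrFun e i

theorem ok (hu : f.DD Y u) {i j : ι} (ji : j ≠ i) (hj : u j ≠ 0) : Ok (4 * u i ^ 2) := by
  have h2 := h.two
  have h4 := h.four
  have h1 : u i ^ 2 ≠ 1 := fun e => by
    have hy : f.Q (rs {i}ᶜ u) = 0 := by simp [h.Q_zero, rs_compl, hu.1, e]
    exact h.typeA (i := i) (j := j) (by simp [rs]) (by simp [rs, ji, hj])
      (h.core hu hy (by simp) fun c => by simp [c] at e)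
  refine ⟨fun e => h1 (mul_left_cancel₀ h4 (by rw [e, mul_one])), ?_⟩
  by_contra! H
  obtain ⟨hi, hG⟩ := H
  replace hi : u i ≠ 0 := fun e => hi (by simp [e])
  have h3 : (3 : F) ≠ 0 := fun h3 => h1 (pow_of_char h.prime (n := 3) (by norm_num) h3 hi)
  have h5 : (5 : F) ≠ 0 := fun h5 => hG (.inl (mul_left_cancel₀ (sub_ne_zero.2 h1) (by
    linear_combination 4 * pow_of_char h.prime (n := 5) (by norm_num) h5 hi -
      (u i ^ 2 - 1) * h5)))
  have h7 : (7 : F) ≠ 0 := fun h7 => by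
    have : (4 * u i ^ 2 - 1) * (4 * u i ^ 2 - 2) = 0 := mul_left_cancel₀ (sub_ne_zero.2 h1) (by
      linear_combination 16 * pow_of_char h.prime (n := 7) (by norm_num) h7 hi -
        (4 * u i ^ 4 - 2 * u i ^ 2 - 2) * h7)
    exact hG ((mul_eq_zero.1 this).imp sub_eq_zero.1 fun e => .inl (sub_eq_zero.1 e))
  have e : u = u i • 𝐞 i + u j • 𝐞 j + rs {i, j}ᶜ u := funext fun x => by
    by_cases xi : x = i
    · simp [rs, xi, ji.symm]
    by_cases xj : x = j
    · simp [rs, xj, ji]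
    simp [rs, xi, xj]
  by_cases hz : rs {i, j}ᶜ u ⬝ᵥ rs {i, j}ᶜ u = 0
  · by_cases h0 : rs {i, j}ᶜ u = 0
    · rw [h0, add_zero] at e
      exact h.plane h3 h5 ji.symm hi hj hG (e ▸ hu)
    · obtain ⟨k, hk⟩ := Function.ne_iff.1 h0
      exact h.typeA (i := i) (by simp [rs]) hk (h.core hu (h.Q_zero.2 hz) (by simp) hi)
  · exact h.plane' h3 h5 h7 ji.symm (h.full ji.symm hz (by simp [rs]) (by simp [rs])
      (.inr ⟨_, _, hi, hj, hG, e ▸ hu⟩)).2

end Fr
end Form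
end CA.CForm
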