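import Cfsg.Agent.Lib.Lin.MaxF4

/-!
Overgroups of the monomial group of an orthonormal frame over a prime field: the main theorem.
-/

set_option autoImplicit false
set_option linter.unusedSectionVars false

namespace CA.CForm

open Module CA.MaxF Pi Equiv Finset

namespace Form
variable {F : Type*} [Field F] [Fintype F] {ι : Type*} [Fintype ι] [DecidableEq ι]

local notation:75 g:76 " ⊳ " v:75 => (g : (ι → F) ≃ₗ[F] (ι → F)) v
local notation "𝐞" i:max => (Pi.single i 1 : ι → F)

theorem ok_mul (h2 : (2 : F) ≠ 0) (h3 : (3 : F) ≠ 0) {s t : F} (hs : Ok s) (ht : Ok t)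
    (s0 : s ≠ 0) (t0 : t ≠ 0) (s1 : s ≠ 1) (t1 : t ≠ 1) (h : Ok (s * t)) :
    s * t = 1 ∧ s ^ 2 - 3 * s + 1 = 0 := by
  have key : ∀ x : F, x ^ 2 - 3 * x + 1 = 0 → ¬Gd (2 * x) := fun x hx c => by
    rcases c with c | c | c
    · exact one_ne_zero (by linear_combination -4 * hx + (2 * x - 5) * c : (1 : F) = 0)
    · exact h2 (by linear_combination -2 * hx + (x - 2) * c)
    · exact mul_ne_zero h3 h3 (by linear_combination (6 * x - 15) * (c - 4 * hx) - 36 * hx)
  obtain ⟨h4, h | h⟩ := h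
  · exact absurd h (mul_ne_zero s0 t0)
  rcases (hs.2.resolve_left s0).resolve_left s1 with rfl | a <;>
    rcases (ht.2.resolve_left t0).resolve_left t1 with rfl | b
  · exact absurd (by norm_num) h4
  · exact absurd h (key t b)
  · exact absurd (mul_comm s 2 ▸ h) (key s a)
  refine ⟨?_, a⟩
  rcases mul_eq_zero.1 (show (s - t) * (s + t - 3) = 0 by linear_combination a - b) with c | c
  · obtain rfl := sub_eq_zero.1 c
    exfalso
    rcases h with h | h | h
    · rcases mul_self_eq_one_iff.1 h with h | h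
      · exact s1 h
      · exact hs.1 (by linear_combination (s - 3) * h - a)
    · exact h3 (by linear_combination (s - 2) * h - (s + 1) * a)
    · refine mul_ne_zero h2 h2 ?_
      linear_combination 36 * a - (3 * s - 8) * (h - (s ^ 2 + 3 * s + 5) * a)
  · linear_combination s * c - a

theorem not_ok (h2 : (2 : F) ≠ 0) (h3 : (3 : F) ≠ 0) {s : F} (hs : Ok s) (s0 : s ≠ 0)
    (h : Ok (4 * (3 / 4 : F) ^ 2)) (h' : Ok (4 * (3 / 4 - s / 2) ^ 2)) : False := by
  have h4 : (4 : F) ≠ 0 := fun e => mul_ne_zero h2 h2 (by linear_combination e)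
  have e1 : ∀ x : F, ∀ {y}, Ok y → x = 4 * y →
      x ≠ 16 ∧ (x = 0 ∨ x = 4 ∨ x = 8 ∨ x ^ 2 - 12 * x + 16 = 0) := by
    rintro _ y hx rfl
    exact ⟨fun e => hx.1 (mul_left_cancel₀ h4 (by linear_combination e)),
      hx.2.imp (fun e => by linear_combination 4 * e) (.imp (fun e => by linear_combination 4 * e)
      (.imp (fun e => by linear_combination 4 * e) fun e => by linear_combination 16 * e))⟩
  have a : (5 : F) = 0 ∨ (11 : F) = 0 := by
    obtain ⟨-, c | c | c | c⟩ := e1 9 h (by field_simp; ring)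
    · exact absurd (by linear_combination c) (mul_ne_zero h3 h3)
    · exact .inl (by linear_combination c)
    · exact absurd (by linear_combination c) (one_ne_zero (α := F))
    · exact .inr (by linear_combination -c)
  obtain ⟨b, c⟩ := e1 ((3 - 2 * s) ^ 2) h' (by
    rw [show (4 : F) = 2 * 2 by norm_num]
    field_simp)
  by_cases hG : s ^ 2 - 3 * s + 1 = 0
  · rw [show (3 - 2 * s) ^ 2 = 5 by linear_combination 4 * hG] at b c
    rcases a with a | a
    · exact hs.1 (pow_eq_zero_iff two_ne_zero |>.1 (show (s - 4) ^ 2 = 0 by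
        linear_combination hG + (3 - s) * a) |> sub_eq_zero.1)
    · exact b (by linear_combination -a)
  · have : (3 - 2 * s) ^ 2 = 1 := by
      rcases hs.2.resolve_left s0 with rfl | rfl | c
      · norm_num
      · norm_num
      · exact absurd c hG
    rw [this] at b c
    rcases a with a | a
    · exact b (by linear_combination -3 * a)
    rcases c with c | c | c | c
    · exact one_ne_zero c
    · exact h3 (by linear_combination -c)
    · exact one_ne_zero (by linear_combination 2 * a + 3 * c : (1 : F) = 0)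
    · exact one_ne_zero (by linear_combination a - 2 * c : (1 : F) = 0)

variable {f : Form (Kind.orth F) (ι → F)} {Y : Subgroup f.Isom} {c : F} {u v w x y z : ι → F}

variable (f Y) in
/-- The orbit of the frame. -/
def FOrb (u : ι → F) : Prop := ∃ g ∈ Y, ∃ i, g ⊳ 𝐞 i = u

namespace Fr
variable (h : f.Fr Y c)
include h

theorem dd (hu : f.FOrb Y u) : f.DD Y u := by
  obtain ⟨g, hg, i, rfl⟩ := hu
  exact h.map (h.unit i) hg

omit h in
theorem orb_map (hu : f.FOrb Y u) {g : f.Isom} (hg : g ∈ Y) : f.FOrb Y (g ⊳ u) := by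
  obtain ⟨g', hg', i, rfl⟩ := hu
  exact ⟨_, mul_mem hg hg', i, rfl⟩

theorem coord {g : f.Isom} {i : ι} (v : ι → F) : ((g⁻¹ : f.Isom) ⊳ v) i = (g ⊳ 𝐞 i) ⬝ᵥ v := by
  rw [← h.dot_map g⁻¹, isom_inv_apply_apply]; simp

theorem pair (hu : f.FOrb Y u) (hv : f.DD Y v) (h1 : ∀ a : F, v ≠ a • u) : Ok (4 * (u ⬝ᵥ v) ^ 2) := by
  obtain ⟨g, hg, i, rfl⟩ := hu
  obtain ⟨j, hj, h0⟩ := exists_out (u := (g⁻¹ : f.Isom) ⊳ v) (I := {i}) fun e => h1
    (((g⁻¹ : f.Isom) ⊳ v) i) (by
      rw [← map_smul]
      refine (f.isom_apply_inv_apply g v).symm.trans (congrArg _ ?_)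
      by_contra c
      obtain ⟨j, hj⟩ := Function.ne_iff.1 c
      have ji : j ≠ i := fun e => by simp [e] at hj
      refine (h.ok (h.map hv (inv_mem hg)) ji (by simpa [ji] using hj)).1 ?_
      rw [sum_singleton, (h.map hv (inv_mem hg)).1] at e
      rw [e, mul_one])
  exact h.coord v ▸ h.ok (h.map hv (inv_mem hg)) (mem_singleton.not.1 hj) h0

theorem prod (hu : f.DD Y u) {i j : ι} (ij : i ≠ j) (hi : u i ≠ 0) :
    Ok (4 * u i ^ 2 * (4 * u j ^ 2)) ∨ (2 * u i ^ 2 = 1 ∧ ∀ k, k ≠ i → k ≠ j → u k = 0) := by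
  have h1 := h.refl hu (h.unit i)
  by_cases H : ∃ k, k ≠ j ∧ (𝐞 i - (2 * (u ⬝ᵥ 𝐞 i)) • u) k ≠ 0
  · obtain ⟨k, kj, hk⟩ := H
    left
    convert h.ok h1 kj hk using 1
    simp [ij.symm]
    ring
  · push Not at H
    refine .inr ⟨?_, fun k ki kj => by simpa [ki, hi, h.two] using H k kj⟩
    have := H i ij
    simp at this
    linear_combination -this

theorem one (h3 : (3 : F) ≠ 0) (hu : f.FOrb Y u) {i : ι} (hi : 4 * u i ^ 2 = 1) : False := by
  classical
  have hD := h.dd hu
  have h2 := h.two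
  have h4 := h.four
  have i0 : u i ≠ 0 := fun e => by simp [e] at hi
  obtain ⟨j, ji, j0⟩ := exists_out (u := u) (I := {i}) fun e => h3 (by
    rw [sum_singleton, hD.1] at e
    linear_combination hi - 4 * e)
  rw [mem_singleton] at ji
  have hO : ∀ k, Ok (4 * u k ^ 2) := fun k => by
    by_cases e : k = i
    · exact h.ok hD (e ▸ ji) j0
    · exact h.ok hD (Ne.symm e) i0
  set S := univ.filter fun k => u k ≠ 0 with hS
  have h5 : (S.filter fun k => ¬4 * u k ^ 2 = 1).card ≤ 2 := by
    by_contra! H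
    obtain ⟨a, ha, b, hb, d, hd, ab, ad, bd⟩ := two_lt_card.1 H
    simp only [hS, mem_filter, mem_univ, true_and] at ha hb hd
    have key : ∀ a b, a ≠ b → u a ≠ 0 ∧ ¬4 * u a ^ 2 = 1 → u b ≠ 0 ∧ ¬4 * u b ^ 2 = 1 →
        4 * u a ^ 2 * (4 * u b ^ 2) = 1 ∧ (4 * u a ^ 2) ^ 2 - 3 * (4 * u a ^ 2) + 1 = 0 :=
      fun a b ab ha hb => ok_mul h2 h3 (hO a) (hO b) (by simp [h4, ha.1]) (by simp [h4, hb.1]) ha.2
        hb.2 ((h.prod hD ab ha.1).resolve_right fun c => i0 (c.2 i (fun e => ha.2 (e ▸ hi))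
          fun e => hb.2 (e ▸ hi)))
    have k1 := key a b ab ha hb
    have k2 := key a d ad ha hd
    have k3 := key b d bd hb hd
    have := hO a
    generalize 4 * u a ^ 2 = r at *
    generalize 4 * u b ^ 2 = s at *
    generalize 4 * u d ^ 2 = t at *
    have e : r * r = 1 := by linear_combination r * t * k1.1 + k2.1 - r * r * k3.1
    rcases mul_self_eq_one_iff.1 e with e | e
    · exact ha.2 e
    · exact this.1 (by linear_combination (r - 3) * e - k1.2)
  have h6 : S.card ≤ 5 := by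
    by_contra! H
    have := card_filter_add_card_filter_not (s := S) fun k => 4 * u k ^ 2 = 1
    obtain ⟨I, hI, h7⟩ := exists_subset_card_eq
      (show 4 ≤ (S.filter fun k => 4 * u k ^ 2 = 1).card by omega)
    obtain ⟨g, hg, e⟩ := h.flip I
    obtain ⟨a, ha⟩ := card_pos.1 (show 0 < I.card by omega)
    obtain ⟨b, hb, hb'⟩ := exists_mem_notMem_of_card_lt_card (show I.card < S.card by omega)
    have h8 : 4 * ∑ k ∈ I, u k ^ 2 = 4 := by
      rw [mul_sum, sum_congr rfl fun k hk => (mem_filter.1 (hI hk)).2]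
      simp [h7]
    refine (h.pair hu (h.map hD hg) fun t ht => ?_).1 ?_
    · have a0 := (mem_filter.1 (mem_filter.1 (hI ha)).1).2
      have b0 := (mem_filter.1 hb).2
      have e1 := congrFun ht a
      have e2 := congrFun ht b
      simp [e, rs, ha, hb', b0] at e1 e2
      rw [e2] at e1
      exact mul_ne_zero h2 a0 (by linear_combination -e1)
    · simp only [e, dotProduct_sub, dotProduct_smul, dot_rs, hD.1, smul_eq_mul]
      linear_combination (4 * ∑ k ∈ I, u k ^ 2) * h8
  obtain ⟨l, -, -, hl, -⟩ := h.exists_two h6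
  have l0 : u l = 0 := by simpa [hS] using hl
  have li : l ≠ i := fun e => i0 (e ▸ l0)
  have lj : l ≠ j := fun e => j0 (e ▸ l0)
  have h7 := h.perm' h6 (fun k hk => by simpa [hS] using hk) hD (swap i l)
  have E : u ∘ swap i l = u - u i • 𝐞 i + u i • 𝐞 l := funext fun x => by
    by_cases xi : x = i
    · simp [xi, l0, li.symm]
    by_cases xl : x = l
    · simp [xl, l0, li]
    simp [xi, xl, swap_apply_of_ne_of_ne]
  rw [E] at h7
  refine not_ok h2 h3 (hO j) (by simp [h4, j0]) ?_ ?_
  · convert h.pair hu h7 fun t ht => i0 (by simpa [l0, li] using congrFun ht l) using 3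
    simp [hD.1, l0]
    field_simp
    linear_combination hi
  · convert h.pair hu (h.refl (h.unit j) h7) fun t ht =>
      i0 (by simpa [l0, li, lj] using congrFun ht l) using 3
    simp [hD.1, l0, ji, lj.symm]
    rw [show (4 : F) = 2 * 2 by norm_num] at hi ⊢
    field_simp
    linear_combination hi

theorem mono (hu : f.FOrb Y u) {i j : ι} (ij : i ≠ j) (hi : u i ≠ 0) : u j = 0 := by
  by_contra hj
  have hD := h.dd hu
  have h2 := h.two
  have h4 := h.four
  have hO : ∀ k, Ok (4 * u k ^ 2) := fun k => by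
    by_cases e : k = i
    · exact h.ok hD (e ▸ ij.symm) hj
    · exact h.ok hD (Ne.symm e) hi
  have h3 : (3 : F) ≠ 0 := fun h3 => (hO i).1 (by
    rw [pow_of_char h.prime (n := 3) (by norm_num) h3 hi, mul_one])
  have key : ∀ a b, a ≠ b → u a ≠ 0 → u b ≠ 0 →
      4 * u a ^ 2 * (4 * u b ^ 2) = 1 ∧ (4 * u a ^ 2) ^ 2 - 3 * (4 * u a ^ 2) + 1 = 0 := by
    refine fun a b ab ha hb => ok_mul h2 h3 (hO a) (hO b) (by simp [h4, ha]) (by simp [h4, hb])
      (h.one h3 hu) (h.one h3 hu) ((h.prod hD ab ha).resolve_right fun ⟨c1, c2⟩ => ?_)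
    have hs : ∀ k, k ∉ ({a, b} : Finset ι) → u k = 0 := fun k hk => by
      simp only [mem_insert, mem_singleton, not_or] at hk
      exact c2 k hk.1 hk.2
    obtain ⟨l, -, -, hl, -⟩ := h.exists_two (s := {a, b}) (card_le_two.trans (by omega))
    obtain ⟨g, hg, e⟩ := h.perm (s := {a, b}) (card_le_two.trans (by omega)) hs (swap b l)
    have := orb_map hu hg
    obtain ⟨g', hg', m, e'⟩ := hu
    refine h.one h3 (orb_map this (inv_mem hg')) (i := m) ?_
    have l0 := hs l hl
    simp only [mem_insert, mem_singleton, not_or] at hl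
    rw [h.coord, e', e, dotProduct, sum_eq_single a]
    · simp only [Function.comp, swap_apply_of_ne_of_ne ab (Ne.symm hl.1)]
      linear_combination (2 * u a ^ 2 + 1) * c1
    · intro k _ ka
      by_cases kb : k = b
      · simp [kb, l0]
      · simp [c2 k ka kb]
    · simp
  have k1 := key i j ij hi hj
  obtain ⟨l, hl, l0⟩ := exists_out (u := u) (I := {i, j}) fun e => by
    rw [sum_pair ij, hD.1] at e
    exact mul_ne_zero h4 (pow_ne_zero 2 hi) (by
      linear_combination k1.1 + k1.2 - 16 * u i ^ 2 * e)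
  simp only [mem_insert, mem_singleton, not_or] at hl
  have k2 := key i l (Ne.symm hl.1) hi l0
  have k3 := key j l (Ne.symm hl.2) hj l0
  have := hO i
  have h5 : 4 * u i ^ 2 ≠ 1 := h.one h3 hu
  generalize 4 * u i ^ 2 = r at *
  generalize 4 * u j ^ 2 = s at *
  generalize 4 * u l ^ 2 = t at *
  have e : r * r = 1 := by linear_combination r * t * k1.1 + k2.1 - r * r * k3.1
  rcases mul_self_eq_one_iff.1 e with e | e
  · exact h5 e
  · exact this.1 (by linear_combination (r - 3) * e - k1.2)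

end Fr
end Form
end CA.CForm
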