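import Cfsg.Agent.Lib.Lin.MaxF5
import Cfsg.Agent.Lib.Lin.MaxGL2

/-!
Maximality of the stabiliser of an orthogonal frame in odd dimension over a prime field.
-/

set_option autoImplicit false
set_option linter.unusedSectionVars false

namespace CA.CForm

open Module CA.MaxF Pi Equiv Finset

theorem map_comm {G H : Type*} [Group G] [Group H] (ψ : G →* H) {g : G} (hg : g ∈ commutator G) :
    ψ g ∈ commutator H := by
  rw [← Abelianization.ker_of]
  exact Abelianization.commutator_subset_ker (Abelianization.of.comp ψ) hg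

namespace Form
variable {F : Type*} [Field F] [Fintype F] {ι : Type*} [Fintype ι] [DecidableEq ι]

section
local notation:75 g:76 " ⊳ " v:75 => (g : (ι → F) ≃ₗ[F] (ι → F)) v
local notation "𝐞" i:max => (Pi.single i 1 : ι → F)

theorem frame_refl {f : Form (Kind.orth F) (ι → F)} {Y : Subgroup f.Isom} {c : F} (hc : c ≠ 0)
    (h2 : (2 : F) ≠ 0) (hp : (Fintype.card F).Prime) (h7 : 7 ≤ Fintype.card ι)
    (hB : ∀ u v, f.B u v = 2 * c * (u ⬝ᵥ v)) (h1 : ∀ i, f.refl (𝐞 i) ∈ Y)
    (h3 : ∀ σ : Perm ι, Perm.sign σ = 1 → ∃ g ∈ Y, ∀ u, g ⊳ u = u ∘ σ) :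
    (∀ g ∈ Y, f.PermD (fun i => F ∙ 𝐞 i) g) ∨ f.Eich ≤ Y := by
  refine or_iff_not_imp_right.2 fun H g hg i => ?_
  have h : f.Fr Y c := ⟨hc, h2, hp, h7, hB, h1, h3, H⟩
  have hu : f.FOrb Y (g ⊳ 𝐞 i) := ⟨g, hg, i, rfl⟩
  obtain ⟨j, -, hj⟩ := exists_out (u := g ⊳ 𝐞 i) (I := ∅) (by simp [(h.dd hu).1])
  refine ⟨j, fun v hv => ?_⟩
  obtain ⟨a, rfl⟩ := Submodule.mem_span_singleton.1 hv
  rw [map_smul]
  refine Submodule.smul_mem _ _ (Submodule.mem_span_singleton.2 ⟨(g ⊳ 𝐞 i) j, funext fun k => ?_⟩)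
  by_cases e : k = j
  · simp [e]
  · simp [e, h.mono hu (Ne.symm e) hj]

theorem frame_std {f : Form (Kind.orth F) (ι → F)} {X : Subgroup f.Isom} {c : F} (hc : c ≠ 0)
    (h2 : (2 : F) ≠ 0) (hp : (Fintype.card F).Prime) (h7 : 7 ≤ Fintype.card ι)
    (ho : Odd (Fintype.card ι)) (hB : ∀ u v, f.B u v = 2 * c * (u ⬝ᵥ v))
    (hX : ∀ g ∈ f.Eich, f.PermD (fun i => F ∙ 𝐞 i) g → g ∈ X) :
    (∀ g ∈ X, f.PermD (fun i => F ∙ 𝐞 i) g) ∨ f.Eich ≤ X := by
  have hQ : ∀ u, f.Q u = c * (u ⬝ᵥ u) := fun u =>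
    mul_left_cancel₀ h2 (by rw [← orth_B_self, hB, mul_assoc])
  have hf : f.Nondeg := fun x hx => funext fun i => by simpa [hB, h2, hc] using hx (𝐞 i)
  have hE := hf.commutator_eq_Eich (good_of_two_ne_zero _ h2) (by simp; omega)
  let n : f.Isom := ⟨.neg F, (f.orth_mem_Isom).2 fun x => by simp [hQ]⟩
  have hn : ∀ g, g * n = n * g := fun g => f.isom_ext fun v => map_neg g.1 v
  have hn' : n * n = 1 := f.isom_ext fun v => neg_neg v
  have e1 : ∀ a b, n * a * b = n * (a * b) := mul_assoc n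
  have e2 : ∀ a b, a * (n * b) = n * (a * b) := fun a b => by rw [← mul_assoc, hn, mul_assoc]
  have e3 : ∀ a b, n * a * (n * b) = a * b := fun a b => by rw [e2, e1, ← mul_assoc, hn', one_mul]
  let Y : Subgroup f.Isom :=
    { carrier := {g | g ∈ X ∨ n * g ∈ X}
      one_mem' := .inl (one_mem _)
      mul_mem' := by
        rintro a b (ha | ha) (hb | hb)
        exacts [.inl (mul_mem ha hb), .inr (e2 .. ▸ mul_mem ha hb), .inr (e1 .. ▸ mul_mem ha hb),
          .inl (e3 a b ▸ mul_mem ha hb)]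
      inv_mem' := by
        rintro a (ha | ha)
        · exact .inl (inv_mem ha)
        · exact .inr (by rw [← hn, ← inv_eq_of_mul_eq_one_right hn', ← mul_inv_rev]; exact inv_mem ha) }
  have rf : ∀ i v, f.refl (𝐞 i) ⊳ v = v - (2 * v i) • 𝐞 i := fun i v => by
    rw [refl_apply, hQ, hB]
    congr 2
    simp
    field_simp
  have fl : ∀ I : Finset ι, ∃ l : List (ι → F), (∀ v ∈ l, f.Q v ≠ 0) ∧ l.length = I.card ∧
      (l.map f.Q).prod = c ^ I.card ∧ ∀ u, f.reflProd l ⊳ u = u - (2 : F) • rs I u := fun I => by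
    induction I using Finset.induction_on with
    | empty => exact ⟨[], by simp, rfl, by simp, fun u => by ext i; simp [rs]⟩
    | insert a I ha ih =>
      obtain ⟨l, h1, h3, h4, h5⟩ := ih
      refine ⟨𝐞 a :: l, by simpa [hQ, hc] using h1, by simp [ha, h3],
        by rw [List.map_cons, List.prod_cons, h4, card_insert_of_notMem ha, pow_succ']; simp [hQ],
        fun u => ?_⟩
      rw [reflProd_cons, isom_mul_apply, rf, h5]
      ext i
      by_cases hi : i = a <;> simp [rs, hi, ha]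
  let ψ : Perm ι →* f.Isom :=
    { toFun σ := ⟨LinearEquiv.funCongrLeft F F σ⁻¹, (f.orth_mem_Isom).2 fun x => by
        rw [hQ, hQ]
        exact congrArg _ (comp_equiv_dotProduct_comp_equiv x x σ⁻¹)⟩
      map_one' := rfl
      map_mul' _ _ := rfl }
  refine (frame_refl (Y := Y) hc h2 hp h7 hB (fun i => .inr ?_) (fun σ hσ => ⟨ψ σ⁻¹, .inl ?_,
    fun _ => rfl⟩)).imp (fun H g hg => H g (.inl hg)) fun H => f.Eich_le fun x w d h => ?_
  rotate_right
  · have h1 := f.orth_eichlerCond h.Q_p (w := (2 : F)⁻¹ • w) (by simp [h.B_pw])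
    have h3 : f.eichler x w d h = f.eichler _ _ _ h1 * f.eichler _ _ _ h1 := by
      rw [eichler_mul]
      refine f.eichler_congr _ _ rfl (by rw [← two_smul F, smul_inv_smul₀ h2]) ?_
      rw [show d = f.Q w from h.π_c, orth_B_self, orth_Q_smul]
      field_simp
      ring
    rcases H (f.eichler_mem_Eich _ _ _ h1) with H | H
    · exact h3 ▸ mul_mem H H
    · exact h3 ▸ e3 .. ▸ mul_mem H H
  · obtain ⟨l, h1, h3, h4, h5⟩ := fl {i}ᶜ
    have h6 : Even ({i}ᶜ : Finset ι).card := by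
      obtain ⟨m, hm⟩ := ho
      exact ⟨m, by simp [card_compl]; omega⟩
    have : n * f.refl (𝐞 i) = f.reflProd l := f.isom_ext fun v => by
      rw [h5, isom_mul_apply, rf]
      ext k
      by_cases e : k = i <;> simp [n, rs, e] <;> ring
    rw [this]
    refine hX _ (hE ▸ hf.reflProd_mem_commutator h1 (h3 ▸ h6) (h4 ▸ h6.isSquare_pow c))
      fun j => ⟨j, fun v hv => ?_⟩
    obtain ⟨a, rfl⟩ := Submodule.mem_span_singleton.1 hv
    refine Submodule.mem_span_singleton.2 ⟨if j = i then a else -a, ?_⟩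
    rw [h5]
    ext k
    by_cases e : k = j
    · by_cases e' : j = i <;> simp [rs, e, e']
      ring
    · simp [rs, e]
  · refine hX _ (hE ▸ map_comm ψ ?_) fun j => ⟨σ.symm j, fun v hv => ?_⟩
    · rw [alternatingGroup.commutator_perm_eq (by simp; omega)]
      exact inv_mem (Perm.mem_alternatingGroup.2 hσ)
    · obtain ⟨a, rfl⟩ := Submodule.mem_span_singleton.1 hv
      rw [map_smul]
      exact Submodule.smul_mem _ _ (Submodule.mem_span_singleton.2
        ⟨1, (one_smul ..).trans (single_comp j (1 : F) σ).symm⟩)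
end

theorem ODec.frame_max {V : Type*} [AddCommGroup V] [Module F V] [FiniteDimensional F V]
    {f : Form (Kind.orth F) V} {D : ι → Submodule F V} (h : f.ODec D) {X : Subgroup f.Isom}
    (hX : ∀ g ∈ f.Eich, f.PermD D g → g ∈ X) (h1 : ∀ i, finrank F (D i) = 1)
    (h2 : (2 : F) ≠ 0) (hp : (Fintype.card F).Prime) (h7 : 7 ≤ Fintype.card ι)
    (ho : Odd (Fintype.card ι)) (hV : Fintype.card ι = finrank F V) :
    (∀ g ∈ X, f.PermD D g) ∨ f.Eich ≤ X := by
  obtain ⟨i₀⟩ : Nonempty ι := Fintype.card_pos_iff.1 (by omega)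
  obtain ⟨v, hv0, hv⟩ := finrank_eq_one_iff'.1 (h1 i₀)
  choose e he using h.equiv i₀
  let b : ι → V := fun i => e i v
  have hb : ∀ i, D i = F ∙ b i := fun i => (Submodule.eq_of_le_of_finrank_eq
    ((Submodule.span_singleton_le_iff_mem _ _).2 (e i v).2) (by
      rw [h1, finrank_span_singleton (by simpa [b] using hv0)])).symm
  have hQ : ∀ i, f.Q (b i) = f.Q v := fun i => (he i).Q_eq v
  have hc : f.Q v ≠ 0 := fun c => hv0 (h.nondeg_restrict i₀ v fun w => by
    obtain ⟨a, rfl⟩ := hv w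
    simp [orth_B_self, c])
  have hO : ∀ i j, f.B (b i) (b j) = if i = j then 2 * f.Q v else 0 := fun i j => by
    split_ifs with c
    · rw [c, orth_B_self, hQ]
    · exact h.orth i j c (e j v).2 _ (e i v).2
  let B := basisOfTopLeSpanOfCardEqFinrank b (by
    rw [← h.top]
    exact iSup_le fun i => hb i ▸ Submodule.span_mono (by simp)) hV
  let J := B.equivFun.symm
  have hJ : ∀ u, J u = ∑ i, u i • b i := fun u => by simp [J, B]
  have J1 : ∀ i, J (single i 1) = b i := fun i => by simp [hJ, single_apply]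
  have hP : (f.comap J.toLinearMap).Pres f J := ⟨fun _ _ => rfl, fun _ => rfl⟩
  have hf : (f.comap J.toLinearMap).Nondeg := h.nondeg.comap_equiv J
  have E := h.nondeg.commutator_eq_Eich (good_of_two_ne_zero _ h2) (by omega)
  have E' := hf.commutator_eq_Eich (good_of_two_ne_zero _ h2) (by simp; omega)
  have key : ∀ g, (f.comap J.toLinearMap).PermD (fun i => F ∙ single i 1) g ↔
      f.PermD D (isomCongr J hP g) := fun g => forall_congr' fun i => exists_congr fun j => by
    have : ∀ i v, v ∈ F ∙ (single i 1 : ι → F) ↔ J v ∈ D i := fun i v => by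
      rw [hb, ← J1, Submodule.mem_span_singleton, Submodule.mem_span_singleton]
      exact exists_congr fun a => by rw [← map_smul, J.injective.eq_iff]
    simp only [this, isomCongr_apply]
    exact ⟨fun H v hv => H _ (by simpa using hv), fun H v hv => by simpa using H _ hv⟩
  rcases frame_std (f := f.comap J.toLinearMap) (X := X.comap (isomCongr J hP).toMonoidHom) hc h2 hp
    h7 ho (fun u w => by
      simp [hJ, B_sum_left, hO, dotProduct, mul_sum, mul_comm, mul_left_comm, mul_assoc])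
    (fun g hg H => hX _ (E ▸ map_comm _ (E' ▸ hg)) ((key g).1 H)) with H | H
  · refine .inl fun g hg => ?_
    simpa using (key _).1 (H ((isomCongr J hP).symm g) (by simpa using hg))
  · refine .inr fun g hg => ?_
    exact (isomCongr J hP).apply_symm_apply g ▸
      H (E' ▸ map_comm (isomCongr J hP).symm.toMonoidHom (E ▸ hg))

end Form
end CA.CForm

namespace CA.MaxGL

open CA.CForm CA.CForm.Form CA.AschFG CA.AschO1 CA.AschProp Cfsg Cfsg.Geo Module

theorem orth_max_frame {ι : Type} [Fintype ι] [DecidableEq ι] {F : Type*} [Field F] [Fintype F]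
    {φ : Form (Kind.orth F) (ι → F)} (hφ : φ.Nondeg) (h2 : (2 : F) ≠ 0)
    (hp : (Fintype.card F).Prime) (h7 : 7 ≤ Fintype.card ι) (ho : Odd (Fintype.card ι)) {t : ℕ}
    {D : Fin t → Submodule F (ι → F)} (hD : IsOrthogonalMDecomposition φ.Q 1 D) :
    IsMaximalIn (omegaGL φ.Q) (decompositionStabilizer D ⊓ omegaGL φ.Q) := by
  obtain ⟨h1, h3⟩ := orthDecomp_iff.1 hD
  have h4 := decomp_card h1.decomp
  rw [omega_eq hφ (by omega)]
  exact max_decomp h1.decomp (not_le_orth hφ (by omega) h1.decomp (.inl h2)) fun X hX =>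
    (odec hφ h1 h3).frame_max hX h1.decomp.finrank_eq h2 hp (by simp; omega)
      (by simpa [h4] using ho) (by simp [h4])

end CA.MaxGL
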