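import Cfsg.Agent.Lib.Lin.MaxH1
import Cfsg.Agent.Lib.Lin.H12Tn1

/-!
Overgroups of the special monomial group of an orthonormal frame: columns with two zeros.
-/

set_option autoImplicit false
set_option linter.unusedSectionVars false

namespace CA.CForm

open Module CA.MaxF Pi Equiv Finset

namespace Form
variable {F : Type*} [Field F] [Fintype F] {ι : Type*} [Fintype ι] [DecidableEq ι]

local notation:75 g:76 " ⊳ " v:75 => (Subtype.val g) v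
local notation "𝐞" i:max => (Pi.single i 1 : ι → F)

variable {f : Form (Kind.orth F) (ι → F)} {X : Subgroup f.Isom} {c : F} {g : f.Isom}

theorem Mon.diag {m r : ι} {a : F} (e : g ⊳ 𝐞 m = a • 𝐞 r) (h : (g ⊳ 𝐞 m - 𝐞 m) m = 0) :
    g ⊳ 𝐞 m = 𝐞 m := by
  rw [e] at h ⊢
  by_cases hr : m = r
  · subst hr
    simp only [Pi.sub_apply, Pi.smul_apply, single_eq_same, smul_eq_mul, mul_one, sub_eq_zero] at h
    rw [h, one_smul]
  · simp [hr] at h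

theorem Mon.few (hg : g ∈ f.Mon) {S : Finset ι} {y y' : ι → F}
    (H : ∀ m, m ∉ S → ∃ α β : F, ∀ j, j ∉ S → (g ⊳ 𝐞 m - 𝐞 m) j = α * y j + β * y' j) :
    ∃ T : Finset ι, T.card ≤ 4 ∧ ∀ m, m ∉ S → m ∉ T → g ⊳ 𝐞 m = 𝐞 m := by
  by_contra! H'
  choose r a e using hg
  have k : ∀ m j, j ≠ m → j ≠ r m → (g ⊳ 𝐞 m - 𝐞 m) j = 0 := fun m j h1 h2 => by simp [e, h1, h2]
  obtain ⟨m₁, s₁, -, n₁⟩ := H' ∅ (by simp)
  obtain ⟨m₂, s₂, t₂, n₂⟩ := H' {m₁, r m₁} (card_le_two.trans (by omega))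
  obtain ⟨m₃, s₃, t₃, n₃⟩ := H' {m₁, r m₁, m₂, r m₂} card_le_four
  simp only [mem_insert, mem_singleton, not_or] at t₂ t₃
  obtain ⟨α₁, β₁, e₁⟩ := H m₁ s₁
  obtain ⟨α₂, β₂, e₂⟩ := H m₂ s₂
  obtain ⟨α₃, β₃, e₃⟩ := H m₃ s₃
  have d₁ := mt (Mon.diag (e m₁)) n₁
  have d₂ := mt (Mon.diag (e m₂)) n₂
  have d₃ := mt (Mon.diag (e m₃)) n₃
  have z₁ := k m₁ m₂ t₂.1 t₂.2
  have z₂ := k m₁ m₃ t₃.1 t₃.2.1
  have z₃ := k m₂ m₃ t₃.2.2.1 t₃.2.2.2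
  rw [e₁ _ s₁] at d₁
  rw [e₂ _ s₂] at d₂
  rw [e₃ _ s₃] at d₃
  rw [e₁ _ s₂] at z₁
  rw [e₁ _ s₃] at z₂
  rw [e₂ _ s₃] at z₃
  have h1 : y m₂ * y' m₃ - y m₃ * y' m₂ = 0 := (mul_eq_zero.1 (by
    linear_combination -(y m₃ * y' m₁ - y m₁ * y' m₃) * z₁ - (y m₁ * y' m₂ - y m₂ * y' m₁) * z₂ :
      _ * (α₁ * y m₁ + β₁ * y' m₁) = 0)).resolve_right d₁
  exact mul_ne_zero d₂ d₃ (by
    linear_combination (α₂ * β₃ - α₃ * β₂) * h1 + (α₃ * y m₂ + β₃ * y' m₂) * z₃)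

theorem Mon.supp (hg : g ∈ f.Mon) {z z' : ι → F} {a : F} (ha : a ≠ 0) (h1 : z ⬝ᵥ z ≠ 0)
    (h2 : z ⬝ᵥ z' = 0) (e : ∀ m, ∃ β : F, g ⊳ 𝐞 m = 𝐞 m - (a * z m) • z - β • z') :
    ∃ T : Finset ι, T.card ≤ 4 ∧ ∀ m, m ∉ T → z m = 0 := by
  obtain ⟨T, h3, h4⟩ := Mon.few hg (S := ∅) (y := z) (y' := z') fun m _ => by
    obtain ⟨β, e⟩ := e m
    exact ⟨-(a * z m), -β, fun j _ => by simp [e]; ring⟩
  refine ⟨T, h3, fun m hm => ?_⟩
  obtain ⟨β, e⟩ := e m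
  have := congrArg (z ⬝ᵥ ·) ((h4 m (by simp) hm).symm.trans e)
  simp only [dotProduct_sub, dotProduct_smul, h2, smul_eq_mul] at this
  exact (mul_eq_zero.1 (by linear_combination this : a * (z ⬝ᵥ z) * z m = 0)).resolve_left
    (mul_ne_zero ha h1)

namespace Fe
variable (h : f.Fe X c)
include h

theorem flip (n : ℕ) (I : Finset ι) (hI : I.card = 2 * n) :
    ∃ g ∈ X, ∀ u, g ⊳ u = u - (2 : F) • rs I u := by
  induction n generalizing I with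
  | zero => exact ⟨1, one_mem _, fun u => by ext i; simp [rs, card_eq_zero.1 hI]⟩
  | succ n ih =>
    obtain ⟨a, ha, b, hb, ab⟩ := one_lt_card.1 (show 1 < I.card by omega)
    obtain ⟨g, hg, e⟩ := ih ((I.erase a).erase b) (by
      rw [card_erase_of_mem (by simp [hb, ab.symm]), card_erase_of_mem ha]; omega)
    obtain ⟨s, hs, e'⟩ := h.flip_mem a b ab
    refine ⟨_, mul_mem hs hg, fun u => ?_⟩
    rw [isom_mul_apply, e', e]
    ext i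
    by_cases hi : i = a
    · simp [rs, hi, ha, ab]
    by_cases hi' : i = b <;> simp [rs, hi, hi', hb, ab.symm]

theorem perm_frame (hg : g ∈ X) {s : f.Isom} (hs : s ∈ X) {p : ι}
    (e : s ⊳ g ⊳ 𝐞 p = g ⊳ 𝐞 p) (q : ι) :
    (∃ a : F, s ⊳ g ⊳ 𝐞 q = a • g ⊳ 𝐞 q) ∨ (g ⊳ 𝐞 q) ⬝ᵥ (s ⊳ g ⊳ 𝐞 q) = 0 := by
  obtain ⟨r, a, e'⟩ := h.mon_of_fix (mul_mem (mul_mem (inv_mem hg) hs) hg) (i := p) (a := 1)
    (by rw [isom_mul_apply, isom_mul_apply, e, isom_inv_apply_apply, one_smul]) q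
  have := congrArg g.1 e'
  rw [isom_mul_apply, isom_mul_apply, isom_apply_inv_apply, map_smul] at this
  by_cases hr : r = q
  · exact .inl ⟨a, hr ▸ this⟩
  · exact .inr (by simp [this, h.dot_map, Ne.symm hr])

theorem unit (g : f.Isom) (i : ι) : (g ⊳ 𝐞 i) ⬝ᵥ (g ⊳ 𝐞 i) = 1 := by simp [h.dot_map]

theorem dot_inv (g : f.Isom) (u v : ι → F) : (g ⊳ u) ⬝ᵥ v = u ⬝ᵥ (g⁻¹ ⊳ v) := by
  rw [← h.dot_map g u, isom_apply_inv_apply]

theorem mon_of_small (hg : g ∈ X) {p : ι} {T : Finset ι} (hT : T.card ≤ 4)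
    (e : ∀ k, k ∉ T → (g ⊳ 𝐞 p) k = 0) : g ∈ f.Mon := by
  have h2 := h.two
  obtain ⟨k, hk⟩ := h.out T (by omega)
  obtain ⟨q, hq⟩ : ∃ q, (g ⊳ 𝐞 q) k ≠ 0 := by
    by_contra! H
    have : g⁻¹ ⊳ 𝐞 k = 0 := funext fun q => by simpa [H] using (h.dot_inv g (𝐞 q) (𝐞 k)).symm
    have h1 := h.unit g⁻¹ k
    rw [this] at h1
    simp at h1
  have y1 := h.unit g q
  have key : ∀ n, ∀ I : Finset ι, I.card = 2 * n → Disjoint I T → ∀ i ∈ I, ∀ j, j ∉ I →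
      (g ⊳ 𝐞 q) i ≠ 0 → (g ⊳ 𝐞 q) j ≠ 0 → 2 * ∑ i ∈ I, (g ⊳ 𝐞 q) i ^ 2 = 1 :=
    fun n I hI hd i hi j hj i0 j0 => by
      obtain ⟨s, hs, es⟩ := h.flip n I hI
      rcases h.perm_frame hg hs (p := p) (by
        rw [es]; ext m
        by_cases hm : m ∈ I <;> simp [rs, hm]
        exact .inr (e m (disjoint_left.1 hd hm))) q with ⟨a, ha⟩ | ha
      · rw [es] at ha
        have a1 := congrFun ha i
        have a2 := congrFun ha j
        simp only [Pi.sub_apply, Pi.smul_apply, rs, hi, hj, if_true, if_false, smul_eq_mul] at a1 a2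
        exact absurd (by linear_combination (g ⊳ 𝐞 q) i * a2 - (g ⊳ 𝐞 q) j * a1)
          (mul_ne_zero h2 (mul_ne_zero i0 j0))
      · rw [es, dotProduct_sub, dotProduct_smul, dot_rs, y1, smul_eq_mul] at ha
        linear_combination -ha
  by_cases hA : ∃ l m, l ∉ T ∧ m ∉ T ∧ l ≠ m ∧ (g ⊳ 𝐞 q) l = 0 ∧ (g ⊳ 𝐞 q) m = 0
  · obtain ⟨l, m, hl, hm, lm, l0, m0⟩ := hA
    have lk : l ≠ k := fun e => hq (e ▸ l0)
    have mk : m ≠ k := fun e => hq (e ▸ m0)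
    obtain ⟨s, hs, es⟩ := h.perm_mem (swap l m * swap k l) (by simp [lm, lk.symm])
    have k1 : ∀ u : ι → F, u l = 0 → u m = 0 → s ⊳ u = u - u k • 𝐞 k + u k • 𝐞 l :=
      fun u h1 h3 => funext fun j => by
        simp only [es, Function.comp, Perm.mul_apply, swap_apply_def]
        split_ifs <;> simp_all
    have k2 : (g ⊳ 𝐞 q) k ^ 2 = 1 := by
      rcases h.perm_frame hg hs (p := p) (by rw [k1 _ (e l hl) (e m hm), e k hk]; simp) q with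
        ⟨a, ha⟩ | ha
      · rw [k1 _ l0 m0] at ha
        exact absurd (by simpa [l0, lk] using congrFun ha l) hq
      · rw [k1 _ l0 m0] at ha
        simp only [dotProduct_add, dotProduct_sub, dotProduct_smul, dotProduct_single, y1, l0,
          smul_eq_mul] at ha
        linear_combination -ha
    refine h.mon_of_ev hg (i := q) (j := k) (a := (g ⊳ 𝐞 q) k) (funext fun j => ?_)
    by_cases hj : j = k
    · simp [hj]
    by_contra j0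
    replace j0 : (g ⊳ 𝐞 q) j ≠ 0 := by simpa [hj] using j0
    have := key 1 {k, l} (card_pair lk.symm) (by simp [hk, hl]) k (by simp) j
      (by simpa [hj] using fun e : j = l => j0 (e ▸ l0)) hq j0
    rw [sum_pair lk.symm, k2, l0] at this
    exact one_ne_zero (by linear_combination this : (1 : F) = 0)
  · obtain ⟨z, hz⟩ : ∃ z, ∀ l, l ∉ T → l ≠ z → (g ⊳ 𝐞 q) l ≠ 0 := by
      by_cases H : ∃ z, z ∉ T ∧ (g ⊳ 𝐞 q) z = 0
      · obtain ⟨z, h1, h3⟩ := H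
        exact ⟨z, fun l h4 h5 h6 => hA ⟨l, z, h4, h1, h5, h6, h3⟩⟩
      · exact ⟨k, fun l h4 _ h6 => H ⟨l, h4, h6⟩⟩
    obtain ⟨A, hA, cA⟩ := exists_subset_card_eq (s := (insert k (insert z T))ᶜ) (n := 4) (by
      have := card_insert_le k (insert z T)
      have := card_insert_le z T
      have := h.big
      rw [card_compl]; omega)
    obtain ⟨B, hB, cB⟩ := exists_subset_card_eq (s := A) (n := 2) (by omega)
    have key' : ∀ n, ∀ I ⊆ A, I.card = 2 * (n + 1) → 2 * ∑ i ∈ I, (g ⊳ 𝐞 q) i ^ 2 = 1 :=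
      fun n I hI cI => by
        have k : ∀ i ∈ I, i ≠ k ∧ i ≠ z ∧ i ∉ T := fun i hi => by simpa using hA (hI hi)
        obtain ⟨i, hi⟩ := card_pos.1 (show 0 < I.card by omega)
        exact key _ I cI (disjoint_left.2 fun i hi => (k i hi).2.2) i hi _
          (fun e => (k _ e).1 rfl) (hz i (k i hi).2.2 (k i hi).2.1) hq
    have := sum_sdiff hB (f := fun i => (g ⊳ 𝐞 q) i ^ 2)
    exact (one_ne_zero (by
      linear_combination key' 1 A subset_rfl cA - key' 0 B hB cB - key' 0 (A \ B) sdiff_subset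
        (by rw [card_sdiff_of_subset hB]; omega) + 2 * this : (1 : F) = 0)).elim

theorem conj_flip (g : f.Isom) {s : f.Isom} {k l : ι}
    (e : ∀ u, s ⊳ u = u - (2 * u k) • 𝐞 k - (2 * u l) • 𝐞 l) (v : ι → F) :
    (g * s * g⁻¹) ⊳ v =
      v - (2 * ((g ⊳ 𝐞 k) ⬝ᵥ v)) • g ⊳ 𝐞 k - (2 * ((g ⊳ 𝐞 l) ⬝ᵥ v)) • g ⊳ 𝐞 l := by
  rw [isom_mul_apply, isom_mul_apply, e, map_sub, map_sub, map_smul, map_smul, isom_apply_inv_apply,
    h.dot_inv, h.dot_inv, single_dotProduct, single_dotProduct, one_mul, one_mul]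

theorem mon_of_conj (hg : g ∈ X) {s : f.Isom} {k l : ι} (kl : k ≠ l)
    (e : ∀ u, s ⊳ u = u - (2 * u k) • 𝐞 k - (2 * u l) • 𝐞 l) (H : g * s * g⁻¹ ∈ f.Mon) :
    g ∈ f.Mon := by
  obtain ⟨T, h1, h2⟩ := Mon.supp H (z := g ⊳ 𝐞 k) (z' := g ⊳ 𝐞 l) h.two (by simp [h.unit])
    (by simp [h.dot_map, kl]) fun m => ⟨_, by rw [h.conj_flip g e, dotProduct_single, mul_one]⟩
  exact h.mon_of_small hg h1 h2

theorem mon_of_two (hg : g ∈ X) {p k l : ι} (kl : k ≠ l) (h1 : (g ⊳ 𝐞 p) k = 0)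
    (h2 : (g ⊳ 𝐞 p) l = 0) : g ∈ f.Mon := by
  obtain ⟨s, hs, e⟩ := h.flip_mem k l kl
  refine inv_mem_iff.1 (h.mon_of_conj (inv_mem hg) kl e
    (h.mon_of_fix (mul_mem (mul_mem (inv_mem hg) hs) (inv_mem (inv_mem hg))) (i := p) (a := 1) ?_))
  rw [inv_inv, isom_mul_apply, isom_mul_apply, e, h1, h2]
  simp

theorem mon_of_nine (hg : g ∈ X) {p : ι} {T : Finset ι} (hT : T.card ≤ 9)
    (e : ∀ k, k ∉ T → (g ⊳ 𝐞 p) k = 0) : g ∈ f.Mon := by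
  obtain ⟨k, hk⟩ := h.out T (by omega)
  obtain ⟨l, hl⟩ := h.out (insert k T) ((card_insert_le ..).trans (by omega))
  rw [mem_insert, not_or] at hl
  exact h.mon_of_two hg hl.1 (e l hl.2) (e k hk)

end Fe
end Form
end CA.CForm
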