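import Cfsg.Agent.Lib.Lin.MaxL8

/-! Overgroups of classical groups in `SL`, in dimension at least six. -/

set_option autoImplicit false
set_option linter.unusedSectionVars false

namespace CA.MaxL9

open Cfsg Cfsg.Geo Matrix CA.AschBase CA.AschForm CA.AschTForm CA.AschProp CA.AschDesc
  CA.AschFG CA.AschFG4 CA.AschFG5 CA.CForm CA.MaxTv Module
open scoped MatrixGroups

variable {ι : Type} [Fintype ι] [DecidableEq ι] {F : Type*} [Field F] {k : Kind F}
variable {X : Subgroup (GL ι F)}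

theorem exists_notMem {V : Type*} [AddCommGroup V] [Module F V] [FiniteDimensional F V]
    {φ : Form k V} {d : ℕ} (hs : ∀ W : Submodule F V, d ≤ finrank F W → ∃ v ∈ W, v ≠ 0 ∧ φ.Q v = 0)
    (W U : Submodule F V) (h : finrank F (W ⊓ U : Submodule F V) + d ≤ finrank F W) :
    ∃ x ∈ W, x ∉ U ∧ φ.Q x = 0 := by
  obtain ⟨C, hC⟩ := (W ⊓ U).exists_isCompl
  have h1 := Submodule.finrank_add_eq_of_isCompl hC
  have h2 := Submodule.finrank_sup_add_finrank_inf_eq W C
  have h3 := Submodule.finrank_le (W ⊔ C)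
  obtain ⟨x, hx, h0, hQ⟩ := hs (W ⊓ C) (by omega)
  exact ⟨x, hx.1, fun h => h0 (Submodule.disjoint_def.1 hC.disjoint x ⟨hx.1, h⟩ hx.2), hQ⟩

theorem exists_common [Finite F] {V : Type*} [AddCommGroup V] [Module F V] [FiniteDimensional F V]
    (h2 : (2 : F) ≠ 0) (φ φ' : Form (Kind.orth F) V) (W : Submodule F V) (h : 5 ≤ finrank F W) :
    ∃ v ∈ W, v ≠ 0 ∧ φ.Q v = 0 ∧ φ'.Q v = 0 := by
  classical
  have := Fintype.ofFinite F
  obtain ⟨p, hp⟩ := CharP.exists F
  have := Fact.mk (CharP.char_is_prime F p)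
  let b := Module.finBasis F W
  let P : Form (Kind.orth F) V → MvPolynomial (Fin (finrank F W)) F := fun ψ =>
    ∑ i, ∑ j, MvPolynomial.C (ψ.B (b i) (b j)) * (MvPolynomial.X i * MvPolynomial.X j)
  have hd : ∀ ψ, (P ψ).totalDegree ≤ 2 := fun ψ =>
    MvPolynomial.totalDegree_finsetSum_le fun i _ => MvPolynomial.totalDegree_finsetSum_le
      fun j _ => (MvPolynomial.totalDegree_mul _ _).trans (by
        rw [MvPolynomial.totalDegree_C, zero_add]
        refine (MvPolynomial.totalDegree_mul _ _).trans ?_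
        rw [MvPolynomial.totalDegree_X, MvPolynomial.totalDegree_X])
  have he : ∀ ψ x, MvPolynomial.eval x (P ψ) = 2 * ψ.Q (b.equivFun.symm x) := fun ψ x => by
    have : ∀ (s : Finset (Fin (finrank F W))) y,
        ψ.B (∑ i ∈ s, x i • (b i : V)) y = ∑ i ∈ s, x i * ψ.B (b i) y := fun s y => by
      induction s using Finset.induction_on with
      | empty => simp
      | insert a s ha ih => simp [Finset.sum_insert ha, ih]
    rw [← ψ.orth_B_self, Basis.equivFun_symm_apply]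
    simp only [P, map_sum, map_mul, MvPolynomial.eval_C, MvPolynomial.eval_X, Submodule.coe_sum,
      Submodule.coe_smul, map_smul, smul_eq_mul, this, Finset.mul_sum]
    exact Finset.sum_congr rfl fun i _ => Finset.sum_congr rfl fun j _ => by ring
  have hdvd := char_dvd_card_solutions_of_add_lt p (f₁ := P φ) (f₂ := P φ') (by
    have := hd φ; have := hd φ'; rw [Fintype.card_fin]; omega)
  by_contra hcon
  rw [Fintype.card_eq_one_iff.2 ⟨⟨0, by rw [he, he]; simp⟩, fun x => Subtype.ext ?_⟩, Nat.dvd_one] at hdvd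
  · exact this.out.ne_one hdvd
  by_contra hx
  refine hcon ⟨_, (b.equivFun.symm x.1).2, fun h => hx
    (b.equivFun.symm.map_eq_zero_iff.1 (Subtype.ext h)), ?_, ?_⟩
  · simpa [he, h2] using x.2.1
  · simpa [he, h2] using x.2.2

/-- One transvection with non-proportional axis gives the full group with the same centre. -/
def Fl (φ : Form k (ι → F)) (X : Subgroup (GL ι F)) : Prop :=
  ∀ w a, Tv X w (φ.B a) → φ.B a w = 0 → a ∉ F ∙ w → w ∈ full X

section Over

variable {φ : Form k (ι → F)} (hφ : φ.Nondeg) (hX : EG φ ≤ X)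
include hφ hX

theorem fl_two (hs : ∀ W : Submodule F (ι → F), 2 ≤ finrank F W → ∃ v ∈ W, v ≠ 0 ∧ φ.Q v = 0)
    (hn : 6 ≤ Fintype.card ι) : Fl φ X := fun w a h haw ha => by
  have h1 : ∀ u, φ.Q u = 0 → φ.B u w = 0 → Tv X w (φ.B u) := fun u hu huw => by
    by_cases hd : φ.B u a = 0 ∧ a ∉ Submodule.span F {u, w}
    · exact tv_step hφ hX h haw hu huw hd.1 hd.2
    obtain ⟨u₀, a1, a2, a3⟩ := exists_notMem hs (φ.perp (Submodule.span F {w, a, u}))
      (Submodule.span F {w, a, u}) (by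
        have c1 := finrank_three_le (F := F) w a u
        have c2 := hφ.finrank_perp (Submodule.span F {w, a, u})
        rw [finrank_fun] at c2
        by_cases hua : φ.B u a = 0
        · have h3 : a ∈ Submodule.span F {u, w} := by tauto
          have := (Submodule.finrank_mono (show Submodule.span F {w, a, u} ≤ Submodule.span F {u, w}
            from Submodule.span_le.2 (by
              rintro _ (rfl | rfl | rfl)
              exacts [Submodule.subset_span (by simp), h3, Submodule.subset_span (by simp)]))).trans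
            (finrank_pair_le u w)
          have := Submodule.finrank_mono (inf_le_right : φ.perp (Submodule.span F {w, a, u}) ⊓
            Submodule.span F {w, a, u} ≤ _)
          omega
        · have : φ.perp (Submodule.span F {w, a, u}) ⊓ Submodule.span F {w, a, u} ≤ F ∙ w := by
            rintro x ⟨b1, b2⟩
            obtain ⟨r, y, hy, rfl⟩ := Submodule.mem_span_insert.1 b2
            obtain ⟨s, t, rfl⟩ := Submodule.mem_span_pair.1 hy
            have b3 := φ.mem_perp_span.1 b1 u (by simp)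
            have b4 := φ.mem_perp_span.1 b1 a (by simp)
            simp only [map_add, map_smul, huw, φ.B_self_of_Q hu, haw, smul_eq_mul, mul_zero,
              zero_add, add_zero, mul_eq_zero, hua, or_false] at b3 b4
            have b5 : φ.B a u ≠ 0 := fun e => hua (φ.eq_zero_symm e)
            simp only [b3, zero_mul, zero_add, mul_eq_zero, b5, or_false] at b4
            simp [b3, b4, Submodule.smul_mem, Submodule.mem_span_singleton_self]
          have := (Submodule.finrank_mono this).trans (finrank_span_le_card ({w} : Set (ι → F)))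
          simp only [Set.toFinset_singleton, Finset.card_singleton] at this
          omega)
    rw [φ.mem_perp_span] at a1
    have b1 := φ.eq_zero_symm (a1 w (by simp))
    refine tv_step hφ hX (tv_step hφ hX h haw a3 b1 (φ.eq_zero_symm (a1 a (by simp)))
      (notMem_pair ha a2 (Submodule.subset_span (by simp)) (Submodule.subset_span (by simp))))
      b1 hu huw (a1 u (by simp)) fun h => a2 (Submodule.span_mono (by simp [Set.insert_subset_iff]) h)
  intro ψ hψ
  obtain ⟨b, rfl⟩ := hφ.exists_B_eq ψ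
  obtain ⟨x, hx, hx', hxQ⟩ := exists_notMem hs (φ.perp (Submodule.span F {w, b}))
    (Submodule.span F {w, b}) (by
      have c1 := finrank_pair_le (F := F) w b
      have c2 := hφ.finrank_perp (Submodule.span F {w, b})
      have := Submodule.finrank_mono (inf_le_right : φ.perp (Submodule.span F {w, b}) ⊓
        Submodule.span F {w, b} ≤ _)
      rw [finrank_fun] at c2
      omega)
  obtain ⟨y, hy, h5, h6⟩ := hφ.exists_partner_perp hxQ hx' hx
  have hxy : φ.IsHyp x y := ⟨hxQ, h5, h6⟩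
  rw [φ.mem_perp_span_pair] at hx hy
  obtain ⟨c, hc⟩ := φ.Q_mem b
  have a1 := φ.eq_zero_symm hx.1
  have a2 := φ.eq_zero_symm hy.1
  have a3 := h1 _ (hxy.Q_add_sub (φ.eq_zero_symm hx.2) (φ.eq_zero_symm hy.2) hc) (by simp [a1, a2, hψ])
  have a4 := (a3.add_right (h1 _ (φ.Q_smul_of_Q hxy.Q_x (k.ε * c)) (by simp [a1]))
    (by simp [a1, a2, hψ])).sub_right (h1 y hxy.Q_y a2) (by simp [a1, a2, hψ]) a2
  rwa [← B_add, ← B_sub, sub_add_cancel, add_sub_cancel_left] at a4

omit hX in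
theorem exists_B_ne {U : Submodule F (ι → F)} {x a : ι → F} (hx : x ∈ φ.perp U) (hx' : x ∉ U)
    (hQ : φ.Q x = 0) (ha : a ∉ U) : ∃ u ∈ φ.perp U, φ.Q u = 0 ∧ φ.B u a ≠ 0 := by
  by_contra H
  push Not at H
  obtain ⟨y, hy, h5, h6⟩ := hφ.exists_partner_perp hQ hx' hx
  have hxy : (φ.restrict (φ.perp U)).IsHyp ⟨x, hx⟩ ⟨y, hy⟩ := ⟨hQ, h5, h6⟩
  refine ha (hφ.perp_perp U ▸ fun z hz => ?_)
  obtain ⟨a, b, c, h1, h2, h3, e⟩ := hxy.exists_eq_add_singular ⟨z, hz⟩
  obtain rfl : z = a.1 + b.1 + c.1 := congrArg Subtype.val e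
  simp [H a a.2 h1, H b b.2 h2, H c c.2 h3]

variable (hs : Sing φ) (hn : 6 ≤ Fintype.card ι) (hl : Fl φ X)
include hs hn hl

theorem SL_le_of_tv_ne6 {w a : ι → F} (h : Tv X w (φ.B a)) (haw : φ.B a w = 0) (hw : w ≠ 0)
    (ha : a ∉ F ∙ w) : specialLinear ι F ≤ X := by
  obtain ⟨x, -, hx0, hx⟩ := hs ⊤ (by rw [finrank_top, finrank_fun]; omega)
  exact SL_le_of_full ((irr_EG hφ (by omega) hx hx0).mono hX) hw (hl w a h haw ha)

theorem SL_le_of_tv_self6 {w : ι → F} {c : F} (h : Tv X w (c • φ.B w)) (hw : φ.Q w = 0)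
    (hw0 : w ≠ 0) (hc : k.ε * c + k.σ c ≠ 0) : specialLinear ι F ≤ X := by
  obtain ⟨y, hy⟩ := hφ.exists_isHyp hw hw0
  have hy0 : y ≠ 0 := by rintro rfl; simpa using hy.B_xy
  obtain ⟨g, hg, a, ha, h1⟩ := hφ.exists_Eich_smul (.inl (by rw [finrank_fun]; omega)) hw hw0 hy.Q_y hy0
  have h2 := h.conj (ψ := c • φ.B ((g : (ι → F) ≃ₗ[F] (ι → F)) w)) ((act_isom g hg).mono hX)
    fun x => by simp
  rw [h1, tv_smul, B_smul, smul_smul, smul_smul] at h2
  set d := a * c * k.σ a with hd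
  have hd' : k.ε * d + k.σ d ≠ 0 := by
    rw [show k.ε * d + k.σ d = a * k.σ a * (k.ε * c + k.σ c) by simp [hd, k.σσ]; ring]
    exact mul_ne_zero (mul_ne_zero ha (k.σ_eq_zero.not.2 ha)) hc
  have hc0 : c ≠ 0 := by rintro rfl; simp at hc
  have h3 := h.conj (ψ := φ.B (k.σ c • (w - k.σ d • y))) h2 fun x => by
    simp [k.σσ, hy.B_xy, hy.B_yy]
  have h4 : ∀ s t : F, s • w + t • y = 0 → s = 0 ∧ t = 0 := fun s t h => by
    have a1 := congrArg (φ.B w) h
    have a2 := congrArg (φ.B y) h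
    simp [hy.B_xy, hy.B_yy, hy.B_xx, hy.B_yx, k.ε_ne_zero] at a1 a2
    exact ⟨a2, a1⟩
  refine SL_le_of_tv_ne6 hφ hX hs hn hl h3 ?_ (fun h => ?_) fun h => ?_
  · simp [k.σσ, hy.B_xy, hy.B_yy, hy.B_xx, hy.B_yx]
  · exact one_ne_zero (h4 1 _ (by rwa [one_smul])).1
  · obtain ⟨s, hs⟩ := Submodule.mem_span_singleton.1 h
    simp only [LinearMap.smul_apply, hy.B_yx, smul_eq_mul] at hs
    obtain ⟨a1, a2⟩ := h4 (s - k.σ c) (s * (d * k.ε) + k.σ c * k.σ d) (by
      rw [← sub_eq_zero.2 hs]; module)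
    exact mul_ne_zero (k.σ_eq_zero.not.2 hc0) hd' (by linear_combination a2 - d * k.ε * a1)

theorem SL_le_of_not_isom6 {w : ι → F} {ψ : Dual F (ι → F)} (h : Tv X w ψ) (h0 : ψ w = 0)
    (h1 : ¬ ∀ x y, φ.B (x + ψ x • w) (y + ψ y • w) = φ.B x y) : specialLinear ι F ≤ X := by
  obtain ⟨a, rfl⟩ := hφ.exists_B_eq ψ
  have hw0 : w ≠ 0 := by rintro rfl; simp at h1
  by_cases ha : a ∈ F ∙ w
  swap
  · exact SL_le_of_tv_ne6 hφ hX hs hn hl h h0 hw0 ha
  obtain ⟨d, rfl⟩ := Submodule.mem_span_singleton.1 ha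
  have hd : d ≠ 0 := by rintro rfl; simp at h1
  have h2 : φ.B w w = 0 := by simpa [hd] using h0
  have h3 : k.ε * k.σ d + d ≠ 0 := fun h => h1 fun x y => by
    simp only [map_add, map_smul, Form.B_add_left, Form.B_smul_left, h2, smul_eq_mul, map_mul, k.σσ]
    rw [φ.symm w x]
    linear_combination (k.σ (φ.B w x) * φ.B w y) * h
  rw [B_smul] at h
  refine SL_le_of_tv_self6 hφ hX hs hn hl h ?_ hw0 (by rwa [k.σσ])
  refine (mul_eq_zero.1 ((φ.B_self w).symm.trans h2)).resolve_left fun h4 => h3 ?_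
  have := k.δπ d
  rw [h4] at this
  linear_combination -this

theorem over_of_gen6 [Finite F] (hgen : ∀ G : Subgroup φ.Isom,
    (∀ x c h, φ.eichler x 0 c h ∈ G) → φ.Eich ≤ G) :
    X ≤ similarityGroup (fn φ) ∨ specialLinear ι F ≤ X := by
  have : Nonempty ι := Fintype.card_pos_iff.1 (by omega)
  refine or_iff_not_imp_right.2 fun h => ?_
  obtain ⟨x, -, hx0, hx⟩ := hs ⊤ (by rw [finrank_top, finrank_fun]; omega)
  have h1 : EG φ ≤ Subgroup.closure (tvSet X) := Subgroup.map_le_iff_le_comap.2 (hgen _ fun y c hc =>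
    Subgroup.subset_closure ⟨hX ⟨_, φ.eichler_mem_Eich _ _ _ hc, rfl⟩, y, -(k.ε * c) • φ.B y,
      by simp [φ.B_self_of_Q hc.Q_p], fun v => by
        rw [toGL_mulVec, φ.eichler_zero_apply]; simp [sub_eq_add_neg]⟩)
  refine (sf_fn hφ).le_sim_of_nrm (top_unique (alg_EG hφ (by omega) hx hx0 ▸ alg_mono h1))
    nrm_tvSet (fixes_closure ?_)
  rintro a ⟨ha, w, ψ, h0, h2⟩ u v
  by_contra h3
  refine h (SL_le_of_not_isom6 hφ hX hs hn hl ⟨a, ha, h2⟩ h0 fun h4 => h3 ?_)
  rw [h2, h2]; exact h4 v u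

end Over

theorem over_symp6 [Finite F] {φ : Form (Kind.symp F) (ι → F)} (hφ : φ.Nondeg) (hX : EG φ ≤ X)
    (hn : 6 ≤ Fintype.card ι) : X ≤ similarityGroup (fn φ) ∨ specialLinear ι F ≤ X :=
  over_of_gen6 hφ hX (sing_symp φ) hn (fl_two hφ hX (fun W h => by
    obtain ⟨v, hv, h0⟩ := W.exists_mem_ne_zero_of_ne_bot (by rintro rfl; simp at h)
    exact ⟨v, hv, h0, φ.symp_Q v⟩) hn) fun _ h => hφ.symp_eq_top_of_Tgrp h ▸ le_top

theorem over_herm6 [Fintype F] {q : ℕ} (hF : Fintype.card F = q ^ 2)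
    {φ : Form (hermKind hF) (ι → F)} (hφ : φ.Nondeg) (hX : EG φ ≤ X)
    (hn : 6 ≤ Fintype.card ι) : X ≤ similarityGroup (fn φ) ∨ specialLinear ι F ≤ X :=
  over_of_gen6 hφ hX (sing_herm (conj_ne_id hF) φ) hn
    (fl_two hφ hX (fun _ h => φ.herm_exists_singular (conj_ne_id hF) h) hn)
    fun _ h => φ.Eich_le_SIsom.trans
      (herm_SIsom_le_of_Tgrp hF hφ (by rw [finrank_fun]; omega) (by rw [finrank_fun]; omega) h)

section Orth

variable {φ φ' : Form (Kind.orth F) (ι → F)}

theorem tv_two (h2 : (2 : F) ≠ 0) (hX : EG φ ≤ X) {w a u v : ι → F} (h : Tv X w (φ.B a))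
    (haw : φ.B a w = 0) (hu : φ.Q u = 0) (huw : φ.B u w = 0) (hua : φ.B u a ≠ 0)
    (huv : φ.B u v = 0) (hvw : φ.B v w = 0) (hva : φ.B v a = 0) : Tv X w (φ.B v) := by
  have key : ∀ s : F, Tv X w (φ.B (a + (s * φ.B u a) • v - (s ^ 2 * φ.Q v * φ.B u a) • u)) :=
    fun s => by
      have hc := orth_eichlerCond hu (b := s • v) (by simp [huv])
      have h2 := tv_isom h ((act_eich hc).mono hX) (eichlerL_B hc)
      have h3 : φ.eichlerL u (s • v) (φ.Q (s • v)) w = w := by simp [Form.eichlerL_apply, huw, hvw]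
      rw [h3] at h2
      convert h2 using 2
      simp only [Form.eichlerL_apply, φ.orth_Q_smul, Form.B_smul_left, hva, Kind.orth_ε]
      module
  have := (key (2 * φ.B u a)⁻¹).sub_right (key (-(2 * φ.B u a)⁻¹)) (by simp [haw, huw, hvw])
    (by simp [haw, huw, hvw])
  rw [← B_sub] at this
  convert this using 2
  have e : (2 * φ.B u a)⁻¹ * φ.B u a * 2 = 1 := by field_simp
  calc v = ((2 * φ.B u a)⁻¹ * φ.B u a * 2) • v := by rw [e, one_smul]
    _ = _ := by module

theorem fl_orth [Finite F] (h2 : (2 : F) ≠ 0) (hφ : φ.Nondeg) (hX : EG φ ≤ X)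
    (hn : 6 ≤ Fintype.card ι) : Fl φ X := fun w a h haw ha => by
  obtain ⟨x, a1, a2, a3⟩ := (sing_orth φ).exists_perp hφ (F ∙ w) (by
    have := finrank_span_le_card (R := F) ({w} : Set (ι → F))
    simp only [Set.toFinset_singleton, Finset.card_singleton] at this
    rw [finrank_fun]; omega)
  obtain ⟨u, b1, b2, b3⟩ := exists_B_ne hφ a1 a2 a3 ha
  have b4 := φ.eq_zero_symm (φ.mem_perp_span_singleton.1 b1)
  have hA : ∀ v ∈ φ.perp (Submodule.span F {u, a, w}), Tv X w (φ.B v) ∧ φ.B v w = 0 :=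
    fun v hv => by
      rw [φ.mem_perp_span] at hv
      have := φ.eq_zero_symm (hv w (by simp))
      exact ⟨tv_two h2 hX h haw b2 b4 b3 (hv u (by simp)) this (φ.eq_zero_symm (hv a (by simp))),
        this⟩
  have hB : ∀ b, φ.B b w = 0 → φ.Q b ≠ 0 → Tv X w (φ.B b) := fun b hb hQ => by
    have c1 := finrank_pair_le (F := F) w b
    have c2 := hφ.finrank_perp (Submodule.span F {w, b})
    have c3 := hφ.finrank_perp (Submodule.span F {u, a, w})
    have c4 := finrank_three_le (F := F) u a w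
    rw [finrank_fun] at c2 c3
    have hbb : φ.B b b ≠ 0 := by rw [φ.orth_B_self]; exact mul_ne_zero h2 hQ
    by_cases hbA : b ∈ φ.perp (Submodule.span F {u, a, w})
    · exact (hA b hbA).1
    obtain ⟨x, d1, d2, d3⟩ := exists_notMem (sing_orth φ) (φ.perp (Submodule.span F {w, b}))
      (Submodule.span F {w, b}) (by
        have := Submodule.finrank_lt_finrank_of_lt (lt_of_le_of_ne (inf_le_right :
          φ.perp (Submodule.span F {w, b}) ⊓ Submodule.span F {w, b} ≤ _) fun e =>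
            hbb (φ.mem_perp_span_pair.1 (e.ge (Submodule.subset_span (by simp))).1).2)
        omega)
    obtain ⟨a', e1, e2⟩ := SetLike.not_le_iff_exists.1 fun e :
        φ.perp (Submodule.span F {u, a, w}) ⊓ φ.perp (F ∙ b) ≤ Submodule.span F {w, b} => by
      have c5 := Submodule.finrank_sup_add_finrank_inf_eq (φ.perp (Submodule.span F {u, a, w}))
        (φ.perp (F ∙ b))
      have c6 := Submodule.finrank_le (φ.perp (Submodule.span F {u, a, w}) ⊔ φ.perp (F ∙ b))
      have c7 := hφ.finrank_perp (F ∙ b)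
      rw [finrank_span_singleton (by rintro rfl; simp at hbb), finrank_fun] at c7
      rw [finrank_fun] at c6
      exact hbA ((Submodule.eq_of_le_of_finrank_le e (by omega)).ge
        (Submodule.subset_span (by simp))).1
    obtain ⟨u', f1, f2, f3⟩ := exists_B_ne hφ d1 d2 d3 e2
    rw [φ.mem_perp_span_pair] at f1
    exact tv_two h2 hX (hA a' e1.1).1 (hA a' e1.1).2 f2 (φ.eq_zero_symm f1.1) f3
      (φ.eq_zero_symm f1.2) hb (φ.mem_perp_span_singleton.1 e1.2)
  intro ψ hψ
  obtain ⟨b, rfl⟩ := hφ.exists_B_eq ψ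
  by_cases hQ : φ.Q b = 0
  swap
  · exact hB b hψ hQ
  obtain ⟨c, hc, hcQ⟩ : ∃ c ∈ φ.perp (Submodule.span F {w, b}), φ.Q c ≠ 0 := by
    by_contra H
    push Not at H
    have : φ.perp (Submodule.span F {w, b}) ≤ Submodule.span F {w, b} := fun x hx =>
      hφ.perp_perp (Submodule.span F {w, b}) ▸ fun y hy => by
        rw [φ.orth_B_eq, H _ (add_mem hy hx), H _ hx, H _ hy]; simp
    have := Submodule.finrank_mono this
    have c1 := finrank_pair_le (F := F) w b
    have c2 := hφ.finrank_perp (Submodule.span F {w, b})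
    rw [finrank_fun] at c2
    omega
  rw [φ.mem_perp_span_pair] at hc
  have c1 := φ.eq_zero_symm hc.1
  have := (hB (b + c) (by simp [hψ, c1]) (by rwa [φ.Q_add_of_B hc.2, hQ, zero_add])).sub_right
    (hB c c1 hcQ) (by simp [hψ, c1]) c1
  rwa [← B_sub, add_sub_cancel_right] at this

theorem two_forms_aux6 [Finite F] (h2 : (2 : F) ≠ 0) (hφ : φ.Nondeg) (hφ' : φ'.Nondeg)
    (hX : EG φ ≤ X) (hX' : EG φ' ≤ X) (hn : 6 ≤ Fintype.card ι) (h : ¬ specialLinear ι F ≤ X)
    {a : ι → F} (ha0 : a ≠ 0) (ha : φ.Q a = 0) (ha' : φ'.Q a = 0) :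
    ∃ l : F, ∀ b, φ.B a b = 0 → φ'.B b = l • φ.B b := by
  have haa := φ.B_self_of_Q ha
  have haa' := φ'.B_self_of_Q ha'
  have key : ∀ χ : Dual F (ι → F), Tv X a χ → χ a = 0 → χ = 0 := fun χ h1 h3 => by
    by_contra h4
    refine h (SL_le_of_not_isom6 hφ hX (sing_orth φ) hn (fl_orth h2 hφ hX hn) h1 h3 fun h5 => h4 ?_)
    obtain ⟨y, hy⟩ := hφ.exists_isHyp ha ha0
    have h6 := h5 y y
    simp only [map_add, map_smul, Form.B_add_left, Form.B_smul_left, haa, smul_eq_mul, hy.B_xy,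
      hy.B_yx, Kind.orth_σ, Kind.orth_ε] at h6
    have h7 : χ y = 0 := (mul_eq_zero.1 (by linear_combination h6 : 2 * χ y = 0)).resolve_left h2
    refine LinearMap.ext fun x => ?_
    have h8 := h5 x y
    simpa [h7, hy.B_xy] using h8
  by_cases h1 : φ'.B a ∈ F ∙ φ.B a
  · obtain ⟨l, hl⟩ := Submodule.mem_span_singleton.1 h1
    have hl' : ∀ x, φ'.B a x = l * φ.B a x := fun x => by rw [← hl]; rfl
    have h3 : ∀ b, φ.B a b = 0 → ∀ x, l * φ.B b x + l ^ 2 * φ.Q b * φ.B a x -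
        (φ'.B b x + l * φ'.Q b * φ.B a x) = 0 := fun b hb x => by
      have := key (l • φ.B b + (l ^ 2 * φ.Q b) • φ.B a - (φ'.B b + (l * φ'.Q b) • φ.B a))
        (tv_of_diff ((act_eich (orth_eichlerCond ha' (b := b) (by rw [hl', hb, mul_zero]))).mono hX')
          ((act_eich (orth_eichlerCond ha (b := l • b) (by simp [hb]))).mono hX)
          (by simp [Form.eichlerL_apply, haa, φ.eq_zero_symm hb]) fun x => by
            simp only [Form.eichlerL_apply, hl', φ.orth_Q_smul, Form.B_smul_left, Kind.orth_ε,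
              Kind.orth_σ, LinearMap.sub_apply, LinearMap.add_apply, LinearMap.smul_apply, smul_eq_mul]
            module)
        (by simp [haa, φ.eq_zero_symm hb, φ'.orth_symm a b, hl', hb])
      simpa using LinearMap.congr_fun this x
    refine ⟨l, fun b hb => LinearMap.ext fun x => ?_⟩
    have h4 := h3 b hb b
    rw [hb, φ.orth_B_self, φ'.orth_B_self] at h4
    have h5 : φ'.Q b = l * φ.Q b := mul_left_cancel₀ h2 (by linear_combination -h4)
    have h6 := h3 b hb x
    rw [h5] at h6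
    simp only [LinearMap.smul_apply, smul_eq_mul]
    linear_combination -h6
  exfalso
  obtain ⟨a₁, ha₁⟩ := hφ'.exists_B_eq (φ.B a)
  have h3 : a₁ ∉ F ∙ a := fun h => by
    obtain ⟨c, rfl⟩ := Submodule.mem_span_singleton.1 h
    rw [B_smul, Kind.orth_σ] at ha₁
    have hc : c ≠ 0 := by
      rintro rfl
      exact ha0 (hφ _ fun y => by rw [← ha₁]; simp)
    exact h1 (Submodule.mem_span_singleton.2 ⟨c⁻¹, by rw [← ha₁, inv_smul_smul₀ hc]⟩)
  obtain ⟨b', hb', h4⟩ := hφ'.exists_perp_B_eq' h3 1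
  rw [φ'.mem_perp_span_singleton] at hb'
  rw [ha₁] at h4
  obtain ⟨b, hb, h5⟩ := SetLike.not_le_iff_exists.1 fun h :
      φ'.perp (Submodule.span F {a, a₁}) ≤ Submodule.span F {a, a₁} => by
    have := finrank_pair_le (F := F) a a₁
    have := Submodule.finrank_mono h
    have := hφ'.finrank_perp (Submodule.span F {a, a₁})
    rw [finrank_fun] at this
    omega
  rw [φ'.mem_perp_span_pair, ha₁] at hb
  have c1 := orth_eichlerCond ha hb.2
  have e1 := (act_eich c1).mono hX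
  have e2 := (act_eich c1.neg).mono hX
  have e3 := (act_eich (orth_eichlerCond ha' hb')).mono hX'
  have e4 := (act_eich (orth_eichlerCond ha' (b := b + b') (by simp [hb.1, hb']))).mono hX'
  have h6 := key (φ'.B b + φ'.B b' b • φ.B a + (φ'.Q (b + b') - φ'.Q b' - φ.B b b' - φ.Q b) • φ'.B a)
    (tv_of_diff ((e1.mul e3).mul e2) e4 (by
      simp [Form.eichlerL_apply, haa', φ'.eq_zero_symm hb.1, φ'.eq_zero_symm hb']) fun x => by
      simp only [Form.eichlerL_apply, map_add, map_sub, map_smul, map_neg, haa, haa', hb.1, hb.2, h4,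
        φ'.eq_zero_symm hb', φ.eq_zero_symm hb.2, φ.orth_B_self b, Form.B_add_left, Form.B_neg_left,
        Kind.orth_ε, Kind.orth_σ, LinearMap.add_apply, LinearMap.smul_apply, smul_eq_mul]
      module) (by simp [haa, haa', φ'.eq_zero_symm hb.1])
  rw [← ha₁] at h6
  refine h5 (Submodule.mem_span_pair.2 ⟨-(φ'.Q (b + b') - φ'.Q b' - φ'.B a₁ 0 - φ.B b b' - φ.Q b),
    -φ'.B b' b, hφ'.eq_of_B_eq fun y => ?_⟩)
  have := LinearMap.congr_fun h6 y
  simp only [LinearMap.add_apply, LinearMap.smul_apply, smul_eq_mul, LinearMap.zero_apply] at this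
  simp only [Form.B_add_left, Form.B_smul_left, Kind.orth_σ, map_zero]
  linear_combination -this

theorem over_orth6 [Finite F] (h2 : (2 : F) ≠ 0) (hφ : φ.Nondeg) (hX : EG φ ≤ X)
    (hn : 6 ≤ Fintype.card ι) : X ≤ similarityGroup (fn φ) ∨ specialLinear ι F ≤ X := by
  refine or_iff_not_imp_right.2 fun h g hg => ?_
  let φ' := φ.comap (glEquiv g).toLinearMap
  have hφ' : φ'.Nondeg := hφ.comap_equiv _
  have hB : ∀ x y, φ'.B x y = φ.B ((g : Matrix ι ι F) *ᵥ x) ((g : Matrix ι ι F) *ᵥ y) := fun _ _ => rfl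
  have hX' : EG φ' ≤ X := Subgroup.map_le_iff_le_comap.2 (φ'.Eich_le fun x w c hc => by
    have h1 : φ.EichlerCond ((g : Matrix ι ι F) *ᵥ x) ((g : Matrix ι ι F) *ᵥ w) c := ⟨hc.1, hc.2, hc.3⟩
    refine (((act_self (X.inv_mem hg)).mul ((act_eich h1).mono hX)).mul (act_self hg)).mem fun v => ?_
    rw [toGL_mulVec, φ'.eichler_apply, Form.eichlerL_apply, hB, hB]
    simp only [mulVec_sub, mulVec_add, mulVec_smul, inv_mulVec_mulVec])
  obtain ⟨a, -, ha0, ha1, ha⟩ := exists_common h2 φ φ' ⊤ (by rw [finrank_top, finrank_fun]; omega)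
  obtain ⟨C, hC⟩ := (F ∙ a).exists_isCompl
  obtain ⟨a', haC, ha0'', ha1', ha'⟩ := exists_common h2 φ φ' C (by
    have := Submodule.finrank_add_eq_of_isCompl hC
    rw [finrank_span_singleton ha0, finrank_fun] at this
    omega)
  have ha0' : a' ∉ F ∙ a := fun h => ha0'' (Submodule.disjoint_def.1 hC.disjoint _ h haC)
  obtain ⟨l, hl⟩ := two_forms_aux6 h2 hφ hφ' hX hX' hn h ha0 ha1 ha
  obtain ⟨l', hl'⟩ := two_forms_aux6 h2 hφ hφ' hX hX' hn h ha0'' ha1' ha'
  obtain rfl : l = l' := by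
    obtain ⟨b, hb, hb0⟩ := (φ.perp (Submodule.span F {a, a'})).exists_mem_ne_zero_of_ne_bot
      fun h => by
        have := finrank_pair_le (F := F) a a'
        have := hφ.finrank_perp (Submodule.span F {a, a'})
        rw [finrank_fun, h, finrank_bot] at this
        omega
    rw [φ.mem_perp_span_pair] at hb
    have := (hl b hb.1).symm.trans (hl' b hb.2)
    exact smul_left_injective F (fun h0 : φ.B b = 0 => hb0 (hφ _ fun y => by rw [h0]; rfl)) this
  obtain ⟨y, hy, hy'⟩ := hφ.exists_perp_B_eq' (W := F ∙ a') (u := a) (fun h => by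
    obtain ⟨c, rfl⟩ := Submodule.mem_span_singleton.1 h
    exact ha0' (Submodule.mem_span_singleton.2 ⟨c⁻¹, inv_smul_smul₀ (by rintro rfl; simp at ha0) _⟩)) 1
  have h5 : ∀ b, φ'.B b = l • φ.B b := fun b => by
    have := hl (b - φ.B a b • y) (by simp [hy'])
    rw [B_sub, B_sub, B_smul, B_smul, hl' y (φ.mem_perp_span_singleton.1 hy)] at this
    rw [← sub_add_cancel (φ'.B b) ((Kind.orth F).σ (φ.B a b) • l • φ.B y), this]; module
  have h6 : l ≠ 0 := by rintro rfl; exact ha0 (hφ' _ fun y => by rw [h5]; simp)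
  exact ⟨Units.mk0 l h6, fun u v => by rw [fn_apply, ← hB, h5]; rfl⟩

end Orth

variable [Fintype F] {n : ℕ}

theorem max_symp (hn : 6 ≤ n) (f : (Fin n → F) → (Fin n → F) → F) (hf : IsSymplecticForm f) :
    IsMaximalIn (specialLinear (Fin n) F) (similarityGroup f ⊓ specialLinear (Fin n) F) :=
  MaxL8.max_symp_of (by omega)
    (fun φ _ h hX => over_symp6 h ((MaxL8.EG_le_sim φ).trans hX) (by simpa)) f hf

theorem max_herm (hn : 6 ≤ n) (σ : F ≃+* F) (f : (Fin n → F) → (Fin n → F) → F)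
    (hf : IsUnitaryForm σ f) :
    IsMaximalIn (specialLinear (Fin n) F) (similarityGroup f ⊓ specialLinear (Fin n) F) :=
  MaxL8.max_herm_of (by omega)
    (fun _ hF φ _ h hX => over_herm6 hF h ((MaxL8.EG_le_sim φ).trans hX) (by simpa)) σ f hf

theorem max_orth (hn : 6 ≤ n) (hodd : Odd (Fintype.card F)) (Q : (Fin n → F) → F)
    (hQ : IsNondegenerateQuadraticForm Q) :
    IsMaximalIn (specialLinear (Fin n) F) (quadSimilarityGroup Q ⊓ specialLinear (Fin n) F) :=
  MaxL8.max_orth_of (by omega)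
    (fun h2 φ _ h hX _ => over_orth6 h2 h ((MaxL8.EG_le_sim φ).trans hX) (by simpa)) hodd Q hQ

end CA.MaxL9
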