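import Cfsg.Agent.Lib.Lin.H12Ss2

/-!
Overgroups of the tensor product of two orthogonal groups, part one: lemmas on orthogonal spaces
in odd characteristic.
-/

set_option autoImplicit false
set_option linter.unusedSectionVars false

namespace CA.OO

open CA.CForm CA.CForm.Form Module
open CA.H12Tn (finrank_pair_le exists_ns le_of_ns disj_top span_sing exists_ns_perp1)

local notation:75 g:76 " ⊳ " v:75 => (Subtype.val g) v

variable {F : Type*} [Field F] {W : Type*} [AddCommGroup W] [Module F W]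
  {f : Form (Kind.orth F) W}

/-- The Eichler map of a singular vector `w` and a vector `y` orthogonal to it. -/
def eu {w y : W} (hw : f.Q w = 0) (h : f.B w y = 0) : f.Isom :=
  f.eichler w y _ (f.orth_eichlerCond hw h)

theorem eu_apply {w y : W} (hw : f.Q w = 0) (h : f.B w y = 0) (x : W) :
    eu hw h ⊳ x = x + f.B w x • y - (f.B y x + f.Q y * f.B w x) • w := by
  rw [eu, eichler_apply]; simp

theorem eu_mem {w y : W} (hw : f.Q w = 0) (h : f.B w y = 0) : eu hw h ∈ f.Eich :=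
  f.eichler_mem_Eich _ _ _ _

theorem B_neg {w y : W} (h : f.B w y = 0) : f.B w (-y) = 0 := by simp [h]

theorem eu_inv {w y : W} (hw : f.Q w = 0) (h : f.B w y = 0) : (eu hw h)⁻¹ = eu hw (B_neg h) :=
  inv_eq_of_mul_eq_one_right (f.isom_ext fun x => by
    simp only [isom_mul_apply, eu_apply, map_add, map_sub, map_smul, map_neg, B_neg_left, h,
      f.B_self_of_Q hw, f.eq_zero_symm h, f.orth_B_self, Q_neg, isom_one_apply]
    module)

theorem B_eu {p y v : W} (hp : f.Q p = 0) (h : f.B p y = 0) (hv : f.Q v = 0) (e : f.B p v = 1) :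
    f.B v (eu hp h ⊳ v) = -f.Q y := by
  simp [eu_apply, f.B_self_of_Q hv, e, f.orth_symm p v, f.orth_symm y v]

variable [FiniteDimensional F W]

theorem exists_ns_perp2 (hf : f.Nondeg) {S : Submodule F W} (h : 2 * finrank F S < finrank F W) :
    ∃ y ∈ f.perp S, f.Q y ≠ 0 := by
  have d := hf.finrank_perp S
  obtain ⟨r, h1, h2⟩ := exists_not_mem_of_lt (S := S) (T := f.perp S) (by omega)
  obtain ⟨p, h3, h4⟩ := hf.exists_perp_B_eq h2 1
  exact exists_ns h3 h1 (h4 ▸ one_ne_zero)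

theorem exists_ns1 (hf : f.Nondeg) (h : 3 ≤ finrank F W) (w : W) :
    ∃ y, f.B w y = 0 ∧ f.Q y ≠ 0 := by
  obtain ⟨y, h1, h2⟩ := exists_ns_perp2 hf (S := F ∙ w) (by
    have := finrank_span_le_card (R := F) ({w} : Set W)
    simp only [Set.toFinset_singleton, Finset.card_singleton] at this
    omega)
  exact ⟨y, f.mem_perp_span_singleton.1 h1, h2⟩

theorem exists_ns2 (hf : f.Nondeg) (h : 5 ≤ finrank F W) (w w' : W) :
    ∃ y, f.B w y = 0 ∧ f.B w' y = 0 ∧ f.Q y ≠ 0 := by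
  obtain ⟨y, h1, h2⟩ := exists_ns_perp2 hf (S := Submodule.span F {w, w'}) (by
    have := finrank_pair_le (F := F) w w'; omega)
  exact ⟨y, (f.mem_perp_span_pair.1 h1).1, (f.mem_perp_span_pair.1 h1).2, h2⟩

theorem hyp_disj (hf : f.Nondeg) {w w' : W} (h : f.IsHyp w w') :
    Disjoint (f.perp (Submodule.span F {w, w'})) (f.perp (f.perp (Submodule.span F {w, w'}))) :=
  hf.disjoint_perp_perp h.isCompl.disjoint

theorem exists_ns_hyp (hf : f.Nondeg) (h3 : 3 ≤ finrank F W) {w w' : W} (h : f.IsHyp w w') :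
    ∃ y, f.B w y = 0 ∧ f.B w' y = 0 ∧ f.Q y ≠ 0 := by
  obtain ⟨y, h1, h2⟩ := f.exists_nonsingular (hyp_disj hf h) fun e => by
    have := h.finrank_perp
    rw [e, finrank_bot] at this; omega
  exact ⟨y, (f.mem_perp_span_pair.1 h1).1, (f.mem_perp_span_pair.1 h1).2, h2⟩

theorem exists_sing_ne [Finite F] (hf : f.Nondeg) {S : Submodule F W} (hS : Disjoint S (f.perp S))
    (h3 : 3 ≤ finrank F S) {y : W} (hy : y ∉ f.perp S) : ∃ v ∈ S, f.Q v = 0 ∧ f.B v y ≠ 0 := by
  obtain ⟨z, z1, z2, z3⟩ := f.iso_orth S h3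
  obtain ⟨z', z4, z5⟩ := hf.exists_isHyp_mem z3 z1 fun e => z2 (Submodule.disjoint_def.1 hS z z1 e)
  by_contra hn
  push Not at hn
  exact hy fun v hv => z5.induction_singular z1 z4 (P := fun v => f.B v y = 0)
    (fun _ _ a b => by simp [a, b]) (fun v hv hQ => hn v hv hQ) hv

theorem exists_sing [Finite F] (h3 : 3 ≤ finrank F W) : ∃ w, w ≠ 0 ∧ f.Q w = 0 :=
  let ⟨w, _, h⟩ := f.iso_orth ⊤ (by simpa using h3); ⟨w, h⟩

/-- A skew map preserving all singular points vanishes. -/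
theorem skew_zero [Finite F] (h2 : (2 : F) ≠ 0) (hf : f.Nondeg) (h3 : 3 ≤ finrank F W)
    {σ : W →ₗ[F] W} (sk : ∀ x y, f.B x (σ y) = -f.B (σ x) y)
    (h : ∀ w, f.Q w = 0 → σ w ∈ F ∙ w) : σ = 0 := by
  have k : ∀ w, f.Q w = 0 → σ w = 0 := fun w qw => by
    by_cases w0 : w = 0
    · simp [w0]
    obtain ⟨w', hh⟩ := hf.exists_isHyp qw w0
    obtain ⟨y, y1, y2, qy⟩ := exists_ns_hyp hf h3 hh
    have q : f.Q (eu qw y1 ⊳ w') = 0 := by rw [Q_coe_map, hh.Q_y]
    have b1 : f.B w (eu qw y1 ⊳ w') = 1 := by simp [eu_apply, hh.B_xy, hh.B_xx, y1]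
    have b2 := B_eu qw y1 hh.Q_y hh.B_xy
    obtain ⟨a, ha⟩ := Submodule.mem_span_singleton.1 (h w qw)
    obtain ⟨b, hb⟩ := Submodule.mem_span_singleton.1 (h w' hh.Q_y)
    obtain ⟨c, hc⟩ := Submodule.mem_span_singleton.1 (h _ q)
    have e1 := sk w w'
    have e2 := sk w (eu qw y1 ⊳ w')
    have e3 := sk w' (eu qw y1 ⊳ w')
    simp only [← ha, ← hb, ← hc, map_smul, B_smul_left, Kind.orth_σ, hh.B_xy, b1, b2,
      smul_eq_mul] at e1 e2 e3
    have : a = 0 := mul_left_cancel₀ (mul_ne_zero h2 qy) (by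
      linear_combination f.Q y * e1 + f.Q y * e2 + e3)
    rw [← ha, this, zero_smul]
  obtain ⟨w, w0, qw⟩ := exists_sing (f := f) h3
  exact LinearMap.ker_eq_top.1 (span_sing h2 hf h3 w0 qw fun z qz _ => k z qz)

/-- The condition on the smaller factor. -/
def Big (F : Type*) [Field F] (n : ℕ) : Prop := 4 ≤ n ∨ ∃ l : F, l ≠ 0 ∧ l ^ 2 ≠ 1

/-- A quadratic form vanishing on the singular vectors is a multiple of the given one. -/
theorem prop_Q [Finite F] (h2 : (2 : F) ≠ 0) (hf : f.Nondeg) (h3 : 3 ≤ finrank F W)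
    (hq : Big F (finrank F W)) (φ : W →ₗ[F] W →ₗ[F] F) (h : ∀ w, f.Q w = 0 → φ w w = 0) :
    ∃ c : F, ∀ x y, φ x y + φ y x = c * f.B x y := by
  obtain ⟨w, w0, qw⟩ := exists_sing (f := f) h3
  obtain ⟨w', hh⟩ := hf.exists_isHyp qw w0
  set Y := f.perp (Submodule.span F {w, w'}) with hY
  have k : ∀ y ∈ Y, φ y y = (φ w w' + φ w' w) * f.Q y ∧
      φ w' y + φ y w' = f.Q y * (φ w y + φ y w) := fun y hy => by
    obtain ⟨y1, y2⟩ := f.mem_perp_span_pair.1 hy
    have e1 := h (eu qw y1 ⊳ w') (by rw [Q_coe_map, hh.Q_y])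
    have e2 := h (eu qw (B_neg y1) ⊳ w') (by rw [Q_coe_map, hh.Q_y])
    simp only [eu_apply, hh.B_xy, f.eq_zero_symm y2, B_neg_left, Q_neg, map_add, map_sub, map_smul,
      map_neg, LinearMap.add_apply, LinearMap.sub_apply, LinearMap.smul_apply, LinearMap.neg_apply,
      smul_eq_mul, h w qw, h w' hh.Q_y] at e1 e2
    exact ⟨mul_left_cancel₀ h2 (by linear_combination e1 + e2),
      mul_left_cancel₀ h2 (by linear_combination e1 - e2)⟩
  have k1 : Y ≤ LinearMap.ker (φ w + φ.flip w) := le_of_ns h2 (hyp_disj hf hh) fun y hy qy => by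
    change φ w y + φ y w = 0
    rcases hq with h4 | ⟨l, l0, l1⟩
    · obtain ⟨z, hz, qz, e⟩ := exists_ns_perp1 h2 (hyp_disj hf hh) hy qy (by
        have := hh.finrank_perp; omega)
      have e1 := (k _ (Y.add_mem hy hz)).2
      have e2 := (k _ (Y.sub_mem hy hz)).2
      have e3 := (k y hy).2
      rw [f.orth_Q_add, e] at e1
      rw [f.Q_sub, e] at e2
      simp only [map_add, map_sub, LinearMap.add_apply, LinearMap.sub_apply, Kind.orth_π] at e1 e2
      exact mul_left_cancel₀ (mul_ne_zero h2 qz) (by linear_combination 2 * e3 - e1 - e2)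
    · have e1 := (k _ (Y.smul_mem l hy)).2
      have e3 := (k y hy).2
      simp only [f.orth_Q_smul, map_smul, LinearMap.smul_apply, smul_eq_mul] at e1
      exact mul_left_cancel₀ (mul_ne_zero (mul_ne_zero l0 (sub_ne_zero.2 l1)) qy) (by
        linear_combination l * e3 - e1)
  have k2 : ∀ x, φ x x = (φ w w' + φ w' w) * f.Q x := fun x => by
    obtain ⟨y, hy, e⟩ := hh.exists_decomp x
    obtain ⟨y1, y2⟩ := f.mem_perp_span_pair.1 hy
    have e1 : φ w y + φ y w = 0 := k1 hy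
    obtain ⟨e2, e3⟩ := k y hy
    generalize (Kind.orth F).ε * f.B w' x = a at e
    generalize f.B w x = b at e
    rw [e]
    simp only [map_add, map_smul, LinearMap.add_apply, LinearMap.smul_apply, smul_eq_mul,
      f.orth_Q_add, f.orth_Q_smul, B_add_left, B_smul_left, Kind.orth_σ, qw, hh.Q_y, hh.B_xy, y1, y2,
      h w qw, h w' hh.Q_y]
    linear_combination e2 + a * e1 + b * e3 + b * f.Q y * e1
  refine ⟨φ w w' + φ w' w, fun x y => ?_⟩
  have := k2 (x + y)
  simp only [map_add, LinearMap.add_apply, f.orth_Q_add, k2] at this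
  linear_combination this

/-- Extraction of the extreme component of a bilinear map. -/
theorem extract (h2 : (2 : F) ≠ 0) (hf : f.Nondeg) (h3 : 3 ≤ finrank F W)
    (hq : Big F (finrank F W)) {A : Type*} [AddCommGroup A] [Module F A]
    {P : (W → W → A) → Prop} (hsub : ∀ a b, P a → P b → P (a - b))
    (hc : ∀ a, P a → ∀ g ∈ f.Eich, P fun x x' => a (g ⊳ x) (g ⊳ x'))
    (Φ : W →ₗ[F] W →ₗ[F] A) (hΦ : P fun x x' => Φ x x') {w : W} (w0 : w ≠ 0) (qw : f.Q w = 0) :
    ∃ c : F, c ≠ 0 ∧ P fun x x' => (c * f.B w x * f.B w x') • Φ w w := by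
  have D : ∀ a, P a → ∀ {y} (hy : f.B w y = 0), P fun x x' => a (eu qw hy ⊳ x) (eu qw hy ⊳ x') -
      a x x' - (a x x' - a (eu qw (B_neg hy) ⊳ x) (eu qw (B_neg hy) ⊳ x')) := fun a ha y hy =>
    hsub _ _ (hsub _ _ (hc a ha _ (eu_mem qw hy)) ha) (hsub _ _ ha (hc a ha _ (eu_mem qw (B_neg hy))))
  obtain ⟨w', hh⟩ := hf.exists_isHyp qw w0
  obtain ⟨y, y1, y2, qy⟩ := exists_ns_hyp hf h3 hh
  have ww := hh.B_xx
  rcases hq with h4 | ⟨l, l0, l1⟩
  · obtain ⟨z, hz, qz, e⟩ := exists_ns_perp1 h2 (hyp_disj hf hh) (f.mem_perp_span_pair.2 ⟨y1, y2⟩)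
      qy (by have := hh.finrank_perp; omega)
    have z1 := (f.mem_perp_span_pair.1 hz).1
    refine ⟨8 * f.Q y * f.Q z, mul_ne_zero (mul_ne_zero ?_ qy) qz, ?_⟩
    · rw [show (8 : F) = 2 ^ 3 by norm_num]; exact pow_ne_zero _ h2
    convert D _ (D _ hΦ y1) z1 using 3 with x x'
    simp only [eu_apply, map_add, map_sub, map_smul, map_neg, LinearMap.add_apply,
      LinearMap.sub_apply, LinearMap.smul_apply, LinearMap.neg_apply, B_neg_left, Q_neg, ww, z1, e,
      f.eq_zero_symm y1, smul_eq_mul]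
    module
  · have hl : ∀ s : F, f.B w (s • y) = 0 := fun s => by simp [y1]
    refine ⟨-(16 * l ^ 2 * (l ^ 2 - 1) ^ 2 * f.Q y ^ 2), neg_ne_zero.2 (mul_ne_zero (mul_ne_zero
      (mul_ne_zero ?_ (pow_ne_zero _ l0)) (pow_ne_zero _ (sub_ne_zero.2 l1))) (pow_ne_zero _ qy)), ?_⟩
    · rw [show (16 : F) = 2 ^ 4 by norm_num]; exact pow_ne_zero _ h2
    convert hsub _ _ (D _ hΦ (hl (l + l)))
      (hsub _ _ (D _ hΦ (hl (l ^ 2 + 1))) (D _ hΦ (hl (l ^ 2 - 1)))) using 3 with x x'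
    simp only [Pi.sub_apply, eu_apply, map_add, map_sub, map_smul, map_neg, LinearMap.add_apply,
      LinearMap.sub_apply, LinearMap.smul_apply, LinearMap.neg_apply, B_neg_left, Q_neg,
      B_smul_left, Kind.orth_σ, f.orth_Q_smul]
    module

/-- A map commuting with the Eichler maps up to scalars is a scalar. -/
theorem SC [Finite F] (h2 : (2 : F) ≠ 0) (hf : f.Nondeg) (h3 : 3 ≤ finrank F W)
    (hq : Big F (finrank F W)) {r : W →ₗ[F] W} (h : ∀ w y (hw : f.Q w = 0) (hy : f.B w y = 0),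
      ∃ ν : F, ∀ x, r (eu hw hy ⊳ x) = eu hw hy ⊳ (r x + ν • x)) : ∃ c : F, ∀ w, r w = c • w := by
  have k : ∀ w y (hw : f.Q w = 0) (hy : f.B w y = 0) (ν : F),
      (∀ x, r (eu hw hy ⊳ x) = eu hw hy ⊳ (r x + ν • x)) →
      f.B w (r w) • y = (f.B y (r w) + f.Q y * f.B w (r w) - ν) • w := fun w y hw hy ν e => by
    have := e w
    simp only [eu_apply, map_add, map_sub, map_smul, f.B_self_of_Q hw, f.eq_zero_symm hy] at this
    linear_combination (norm := module) -this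
  have k1 : ∀ w, f.Q w = 0 → f.B w (r w) = 0 := fun w hw => by
    obtain ⟨y, hy, qy⟩ := exists_ns1 hf h3 w
    obtain ⟨ν, e⟩ := h w y hw hy
    have := congrArg (f.B y) (k w y hw hy ν e)
    simpa [f.orth_B_self, h2, qy, f.eq_zero_symm hy] using this
  obtain ⟨c, hc⟩ := prop_Q h2 hf h3 hq (LinearMap.mk₂ F (fun x y => f.B x (r y)) (by simp) (by simp)
    (by simp) (by simp)) k1
  simp only [LinearMap.mk₂_apply] at hc
  obtain ⟨x₀, -, q₀⟩ := exists_ns1 hf h3 0
  have := skew_zero h2 hf h3 (σ := r - (c / 2) • LinearMap.id) (fun x y => by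
    have := hc x y
    simp only [LinearMap.sub_apply, LinearMap.smul_apply, LinearMap.id_apply, map_sub, map_smul,
      B_sub_left, B_smul_left, Kind.orth_σ, smul_eq_mul, f.orth_symm y (r x)]
    field_simp
    linear_combination 2 * this) fun w hw => by
    refine Submodule.sub_mem _ ?_ (Submodule.smul_mem _ _ (Submodule.mem_span_singleton_self w))
    by_cases w0 : w = 0
    · simp [w0]
    rw [← hf.perp_perp (F ∙ w)]
    intro y hy
    replace hy := f.mem_perp_span_singleton.1 hy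
    obtain ⟨ν, e⟩ := h w y hw hy
    have e1 := hc (eu hw hy ⊳ x₀) (eu hw hy ⊳ x₀)
    have e2 := hc x₀ x₀
    rw [e, B_coe_map, B_coe_map, map_add, map_smul, f.orth_B_self, smul_eq_mul] at e1
    rw [f.orth_B_self] at e2
    have ν0 : ν = 0 := mul_left_cancel₀ (mul_ne_zero h2 (mul_ne_zero h2 q₀)) (by
      linear_combination e1 - e2)
    have := k w y hw hy ν e
    rw [k1 w hw, ν0, zero_smul, mul_zero, add_zero, sub_zero, eq_comm, smul_eq_zero] at this
    exact this.resolve_right w0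
  exact ⟨c / 2, fun w => sub_eq_zero.1 (LinearMap.congr_fun this w)⟩

end CA.OO
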