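import Cfsg.Agent.Lib.Lin.MaxO1

/-!
Overgroups of the tensor product of two orthogonal groups, part two: the tensor structure.
-/

set_option autoImplicit false
set_option linter.unusedSectionVars false

namespace CA.OO

open CA.CForm CA.CForm.Form Module TensorProduct

local notation:75 g:76 " ⊳ " v:75 => (Subtype.val g) v

variable {F : Type*} [Field F] {U W V : Type*} [AddCommGroup U] [Module F U] [AddCommGroup W]
  [Module F W] [AddCommGroup V] [Module F V]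

/-- A tensor decomposition of an orthogonal space into two orthogonal factors. -/
structure Oo (f₁ : Form (Kind.orth F) U) (f₂ : Form (Kind.orth F) W)
    (f : Form (Kind.orth F) V) where
  e : U ⊗[F] W ≃ₗ[F] V
  hB : ∀ u w u' w', f.B (e (u ⊗ₜ w)) (e (u' ⊗ₜ w')) = f₁.B u u' * f₂.B w w'
  n₁ : f₁.Nondeg
  n₂ : f₂.Nondeg
  n : f.Nondeg
  two : (2 : F) ≠ 0

namespace Oo
variable {f₁ : Form (Kind.orth F) U} {f₂ : Form (Kind.orth F) W} {f : Form (Kind.orth F) V}
  (T : Oo f₁ f₂ f)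

/-- pure tensors -/
def t : U →ₗ[F] W →ₗ[F] V := (TensorProduct.mk F U W).compr₂ T.e.toLinearMap

theorem t_eq (u : U) (w : W) : T.t u w = T.e (u ⊗ₜ w) := rfl

theorem B_t (u : U) (w : W) (u' : U) (w' : W) :
    f.B (T.t u w) (T.t u' w') = f₁.B u u' * f₂.B w w' := T.hB ..

theorem Q_t (u : U) (w : W) : f.Q (T.t u w) = 2 * f₁.Q u * f₂.Q w := mul_left_cancel₀ T.two (by
  rw [← f.orth_B_self, B_t, f₁.orth_B_self, f₂.orth_B_self]; ring)

theorem Q_t₁ {u : U} (h : f₁.Q u = 0) (w : W) : f.Q (T.t u w) = 0 := by simp [Q_t, h]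

theorem Q_t₂ (u : U) {w : W} (h : f₂.Q w = 0) : f.Q (T.t u w) = 0 := by simp [Q_t, h]

@[elab_as_elim] theorem ind {P : V → Prop} (ht : ∀ u w, P (T.t u w))
    (hadd : ∀ x y, P x → P y → P (x + y)) (x : V) : P x := by
  obtain ⟨z, rfl⟩ := T.e.surjective x
  induction z using TensorProduct.induction_on with
  | zero => simpa using ht 0 0
  | tmul u w => exact ht u w
  | add a b ha hb => rw [map_add]; exact hadd _ _ ha hb

/-- contraction with a vector of the first factor -/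
def cu (u : U) : V →ₗ[F] W :=
  (TensorProduct.lid F W).toLinearMap ∘ₗ LinearMap.rTensor W (f₁.B u) ∘ₗ T.e.symm.toLinearMap

/-- contraction with a vector of the second factor -/
def cw (w : W) : V →ₗ[F] U :=
  (TensorProduct.rid F U).toLinearMap ∘ₗ LinearMap.lTensor U (f₂.B w) ∘ₗ T.e.symm.toLinearMap

@[simp] theorem cu_t (u u' : U) (w : W) : T.cu u (T.t u' w) = f₁.B u u' • w := by simp [cu, t_eq]

@[simp] theorem cw_t (w w' : W) (u : U) : T.cw w (T.t u w') = f₂.B w w' • u := by simp [cw, t_eq]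

theorem B_cu (u : U) (w : W) (x : V) : f.B (T.t u w) x = f₂.B w (T.cu u x) := by
  induction x using T.ind with
  | ht u' w' => simp [B_t]
  | hadd x y hx hy => simp [hx, hy]

theorem B_cw (u : U) (w : W) (x : V) : f.B (T.t u w) x = f₁.B u (T.cw w x) := by
  induction x using T.ind with
  | ht u' w' => simp [B_t, mul_comm]
  | hadd x y hx hy => simp [hx, hy]

theorem cu_cw (u : U) (w : W) (x : V) : f₂.B w (T.cu u x) = f₁.B u (T.cw w x) := by
  rw [← B_cu, B_cw]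

theorem cu_add (u u' : U) (x : V) : T.cu (u + u') x = T.cu u x + T.cu u' x :=
  T.n₂.eq_of_B_eq_right fun w => by simp [cu_cw]

theorem cu_smul (a : F) (u : U) (x : V) : T.cu (a • u) x = a • T.cu u x :=
  T.n₂.eq_of_B_eq_right fun w => by simp [cu_cw]

theorem cw_smul (a : F) (w : W) (x : V) : T.cw (a • w) x = a • T.cw w x :=
  T.n₁.eq_of_B_eq_right fun u => by simp [← cu_cw]

theorem eq_zero_of_cu {x : V} (h : ∀ u, T.cu u x = 0) : x = 0 :=
  T.n.eq_zero_right fun y => by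
    induction y using T.ind with
    | ht u w => rw [B_cu, h, map_zero]
    | hadd a b ha hb => simp [ha, hb]

theorem exists_cw {x : V} (h : x ≠ 0) : ∃ w, T.cw w x ≠ 0 := by
  by_contra H
  push Not at H
  exact h (T.eq_zero_of_cu fun u => T.n₂.eq_zero_right fun w => by rw [cu_cw, H, map_zero])

theorem t_ne_zero {u : U} {w : W} (hu : u ≠ 0) (hw : w ≠ 0) : T.t u w ≠ 0 := fun e => by
  obtain ⟨v, hv⟩ := T.n₁.exists_B_ne_zero hu
  have := T.cu_t v u w
  rw [e, map_zero, eq_comm, smul_eq_zero] at this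
  exact this.elim (fun h => hv (f₁.eq_zero_symm h)) hw

theorem t_inj {u : U} (hu : u ≠ 0) : Function.Injective (T.t u) :=
  (injective_iff_map_eq_zero _).2 fun _ h => not_not.1 fun hw => T.t_ne_zero hu hw h

theorem t_inj' {w : W} (hw : w ≠ 0) : Function.Injective (T.t.flip w) :=
  (injective_iff_map_eq_zero _).2 fun _ h => not_not.1 fun hu => T.t_ne_zero hu hw h

/-- the tensor product of two automorphisms -/
def mp (g : U ≃ₗ[F] U) (h : W ≃ₗ[F] W) : V ≃ₗ[F] V :=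
  T.e.symm ≪≫ₗ TensorProduct.congr g h ≪≫ₗ T.e

@[simp] theorem mp_t (g : U ≃ₗ[F] U) (h : W ≃ₗ[F] W) (u : U) (w : W) :
    T.mp g h (T.t u w) = T.t (g u) (h w) := by simp [mp, t_eq]

theorem mem_Isom_of {s : V ≃ₗ[F] V}
    (h : ∀ u w u' w', f.B (s (T.t u w)) (s (T.t u' w')) = f.B (T.t u w) (T.t u' w')) :
    s ∈ f.Isom := by
  have hB : ∀ x y, f.B (s x) (s y) = f.B x y := fun x y => by
    induction x using T.ind with
    | hadd a b ha hb => simp [ha, hb]
    | ht u w =>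
      induction y using T.ind with
      | hadd a b ha hb => simp [ha, hb]
      | ht u' w' => exact h ..
  exact ⟨hB, fun x => mul_left_cancel₀ T.two (by rw [← f.orth_B_self, ← f.orth_B_self, hB])⟩

theorem ext {s s' : f.Isom} (h : ∀ u w, s ⊳ T.t u w = s' ⊳ T.t u w) : s = s' :=
  f.isom_ext fun x => by
    induction x using T.ind with
    | ht u w => exact h u w
    | hadd a b ha hb => simp only [map_add, ha, hb]

/-- isometries of the first factor -/
def kL : f₁.Isom →* f.Isom :=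
  MonoidHom.mk' (fun g => ⟨T.mp g.1 1, T.mem_Isom_of fun _ _ _ _ => by simp [B_t]⟩)
    fun _ _ => T.ext fun _ _ => by simp

/-- isometries of the second factor -/
def kR : f₂.Isom →* f.Isom :=
  MonoidHom.mk' (fun h => ⟨T.mp 1 h.1, T.mem_Isom_of fun _ _ _ _ => by simp [B_t]⟩)
    fun _ _ => T.ext fun _ _ => by simp

@[simp] theorem kL_t (g : f₁.Isom) (u : U) (w : W) : T.kL g ⊳ T.t u w = T.t (g ⊳ u) w :=
  T.mp_t ..

@[simp] theorem kR_t (h : f₂.Isom) (u : U) (w : W) : T.kR h ⊳ T.t u w = T.t u (h ⊳ w) :=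
  T.mp_t ..

theorem kL_comm_kR (g : f₁.Isom) (h : f₂.Isom) : T.kL g * T.kR h = T.kR h * T.kL g :=
  T.ext fun _ _ => by simp

theorem cu_isom {s : f.Isom} {u u' : U} {h : f₂.Isom} (e : ∀ w, s ⊳ T.t u w = T.t u' (h ⊳ w))
    (x : V) : T.cu u' (s ⊳ x) = h ⊳ T.cu u x := T.n₂.eq_of_B_eq_right fun w => by
  rw [← f₂.isom_apply_inv_apply h w, ← B_cu, ← e, f.B_coe_map, f₂.B_coe_map, B_cu]

theorem cu_fix {s : f.Isom} {u : U} (e : ∀ w, s ⊳ T.t u w = T.t u w) (x : V) :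
    T.cu u (s ⊳ x) = T.cu u x := T.cu_isom (h := 1) e x

theorem cu_kR (h : f₂.Isom) (u : U) (x : V) : T.cu u (T.kR h ⊳ x) = h ⊳ T.cu u x :=
  T.cu_isom (by simp) x

theorem cu_kL (g : f₁.Isom) (u : U) (x : V) : T.cu (g ⊳ u) (T.kL g ⊳ x) = T.cu u x :=
  T.cu_isom (h := 1) (by simp) x

theorem cw_lin {s : f.Isom} {g : U →ₗ[F] U} (e : ∀ u w, s ⊳ T.t u w = T.t (g u) w) (w : W) (x : V) :
    T.cw w (s ⊳ x) = g (T.cw w x) := by
  induction x using T.ind with
  | ht u w => simp [e]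
  | hadd a b ha hb => simp [ha, hb]

/-- the Eichler maps of the first factor -/
def E {u v : U} (hu : f₁.Q u = 0) (h : f₁.B u v = 0) : f.Isom := T.kL (eu hu h)

theorem E_apply {u v : U} (hu : f₁.Q u = 0) (h : f₁.B u v = 0) (x : V) :
    T.E hu h ⊳ x = x + T.t v (T.cu u x) - T.t u (T.cu v x + f₁.Q v • T.cu u x) := by
  induction x using T.ind with
  | ht u w => simp [E, eu_apply, smul_smul, add_smul]
  | hadd a b ha hb => simp only [map_add, smul_add, ha, hb]; module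

/-- the subspace `u ⊗ W` -/
def M (u : U) : Submodule F V := LinearMap.range (T.t u)

theorem t_mem_M (u : U) (w : W) : T.t u w ∈ T.M u := ⟨w, rfl⟩

theorem mem_perp_M {u : U} {x : V} : x ∈ f.perp (T.M u) ↔ T.cu u x = 0 :=
  ⟨fun h => T.n₂.eq_zero_right fun w => by rw [← B_cu]; exact h _ (T.t_mem_M u w), by
    rintro h _ ⟨w, rfl⟩; rw [B_cu, h, map_zero]⟩

theorem cu_of_mem {u v : U} (e : f₁.B v u = 0) {x : V} (h : x ∈ T.M u) : T.cu v x = 0 := by
  obtain ⟨w, rfl⟩ := h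
  simp [e]

theorem finrank_M {u : U} (hu : u ≠ 0) : finrank F (T.M u) = finrank F W :=
  LinearMap.finrank_range_of_inj (T.t_inj hu)

include T in
theorem exists_one {u : U} (hu : u ≠ 0) : ∃ v, f₁.B u v = 1 :=
  let ⟨v, h⟩ := T.n₁.exists_B_ne_zero hu; ⟨(f₁.B u v)⁻¹ • v, by simp [h]⟩

theorem mem_M_of {u : U} (hu : u ≠ 0) {x : V} (h : ∀ v, f₁.B u v = 0 → T.cu v x = 0) :
    x ∈ T.M u := by
  obtain ⟨v₀, h₀⟩ := T.exists_one hu
  refine ⟨T.cu v₀ x, (sub_eq_zero.1 (T.eq_zero_of_cu fun v => ?_)).symm⟩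
  have := h (v + (-f₁.B u v) • v₀) (by simp [h₀])
  rw [cu_add, cu_smul] at this
  simp only [map_sub, cu_t, f₁.orth_symm u v]
  rw [← this]; module

/-- A pure tensor in `u ⊗ W`. -/
theorem smul_of_t_mem {u v : U} {w : W} (hw : w ≠ 0) (h : T.t v w ∈ T.M u) : ∃ a : F, v = a • u := by
  obtain ⟨w', h⟩ := h
  obtain ⟨z, hz⟩ := T.n₂.exists_B_ne_zero hw
  have := congrArg (T.cw z) h
  rw [cw_t, cw_t, f₂.orth_symm w z] at this
  exact ⟨(f₂.B w z)⁻¹ * f₂.B z w', by rw [mul_smul, this, inv_smul_smul₀ hz]⟩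

theorem M_smul {a : F} (ha : a ≠ 0) (u : U) : T.M (a • u) = T.M u := by
  apply le_antisymm <;> rintro _ ⟨w, rfl⟩
  · exact ⟨a • w, by simp⟩
  · exact ⟨a⁻¹ • w, by simp [smul_smul, ha]⟩

theorem ker_ind {u : U} (hu : u ≠ 0) {Y : Submodule F V}
    (h : ∀ v w, f₁.B u v = 0 → T.t v w ∈ Y) {x : V} (hx : T.cu u x = 0) : x ∈ Y := by
  obtain ⟨v₀, h₀⟩ := T.exists_one hu
  have : ∀ x, x - T.t v₀ (T.cu u x) ∈ Y := fun x => by
    induction x using T.ind with
    | ht v w => simpa using h (v - f₁.B u v • v₀) w (by simp [h₀])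
    | hadd a b ha hb =>
      convert Y.add_mem ha hb using 1
      simp only [map_add]; abel
  simpa [hx] using this x

/-- `s` preserves the tensor decomposition. -/
def Dec (s : f.Isom) : Prop :=
  ∃ (g : U ≃ₗ[F] U) (h : W ≃ₗ[F] W), ∀ u w, s ⊳ T.t u w = T.t (g u) (h w)

/-- the stabiliser of the tensor decomposition -/
def N : Subgroup f.Isom where
  carrier := {s | T.Dec s}
  one_mem' := ⟨1, 1, fun _ _ => rfl⟩
  mul_mem' := fun ⟨g, h, e⟩ ⟨g', h', e'⟩ => ⟨g * g', h * h', fun u w => by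
    rw [isom_mul_apply, e', e]; rfl⟩
  inv_mem' := fun {s} ⟨g, h, e⟩ => ⟨g⁻¹, h⁻¹, fun u w => by
    rw [← f.isom_inv_apply_apply s (T.t (g⁻¹ u) (h⁻¹ w)), e]; simp⟩

theorem kL_mem_N (g : f₁.Isom) : T.kL g ∈ T.N := ⟨g.1, 1, fun _ _ => T.kL_t ..⟩

theorem kR_mem_N (h : f₂.Isom) : T.kR h ∈ T.N := ⟨1, h.1, fun _ _ => T.kR_t ..⟩

theorem mem_N_of_lin [FiniteDimensional F U] [FiniteDimensional F W] [Nontrivial U] [Nontrivial W]
    {s : f.Isom} (g : U →ₗ[F] U) (h : W →ₗ[F] W) (e : ∀ u w, s ⊳ T.t u w = T.t (g u) (h w)) :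
    s ∈ T.N := by
  obtain ⟨u₀, hu⟩ := exists_ne (0 : U)
  obtain ⟨w₀, hw⟩ := exists_ne (0 : W)
  have k : ∀ u w, T.t (g u) (h w) = 0 → u ≠ 0 → w ≠ 0 → False := fun u w e' hu hw =>
    T.t_ne_zero hu hw (s.1.map_eq_zero_iff.1 ((e u w).trans e'))
  exact ⟨.ofInjectiveEndo g ((injective_iff_map_eq_zero _).2 fun u e' => not_not.1 fun hu =>
      k u w₀ (by simp [e']) hu hw),
    .ofInjectiveEndo h ((injective_iff_map_eq_zero _).2 fun w e' => not_not.1 fun hw =>
      k u₀ w (by simp [e']) hu hw), e⟩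

/-- An element of the stabiliser acting as a scalar on the second factor. -/
theorem lin_of_fix {s : f.Isom} (hs : s ∈ T.N) {p z : U} (e : ∀ w, T.cu z (s ⊳ T.t p w) = w) :
    ∃ g : U →ₗ[F] U, ∀ u w, s ⊳ T.t u w = T.t (g u) w := by
  obtain ⟨g, h, e1⟩ := hs
  simp only [e1, cu_t] at e
  refine ⟨(f₁.B z (g p))⁻¹ • (g : U →ₗ[F] U), fun u w => ?_⟩
  by_cases w0 : w = 0
  · simp [w0]
  have n : f₁.B z (g p) ≠ 0 := fun h => w0 (by simpa [h] using (e w).symm)
  conv_rhs => rw [← e w]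
  simp [e1, smul_smul, n]

/-- The same structure with the two factors exchanged. -/
def swap : Oo f₂ f₁ f where
  e := TensorProduct.comm F W U ≪≫ₗ T.e
  hB w u w' u' := by simp [T.hB, mul_comm]
  n₁ := T.n₂
  n₂ := T.n₁
  n := T.n
  two := T.two

theorem swap_t (u : U) (w : W) : T.swap.t w u = T.t u w := by simp [t_eq, swap]

theorem swap_kL (h : f₂.Isom) : T.swap.kL h = T.kR h :=
  T.ext fun u w => by rw [kR_t, ← swap_t, kL_t, swap_t]

theorem swap_N : T.swap.N = T.N := by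
  ext s
  exact ⟨fun ⟨g, h, e⟩ => ⟨h, g, fun u w => by rw [← swap_t, e, swap_t]⟩,
    fun ⟨g, h, e⟩ => ⟨h, g, fun u w => by rw [swap_t, e, swap_t]⟩⟩

variable [FiniteDimensional F U] [FiniteDimensional F W] [FiniteDimensional F V] [Finite F]

include T in
theorem finrank_eq : finrank F V = finrank F U * finrank F W := by
  rw [← T.e.finrank_eq, finrank_tensorProduct]

theorem kL_mem_Eich (h3 : 3 ≤ finrank F U) (h3' : 3 ≤ finrank F V) {g : f₁.Isom}
    (hg : g ∈ f₁.Eich) : T.kL g ∈ f.Eich := by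
  rw [← T.n₁.commutator_eq_Eich (f₁.good_of_two_ne_zero T.two) h3] at hg
  rw [← T.n.commutator_eq_Eich (f.good_of_two_ne_zero T.two) h3']
  have := Subgroup.mem_map_of_mem T.kL hg
  rw [commutator, Subgroup.map_commutator] at this
  exact Subgroup.commutator_mono le_top le_top this

theorem kR_mem_Eich (h3 : 3 ≤ finrank F W) (h3' : 3 ≤ finrank F V) {g : f₂.Isom}
    (hg : g ∈ f₂.Eich) : T.kR g ∈ f.Eich :=
  T.swap_kL g ▸ T.swap.kL_mem_Eich h3 h3' hg

end Oo

end CA.OO
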