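import Cfsg.Agent.Lib.Lin.MaxO2

/-!
Overgroups of the tensor product of two orthogonal groups, part three: the elements acting
trivially on the flag of `u ⊗ W`.
-/

set_option autoImplicit false
set_option linter.unusedSectionVars false

namespace CA.OO

open CA.CForm CA.CForm.Form Module
open CA.H12Tn (span_sing add_closed_of_sq)
open CA.H12Ss (Act sub_mem_perp comm_B comm_fix orth_eichler_apply Lev.root)

local notation:75 g:76 " ⊳ " v:75 => (Subtype.val g) v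

variable {F : Type*} [Field F] [Finite F] {U W V : Type*} [AddCommGroup U] [Module F U]
  [AddCommGroup W] [Module F W] [AddCommGroup V] [Module F V] [FiniteDimensional F U]
  [FiniteDimensional F W] [FiniteDimensional F V]
  {f₁ : Form (Kind.orth F) U} {f₂ : Form (Kind.orth F) W} {f : Form (Kind.orth F) V}

/-- `X` is a proper overgroup of the Eichler groups of the two factors. -/
structure Ov (T : Oo f₁ f₂ f) (X : Subgroup f.Isom) : Prop where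
  kL : ∀ g ∈ f₁.Eich, T.kL g ∈ X
  kR : ∀ h ∈ f₂.Eich, T.kR h ∈ X
  ne : ¬f.Eich ≤ X
  a5 : 5 ≤ finrank F U
  b3 : 3 ≤ finrank F W
  ab : finrank F W < finrank F U
  hq : Big F (finrank F W)
  hW : 5 ≤ finrank F W ∨ ∀ w z, w ≠ 0 → f₂.Q w = 0 → f₂.Q z = 0 → f₂.B w z = 0 → z ∈ F ∙ w

theorem rule {X : Subgroup f.Isom} {x p p' y : V} {hx : f.Q x = 0} (h : f.Lev X p p')
    (q : f.Q p' = 0) (e : f.B p x = 0) (e' : f.B p' x = 0) (hy : y ∈ levS X hx) :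
    f.B p y • p' - f.B p' y • p ∈ levS X hx := by
  obtain ⟨hc, hR⟩ := Lev.root h q
  have := (levS X hx).sub_mem (map_mem_levS hy hR (by simp [orth_eichler_apply, e, e'])) hy
  rwa [orth_eichler_apply, add_sub_assoc, add_sub_cancel_left] at this

/-- The level of an element fixing `u ⊗ W` and its orthogonal complement modulo `u ⊗ W`. -/
def Lv (T : Oo f₁ f₂ f) (X : Subgroup f.Isom) (u : U) (α : W →ₗ[F] V) : Prop :=
  ∃ k ∈ X, (∀ w, k ⊳ T.t u w = T.t u w) ∧ ∀ x, k ⊳ x - x - α (T.cu u x) ∈ T.M u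

variable {T : Oo f₁ f₂ f} {X : Subgroup f.Isom}

theorem cw_add (w w' : W) (x : V) : T.cw (w + w') x = T.cw w x + T.cw w' x :=
  T.n₁.eq_of_B_eq_right fun u => by simp [← T.cu_cw]

theorem cw_kR (h : f₂.Isom) (w : W) (x : V) : T.cw (h ⊳ w) (T.kR h ⊳ x) = T.cw w x := by
  induction x using T.ind with
  | ht u w => simp
  | hadd a b ha hb => simp [ha, hb]

theorem Lv.sub {u : U} {α β : W →ₗ[F] V} (h : Lv T X u α) (h' : Lv T X u β) : Lv T X u (α - β) := by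
  obtain ⟨k, hk, e1, e2⟩ := h
  obtain ⟨k', hk', e1', e2'⟩ := h'
  refine ⟨k * k'⁻¹, X.mul_mem hk (X.inv_mem hk'), fun w => ?_, fun x => ?_⟩
  · conv_lhs => rw [← e1', isom_mul_apply, isom_inv_apply_apply, e1]
  · obtain ⟨y, rfl⟩ := k'.1.surjective x
    rw [isom_mul_apply, isom_inv_apply_apply, T.cu_fix e1']
    convert (T.M u).sub_mem (e2 y) (e2' y) using 1
    rw [LinearMap.sub_apply]; abel

theorem Lv.conj {u : U} {α β : W →ₗ[F] V} (h : Lv T X u α) {s : f.Isom} (hs : s ∈ X)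
    (g : f₂.Isom) (e : ∀ w, s ⊳ T.t u w = T.t u (g ⊳ w)) (e' : ∀ w, β (g ⊳ w) = s ⊳ α w) :
    Lv T X u β := by
  obtain ⟨k, hk, e1, e2⟩ := h
  refine ⟨s * k * s⁻¹, X.mul_mem (X.mul_mem hs hk) (X.inv_mem hs), fun w => ?_, fun x => ?_⟩
  · obtain ⟨w, rfl⟩ := g.1.surjective w
    rw [← e, isom_mul_apply, isom_mul_apply, isom_inv_apply_apply, e1]
  · obtain ⟨y, rfl⟩ := s.1.surjective x
    obtain ⟨w, hw⟩ := e2 y
    rw [isom_mul_apply, isom_mul_apply, isom_inv_apply_apply, T.cu_isom e, e', ← map_sub, ← map_sub,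
      ← hw, e]
    exact T.t_mem_M ..

theorem Lv.congr {u : U} (hu : u ≠ 0) {α β : W →ₗ[F] V} (h : Lv T X u α)
    (e : ∀ x x' p, f₁.B u p = 0 → f₁.B p (T.cw x (α x')) = f₁.B p (T.cw x (β x'))) :
    Lv T X u β := by
  obtain ⟨k, hk, e1, e2⟩ := h
  refine ⟨k, hk, e1, fun x => ?_⟩
  convert (T.M u).add_mem (e2 x) (T.mem_M_of hu (x := α (T.cu u x) - β (T.cu u x)) fun p hp =>
    T.n₂.eq_zero_right fun w => by rw [T.cu_cw, map_sub, map_sub, e _ _ p hp, sub_self]) using 1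
  abel

theorem Lv.cu {u : U} (hu : u ≠ 0) (qu : f₁.Q u = 0) {α : W →ₗ[F] V} (h : Lv T X u α) (w : W) :
    T.cu u (α w) = 0 := by
  obtain ⟨k, -, e1, e2⟩ := h
  obtain ⟨v, hv⟩ := T.exists_one hu
  simpa [T.cu_fix e1, hv] using T.cu_of_mem (f₁.B_self_of_Q qu) (e2 (T.t v w))

namespace Ov
variable (O : Ov T X)
include O

theorem a3 : 3 ≤ finrank F U := by have := O.a5; omega

theorem ntU : Nontrivial U := finrank_pos_iff.1 (by have := O.a5; omega : 0 < finrank F U)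

theorem ntW : Nontrivial W := finrank_pos_iff.1 (by have := O.b3; omega : 0 < finrank F W)

theorem E_mem {u v : U} (hu : f₁.Q u = 0) (h : f₁.B u v = 0) : T.E hu h ∈ X :=
  O.kL _ (eu_mem hu h)

/-- No root subgroup in the direction of the second factor lies in `X`. -/
theorem not_lev {u : U} {w z : W} (hu : u ≠ 0) (qu : f₁.Q u = 0) (hw : w ≠ 0) (qw : f₂.Q w = 0)
    (wz : f₂.B w z = 0) (qz : f₂.Q z ≠ 0) : T.t u z ∉ levS X (T.Q_t₁ qu w) := fun h => by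
  set Y := levS X (T.Q_t₁ qu w) with hY
  have h2 := T.two
  have uu := f₁.B_self_of_Q qu
  have ww := f₂.B_self_of_Q qw
  have mv : ∀ u', f₁.Q u' = 0 → f₁.B u u' ≠ 0 → ∀ z', T.t u z' ∈ Y → ∃ a : F, a ≠ 0 ∧
      f.Lev X (T.t (a • u') w) (T.t (a • u') z') := fun u' q e z' hz => by
    obtain ⟨g, hg, a, a0, e1⟩ := T.n₁.exists_Eich_smul (.inl O.a3) qu hu q (by rintro rfl; simp at e)
    exact ⟨a, a0, by simpa only [T.kL_t, e1] using (lev_of_mem_levS hz).map (O.kL g hg)⟩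
  have s1 : ∀ r, T.t r w ∈ Y := fun r => by
    have : Y.comap (T.t.flip w) = ⊤ := span_sing h2 T.n₁ O.a3 hu qu fun u' q e => by
      obtain ⟨a, a0, l⟩ := mv u' q e z h
      have := rule l (T.Q_t₁ (f₁.Q_smul_of_Q q a) _) (by simp [T.B_t, ww])
        (by simp [T.B_t, f₂.eq_zero_symm wz]) h
      simpa [T.B_t, wz, f₂.orth_B_self, smul_smul, Submodule.smul_mem_iff, a0, h2, qz,
        f₁.orth_symm u u', e] using this
    exact (this ▸ Submodule.mem_top : r ∈ Y.comap (T.t.flip w))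
  obtain ⟨u₀, q₀, h₀⟩ := T.n₁.exists_partner qu hu
  obtain ⟨w₀, p₀, k₀⟩ := T.n₂.exists_partner qw hw
  have s2 : ∀ v w', f₁.B u v = 0 → T.t v w' ∈ Y := fun v w' hv => by
    have : Y.comap (T.t v) = ⊤ := span_sing h2 T.n₂ O.b3 hw qw fun w' q e => by
      obtain ⟨g, hg, a, a0, e1⟩ := T.n₂.exists_Eich_smul (.inl O.b3) qw hw q (by
        rintro rfl; simp at e)
      have k : ∀ v r, f₁.B u v = 0 → f₁.B u r • T.t v w' - f₁.B v r • T.t u w' ∈ Y := fun v r hv => by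
        have l := (lev_of_mem_levS (s1 v)).map (O.kR g hg)
        simp only [T.kR_t, e1] at l
        have := rule l (T.Q_t₂ _ (f₂.Q_smul_of_Q q a)) (by simp [T.B_t, uu])
          (by simp [T.B_t, f₁.eq_zero_symm hv]) (s1 r)
        refine (Y.smul_mem_iff (mul_ne_zero (mul_ne_zero a0 a0) e)).1 ?_
        convert this using 1
        simp only [T.B_t, map_smul, B_smul_left, Kind.orth_σ, f₂.orth_symm w w']
        module
      obtain ⟨y, y1, qy⟩ := exists_ns1 T.n₁ O.a3 u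
      have k1 : T.t u w' ∈ Y := by
        simpa [y1, f₁.orth_B_self, Y.smul_mem_iff, h2, qy] using k y y y1
      simpa [h₀] using Y.add_mem (k v u₀ hv) (Y.smul_mem (f₁.B v u₀) k1)
    exact (this ▸ Submodule.mem_top : w' ∈ Y.comap (T.t v))
  have s3 : ∀ z', f₂.B w z' = 0 → T.t u₀ z' ∈ Y := fun z' e => by
    obtain ⟨a, a0, l⟩ := mv u₀ q₀ (h₀ ▸ one_ne_zero) z' (s2 u z' uu)
    have := Y.add_mem (rule l (T.Q_t₁ (f₁.Q_smul_of_Q q₀ a) _) (by simp [T.B_t, ww])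
      (by simp [T.B_t, f₂.eq_zero_symm e]) (s2 u w₀ uu)) (Y.smul_mem (a * f₂.B z' w₀) (s1 (a • u₀)))
    simpa [T.B_t, f₁.orth_symm u u₀, h₀, k₀, smul_smul, Y.smul_mem_iff, a0] using this
  obtain ⟨g, hg, a, a0, e1⟩ := T.n₁.exists_Eich_smul (.inl O.a3) qu hu q₀ (by rintro rfl; simp at h₀)
  obtain ⟨k, hk, b, b0, e2⟩ := T.n₂.exists_Eich_smul (.inl O.b3) qw hw p₀ (by rintro rfl; simp at k₀)
  refine O.ne (T.n.Eich_le_of_Qgrp' (.inl ?_) (T.Q_t₁ qu w) (f.Qgrp_le fun y c hc => ?_)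
    (X.mul_mem (O.kL g hg) (O.kR k hk)) ?_)
  · have := O.a5
    have := O.b3
    rw [T.finrank_eq]; nlinarith
  · have hy := hc.B_pw
    rw [T.B_cu] at hy
    obtain ⟨c', hc', m⟩ := lev_of_mem_levS (show y ∈ Y by
      simpa using Y.add_mem (T.ker_ind hu (x := y - T.t u₀ (T.cu u y)) s2 (by simp [h₀])) (s3 _ hy))
    obtain rfl : c = c' := hc.π_c.trans hc'.π_c.symm
    exact m
  · simp [e1, e2, T.B_t, h₀, k₀, a0, b0]

omit O in
theorem zl_aux {σ : W →ₗ[F] W} (sk : ∀ w w', f₂.B w (σ w') = -f₂.B (σ w) w')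
    (s0 : ∀ y, f₂.B y (σ y) = 0) {w y : W} (qw : f₂.Q w = 0) (hy : f₂.B w y = 0) (z : W) :
    eu qw hy ⊳ σ ((eu qw hy)⁻¹ ⊳ z) - σ z -
      (σ z - eu qw (B_neg hy) ⊳ σ ((eu qw (B_neg hy))⁻¹ ⊳ z)) =
      (2 * f₂.B w z) • (f₂.B (σ w) y • y - f₂.Q y • σ w) -
        (2 * f₂.B (f₂.B (σ w) y • y - f₂.Q y • σ w) z) • w := by
  have a1 := sk w z
  have a2 := sk w y
  have a3 := sk y z
  have a5 := f₂.orth_symm (σ w) y
  have a6 := s0 w
  have a7 := s0 y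
  simp only [eu_inv, eu_apply, map_sub, map_add, map_smul, map_neg, B_smul_left,
    B_sub_left, B_neg_left, Q_neg, Kind.orth_σ, neg_neg, a1, a2, a3, a5, a6, a7]
  module

theorem zl {u : U} (qu : f₁.Q u = 0) {σ : W →ₗ[F] W}
    (e : Act X fun x => x + T.t u (σ (T.cu u x))) (sk : ∀ w w', f₂.B w (σ w') = -f₂.B (σ w) w')
    {w y : W} (qw : f₂.Q w = 0) (hy : f₂.B w y = 0) :
    T.t u (f₂.B (σ w) y • y - f₂.Q y • σ w) ∈ levS X (T.Q_t₁ qu w) := by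
  have uu := f₁.B_self_of_Q qu
  have h2 := T.two
  have s0 : ∀ y, f₂.B y (σ y) = 0 := fun y => mul_left_cancel₀ h2 (by
    have := sk y y
    rw [f₂.orth_symm y (σ y)] at this
    linear_combination this)
  obtain ⟨P, hP⟩ : ∃ P : (W → W) → Prop, ∀ s, P s ↔ Act X fun x => x + T.t u (s (T.cu u x)) :=
    ⟨_, fun _ => Iff.rfl⟩
  have Psub : ∀ s s' : W → W, P s → P s' → P fun z => s z - s' z := fun s s' a b =>
    (hP _).2 ((((hP _).1 a).mul (((hP _).1 b).inv (S' := fun x => x - T.t u (s' (T.cu u x)))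
      fun x => by simp [uu])).congr fun x => by simp [uu]; abel)
  have Pc : ∀ k ∈ f₂.Eich, P fun z => k ⊳ σ (k⁻¹ ⊳ z) :=
    fun k hk => (hP _).2 ((e.conj (O.kR k hk)).congr fun x => by
      rw [map_add, isom_apply_inv_apply, T.kR_t, ← map_inv, T.cu_kR])
  have e' : P σ := (hP _).2 e
  refine mem_levS.2 fun a => ?_
  have := add_closed_of_sq h2 (c := 2)
    (P := fun a : F => f.Lev X (T.t u w) (a • T.t u (f₂.B (σ w) y • y - f₂.Q y • σ w)))
    (by simpa using lev_zero (T.Q_t₁ qu w)) (fun a b ha hb => by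
      simpa only [sub_smul] using ha.sub hb) (fun l _ => ?_) (a / 2)
  · rwa [div_mul_cancel₀ _ h2] at this
  have hl : f₂.B w (l • y) = 0 := by simp [hy]
  obtain ⟨k, hk, ek⟩ := (hP _).1 (Psub _ _ (Psub _ _ (Pc _ (eu_mem qw hl)) e')
    (Psub _ _ e' (Pc _ (eu_mem qw (B_neg hl)))))
  have c : f.EichlerCond (T.t u w) ((l ^ 2 * 2) • T.t u (f₂.B (σ w) y • y - f₂.Q y • σ w)) 0 :=
    ⟨T.Q_t₁ qu w, by simp [T.B_t, uu], by rw [← map_smul]; exact (T.Q_t₁ qu _).symm⟩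
  suffices H : k = f.eichler _ _ _ c from ⟨0, c, H ▸ hk⟩
  refine f.isom_ext fun x => ?_
  rw [ek, orth_eichler_apply]
  simp only []
  rw [zl_aux sk s0 qw hl]
  simp only [map_sub, map_smul, B_smul_left, B_sub_left, T.B_cu, Kind.orth_σ, f₂.orth_Q_smul,
    smul_eq_mul]
  module

/-- Only the identity fixes `(u ⊗ W)^⊥` pointwise. -/
theorem H1 {u : U} (hu : u ≠ 0) (qu : f₁.Q u = 0) {g : f.Isom} (hg : g ∈ X)
    (h : ∀ x, T.cu u x = 0 → g ⊳ x = x) : g = 1 := by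
  obtain ⟨v, hv⟩ := T.exists_one hu
  have uu := f₁.B_self_of_Q qu
  have h2 := T.two
  let σ : W →ₗ[F] W := T.cu v ∘ₗ ((g.1 : V →ₗ[F] V) - LinearMap.id) ∘ₗ T.t v
  have e : ∀ x, g ⊳ x = x + T.t u (σ (T.cu u x)) := fun x => by
    have e1 := h (x - T.t v (T.cu u x)) (by simp [hv])
    have e2 := sub_mem_perp (M := f.perp (T.M u)) (k := g) (fun m hm => h m (T.mem_perp_M.1 hm))
      (T.t v (T.cu u x))
    rw [T.n.perp_perp] at e2
    obtain ⟨w, e2⟩ := e2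
    have e3 : σ (T.cu u x) = w := by
      simp only [σ, LinearMap.comp_apply, LinearMap.sub_apply,
        LinearEquiv.coe_coe, LinearMap.id_apply, ← e2, T.cu_t, f₁.orth_symm u v, hv, one_smul]
    rw [e3, e2, ← sub_eq_zero, ← sub_eq_zero.2 e1, map_sub]; abel
  clear_value σ
  have sk : ∀ w w', f₂.B w (σ w') = -f₂.B (σ w) w' := fun w w' => by
    have := f.B_coe_map g (T.t v w) (T.t v w')
    simp only [e, T.cu_t, hv, one_smul, map_add, B_add_left, T.B_t, uu, f₁.orth_symm u v] at this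
    linear_combination this
  suffices H : σ = 0 from f.isom_ext fun x => by simp [e, H]
  refine skew_zero h2 T.n₂ O.b3 sk fun w qw => ?_
  by_contra hn
  have w0 : w ≠ 0 := by rintro rfl; simp at hn
  have ws : f₂.B w (σ w) = 0 := mul_left_cancel₀ h2 (by
    have := sk w w
    rw [f₂.orth_symm w (σ w)] at this
    linear_combination this)
  set Y := levS X (T.Q_t₁ qu w) with hY
  have zl := fun y => O.zl qu (y := y) ⟨g, hg, e⟩ sk qw
  by_cases q : f₂.Q (σ w) = 0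
  · have h5 := O.hW.resolve_right fun H => hn (H w _ w0 qw q ws)
    obtain ⟨y₁, y1, y2⟩ := T.n₂.exists_perp_B_eq' hn 1
    rw [f₂.mem_perp_span_singleton] at y1
    obtain ⟨y₂, z1, z2, z3⟩ := exists_ns2 T.n₂ h5 w (σ w)
    have k1 : T.t u (σ w) ∈ Y := by simpa [z2, Submodule.smul_mem_iff, z3] using zl y₂ z1
    refine O.not_lev hu qu w0 qw (z := y₁ + (1 - f₂.Q y₁) • σ w) (by simp [y1, ws]) (by
      simp [f₂.orth_Q_add, f₂.orth_Q_smul, q, f₂.orth_symm (σ w) y₁, y2]) ?_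
    convert Y.add_mem (zl y₁ y1) k1 using 1
    simp only [map_add, map_smul, map_sub, y2]; module
  · refine O.not_lev hu qu w0 qw ws q ((Y.smul_mem_iff q).1 ?_)
    convert zl _ ws using 1
    simp only [map_smul, map_sub, f₂.orth_B_self]; module

theorem lv_E {u v : U} (qu : f₁.Q u = 0) (h : f₁.B u v = 0) : Lv T X u (T.t v) :=
  ⟨T.E qu h, O.E_mem qu h, fun w => by
    simp [T.E_apply, f₁.B_self_of_Q qu, f₁.eq_zero_symm h], fun x => by
    rw [T.E_apply]; exact ⟨-(T.cu v x + f₁.Q v • T.cu u x), by rw [map_neg]; abel⟩⟩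

theorem lv_comm {u : U} (hu : u ≠ 0) (qu : f₁.Q u = 0) {α β : W →ₗ[F] V} (ha : Lv T X u α)
    (hb : Lv T X u β) (w w' : W) : f.B (β w) (α w') = f.B (α w) (β w') := by
  have ca := ha.cu hu qu
  have cb := hb.cu hu qu
  obtain ⟨k, hk, e1, e2⟩ := ha
  obtain ⟨k', hk', e1', e2'⟩ := hb
  have m1 : ∀ m ∈ T.M u, k ⊳ m = m := by rintro _ ⟨w, rfl⟩; exact e1 w
  have m2 : ∀ m ∈ T.M u, k' ⊳ m = m := by rintro _ ⟨w, rfl⟩; exact e1' w
  have p1 : ∀ x ∈ f.perp (T.M u), k ⊳ x - x ∈ T.M u := fun x hx => by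
    simpa [T.mem_perp_M.1 hx] using e2 x
  have p2 : ∀ x ∈ f.perp (T.M u), k' ⊳ x - x ∈ T.M u := fun x hx => by
    simpa [T.mem_perp_M.1 hx] using e2' x
  have hc := O.H1 hu qu (X.mul_mem (X.inv_mem (X.mul_mem hk' hk)) (X.mul_mem hk hk'))
    fun x hx => comm_fix m1 m2 p1 p2 (T.mem_perp_M.2 hx)
  obtain ⟨v₀, h₀⟩ := T.exists_one hu
  have k1 := comm_B m1 m2 p1 p2 (T.t v₀ w) (T.t v₀ w')
  rw [← isom_mul_apply, ← inv_mul_eq_one.1 hc, isom_mul_apply, sub_self] at k1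
  obtain ⟨a1, f1⟩ := e2 (T.t v₀ w)
  obtain ⟨a2, f2⟩ := e2 (T.t v₀ w')
  obtain ⟨a3, f3⟩ := e2' (T.t v₀ w)
  obtain ⟨a4, f4⟩ := e2' (T.t v₀ w')
  rw [← eq_sub_iff_add_eq.1 f1, ← eq_sub_iff_add_eq.1 f2, ← eq_sub_iff_add_eq.1 f3,
    ← eq_sub_iff_add_eq.1 f4] at k1
  simp only [T.cu_t, h₀, one_smul, map_add, B_add_left, f.orth_symm (T.t u _) (α _),
    f.orth_symm (T.t u _) (β _), T.B_cu u, ca, cb, f₁.B_self_of_Q qu, zero_smul, map_zero] at k1
  linear_combination -k1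

theorem lv_sing {u : U} (hu : u ≠ 0) (qu : f₁.Q u = 0) {α : W →ₗ[F] V} (ha : Lv T X u α) {w : W}
    (qw : f₂.Q w = 0) : T.cw w (α w) ∈ F ∙ u := by
  by_contra hn
  have w0 : w ≠ 0 := by rintro rfl; simp at hn
  have h2 := T.two
  obtain ⟨c, c0, β, hβ, e⟩ := extract h2 T.n₂ O.b3 O.hq (P := fun a => ∃ α, Lv T X u α ∧
      ∀ x x' p, f₁.B u p = 0 → f₁.B p (T.cw x (α x')) = f₁.B p (a x x'))
    (fun a b ⟨α, h1, h2⟩ ⟨β, h3, h4⟩ => ⟨_, h1.sub h3, fun x x' p hp => by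
      simp [h2 x x' p hp, h4 x x' p hp]⟩)
    (fun a ⟨α, h1, h2⟩ g hg => ⟨((T.kR g⁻¹).1 : V →ₗ[F] V) ∘ₗ α ∘ₗ (g.1 : W →ₗ[F] W),
      h1.conj (O.kR _ (f₂.Eich.inv_mem hg)) g⁻¹ (fun w => T.kR_t ..) (by simp), fun x x' p hp => by
        rw [← h2 _ _ p hp, ← cw_kR g⁻¹ (g ⊳ x), isom_inv_apply_apply]; rfl⟩)
    (LinearMap.mk₂ F (fun x x' => T.cw x (α x')) (fun _ _ _ => cw_add ..) (fun _ _ _ => T.cw_smul ..)
      (by simp) (by simp)) ⟨α, ha, fun _ _ _ _ => rfl⟩ w0 qw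
  simp only [LinearMap.mk₂_apply] at e
  have uv : f₁.B u (T.cw w (α w)) = 0 := by rw [← T.cu_cw, ha.cu hu qu, map_zero]
  generalize T.cw w (α w) = v at hn e uv
  have h1 : Lv T X u (c • (f₂.B w).smulRight (T.t v w)) := hβ.congr hu fun x x' p hp => by
    simp [e x x' p hp, f₂.orth_symm w x]; ring
  obtain ⟨g, hg, gu, gv⟩ : ∃ g ∈ f₁.Eich, g ⊳ u = u ∧ f₁.B v (g ⊳ v) ≠ 0 := by
    by_cases q : f₁.Q v = 0
    · obtain ⟨p, p1, p2⟩ := T.n₁.exists_perp_B_eq hn 1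
      rw [f₁.mem_perp_span_singleton] at p1
      have qp : f₁.Q (p - f₁.Q p • v) = 0 := by simp [f₁.Q_sub, f₁.orth_Q_smul, q, p2]
      obtain ⟨y, y1, y2, qy⟩ := exists_ns2 T.n₁ O.a5 u (p - f₁.Q p • v)
      exact ⟨eu qp y2, eu_mem qp y2, by
        simp [eu_apply, f₁.eq_zero_symm p1, f₁.eq_zero_symm uv, f₁.eq_zero_symm y1], by
        rw [B_eu qp y2 q (by simp [p2, f₁.B_self_of_Q q])]; simpa⟩
    · exact ⟨1, one_mem _, rfl, by simp [f₁.orth_B_self, h2, q]⟩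
  obtain ⟨w₀, q₀, h₀⟩ := T.n₂.exists_partner qw w0
  obtain ⟨y, y1, qy⟩ := exists_ns1 T.n₂ O.b3 w₀
  have e1 := B_eu q₀ y1 qw (by rw [f₂.orth_symm, h₀])
  have e2 : f₂.Q (eu q₀ y1 ⊳ w) = 0 := by rw [Q_coe_map, qw]
  have h3 := h1.conj (X.mul_mem (O.kL g hg) (O.kR _ (eu_mem q₀ y1))) (eu q₀ y1)
    (β := c • (f₂.B (eu q₀ y1 ⊳ w)).smulRight (T.t (g ⊳ v) (eu q₀ y1 ⊳ w))) (by simp [gu]) (by simp)
  have := O.lv_comm hu qu h1 h3 w (eu q₀ y1 ⊳ w)
  generalize eu q₀ y1 ⊳ w = w' at e1 e2 this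
  simp [f₂.B_self_of_Q qw, T.B_t, f₂.orth_symm w w', f₁.orth_symm v (g ⊳ v), e1, c0, qy, gv] at this

/-- The elements of `X` acting trivially on the flag `u ⊗ W ≤ (u ⊗ W)^⊥`. -/
theorem H2 {u : U} (hu : u ≠ 0) (qu : f₁.Q u = 0) {k : f.Isom} (hk : k ∈ X)
    (e1 : ∀ w, k ⊳ T.t u w = T.t u w) (e2 : ∀ x, T.cu u x = 0 → k ⊳ x - x ∈ T.M u) :
    ∃ v, ∃ h : f₁.B u v = 0, k = T.E qu h := by
  obtain ⟨v₀, h₀⟩ := T.exists_one hu
  have h2 := T.two
  have uu := f₁.B_self_of_Q qu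
  let α : W →ₗ[F] V := ((k.1 : V →ₗ[F] V) - LinearMap.id) ∘ₗ T.t v₀
  have hα : Lv T X u α := ⟨k, hk, e1, fun x => by
    convert e2 (x - T.t v₀ (T.cu u x)) (by simp [h₀]) using 1
    simp only [α, LinearMap.comp_apply, LinearMap.sub_apply, LinearEquiv.coe_coe,
      LinearMap.id_apply, map_sub]; abel⟩
  obtain ⟨y, -, qy⟩ := exists_ns1 T.n₂ O.b3 0
  let v := (2 * f₂.Q y)⁻¹ • T.cw y (α y)
  have hv : ∀ p, f₁.B u p = 0 → ∀ w, T.cu p (α w) = f₁.B p v • w := fun p hp => by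
    obtain ⟨c, hc⟩ := prop_Q h2 T.n₂ O.b3 O.hq (LinearMap.mk₂ F (fun x x' => f.B (T.t p x) (α x'))
      (by simp) (by simp) (by simp) (by simp)) fun w qw => by
        obtain ⟨a, ha⟩ := Submodule.mem_span_singleton.1 (O.lv_sing hu qu hα qw)
        rw [LinearMap.mk₂_apply, T.B_cw, ← ha, map_smul, f₁.eq_zero_symm hp, smul_zero]
    have k1 : ∀ w, T.cu p (α w) = (c / 2) • w := fun w => T.n₂.eq_of_B_eq_right fun x => by
      have e3 := hc x w
      have e4 := O.lv_comm hu qu hα (O.lv_E qu hp) x w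
      simp only [LinearMap.mk₂_apply] at e3
      rw [f.orth_symm (T.t p w) (α x)] at e4
      rw [← T.B_cu, map_smul, smul_eq_mul]
      field_simp
      linear_combination e3 + e4
    intro w
    rw [k1, map_smul, ← T.cu_cw, k1, map_smul, f₂.orth_B_self, smul_eq_mul, smul_eq_mul,
      mul_comm (c / 2), inv_mul_cancel_left₀ (mul_ne_zero h2 qy)]
  have uv : f₁.B u v = 0 := by rw [map_smul, ← T.cu_cw, hα.cu hu qu]; simp
  refine ⟨v, uv, (inv_mul_eq_one.1 (O.H1 hu qu (X.mul_mem (X.inv_mem (O.E_mem qu uv)) hk)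
    fun x hx => ?_)).symm⟩
  obtain ⟨w', hw'⟩ := e2 x hx
  have : w' = -T.cu v x := T.n₂.eq_of_B_eq_right fun w => by
    obtain ⟨m, hm⟩ := T.mem_M_of hu (x := α w - T.t v w) fun v₁ h₁ => by simp [hv v₁ h₁]
    have e := f.B_coe_map k (T.t v₀ w) x
    have e3 : k ⊳ T.t v₀ w = T.t v₀ w + T.t v w + T.t u m := by rw [hm]; simp [α]
    rw [e3, ← eq_sub_iff_add_eq.1 hw'] at e
    simp only [map_add, B_add_left, T.B_t, uu, f₁.orth_symm u v₀, h₀,
      f₁.eq_zero_symm uv, T.B_cu u, T.B_cu v, hx, map_zero] at e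
    rw [map_neg]
    linear_combination e
  rw [isom_mul_apply, ← eq_sub_iff_add_eq.1 hw', this]
  conv_rhs => rw [← f.isom_inv_apply_apply (T.E qu uv) x, T.E_apply, hx]
  simp [add_comm, sub_eq_add_neg]

end Ov

end CA.OO
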