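import Cfsg.Agent.Lib.Lin.MaxO3

/-!
Overgroups of the tensor product of two orthogonal groups, part four: the stabiliser of `u ⊗ W`
and the conjugates of the long root elements of the first factor.
-/

set_option autoImplicit false
set_option linter.unusedSectionVars false

namespace CA.OO

open CA.CForm CA.CForm.Form Module

local notation:75 g:76 " ⊳ " v:75 => (Subtype.val g) v

variable {F : Type*} [Field F] [Finite F] {U W V : Type*} [AddCommGroup U] [Module F U]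
  [AddCommGroup W] [Module F W] [AddCommGroup V] [Module F V] [FiniteDimensional F U]
  [FiniteDimensional F W] [FiniteDimensional F V]
  {f₁ : Form (Kind.orth F) U} {f₂ : Form (Kind.orth F) W} {f : Form (Kind.orth F) V}

/-- A totally singular line. -/
structure Ln (f₁ : Form (Kind.orth F) U) (u v : U) : Prop where
  qu : f₁.Q u = 0
  qv : f₁.Q v = 0
  uv : f₁.B u v = 0
  u0 : u ≠ 0
  v0 : v ∉ F ∙ u

namespace Oo
variable (T : Oo f₁ f₂ f)

theorem E_sq {u v : U} (hu : f₁.Q u = 0) (h : f₁.B u v = 0) (x : V) :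
    T.E hu h ⊳ (T.E hu h ⊳ x - x) - (T.E hu h ⊳ x - x) = -(2 * f₁.Q v) • T.t u (T.cu u x) := by
  rw [T.E_apply hu h (_ - x), T.E_apply]
  simp only [map_add, map_sub, cu_t, f₁.B_self_of_Q hu, h, f₁.eq_zero_symm h, f₁.orth_B_self v,
    map_smul]
  module

/-- the subspace `⟨u, v⟩ ⊗ W` -/
def Λ (u v : U) : Submodule F V := LinearMap.range ((T.t u).coprod (T.t v))

/-- the nilpotent map attached to `u ∧ v` -/
def nn (u v : U) : V →ₗ[F] V := T.t v ∘ₗ T.cu u - T.t u ∘ₗ T.cu v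

theorem nn_apply (u v : U) (x : V) : T.nn u v x = T.t v (T.cu u x) - T.t u (T.cu v x) := rfl

theorem mem_Λ {u v : U} {x : V} : x ∈ T.Λ u v ↔ ∃ a b, T.t u a + T.t v b = x :=
  ⟨fun ⟨p, h⟩ => ⟨p.1, p.2, h⟩, fun ⟨a, b, h⟩ => ⟨(a, b), h⟩⟩

theorem nn_mem (u v : U) (x : V) : T.nn u v x ∈ T.Λ u v :=
  T.mem_Λ.2 ⟨-T.cu v x, T.cu u x, by rw [nn_apply, map_neg]; abel⟩

theorem cw_mem {u v : U} {x : V} (h : x ∈ T.Λ u v) (w : W) :
    T.cw w x ∈ Submodule.span F {u, v} := by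
  obtain ⟨a, b, rfl⟩ := T.mem_Λ.1 h
  exact Submodule.mem_span_pair.2 ⟨f₂.B w a, f₂.B w b, by simp⟩

theorem Λ_inj {u v : U} (h : Ln f₁ u v) {a b : W} (e : T.t u a + T.t v b = 0) : a = 0 ∧ b = 0 := by
  obtain ⟨y, y1, y2⟩ := T.n₁.exists_perp_B_eq h.v0 1
  rw [f₁.mem_perp_span_singleton] at y1
  have := congrArg (T.cu y) e
  simp only [map_add, cu_t, f₁.eq_zero_symm y1, y2, zero_smul, one_smul, zero_add, map_zero] at this
  rw [this, map_zero, add_zero] at e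
  exact ⟨T.t_inj h.u0 (by rw [e, map_zero]), this⟩

theorem finrank_Λ {u v : U} (h : Ln f₁ u v) : finrank F (T.Λ u v) = 2 * finrank F W := by
  rw [Λ, LinearMap.finrank_range_of_inj, finrank_prod, two_mul]
  exact (injective_iff_map_eq_zero _).2 fun p hp => Prod.ext (T.Λ_inj h hp).1 (T.Λ_inj h hp).2

theorem mem_perp_Λ {u v : U} (h : Ln f₁ u v) {x : V} : x ∈ f.perp (T.Λ u v) ↔ T.nn u v x = 0 := by
  refine ⟨fun hx => ?_, fun hx y hy => ?_⟩
  · have e1 : T.cu u x = 0 := T.mem_perp_M.1 fun y ⟨w, hw⟩ => hx y (T.mem_Λ.2 ⟨w, 0, by simp [hw]⟩)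
    have e2 : T.cu v x = 0 := T.mem_perp_M.1 fun y ⟨w, hw⟩ => hx y (T.mem_Λ.2 ⟨0, w, by simp [hw]⟩)
    simp [nn_apply, e1, e2]
  · obtain ⟨a, b, rfl⟩ := T.mem_Λ.1 hy
    obtain ⟨e1, e2⟩ := T.Λ_inj h (a := -T.cu v x) (b := T.cu u x) (by
      rw [← hx, nn_apply, map_neg]; abel)
    simp [T.B_cu, e2, neg_eq_zero.1 e1]

theorem cu_Λ {u v p : U} (h1 : f₁.B p u = 0) (h2 : f₁.B p v = 0) {x : V} (hx : x ∈ T.Λ u v) :
    T.cu p x = 0 := by
  obtain ⟨a, b, rfl⟩ := T.mem_Λ.1 hx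
  simp [h1, h2]

theorem nn_Λ {u v : U} (h : Ln f₁ u v) {x : V} (hx : x ∈ T.Λ u v) : T.nn u v x = 0 := by
  rw [nn_apply, T.cu_Λ (f₁.B_self_of_Q h.qu) h.uv hx,
    T.cu_Λ (f₁.eq_zero_symm h.uv) (f₁.B_self_of_Q h.qv) hx]; simp

theorem E_ln {u v : U} (h : Ln f₁ u v) (x : V) : T.E h.qu h.uv ⊳ x = x + T.nn u v x := by
  rw [E_apply, nn_apply, h.qv, zero_smul, add_zero]; abel

/-- Quadratic elements preserving the tensor decomposition belong to one of the factors. -/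
theorem pencil [Nontrivial W] {s : f.Isom} (hs : s ∈ T.N)
    (e : ∀ x, s ⊳ (s ⊳ x - x) = s ⊳ x - x) :
    (∃ A : U →ₗ[F] U, ∀ u w, s ⊳ T.t u w = T.t u w + T.t (A u) w) ∨
      ∃ C : W →ₗ[F] W, ∀ u w, s ⊳ T.t u w = T.t u w + T.t u (C w) := by
  obtain ⟨g, h, e1⟩ := hs
  by_cases H : ∀ u, u ∈ F ∙ g u
  · obtain ⟨a, ha⟩ := LinearMap.exists_eq_smul_id_of_forall_notLinearIndependent
      (f := (g : U →ₗ[F] U)) fun u hu => by
        obtain ⟨c, hc⟩ := Submodule.mem_span_singleton.1 (H u)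
        simpa using (LinearIndependent.pair_iff.1 hu 1 (-c) (by simp [hc])).1
    refine .inr ⟨a • (h : W →ₗ[F] W) - LinearMap.id, fun u w => ?_⟩
    rw [e1, show g u = a • u from LinearMap.congr_fun ha u]; simp
  push Not at H
  obtain ⟨u, hu⟩ := H
  obtain ⟨y, hy, e2⟩ := T.n₁.exists_perp_B_eq hu 1
  replace hy := f₁.eq_zero_symm (f₁.mem_perp_span_singleton.1 hy)
  obtain ⟨y', e3⟩ := T.exists_one (u := g u) (by
    intro e; rw [g.map_eq_zero_iff] at e; exact hu (by simp [e]))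
  have k1 := fun w => congrArg (T.cu y) (e (T.t u w))
  have k2 := fun w => congrArg (T.cu y') (e (T.t u w))
  simp only [map_sub, e1, T.cu_t, hy, e2, f₁.orth_symm (g u) y', e3] at k1 k2
  obtain ⟨w₀, hw⟩ := exists_ne (0 : W)
  have κ0 : f₁.B y (g (g u)) ≠ 0 := fun e => hw (by simpa [e] using k1 w₀)
  have h2 := T.two
  refine .inl ⟨((f₁.B y' u - f₁.B y' (g (g u)) / f₁.B y (g (g u))) / 2) • (g : U →ₗ[F] U) -
    LinearMap.id, fun v w => ?_⟩
  have : h w = ((f₁.B y' u - f₁.B y' (g (g u)) / f₁.B y (g (g u))) / 2) • w := by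
    have k3 : h (h w) = -(f₁.B y (g (g u)))⁻¹ • w := by
      refine smul_right_injective W κ0 ?_
      simp only [smul_smul, mul_neg, mul_inv_cancel₀ κ0]
      simpa using k1 w
    have k4 := k2 w
    rw [k3, ← sub_eq_zero] at k4
    refine smul_right_injective W h2 ?_
    rw [← sub_eq_zero, ← neg_eq_zero, ← k4]
    match_scalars <;> field_simp <;> ring
  rw [e1, this]; simp

end Oo

variable {T : Oo f₁ f₂ f} {X : Subgroup f.Isom}

namespace Ov
variable (O : Ov T X)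
include O

theorem conjE {u : U} (hu : u ≠ 0) (qu : f₁.Q u = 0) {s : f.Isom} (hs : s ∈ X)
    (st : s ∈ f.stab (T.M u)) {v : U} (uv : f₁.B u v = 0) :
    ∃ v', ∃ h : f₁.B u v' = 0, s * T.E qu uv * s⁻¹ = T.E qu h := by
  have st' := (f.stab _).inv_mem st
  refine O.H2 hu qu (X.mul_mem (X.mul_mem hs (O.E_mem qu uv)) (X.inv_mem hs)) (fun w => ?_)
    fun x hx => ?_
  · obtain ⟨w', e⟩ := (st' _).1 (T.t_mem_M u w)
    have : T.E qu uv ⊳ T.t u w' = T.t u w' := by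
      simp [T.E_apply, f₁.B_self_of_Q qu, f₁.eq_zero_symm uv]
    rw [isom_mul_apply, isom_mul_apply, ← e, this, e, isom_apply_inv_apply]
  · have := T.mem_perp_M.1 ((f.stab_le_stab_perp _ st' x).1 (T.mem_perp_M.2 hx))
    rw [st', isom_mul_apply, isom_mul_apply, map_sub, isom_inv_apply_apply, T.E_apply, this]
    exact ⟨-T.cu v (s⁻¹ ⊳ x), by simp⟩

/-- The stabiliser of `u ⊗ W` preserves the tensor decomposition. -/
theorem D {u : U} (hu : u ≠ 0) (qu : f₁.Q u = 0) {s : f.Isom} (hs : s ∈ X)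
    (hM : ∀ w, s ⊳ T.t u w ∈ T.M u) : s ∈ T.N := by
  obtain ⟨v₀, h₀⟩ := T.exists_one hu
  have h2 := T.two
  have uu := f₁.B_self_of_Q qu
  have st : s ∈ f.stab (T.M u) := f.mem_stab_of_le (by rintro _ ⟨w, rfl⟩; exact hM w)
  let h' : W →ₗ[F] W := T.cu v₀ ∘ₗ (s.1 : V →ₗ[F] V) ∘ₗ T.t u
  have e' : ∀ w, s ⊳ T.t u w = T.t u (h' w) := fun w => by
    obtain ⟨w', hw⟩ := hM w
    simp [h', ← hw, f₁.orth_symm u v₀, h₀]
  let h : W ≃ₗ[F] W := .ofInjectiveEndo h' ((injective_iff_map_eq_zero _).2 fun w hw =>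
    T.t_inj hu (s.1.injective (by rw [e', hw]; simp)))
  have e : ∀ w, s ⊳ T.t u w = T.t u (h w) := e'
  clear_value h
  obtain ⟨c, hcu⟩ : ∃ c : F, ∀ x, h (T.cu u x) = c • T.cu u (s ⊳ x) := by
    obtain ⟨p, p1, qp⟩ := exists_ns1 T.n₁ O.a3 u
    obtain ⟨v', uv', e5⟩ := O.conjE hu qu hs st p1
    refine ⟨f₁.Q v' / f₁.Q p, fun x => T.t_inj hu ?_⟩
    have k1 := T.E_sq qu uv' (s ⊳ x)
    rw [← e5] at k1
    simp only [isom_mul_apply, isom_inv_apply_apply, ← map_sub, T.E_sq, map_smul, e] at k1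
    refine smul_right_injective V (neg_ne_zero.2 (mul_ne_zero h2 qp)) ?_
    simp only [k1, map_smul, smul_smul]
    congr 1; field_simp
  have hB : ∀ w w', f₂.B (h w) (h w') = c * f₂.B w w' := fun w w' => by
    have k1 := hcu (T.t v₀ w')
    rw [T.cu_t, h₀, one_smul] at k1
    rw [k1, map_smul, ← T.B_cu, ← e, B_coe_map, T.B_t, h₀, one_mul, smul_eq_mul]
  have hQ : ∀ w, f₂.Q (h w) = c * f₂.Q w := fun w => mul_left_cancel₀ h2 (by
    rw [← f₂.orth_B_self, hB, f₂.orth_B_self]; ring)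
  have := O.ntW
  obtain ⟨w₀, hw₀⟩ := exists_ne (0 : W)
  have c0 : c ≠ 0 := by
    rintro rfl
    have k1 := hcu (T.t v₀ w₀)
    simp [h₀, hw₀] at k1
  have key : ∀ w y (hw : f₂.Q w = 0) (hy : f₂.B w y = 0), ∃ v', ∃ uv' : f₁.B u v' = 0,
      ∀ v p x, T.cu v (s ⊳ T.t p (eu hw hy ⊳ x)) =
        h (eu hw hy ⊳ h.symm (T.cu (eu qu uv' ⊳ v) (s ⊳ T.t p x))) := by
    intro w y hw hy
    have hw' : f₂.Q (h w) = 0 := by rw [hQ, hw, mul_zero]
    have hy' : f₂.B (h w) (c⁻¹ • h y) = 0 := by simp [hB, hy]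
    suffices H : ∀ t t' : f₂.Isom, (∀ x, t' ⊳ x = h (t ⊳ h.symm x)) → T.kR t ∈ X → T.kR t' ∈ X →
        ∃ v', ∃ uv' : f₁.B u v' = 0, ∀ v p x, T.cu v (s ⊳ T.t p (t ⊳ x)) =
          h (t ⊳ h.symm (T.cu (eu qu uv' ⊳ v) (s ⊳ T.t p x))) from
      H _ (eu hw' hy') (fun x => by
        obtain ⟨x, rfl⟩ := h.surjective x
        simp only [eu_apply, h.symm_apply_apply, map_sub, map_add, map_smul, hB, B_smul_left,
          f₂.orth_Q_smul, hQ, Kind.orth_σ]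
        match_scalars <;> field_simp) (O.kR _ (eu_mem hw hy)) (O.kR _ (eu_mem hw' hy'))
    intro t t' et tX tX'
    set k := s * T.kR t * s⁻¹ * (T.kR t')⁻¹ with hk
    have kX : k ∈ X := X.mul_mem (X.mul_mem (X.mul_mem hs tX) (X.inv_mem hs)) (X.inv_mem tX')
    have e1 : ∀ w, k ⊳ T.t u w = T.t u w := fun w => by
      obtain ⟨w, rfl⟩ := t'.1.surjective w
      obtain ⟨w, rfl⟩ := h.surjective w
      conv_lhs => rw [← T.kR_t, hk, isom_mul_apply, isom_inv_apply_apply, ← e, isom_mul_apply,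
        isom_inv_apply_apply, isom_mul_apply, T.kR_t, e]
      rw [et, h.symm_apply_apply]
    have cm : ∀ {v} (uv : f₁.B u v = 0), k * T.E qu uv = T.E qu uv * k := fun {v} uv => by
      obtain ⟨v', uv', e5⟩ := O.conjE hu qu (X.inv_mem hs) ((f.stab _).inv_mem st) uv
      rw [inv_inv] at e5
      have e2 : s⁻¹ * T.E qu uv * s * T.kR t = T.kR t * (s⁻¹ * T.E qu uv * s) := by
        rw [e5]; exact T.kL_comm_kR ..
      have e3 : T.E qu uv * (T.kR t')⁻¹ = (T.kR t')⁻¹ * T.E qu uv := by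
        rw [← map_inv]; exact T.kL_comm_kR ..
      calc k * T.E qu uv = s * (T.kR t * (s⁻¹ * T.E qu uv * s)) * s⁻¹ * (T.kR t')⁻¹ := by
            rw [hk, mul_assoc _ _ (T.E qu uv), ← e3]; group
        _ = T.E qu uv * k := by rw [hk, ← e2]; group
    have e2 : ∀ x, T.cu u x = 0 → k ⊳ x - x ∈ T.M u := fun x hx => Submodule.mem_comap.1 <|
      T.ker_ind hu (Y := (T.M u).comap ((k.1 : V →ₗ[F] V) - LinearMap.id)) (fun v w uv => by
        have := congrArg (fun g => g ⊳ T.t v₀ w) (cm uv)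
        simp only [isom_mul_apply, T.E_apply, map_add, map_sub, T.cu_fix e1, e1, T.cu_t, h₀,
          one_smul] at this
        refine ⟨f₁.B v v₀ • w - T.cu v (k ⊳ T.t v₀ w), ?_⟩
        simp only [LinearMap.sub_apply, LinearEquiv.coe_coe, LinearMap.id_apply, map_sub]
        rw [← sub_eq_zero] at this ⊢
        rw [← neg_eq_zero, ← this]; abel) hx
    obtain ⟨v', uv', e5⟩ := O.H2 hu qu kX e1 e2
    refine ⟨-v', B_neg uv', fun v p x => ?_⟩
    have e6 : s * T.kR t = T.kL (eu qu uv') * T.kR t' * s := by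
      rw [← Oo.E, ← e5, hk]; group
    have e7 := congrArg (fun k => k ⊳ T.t p x) e6
    simp only [isom_mul_apply, T.kR_t] at e7
    rw [e7, ← et, ← T.cu_kR, ← eu_inv qu uv', ← T.cu_kL (eu qu uv') ((eu qu uv')⁻¹ ⊳ v),
      isom_apply_inv_apply]
  have step : ∀ v p, (∀ v' (uv' : f₁.B u v' = 0), ∃ ν : F, ∀ w,
        T.cu (eu qu uv' ⊳ v - v) (s ⊳ T.t p w) = ν • h w) →
      ∃ γ : F, ∀ w, T.cu v (s ⊳ T.t p w) = γ • h w := fun v p H => by
    obtain ⟨γ, hγ⟩ := SC h2 T.n₂ O.b3 O.hq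
      (r := h.symm.toLinearMap ∘ₗ T.cu v ∘ₗ (s.1 : V →ₗ[F] V) ∘ₗ T.t p) fun w y hw hy => by
        obtain ⟨v', uv', g3⟩ := key w y hw hy
        obtain ⟨ν, hν⟩ := H v' uv'
        refine ⟨ν, fun w => ?_⟩
        simp only [LinearMap.comp_apply, LinearEquiv.coe_coe, g3, h.symm_apply_apply]
        rw [← add_sub_cancel v (eu qu uv' ⊳ v), T.cu_add, hν]
        simp
    exact ⟨γ, fun w => by simpa [h.symm_apply_eq] using hγ w⟩
  have s1 : ∀ v p, f₁.B u v = 0 → ∃ γ : F, ∀ w, T.cu v (s ⊳ T.t p w) = γ • h w :=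
    fun v p hv => step v p fun v' uv' => by
      refine ⟨-f₁.B v' v * (c⁻¹ * f₁.B u p), fun w => ?_⟩
      have := hcu (T.t p w)
      rw [T.cu_t, map_smul] at this
      rw [show eu qu uv' ⊳ v - v = (-f₁.B v' v) • u by simp [eu_apply, hv], T.cu_smul, mul_smul,
        mul_smul, this, inv_smul_smul₀ c0]
  have s2 : ∀ v p, ∃ γ : F, ∀ w, T.cu v (s ⊳ T.t p w) = γ • h w :=
    fun v p => step v p fun v' uv' => s1 _ p (by simp [eu_apply, uu, uv'])
  obtain ⟨z', hz'⟩ := T.swap.exists_one (u := h w₀) (by simpa using hw₀)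
  have hz : f₂.B z' (h w₀) = 1 := by rw [f₂.orth_symm, hz']
  have := O.ntU
  refine T.mem_N_of_lin (T.cw z' ∘ₗ (s.1 : V →ₗ[F] V) ∘ₗ T.t.flip w₀) h
    fun p w => sub_eq_zero.1 (T.eq_zero_of_cu fun v => ?_)
  obtain ⟨γ, hγ⟩ := s2 v p
  simp [hγ, ← T.cu_cw, hz]

theorem sing_of {u : U} (h : ∀ w, f.Q (T.t u w) = 0) : f₁.Q u = 0 := by
  obtain ⟨y, -, qy⟩ := exists_ns1 T.n₂ O.b3 0
  simpa [T.Q_t, T.two, qy] using h y

theorem mem_N_of_act {u u' : U} (hu : u ≠ 0) (hu' : u' ≠ 0) (q' : f₁.Q u' = 0) {s : f.Isom}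
    (hs : s ∈ X) (hM : ∀ w, s ⊳ T.t u w ∈ T.M u') : s ∈ T.N := by
  have q : f₁.Q u = 0 := O.sing_of fun w => by
    obtain ⟨w', e⟩ := hM w
    rw [← f.Q_coe_map s, ← e, T.Q_t₁ q']
  obtain ⟨g, hg, a, -, e1⟩ := T.n₁.exists_Eich_smul (.inl O.a3) q' hu' q hu
  have := O.D hu q (X.mul_mem (O.kL g hg) hs) fun w => by
    obtain ⟨w', e⟩ := hM w
    rw [isom_mul_apply, ← e, T.kL_t, e1]
    exact ⟨a • w', by simp⟩
  simpa using T.N.mul_mem (T.N.inv_mem (T.kL_mem_N g)) this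

theorem conj_apply (s k : f.Isom) (x : V) : (s * k * s⁻¹) ⊳ x = s ⊳ k ⊳ s⁻¹ ⊳ x := rfl

/-- An image of `⟨u, v⟩ ⊗ W` containing some `u₁ ⊗ W`. -/
theorem DL {u v u₁ : U} (h : Ln f₁ u v) (hu : u₁ ≠ 0) {s : f.Isom} (hs : s ∈ X)
    (hM : ∀ w, T.t u₁ w ∈ f.act s (T.Λ u v)) : s ∈ T.N := by
  obtain ⟨p, p1, p2, qp⟩ := exists_ns2 T.n₁ O.a5 u v
  set k := s * T.E h.qu p1 * s⁻¹ with hk
  have kX : k ∈ X := X.mul_mem (X.mul_mem hs (O.E_mem _ _)) (X.inv_mem hs)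
  have e1 : ∀ w, k ⊳ T.t u₁ w = T.t u₁ w := fun w => by
    have := f.mem_act.1 (hM w)
    rw [hk, O.conj_apply, T.E_apply, T.cu_Λ (f₁.B_self_of_Q h.qu) h.uv this,
      T.cu_Λ (f₁.eq_zero_symm p1) (f₁.eq_zero_symm p2) this]
    simp
  have q1 : f₁.Q u₁ = 0 := O.sing_of fun w => mul_left_cancel₀ T.two (by
    have := f.mem_act.1 (hM w)
    rw [← f.Q_coe_map s⁻¹, ← f.orth_B_self, mul_zero]
    exact (T.mem_perp_Λ h).2 (T.nn_Λ h this) _ this)
  obtain ⟨z, hz⟩ := T.exists_one hu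
  obtain ⟨g, hg⟩ := T.lin_of_fix (O.D hu q1 kX fun w => by rw [e1]; exact T.t_mem_M ..) (p := u₁)
    (z := z) fun w => by rw [e1, T.cu_t, f₁.orth_symm, hz, one_smul]
  have e2 : ∀ x, k ⊳ (k ⊳ x - x) - (k ⊳ x - x) = -(2 * f₁.Q p) • s ⊳ T.t u (T.cu u (s⁻¹ ⊳ x)) :=
    fun x => by
      rw [← map_smul, ← T.E_sq h.qu p1]
      simp only [hk, O.conj_apply, map_sub, isom_inv_apply_apply, isom_apply_inv_apply]
  have e3 : ∀ a w, T.t (g (g a - a) - (g a - a)) w = -(2 * f₁.Q p) • s ⊳ T.t u (T.cu u (s⁻¹ ⊳ T.t a w)) :=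
    fun a w => by rw [← e2]; simp [hg]
  obtain ⟨a, ha⟩ : ∃ a, g (g a - a) - (g a - a) ≠ 0 := by
    by_contra H
    push Not at H
    have e4 : ∀ x, -(2 * f₁.Q p) • s ⊳ T.t u (T.cu u (s⁻¹ ⊳ x)) = 0 := fun x => by
      induction x using T.ind with
      | ht a w => rw [← e3, H]; simp
      | hadd a b ha hb => simp only [map_add, smul_add, ha, hb, add_zero]
    obtain ⟨v₀, h₀⟩ := T.exists_one h.u0
    have := O.ntW
    obtain ⟨w₀, hw₀⟩ := exists_ne (0 : W)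
    simpa [h₀, T.two, qp, T.t_ne_zero h.u0 hw₀] using e4 (s ⊳ T.t v₀ w₀)
  simpa using T.N.inv_mem (O.mem_N_of_act ha h.u0 h.qu (X.inv_mem hs) fun w => by
    rw [e3, map_smul, isom_inv_apply_apply]
    exact Submodule.smul_mem _ _ (T.t_mem_M ..))

/-- The conjugates of long root elements of the first factor which preserve the decomposition. -/
theorem K0 {u v : U} (h : Ln f₁ u v) {s : f.Isom} (hs : s ∈ X)
    (hN : s * T.E h.qu h.uv * s⁻¹ ∈ T.N) : s ∈ T.N := by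
  set τ := s * T.E h.qu h.uv * s⁻¹ with hτ
  have e : ∀ x, τ ⊳ x = x + s ⊳ T.nn u v (s⁻¹ ⊳ x) := fun x => by
    rw [hτ, O.conj_apply, T.E_ln h, map_add, isom_apply_inv_apply]
  have m1 : ∀ x, τ ⊳ x - x ∈ f.act s (T.Λ u v) := fun x => by
    rw [e, add_sub_cancel_left]; exact f.apply_mem_act.2 (T.nn_mem ..)
  have := O.ntW
  have t1 : τ ≠ 1 := fun e1 => by
    obtain ⟨y, y1, y2⟩ := T.n₁.exists_perp_B_eq h.v0 1
    rw [f₁.mem_perp_span_singleton] at y1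
    obtain ⟨w₀, hw₀⟩ := exists_ne (0 : W)
    have := e (s ⊳ T.t y w₀)
    rw [e1, isom_inv_apply_apply, T.nn_apply] at this
    simp [y1, f₁.orth_symm y v, y2, T.t_ne_zero h.u0 hw₀] at this
  rcases T.pencil hN (fun x => by
    rw [e x, add_sub_cancel_left, e, isom_inv_apply_apply, T.nn_Λ h (T.nn_mem ..)]; simp) with
    ⟨A, hA⟩ | ⟨C, hC⟩
  · obtain ⟨a, ha⟩ : ∃ a, A a ≠ 0 := by
      by_contra H
      push Not at H
      exact t1 (T.ext fun v w => by simp [hA, H])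
    exact O.DL h ha hs fun w => by simpa [hA] using m1 (T.t a w)
  exfalso
  have m3 : ∀ v' w, T.t v' (C w) ∈ f.act s (T.Λ u v) := fun v w => by simpa [hC] using m1 (T.t v w)
  obtain ⟨v₀, h₀⟩ := T.exists_one h.u0
  have cc : ∀ w w', f₂.B (C w) (C w') = 0 := fun w w' => by
    have := (T.mem_perp_Λ h).2 (T.nn_Λ h (f.mem_act.1 (m3 v₀ w'))) _ (f.mem_act.1 (m3 u w))
    rwa [B_coe_map, T.B_t, h₀, one_mul] at this
  have sk : ∀ w w', f₂.B (C w) w' = -f₂.B w (C w') := fun w w' => by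
    have := f.B_coe_map τ (T.t u w) (T.t v₀ w')
    simp only [hC, map_add, B_add_left, T.B_t, h₀, cc] at this
    linear_combination this
  have s0 : ∀ w, f₂.B w (C w) = 0 := fun w => mul_left_cancel₀ T.two (by
    have := sk w w
    rw [f₂.orth_symm w] at this
    linear_combination this)
  obtain ⟨a, ha⟩ : ∃ a, C a ≠ 0 := by
    by_contra H
    push Not at H
    exact t1 (T.ext fun v w => by simp [hC, H])
  obtain ⟨b, hb⟩ := T.n₂.exists_B_ne_zero ha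
  have hb' : f₂.B a (C b) ≠ 0 := by rwa [sk, neg_ne_zero] at hb
  let ψ : U × U →ₗ[F] V := (T.t.flip (C a)).coprod (T.t.flip (C b))
  have d1 : finrank F (LinearMap.range ψ) = 2 * finrank F U := by
    rw [LinearMap.finrank_range_of_inj, finrank_prod, two_mul]
    refine (injective_iff_map_eq_zero _).2 fun p hp => Prod.ext ?_ ?_
    · simpa [ψ, s0, f₂.orth_symm (C a) b, hb] using congrArg (T.cw b) hp
    · simpa [ψ, s0, hb'] using congrArg (T.cw a) hp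
  have le : LinearMap.range ψ ≤ f.act s (T.Λ u v) := by
    rintro _ ⟨p, rfl⟩
    exact Submodule.add_mem _ (m3 ..) (m3 ..)
  have d2 := Submodule.finrank_mono le
  rw [d1, finrank_act, T.finrank_Λ h] at d2
  have := O.ab
  omega

end Ov

end CA.OO
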