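import Cfsg.Agent.Lib.Lin.SL2Dickson
import Cfsg.Agent.Lib.Lin.SL2Unip
import Cfsg.Agent.Lib.Lin.CFormStab

/-!
Overgroups of the tensor product of two orthogonal groups, part five: the group generated by two
quadratic elements.
-/

set_option autoImplicit false
set_option linter.unusedSectionVars false

namespace CA.OO

open CA.CForm CA.CForm.Form Module Polynomial
open scoped MatrixGroups

local notation:75 g:76 " ⊳ " v:75 => (Subtype.val g) v

open CA.SL2Unip CA.SL2Dickson CA.SL2Embed in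
theorem neg_one_mem {K : Type*} [Field K] [Finite K] (h2 : (2 : K) ≠ 0) (H : Subgroup SL(2, K))
    {θ : K} (h0 : θ ≠ 0) (ha : u θ ∈ H) (hb : l 1 ∈ H) : -1 ∈ H := by
  classical
  obtain ⟨p, hp⟩ := CharP.exists K
  have : Fact p.Prime := ⟨CharP.char_is_prime K p⟩
  have p2 : p ≠ 2 := by
    rintro rfl
    exact h2 (CharP.cast_eq_zero K 2)
  have e1 : ∀ n : ℕ, u θ ^ n = u (n * θ) := fun n => by
    induction n with
    | zero => simp
    | succ n ih => rw [pow_succ, ih, ← u_add]; congr 1; push_cast; ring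
  have e2 : ∀ n : ℕ, l (1 : K) ^ n = l (n : K) := fun n => by
    induction n with
    | zero => simp
    | succ n ih => rw [pow_succ, ih, ← l_add]; congr 1; push_cast; ring
  let f := algebraMap K (AlgebraicClosure K)
  obtain ⟨x, y, hx, hy, hxy⟩ := exists_uni_ne f p p2 (a := u θ) (b := l 1) (m := 1) (n := 1)
    (by simp [e1]) (by simp [e2]) fun e => h0 (by
      simpa [sl_mul_apply] using congrArg (fun g : SL(2, K) => g.1 0 0) e)
  have : Finite (H.map (piS f)) := Finite.of_surjective _ ((piS f).subgroupMap_surjective H)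
  obtain ⟨γ, hγ⟩ := exists_psl2p p p2 (H.map (piS f)) ⟨_, ha, rfl⟩ ⟨_, hb, rfl⟩ hx hy hxy
  exact (exists_sl_le _ f H γ hγ).1

variable {F : Type*} [Field F] {V : Type*} [AddCommGroup V] [Module F V]

theorem exists_irred {φ : End F V} {S : Submodule F V} (hS : S ≤ S.comap φ) (P : F[X]) (hP : P ≠ 0)
    {y : V} (hy : y ∈ S) (y0 : y ≠ 0) (e : aeval φ P y = 0) :
    ∃ g : F[X], Irreducible g ∧ ∃ z ∈ S, z ≠ 0 ∧ aeval φ g z = 0 := by
  induction P using WfDvdMonoid.induction_on_irreducible with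
  | zero => exact absurd rfl hP
  | unit v hv =>
    obtain ⟨c, hc, rfl⟩ := Polynomial.isUnit_iff.1 hv
    simp [hc.ne_zero, y0] at e
  | mul a i a0 hi ih =>
    by_cases h : aeval φ a y = 0
    · exact ih a0 h
    · exact ⟨i, hi, _, aeval_apply_smul_mem_of_le_comap hy a φ hS, h, by simpa using e⟩

theorem surj_on [FiniteDimensional F V] {S : Submodule F V} {ψ : End F V} (h1 : ∀ x ∈ S, ψ x ∈ S)
    (h2 : ∀ x ∈ S, ψ x = 0 → x = 0) {y : V} (hy : y ∈ S) : ∃ x ∈ S, ψ x = y := by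
  obtain ⟨x, hx⟩ := LinearMap.injective_iff_surjective.1 (show Function.Injective (ψ.restrict h1) from
    (injective_iff_map_eq_zero _).2 fun x e => Subtype.ext (h2 x x.2 (congrArg Subtype.val e)))
    ⟨y, hy⟩
  exact ⟨x, x.2, congrArg Subtype.val hx⟩

variable {k : Kind F} {f : Form k V}

/-- `γ` acts on `S + n S` through a matrix of polynomials in `n' n`. -/
structure AB (n n' : End F V) (S : Submodule F V) (γ : f.Isom) (a b c d : F[X]) : Prop where
  det : a * d - b * c = 1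
  fix : ∀ x, n x = 0 → n' x = 0 → γ ⊳ x = x
  c0 : ∀ y ∈ S, γ ⊳ y = aeval (n' * n) a y + n (aeval (n' * n) c y)
  c1 : ∀ y ∈ S, γ ⊳ n y = aeval (n' * n) b y + n (aeval (n' * n) d y)

variable {n n' : End F V} {S : Submodule F V} {γ γ' : f.Isom} {a b c d a' b' c' d' : F[X]}

theorem AB.app (hS : S ≤ S.comap (n' * n)) (h : AB n n' S γ a b c d) {y : V} (hy : y ∈ S)
    (P R : F[X]) : γ ⊳ (aeval (n' * n) P y + n (aeval (n' * n) R y)) =
      aeval (n' * n) (a * P + b * R) y + n (aeval (n' * n) (c * P + d * R) y) := by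
  rw [map_add, h.c0 _ (aeval_apply_smul_mem_of_le_comap hy P _ hS),
    h.c1 _ (aeval_apply_smul_mem_of_le_comap hy R _ hS)]
  simp only [map_add, map_mul, LinearMap.add_apply, End.mul_apply]
  abel

theorem AB.mul (hS : S ≤ S.comap (n' * n)) (h : AB n n' S γ a b c d)
    (h' : AB n n' S γ' a' b' c' d') :
    AB n n' S (γ * γ') (a * a' + b * c') (a * b' + b * d') (c * a' + d * c') (c * b' + d * d') where
  det := by linear_combination (a' * d' - b' * c') * h.det + h'.det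
  fix x e e' := by rw [isom_mul_apply, h'.fix x e e', h.fix x e e']
  c0 y hy := by rw [isom_mul_apply, h'.c0 y hy, h.app hS hy]
  c1 y hy := by rw [isom_mul_apply, h'.c1 y hy, h.app hS hy]

theorem AB.inv (hS : S ≤ S.comap (n' * n)) (h : AB n n' S γ a b c d) :
    AB n n' S γ⁻¹ d (-b) (-c) a where
  det := by linear_combination h.det
  fix x e e' := by conv_lhs => rw [← h.fix x e e', isom_inv_apply_apply]
  c0 y hy := γ.1.injective (by
    rw [isom_apply_inv_apply, h.app hS hy, show a * d + b * -c = 1 by linear_combination h.det,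
      show c * d + d * -c = 0 by ring]; simp)
  c1 y hy := γ.1.injective (by
    rw [isom_apply_inv_apply, h.app hS hy, show c * -b + d * a = 1 by linear_combination h.det,
      show a * -b + b * a = 0 by ring]; simp)

theorem AB.delta (hS : S ≤ S.comap (n' * n)) (h : AB n n' S γ a b c d) (nn : ∀ x, n (n x) = 0)
    (h2 : (2 : F) ≠ 0) (h1 : ∀ y ∈ S, ∀ z ∈ S, y + n z = 0 → y = 0 ∧ z = 0)
    (cm : ∀ x, n (γ ⊳ n (γ⁻¹ ⊳ x)) = γ ⊳ n (γ⁻¹ ⊳ n x)) {y : V} (hy : y ∈ S) :
    aeval (n' * n) b y = 0 := by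
  have m := fun P => aeval_apply_smul_mem_of_le_comap hy P _ hS
  have e := cm y
  rw [(h.inv hS).c0 y hy, (h.inv hS).c1 y hy, map_add n, map_add n, nn, nn, add_zero, add_zero,
    h.c1 _ (m _), h.c1 _ (m _), map_add n, nn, add_zero] at e
  obtain ⟨e1, e2⟩ := h1 _ (m (b * b)) _ (m (2 * (b * d))) (by
    rw [← sub_eq_zero.2 e, two_mul, show b * d + b * d = b * d - d * (-b) by ring]
    simp only [map_sub, map_mul, map_neg, LinearMap.sub_apply, LinearMap.neg_apply, End.mul_apply]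
    abel)
  have e3 : aeval (n' * n) (b * d) y = 0 := smul_right_injective V h2 (by
    simpa [two_mul, two_smul] using e2)
  rw [show b = a * (b * d) - c * (b * b) by linear_combination (-b) * h.det, map_sub, map_mul _ a,
    map_mul _ c, LinearMap.sub_apply, End.mul_apply, End.mul_apply, e1, e3]
  simp

theorem exists_neg [Finite F] [FiniteDimensional F V] (h2 : (2 : F) ≠ 0) {G : Subgroup f.Isom}
    (hS : S ≤ S.comap (n' * n)) (S0 : S ≠ ⊥) (nn : ∀ x, n (n x) = 0) (h0 : ∀ y ∈ S, n' y = 0)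
    (hi : ∀ y ∈ S, n' (n y) = 0 → y = 0) {r r' : f.Isom} (hr : r ∈ G) (hr' : r' ∈ G)
    (er : ∀ x, r ⊳ x = x + n x) (er' : ∀ x, r' ⊳ x = x + n' x) :
    ∃ γ ∈ G, ∃ a b c d, AB n n' S γ a b c d ∧ ∃ y ∈ S, y ≠ 0 ∧ γ ⊳ y = -y ∧ γ ⊳ n y = -n y := by
  obtain ⟨y₁, hy₁, y0⟩ := Submodule.exists_mem_ne_zero_of_ne_bot S0
  obtain ⟨g, hg, y, hy, z0, ez⟩ := exists_irred hS _ (n' * n).charpoly_monic.ne_zero hy₁ y0 (by
    rw [LinearMap.aeval_self_charpoly]; rfl)
  have : Fact (Irreducible g) := ⟨hg⟩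
  have := (AdjoinRoot.powerBasis hg.ne_zero).finite
  have := Module.finite_of_finite F (M := AdjoinRoot g)
  have z : ∀ P, AdjoinRoot.mk g P = 0 → aeval (n' * n) P y = 0 := fun P hP => by
    obtain ⟨R, rfl⟩ := AdjoinRoot.mk_eq_zero.1 hP
    rw [mul_comm, map_mul, End.mul_apply, ez, map_zero]
  let H : Subgroup SL(2, AdjoinRoot g) :=
    { carrier := {M | ∃ γ ∈ G, ∃ a b c d, AB n n' S γ a b c d ∧ M.1 0 0 = AdjoinRoot.mk g a ∧
        M.1 0 1 = AdjoinRoot.mk g b ∧ M.1 1 0 = AdjoinRoot.mk g c ∧ M.1 1 1 = AdjoinRoot.mk g d}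
      one_mem' := ⟨1, G.one_mem, 1, 0, 0, 1, ⟨by simp, fun _ _ _ => rfl, by simp, by simp⟩, by simp⟩
      mul_mem' := fun ⟨γ, h, a, b, c, d, e, e1, e2, e3, e4⟩ ⟨γ', h', a', b', c', d', e', f1, f2, f3, f4⟩ =>
        ⟨_, G.mul_mem h h', _, _, _, _, e.mul hS e', by
          simp [CA.SL2Unip.sl_mul_apply, e1, e2, e3, e4, f1, f2, f3, f4]⟩
      inv_mem' := fun ⟨γ, h, a, b, c, d, e, e1, e2, e3, e4⟩ =>
        ⟨_, G.inv_mem h, _, _, _, _, e.inv hS, by
          simp [Matrix.adjugate_fin_two, e1, e2, e3, e4]⟩ }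
  obtain ⟨γ, h, a, b, c, d, e, e1, e2, e3, e4⟩ := neg_one_mem (by
      rw [← map_ofNat (algebraMap F (AdjoinRoot g)) 2]; exact (_root_.map_ne_zero _).2 h2) H
    (θ := AdjoinRoot.mk g X) (fun e => z0 (hi y hy (by simpa using z _ e)))
    ⟨r', hr', 1, X, 0, 1, ⟨by simp, fun x _ e => by simp [er', e], fun y hy => by simp [er', h0 y hy],
      fun y _ => by simp [er', add_comm]⟩, by simp⟩
    ⟨r, hr, 1, 0, 1, 1, ⟨by simp, fun x e _ => by simp [er, e], fun y _ => by simp [er],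
      fun y _ => by simp [er, nn]⟩, by simp⟩
  have f1 := z (a + 1) (by simp [← e1])
  have f2 := z b (by simp [← e2])
  have f3 := z c (by simp [← e3])
  have f4 := z (d + 1) (by simp [← e4])
  simp only [map_add, map_one, LinearMap.add_apply, End.one_apply, add_eq_zero_iff_eq_neg] at f1 f4
  exact ⟨γ, h, a, b, c, d, e, y, hy, z0, by simp [e.c0 y hy, f1, f3], by simp [e.c1 y hy, f2, f4]⟩

end CA.OO
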