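import Cfsg.Agent.Lib.Lin.MaxO4
import Cfsg.Agent.Lib.Lin.MaxO5
import Cfsg.Agent.Lib.Lin.MaxS3

/-!
Overgroups of the tensor product of two orthogonal groups, part six: a proper overgroup preserves
the tensor decomposition.
-/

set_option autoImplicit false
set_option linter.unusedSectionVars false

namespace CA.OO

open CA.CForm CA.CForm.Form Module

local notation:75 g:76 " ⊳ " v:75 => (Subtype.val g) v

variable {F : Type*} [Field F] [Finite F] {U W V : Type*} [AddCommGroup U] [Module F U]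
  [AddCommGroup W] [Module F W] [AddCommGroup V] [Module F V] [FiniteDimensional F U]
  [FiniteDimensional F W] [FiniteDimensional F V]
  {f₁ : Form (Kind.orth F) U} {f₂ : Form (Kind.orth F) W} {f : Form (Kind.orth F) V}

theorem exists_ln (hf : f₁.Nondeg) (h5 : 5 ≤ finrank F U) {u k : U} (u0 : u ≠ 0) (qu : f₁.Q u = 0)
    (uk : f₁.B u k = 0) (qk : f₁.Q k ≠ 0) : ∃ v, Ln f₁ u v ∧ f₁.B v k ≠ 0 := by
  obtain ⟨u', hh⟩ := hf.exists_isHyp qu u0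
  obtain ⟨v, v1, v2, v3⟩ := exists_sing_ne hf (hyp_disj hf hh) (y := k)
    (by have := hh.finrank_perp; omega) (by
      rw [hf.perp_perp]
      intro h
      obtain ⟨a, b, rfl⟩ := Submodule.mem_span_pair.1 h
      simp only [map_add, map_smul, hh.B_xx, hh.B_xy, smul_eq_mul, mul_zero, mul_one,
        zero_add] at uk
      simp [uk, f₁.orth_Q_smul, qu] at qk)
  refine ⟨v, ⟨qu, v2, (f₁.mem_perp_span_pair.1 v1).1, u0, fun h => ?_⟩, v3⟩
  obtain ⟨a, rfl⟩ := Submodule.mem_span_singleton.1 h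
  simp [uk] at v3

theorem finrank_lt_of {I A B : Submodule F V} (h1 : I ≤ A) (h2 : I ≤ B) {x : V} (x1 : x ∈ A)
    (x2 : x ∈ B) (x3 : x ∉ I) : finrank F I < finrank F (A ⊓ B : Submodule F V) :=
  Submodule.finrank_lt_finrank_of_lt (lt_of_le_of_ne (le_inf h1 h2) fun e => x3 (e ▸ ⟨x1, x2⟩))

namespace Oo
variable (T : Oo f₁ f₂ f)

theorem nf {u v p : U} (uu : f₁.B u u = 0) (vv : f₁.B v v = 0) (uv : f₁.B u v = 0)
    (hp : p ∈ Submodule.span F {u, v}) (p0 : p ≠ 0) :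
    f₁.B p p = 0 ∧ ∃ q, f₁.B p q = 0 ∧ T.nn u v = T.nn p q := by
  obtain ⟨a, b, rfl⟩ := Submodule.mem_span_pair.1 hp
  have vu := f₁.eq_zero_symm uv
  refine ⟨by simp [uu, vv, uv, vu], ?_⟩
  by_cases a0 : a = 0
  · have b0 : b ≠ 0 := by rintro rfl; simp [a0] at p0
    refine ⟨(-b⁻¹) • u, by simp [uu, vu], LinearMap.ext fun x => ?_⟩
    simp only [nn_apply, a0, zero_smul, zero_add, cu_smul, map_smul, LinearMap.smul_apply]
    match_scalars <;> field_simp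
  · refine ⟨a⁻¹ • v, by simp [vv, uv], LinearMap.ext fun x => ?_⟩
    simp only [nn_apply, cu_add, cu_smul, map_smul, map_add, LinearMap.smul_apply,
      LinearMap.add_apply]
    match_scalars <;> field_simp <;> ring

theorem nn_comm {p q q' : U} (pp : f₁.B p p = 0) (h : f₁.B p q = 0) (h' : f₁.B p q' = 0) (x : V) :
    T.nn p q (T.nn p q' x) = T.nn p q' (T.nn p q x) := by
  simp [nn_apply, pp, h, h', f₁.eq_zero_symm h, f₁.eq_zero_symm h', f₁.orth_symm q q']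

theorem N_conj [Nontrivial W] {γ : f.Isom} (h : γ ∈ T.N) : ∃ (g : U ≃ₗ[F] U) (c : F),
    (∀ a b, f₁.B a b = c * f₁.B (g a) (g b)) ∧
    (∀ u v x, γ ⊳ T.nn u v x = c • T.nn (g u) (g v) (γ ⊳ x)) ∧
    ∀ u v, ∀ x ∈ T.Λ u v, γ ⊳ x ∈ T.Λ (g u) (g v) := by
  obtain ⟨g, h, e⟩ := h
  obtain ⟨w, hw⟩ := exists_ne (0 : W)
  obtain ⟨w', hw'⟩ := T.swap.exists_one hw
  have e1 : ∀ a b, f₁.B a b = f₂.B (h w) (h w') * f₁.B (g a) (g b) := fun a b => by
    have := f.B_coe_map γ (T.t a w) (T.t b w')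
    rw [e, e, B_t, B_t, hw', mul_one] at this
    rw [← this, mul_comm]
  refine ⟨g, _, e1, fun u v x => ?_, fun u v x hx => ?_⟩
  · induction x using T.ind with
    | ht a z =>
      simp only [nn_apply, cu_t, map_sub, map_smul, e, e1 u, e1 v, mul_smul, smul_sub]
    | hadd a b ha hb => simp only [map_add, ha, hb, smul_add]
  · obtain ⟨a, b, rfl⟩ := T.mem_Λ.1 hx
    exact T.mem_Λ.2 ⟨h a, h b, by rw [map_add, e, e]⟩

end Oo

variable {T : Oo f₁ f₂ f} {X : Subgroup f.Isom}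

namespace Ov
variable (O : Ov T X)
include O

theorem pair {s : f.Isom} (hs : s ∈ X) (sN : s ∉ T.N) {u' v' u v : U} (l' : Ln f₁ u' v')
    (l : Ln f₁ u v) (MP : ∀ k ∈ X, ∀ u₁ v₁ u₂ v₂, Ln f₁ u₁ v₁ → Ln f₁ u₂ v₂ →
      finrank F (f.act s (T.Λ u' v') ⊓ T.Λ u v : Submodule F V) <
        finrank F (f.act k (T.Λ u₁ v₁) ⊓ T.Λ u₂ v₂ : Submodule F V) → k ∈ T.N) :
    f.act s (T.Λ u' v') ⊓ T.Λ u v = ⊥ ∧ (∀ y ∈ f.act s (T.Λ u' v'), T.nn u v y = 0 → y = 0) ∧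
      ∃ k, k ≠ 0 ∧ (∀ y ∈ f.act s (T.Λ u' v'), T.cu k y = 0) ∧ f₁.B u k = 0 ∧ f₁.B v k = 0 := by
  have h2 := T.two
  have := O.ntW
  let n' : End F V := (s.1 : V →ₗ[F] V) ∘ₗ T.nn u' v' ∘ₗ ((s⁻¹).1 : V →ₗ[F] V)
  have en : ∀ x, n' x = s ⊳ T.nn u' v' (s⁻¹ ⊳ x) := fun _ => rfl
  clear_value n'
  have rX := O.E_mem l.qu l.uv
  have rX' := X.mul_mem (X.mul_mem hs (O.E_mem l'.qu l'.uv)) (X.inv_mem hs)
  have er := T.E_ln l
  have er' : ∀ x, (s * T.E l'.qu l'.uv * s⁻¹) ⊳ x = x + n' x := fun x => by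
    rw [O.conj_apply, T.E_ln l', map_add, isom_apply_inv_apply, en]
  have me := T.nn_mem u v
  have me' : ∀ x, n' x ∈ f.act s (T.Λ u' v') := fun x => by
    rw [en]; exact f.apply_mem_act.2 (T.nn_mem ..)
  have ts := fun x => T.nn_Λ l (x := x)
  have ts' : ∀ x ∈ f.act s (T.Λ u' v'), n' x = 0 := fun x hx => by
    rw [en, T.nn_Λ l' (f.mem_act.1 hx), map_zero]
  have kr := fun x => T.mem_perp_Λ l (x := x)
  have kr' : ∀ x, x ∈ f.perp (f.act s (T.Λ u' v')) ↔ n' x = 0 := fun x => by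
    rw [← act_perp, mem_act, T.mem_perp_Λ l', en, s.1.map_eq_zero_iff]
  have K' : ∀ y ∈ T.Λ u v, n' y ∈ T.Λ u v → y ∈ f.act s (T.Λ u' v') := fun y hy hn => by
    by_contra H
    refine sN (O.K0 l' hs (MP _ rX' u v u v l l (finrank_lt_of (fun x hx => ?_) inf_le_right
      (f.apply_mem_act.2 hy) (by rw [er']; exact add_mem hy hn) fun e => H ?_)))
    · simpa only [er', ts' x hx.1, add_zero] using
        (f.apply_mem_act (g := s * T.E l'.qu l'.uv * s⁻¹)).2 hx.2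
    · simpa only [er', add_sub_cancel_right] using sub_mem e.1 (me' y)
  have K : ∀ y ∈ f.act s (T.Λ u' v'), T.nn u v y ∈ f.act s (T.Λ u' v') → y ∈ T.Λ u v :=
    fun y hy hn => by
      by_contra H
      refine sN (T.N.inv_mem_iff.1 (O.K0 l (X.inv_mem hs) (MP _
        (X.mul_mem (X.mul_mem (X.inv_mem hs) rX) (X.inv_mem (X.inv_mem hs))) u' v' u' v' l' l' ?_)))
      rw [← f.finrank_act s (_ ⊓ T.Λ u' v'), act_inf, ← act_mul, inv_inv, ← mul_assoc,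
        mul_inv_cancel_left, act_mul]
      refine finrank_lt_of (fun x hx => ?_) inf_le_left
        (f.apply_mem_act.2 hy) (by rw [er]; exact add_mem hy hn) fun e => H ?_
      · simpa [er, ts x hx.2] using (f.apply_mem_act (g := T.E l.qu l.uv)).2 hx.1
      · simpa [er] using sub_mem e.2 (me y)
  have dL' : finrank F (f.act s (T.Λ u' v')) = 2 * finrank F W := by
    rw [finrank_act, T.finrank_Λ l']
  have DL := fun h => sN (O.DL l' l.u0 hs h)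
  generalize f.act s (T.Λ u' v') = L' at *
  set n := T.nn u v with hn
  set S := (T.Λ u v).map n' with hS'
  have hS : S ≤ S.comap (n' * n) := fun y _ => ⟨_, me y, rfl⟩
  have F1 : ∀ y ∈ S, y ∈ T.Λ u v → y = 0 := by
    rintro _ ⟨z, hz, rfl⟩ h
    exact ts' _ (K' z hz h)
  have SL : ∀ y ∈ S, y ∈ L' := by rintro _ ⟨z, -, rfl⟩; exact me' z
  have Fn : ∀ y ∈ S, n y ∈ L' → y = 0 := fun y hy h => F1 y hy (K y (SL y hy) h)
  have hi : ∀ y ∈ S, n' (n y) = 0 → y = 0 := fun y hy h =>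
    Fn y hy (K' _ (me y) (h ▸ zero_mem _))
  have S0 : S ≠ ⊥ := fun e => DL fun w => by
    have h : T.t u w ∈ T.Λ u v := T.mem_Λ.2 ⟨w, 0, by simp⟩
    have : n' (T.t u w) = 0 := (Submodule.eq_bot_iff _).1 e _ ⟨_, h, rfl⟩
    exact K' _ h (this ▸ zero_mem _)
  have F3 : ∀ x, n x = 0 → ∃ y ∈ S, n' (x - n y) = 0 := fun x hx => by
    have : x ∈ f.perp (f.perp (T.Λ u v) ⊓ L') := fun z hz =>
      (kr x).2 hx z (K z hz.2 ((kr z).1 hz.1 ▸ zero_mem _))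
    rw [T.n.perp_inf, T.n.perp_perp] at this
    obtain ⟨a, ha, b, hb, rfl⟩ := Submodule.mem_sup.1 this
    obtain ⟨y, hy, e⟩ := surj_on (ψ := n' * n) hS hi (y := n' a) ⟨a, ha, rfl⟩
    exact ⟨y, hy, by rw [map_sub, map_add, (kr' b).1 hb, add_zero, ← e]; simp⟩
  have nn := fun x => ts _ (me x)
  obtain ⟨γ, hγ, a, b, c, d, ab, y₀, hy₀, y0, g1, g2⟩ :=
    exists_neg h2 hS S0 nn (fun y hy => ts' y (SL y hy)) hi rX rX' er er'
  have ny0 : n y₀ ≠ 0 := fun e => y0 (Fn _ hy₀ (e ▸ zero_mem _))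
  have γN : γ ∈ T.N := MP γ hγ u v u v l l (finrank_lt_of (fun x hx => by
      simpa [ab.fix x (ts x hx.2) (ts' x hx.1)] using (f.apply_mem_act (g := γ)).2 hx.2)
    inf_le_right (f.apply_mem_act.2 (me y₀)) (by rw [g2]; exact neg_mem (me y₀)) fun e =>
      y0 (Fn _ hy₀ (by simpa [g2] using e.1)))
  have uu := f₁.B_self_of_Q l.qu
  have vv := f₁.B_self_of_Q l.qv
  have cm : ∀ x, n (γ ⊳ n (γ⁻¹ ⊳ x)) = γ ⊳ n (γ⁻¹ ⊳ n x) := fun x => by
    obtain ⟨g, c, e1, e2, e3⟩ := T.N_conj γN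
    obtain ⟨v₀, h₀⟩ := T.exists_one l.u0
    have c0 : c ≠ 0 := by rintro rfl; rw [e1, zero_mul] at h₀; exact zero_ne_one h₀
    have e4 : ∀ a b, f₁.B a b = 0 → f₁.B (g a) (g b) = 0 := fun a b e =>
      (mul_eq_zero.1 ((e1 a b).symm.trans e)).resolve_left c0
    obtain ⟨w, hw⟩ := T.exists_cw ny0
    obtain ⟨pp, q, pq, f1⟩ := T.nf uu vv l.uv (T.cw_mem (me y₀) w) hw
    obtain ⟨-, q', pq', f2⟩ := T.nf (e4 _ _ uu) (e4 _ _ vv) (e4 _ _ l.uv)
      (T.cw_mem (by simpa [g2] using e3 u v _ (me y₀)) w) hw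
    rw [hn, e2, e2, isom_apply_inv_apply, isom_apply_inv_apply, map_smul, f1, f2,
      T.nn_comm pp pq pq']
  have δ := fun y hy => ab.delta hS nn h2 (fun y hy z hz e => by
    have e1 := F1 y hy (by rw [eq_neg_of_add_eq_zero_left e]; exact neg_mem (me z))
    exact ⟨e1, Fn z hz (by rw [e1, zero_add] at e; exact e ▸ zero_mem _)⟩) cm (y := y) hy
  have dec : ∀ x, n x = 0 → ∃ y ∈ S, n' (x - n y) = 0 ∧ γ ⊳ x - x = γ ⊳ n y - n y := fun x hx => by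
    obtain ⟨y, hy, e⟩ := F3 x hx
    have := ab.fix _ (by rw [map_sub, hx, nn, sub_zero]) e
    exact ⟨y, hy, e, by rw [map_sub] at this; rw [sub_eq_sub_iff_sub_eq_sub, this]⟩
  have tr : ∀ x, n x = 0 → γ ⊳ x - x ∈ T.Λ u v := fun x hx => by
    obtain ⟨y, hy, -, e⟩ := dec x hx
    rw [e, ab.c1 y hy, δ y hy, zero_add]
    exact sub_mem (me _) (me _)
  obtain ⟨g, hg⟩ : ∃ g : U →ₗ[F] U, ∀ u w, γ ⊳ T.t u w = T.t (g u) w := by
    obtain ⟨p, p1, p2, qp⟩ := exists_ns2 T.n₁ O.a5 u v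
    refine T.lin_of_fix γN (p := p) (z := (2 * f₁.Q p)⁻¹ • p) fun w => ?_
    have := T.cu_Λ (f₁.eq_zero_symm p1) (f₁.eq_zero_symm p2)
      (tr (T.t p w) (by simp [hn, T.nn_apply, p1, p2]))
    rw [map_sub, sub_eq_zero] at this
    rw [T.cu_smul, this, T.cu_t, f₁.orth_B_self, inv_smul_smul₀ (mul_ne_zero h2 qp)]
  have fx : ∀ x w, γ ⊳ x = x → ∀ w', γ ⊳ T.t (T.cw w x) w' = T.t (T.cw w x) w' := fun x w e w' => by
    rw [hg, ← T.cw_lin hg, e]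
  have NF : ∀ x ∈ T.Λ u v, γ ⊳ x = x → x = 0 := fun x hx e => by
    by_contra x0
    obtain ⟨w, hw⟩ := T.exists_cw x0
    obtain ⟨-, q, -, f1⟩ := T.nf uu vv l.uv (T.cw_mem hx w) hw
    have e1 := T.cu_fix (fx x w e) y₀
    rw [g1, map_neg, neg_eq_iff_add_eq_zero, ← two_smul F, smul_eq_zero] at e1
    have e2 : γ ⊳ n y₀ = n y₀ := by
      rw [hn, f1, T.nn_apply, e1.resolve_left h2, map_zero, zero_sub, map_neg, fx x w e]
    rw [g2, neg_eq_iff_add_eq_zero, ← two_smul F, smul_eq_zero] at e2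
    exact e2.elim h2 ny0
  have I0 : ∀ x ∈ L', x ∈ T.Λ u v → x = 0 := fun x h h' => NF x h' (ab.fix x (ts x h') (ts' x h))
  refine ⟨(Submodule.eq_bot_iff _).2 fun x hx => I0 x hx.1 hx.2,
    fun y hy e => I0 y hy (K y hy (e ▸ zero_mem _)), ?_⟩
  obtain ⟨x, hx, x0⟩ := Submodule.exists_mem_ne_zero_of_ne_bot
    (p := f.perp (T.Λ u v) ⊓ f.perp L') fun e => by
      have d1 := Submodule.finrank_sup_add_finrank_inf_eq (f.perp (T.Λ u v)) (f.perp L')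
      have d2 := T.n.finrank_perp (T.Λ u v)
      have d3 := T.n.finrank_perp L'
      have d4 := Submodule.finrank_le (f.perp (T.Λ u v) ⊔ f.perp L')
      have d5 := T.finrank_eq
      have d6 := Nat.mul_le_mul_right (finrank F W) O.a5
      have := O.b3
      rw [e, finrank_bot] at d1
      rw [T.finrank_Λ l] at d2
      omega
  obtain ⟨w, hw⟩ := T.exists_cw x0
  have e1 := fx x w (ab.fix x ((kr x).1 hx.1) ((kr' x).1 hx.2))
  generalize T.cw w x = k at hw e1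
  have e2 : ∀ w, T.t k w ∈ f.perp (T.Λ u v) := fun w a ha => by
    obtain ⟨a', -, rfl⟩ := surj_on (ψ := (γ.1 : V →ₗ[F] V) - LinearMap.id)
      (fun x hx => tr x (ts x hx)) (fun x hx e => NF x hx (sub_eq_zero.1 e)) ha
    have := f.B_coe_map γ a' (T.t k w)
    rw [e1] at this
    simp [this]
  have e3 : ∀ w, T.t k w ∈ f.perp L' := fun w => by
    obtain ⟨y, -, f1, f2⟩ := dec _ ((kr _).1 (e2 w))
    rw [e1, sub_self, eq_comm, sub_eq_zero] at f2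
    rw [NF _ (me y) f2, sub_zero] at f1
    exact (kr' _).2 f1
  obtain ⟨w₀, hw₀⟩ := exists_ne (0 : W)
  obtain ⟨w₁, hw₁⟩ := T.swap.exists_one hw₀
  refine ⟨k, hw, fun y hy => T.n₂.eq_zero_right fun w => ?_, ?_, ?_⟩
  · rw [← T.B_cu]; exact f.eq_zero_symm (e3 w y hy)
  · simpa [T.B_t, hw₁] using e2 w₁ _ (T.mem_Λ.2 ⟨w₀, 0, by simp⟩ : T.t u w₀ ∈ T.Λ u v)
  · simpa [T.B_t, hw₁] using e2 w₁ _ (T.mem_Λ.2 ⟨0, w₀, by simp⟩ : T.t v w₀ ∈ T.Λ u v)

theorem exists_ln' {u : U} (u0 : u ≠ 0) (qu : f₁.Q u = 0) : ∃ v, Ln f₁ u v :=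
  let ⟨_, h1, h2⟩ := exists_ns1 T.n₁ O.a3 u
  let ⟨v, h, _⟩ := exists_ln T.n₁ O.a5 u0 qu h1 h2
  ⟨v, h⟩

/-- A proper overgroup of the two factors preserves the tensor decomposition. -/
theorem main : X ≤ T.N := fun s₀ hs₀ => by
  classical
  by_contra sN₀
  obtain ⟨u₀, u0, q₀⟩ := exists_sing (f := f₁) O.a3
  obtain ⟨v₀, l₀⟩ := O.exists_ln' u0 q₀
  let P : ℕ → Prop := fun d => ∃ s ∈ X, s ∉ T.N ∧ ∃ u' v' u v, Ln f₁ u' v' ∧ Ln f₁ u v ∧
    finrank F (f.act s (T.Λ u' v') ⊓ T.Λ u v : Submodule F V) = d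
  have mx : ∀ k ∈ X, ∀ u₁ v₁ u₂ v₂, Ln f₁ u₁ v₁ → Ln f₁ u₂ v₂ → Nat.findGreatest P (finrank F V) <
      finrank F (f.act k (T.Λ u₁ v₁) ⊓ T.Λ u₂ v₂ : Submodule F V) → k ∈ T.N :=
    fun k hk u₁ v₁ u₂ v₂ l₁ l₂ h => not_not.1 fun kN => h.not_ge
      (Nat.le_findGreatest (Submodule.finrank_le _) ⟨k, hk, kN, _, _, _, _, l₁, l₂, rfl⟩)
  obtain ⟨s, hs, sN, u', v', u, v, l', l, e⟩ := Nat.findGreatest_spec (P := P)
    (Submodule.finrank_le _) ⟨s₀, hs₀, sN₀, _, _, _, _, l₀, l₀, rfl⟩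
  rw [← e] at mx
  rw [(O.pair hs sN l' l mx).1, finrank_bot] at mx
  have H := fun u v (l : Ln f₁ u v) => (O.pair hs sN l' l fun k hk _ _ _ _ l₁ l₂ h =>
    mx k hk _ _ _ _ l₁ l₂ (Nat.zero_lt_of_lt h)).2
  have dL' : finrank F (f.act s (T.Λ u' v')) = 2 * finrank F W := by
    rw [finrank_act, T.finrank_Λ l']
  generalize f.act s (T.Λ u' v') = L' at H dL'
  let K : Submodule F U :=
    { carrier := {k | ∀ y ∈ L', T.cu k y = 0}
      add_mem' := fun ha hb y hy => by rw [T.cu_add, ha y hy, hb y hy, add_zero]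
      zero_mem' := fun y _ => by simpa using T.cu_smul 0 0 y
      smul_mem' := fun c a ha y hy => by rw [T.cu_smul, ha y hy, smul_zero] }
  have an : ∀ k ∈ K, k ≠ 0 → f₁.Q k ≠ 0 := fun k hk k0 qk => by
    obtain ⟨v, l⟩ := O.exists_ln' k0 qk
    have := LinearMap.finrank_le_finrank_of_injective (f := T.cu v ∘ₗ L'.subtype)
      ((injective_iff_map_eq_zero _).2 fun y e => Subtype.ext ((H k v l).1 y y.2 (by
        rw [T.nn_apply, hk y y.2, show T.cu v y = 0 from e]; simp)))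
    have := O.b3
    omega
  obtain ⟨k₀, n₀, m₀, -⟩ := (H _ _ l₀).2
  obtain ⟨a, -, qa, ha⟩ := exists_sing_ne T.n₁ (H12Tn.disj_top T.n₁) (by simpa using O.a3)
    (y := k₀) fun h => n₀ (Submodule.disjoint_def.1 (H12Tn.disj_top T.n₁) k₀ trivial h)
  have a0 : a ≠ 0 := by rintro rfl; simp at ha
  obtain ⟨b₁, l₁⟩ := O.exists_ln' a0 qa
  obtain ⟨k₁, n₁, m₁, e₁, -⟩ := (H _ _ l₁).2
  obtain ⟨b, l₂, hb⟩ := exists_ln T.n₁ O.a5 a0 qa e₁ (an k₁ m₁ n₁)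
  obtain ⟨k₂, n₂, m₂, e₂, e₃⟩ := (H _ _ l₂).2
  obtain ⟨z, z1, z2, z3⟩ := f₁.iso_orth K (three_le_finrank (u := k₂) (a := k₁) (z := k₀) m₂ m₁ m₀ n₂
    (fun h => by
      obtain ⟨c, rfl⟩ := Submodule.mem_span_singleton.1 h
      simp [e₃] at hb) fun h => by
      obtain ⟨c, d, rfl⟩ := Submodule.mem_span_pair.1 h
      simp [e₁, e₂] at ha)
  exact an z z1 z2 z3

end Ov

end CA.OO
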