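import Cfsg.Agent.Lib.Lin.MaxO6
import Cfsg.Agent.Lib.Lin.H12Tn8

/-! Maximality of the stabilisers of tensor decompositions of orthogonal spaces into two
orthogonal spaces of different dimensions, in terms of matrices. -/

set_option autoImplicit false
set_option linter.unusedSectionVars false

namespace CA.OO

open CA.CForm CA.CForm.Form CA.MaxGL CA.AschFG CA.AschTForm CA.AschKron CA.AschForm CA.AschO1 Module
  TensorProduct Cfsg Cfsg.Geo Matrix
open CA.H12Tn (pe pe_tmul form_pe mem_tensor_iff)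
open CA.H12Ss (orth_eichler_apply)
open scoped Kronecker

local notation:75 g:76 " ⊳ " v:75 => (Subtype.val g) v

variable {F : Type*} [Field F]

section
variable [Finite F] {U W V : Type*} [AddCommGroup U] [Module F U] [AddCommGroup W] [Module F W]
  [AddCommGroup V] [Module F V] [FiniteDimensional F U] [FiniteDimensional F W]
  [FiniteDimensional F V]
  {f₁ : Form (Kind.orth F) U} {f₂ : Form (Kind.orth F) W} {f : Form (Kind.orth F) V}

theorem Oo.not_le (T : Oo f₁ f₂ f) (h5 : 5 ≤ finrank F U) (h3 : 3 ≤ finrank F W) :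
    ¬f.Eich ≤ T.N := fun H => by
  obtain ⟨u, hu, qu⟩ := exists_sing (f := f₁) (by omega)
  obtain ⟨y, y1, y2⟩ := exists_ns1 T.n₁ (by omega) u
  obtain ⟨v, l, -⟩ := exists_ln T.n₁ h5 hu qu y1 y2
  obtain ⟨w, hw, -⟩ := exists_sing (f := f₂) h3
  obtain ⟨w₁, h₁⟩ := T.swap.exists_one hw
  obtain ⟨w₂, h₂, q₂⟩ := exists_ns1 T.n₂ h3 w
  obtain ⟨p, h5, h6⟩ := T.n₁.exists_perp_B_eq' l.v0 1
  rw [f₁.mem_perp_span_singleton] at h5
  have c1 : f.EichlerCond (T.t u w) (T.t v w) 0 :=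
    ⟨T.Q_t₁ qu w, by simp [T.B_t, l.uv], (T.Q_t₁ l.qv w).symm⟩
  obtain ⟨g, k, e⟩ := H (f.eichler_mem_Eich _ _ _ c1)
  have e1 := e p w₂
  have e2 := e p w₁
  simp only [orth_eichler_apply, T.B_t, h₂, h5, h6, h₁, mul_zero, zero_smul, add_zero,
    sub_zero, mul_one, one_smul] at e1 e2
  obtain ⟨a, ha⟩ := T.smul_of_t_mem (u := p) (v := g p) (w := k w₂)
    (by rw [Ne, k.map_eq_zero_iff]; rintro rfl; simp at q₂) (e1 ▸ T.t_mem_M ..)
  obtain ⟨b, hb⟩ := T.smul_of_t_mem (u := p) (v := u) (w := w) hw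
    ⟨w₁ - a • k w₁, by rw [map_sub, map_smul, sub_eq_iff_eq_add', ← sub_eq_iff_eq_add, e2, ha]; simp⟩
  have := f₁.eq_zero_symm l.uv
  rw [hb, map_smul, h6, smul_eq_mul, mul_one] at this
  exact hu (by rw [hb, this, zero_smul])

theorem witt_one (h : ∀ S : Submodule F W, (∀ x ∈ S, f₂.Q x = 0) → finrank F S ≠ 2) (w z : W)
    (w0 : w ≠ 0) (qw : f₂.Q w = 0) (qz : f₂.Q z = 0) (e : f₂.B w z = 0) : z ∈ F ∙ w := by
  by_contra hn
  refine h (Submodule.span F {w, z}) (fun x hx => ?_) ?_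
  · obtain ⟨a, b, rfl⟩ := Submodule.mem_span_pair.1 hx
    simp [f₂.orth_Q_add, f₂.orth_Q_smul, qw, qz, e]
  · have := finrank_span_eq_card ((LinearIndependent.pair_iff' w0).2 fun a e =>
      hn (Submodule.mem_span_singleton.2 ⟨a, e⟩))
    rwa [Matrix.range_cons_cons_empty, Fintype.card_fin] at this

theorem Oo.max (T : Oo f₁ f₂ f) (h5 : 5 ≤ finrank F U) (h3 : 3 ≤ finrank F W)
    (ab : finrank F W < finrank F U) (hq : ¬(Nat.card F = 3 ∧ finrank F W = 3))
    (h4 : finrank F W = 4 → ∀ S : Submodule F W, (∀ x ∈ S, f₂.Q x = 0) → finrank F S ≠ 2)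
    {X : Subgroup f.Isom} (hX : T.N ⊓ f.Eich ≤ X) : X ≤ T.N ∨ f.Eich ≤ X := by
  have h3' : 3 ≤ finrank F V := by rw [T.finrank_eq]; nlinarith
  refine or_iff_not_imp_right.2 fun H => Ov.main
    ⟨fun g hg => hX ⟨T.kL_mem_N g, T.kL_mem_Eich (by omega) h3' hg⟩,
      fun g hg => hX ⟨T.kR_mem_N g, T.kR_mem_Eich h3 h3' hg⟩, H, h5, h3, ab, ?_, ?_⟩
  · by_cases e : finrank F W = 3
    · obtain ⟨j, hj⟩ := CA.SL2Basic.odd_card_of_two_ne_zero T.two
      have := Finite.one_lt_card (α := F)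
      exact .inr (H12Tn.exists_sq_ne_one (by omega))
    · exact .inl (by omega)
  · by_cases e : 5 ≤ finrank F W
    · exact .inl e
    refine .inr (witt_one fun S hS d => ?_)
    by_cases e4 : finrank F W = 4
    · exact h4 e4 S hS d
    have d1 := T.n₂.finrank_perp S
    have d2 : finrank F S ≤ finrank F (f₂.perp S) := Submodule.finrank_mono fun x hx y hy => by
      simpa [f₂.orth_Q_add, hS x hx, hS y hy] using hS _ (S.add_mem hy hx)
    omega

end

theorem orth_max_tensor [Fintype F] {ι : Type} [Fintype ι] [DecidableEq ι] {n₁ n₂ : ℕ}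
    {φ : Form (Kind.orth F) (ι → F)} (hφ : φ.Nondeg) (hodd : Odd (Fintype.card F))
    (h1 : 3 ≤ n₁) (h2 : 3 ≤ n₂) (h12 : n₁ ≠ n₂) (h13 : 13 ≤ Fintype.card ι) (h4 : n₁ ≠ 4)
    (hex : ¬(Fintype.card F = 3 ∧ n₁ = 3)) (hex' : n₂ ≠ 3)
    (e : ι ≃ Fin n₁ × Fin n₂) (P : GL ι F)
    {f₁ : (Fin n₁ → F) → (Fin n₁ → F) → F} {f₂ : (Fin n₂ → F) → (Fin n₂ → F) → F}
    (hf₁ : IsSymmetricForm f₁) (hf₂ : IsSymmetricForm f₂)
    (hm : n₂ = 4 → ¬IsPlusTypeOn (fun v => f₂ v v) ⊤)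
    (hT : IsTensorFormStructure id (QuadraticMap.polar φ.Q) f₁ f₂ e P) :
    IsMaximalIn (omegaGL φ.Q) (tensorProductSubgroup n₁ n₂ e P ⊓ omegaGL φ.Q) := by
  obtain ⟨c, c0, hc⟩ := hT
  have two := two_ne_zero_iff_odd.2 hodd
  have s₁ := (sf_of_symm hf₁).smul (c := 2⁻¹ * 2⁻¹ * c) (by simp [two, c0])
  have r₁ : Refl (RingHom.id F) 1 fun u v => 2⁻¹ * 2⁻¹ * c * f₁ u v := fun u v => by
    simp [hf₁.symm u v]
  have h₁ := quad_of_sf s₁ r₁ two
  have h₂ := quad_of_sf (sf_of_symm hf₂) (refl_of_symm hf₂) two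
  let T : Oo (toOrth h₁) (toOrth h₂) φ :=
    { e := pe ≪≫ₗ trv e P
      hB := fun u w u' w' => by
        have := form_pe (RingHom.id F) (gramMatrix f₁) (gramMatrix f₂) u u' w w'
        rw [← (sf_of_symm hf₁).eq_formOfGram, ← (sf_of_symm hf₂).eq_formOfGram] at this
        have pl : ∀ x y, φ.B x y = QuadraticMap.polar φ.Q x y := fun x y => by
          simp only [QuadraticMap.polar, φ.orth_Q_add]; ring
        rw [toOrth_B, toOrth_B, polar_diag (sf_of_symm hf₂) (refl_of_symm hf₂), polar_diag s₁ r₁, pl]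
        refine (hc _ _).trans ((congrArg (c * ·) this).trans ?_)
        field_simp
      n₁ := toOrth_nondeg _
      n₂ := toOrth_nondeg _
      n := hφ
      two := two }
  have hN : (tensorProductSubgroup n₁ n₂ e P).comap (toGL φ) = T.N := by
    ext s
    rw [Subgroup.mem_comap, mem_tensor_iff]
    simp only [toGL_mulVec]
    rfl
  have k := Fintype.card_congr e
  simp only [Fintype.card_fin, Fintype.card_prod] at k
  rw [omega_eq hφ (by omega)]
  rcases h12.lt_or_gt with h | h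
  · have h5 : 5 ≤ n₂ := by
      by_contra h'
      have : n₁ * n₂ ≤ 3 * 4 := Nat.mul_le_mul (by omega) (by omega)
      omega
    rw [← T.swap_N] at hN
    refine max_of (fun h => T.swap.not_le (by simpa) (by simpa) fun s hs => ?_) fun X hX _ => ?_
    · rw [← hN]; exact h ⟨s, hs, rfl⟩
    rw [hN] at *
    exact T.swap.max (by simpa) (by simpa) (by simpa) (by simpa using hex) (by simp [h4]) hX
  · have h5 : 5 ≤ n₁ := by omega
    refine max_of (fun h => T.not_le (by simpa) (by simpa) fun s hs => ?_) fun X hX _ => ?_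
    · rw [← hN]; exact h ⟨s, hs, rfl⟩
    rw [hN] at *
    refine T.max (by simpa) (by simpa) (by simpa) (by simp [hex']) (fun e4 S hS d => ?_) hX
    exact hm (by simpa using e4) ⟨S, le_top, hS, by rw [d, finrank_top, e4]⟩

end CA.OO
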