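import Cfsg.Agent.Lib.Lin.MaxP1
import Cfsg.Agent.Lib.Lin.MaxO6

/-!
The tensor product of orthogonal spaces of dimensions four and three: the involutions fixing
`U ⊗ z`.
-/

set_option autoImplicit false
set_option linter.unusedSectionVars false

namespace CA.OO

open CA.CForm CA.CForm.Form Module

local notation:75 g:76 " ⊳ " v:75 => (Subtype.val g) v

variable {F : Type*} [Field F] [Finite F] {U W V : Type*} [AddCommGroup U] [Module F U]
  [AddCommGroup W] [Module F W] [AddCommGroup V] [Module F V] [FiniteDimensional F U]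
  [FiniteDimensional F W] [FiniteDimensional F V]
  {f₁ : Form (Kind.orth F) U} {f₂ : Form (Kind.orth F) W} {f : Form (Kind.orth F) V}

theorem unip_three (h2 : (2 : F) ≠ 0) (hf : f₂.Nondeg) (h3 : finrank F W = 3) {h : End F W}
    (hB : ∀ x y, f₂.B (h x) (h y) = f₂.B x y) {z : W} (hz : h z = z) (qz : f₂.Q z ≠ 0) {p n : ℕ}
    [Fact p.Prime] [CharP F p] (hp : h ^ p ^ n = 1) : h = 1 := by
  have : Nontrivial W := finrank_pos_iff.1 (by omega : 0 < finrank F W)
  have : CharP (End F W) p := charP_of_injective_algebraMap (algebraMap F (End F W)).injective p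
  have key : ∀ y, (h - 1) ((h - 1) y) = 0 → (h - 1) y = 0 := fun y e => by
    by_contra v0
    have fx : ∀ x, h x = x → f₂.B x ((h - 1) y) = 0 := fun x e => by
      have := hB x y
      rw [e] at this
      simp [this]
    have hv : h ((h - 1) y) = (h - 1) y := by simpa [sub_eq_zero] using e
    have e1 : h y = y + (h - 1) y := by simp
    have e2 := fx _ hv
    have e3 := fx z hz
    have e4 := hB y y
    have e5 : ∀ a b : F, y ≠ a • (h - 1) y + b • z := fun a b e' => v0 (by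
      have := congrArg (h - 1 : End F W) e'
      rw [map_add, map_smul, map_smul, e] at this
      simpa [hz] using this)
    generalize (h - 1) y = v at *
    have e6 : f₂.B v y = 0 := mul_left_cancel₀ h2 (by
      rw [e1] at e4
      simp only [map_add, B_add_left, e2, f₂.orth_symm v y] at e4
      linear_combination e4)
    have d := hf.finrank_perp (F ∙ v)
    rw [finrank_span_singleton v0] at d
    have := three_le_finrank (T := f₂.perp (F ∙ v)) (u := v) (a := z) (z := y)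
      (f₂.mem_perp_span_singleton.2 e2) (f₂.mem_perp_span_singleton.2 (f₂.eq_zero_symm e3))
      (f₂.mem_perp_span_singleton.2 e6) v0 (fun h => by
        obtain ⟨a, rfl⟩ := Submodule.mem_span_singleton.1 h
        have : f₂.Q v = 0 := by simpa [f₂.orth_B_self, h2] using e2
        simp [f₂.orth_Q_smul, this] at qz) fun h => by
        obtain ⟨a, b, e⟩ := Submodule.mem_span_pair.1 h
        exact e5 a b e.symm
    omega
  have nil : ∀ (m : ℕ) y, ((h - 1) ^ m : End F W) y = 0 → (h - 1) y = 0 := fun m => by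
    induction m with
    | zero => intro y e; simp_all
    | succ m ih => exact fun y e => key y (ih _ (by rwa [pow_succ, End.mul_apply] at e))
  refine sub_eq_zero.1 (LinearMap.ext fun y => nil (p ^ n) y ?_)
  rw [sub_pow_char_pow_of_commute p n (Commute.one_right h), hp]
  simp

/-- minus the identity -/
def ng (f₂ : Form (Kind.orth F) W) : f₂.Isom := ⟨LinearEquiv.neg F, ⟨by simp, by simp⟩⟩

@[simp] theorem ng_apply (w : W) : ng f₂ ⊳ w = -w := rfl

theorem invol_core {g : End F U} {h : End F W} (T : Oo f₁ f₂ f) (h4 : finrank F U = 4)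
    (h3 : finrank F W = 3) {σ : f.Isom} (e : ∀ u w, σ ⊳ T.t u w = T.t (g u) (h w))
    (gg : ∀ u, g (g u) = u) (hh : ∀ w, h (h w) = w) {Y : Submodule F V}
    (hY : ∀ x, x ∈ Y ↔ σ ⊳ x = x) (dY : finrank F Y = 4)
    (d : 2 ≤ finrank F (LinearMap.ker (h - 1))) : ∃ z, z ≠ 0 ∧ ∀ u, T.t u z ∈ Y := by
  have h2 := T.two
  by_cases hg : ∀ u, g u = -u
  · by_cases h1 : ∀ w, h w = w
    · have k : ∀ x, σ ⊳ x = -x := fun x => by
        induction x using T.ind with
        | ht u w => simp [e, hg, h1]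
        | hadd a b ha hb => simp only [map_add, ha, hb, neg_add]
      have : Y = ⊥ := (Submodule.eq_bot_iff _).2 fun x hx => by
        have := (hY x).1 hx
        rw [k, neg_eq_iff_add_eq_zero, ← two_smul F] at this
        simpa [h2] using this
      rw [this, finrank_bot] at dY
      omega
    · push Not at h1
      obtain ⟨w, hw⟩ := h1
      exact ⟨h w - w, sub_ne_zero.2 hw, fun u => (hY _).2 (by simp [e, hg, hh]; abel)⟩
  push Not at hg
  obtain ⟨u, hu⟩ := hg
  have u0 : g u + u ≠ 0 := fun e => hu (eq_neg_of_add_eq_zero_left e)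
  have gu : g (g u + u) = g u + u := by simp [gg, add_comm]
  generalize g u + u = a at u0 gu
  obtain ⟨v₀, h₀⟩ := T.exists_one u0
  exfalso
  by_cases h1 : ∀ w, h w = w
  · by_cases H : ∀ b, g b = b → b ∈ F ∙ a
    · have : Y ≤ T.M a := fun x hx => T.mem_M_of u0 fun v hv => T.n₂.eq_zero_right fun w => by
        obtain ⟨c, hc⟩ := Submodule.mem_span_singleton.1 (H (T.cw w x) (by
          rw [← T.cw_lin (s := σ) (fun u w => by rw [e, h1]), (hY x).1 hx]))
        rw [T.cu_cw, ← hc, map_smul, f₁.eq_zero_symm hv, smul_zero]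
      have := Submodule.finrank_mono this
      rw [T.finrank_M u0] at this
      omega
    · push Not at H
      obtain ⟨b, hb, hb'⟩ := H
      obtain ⟨v, v1, v2⟩ := T.n₁.exists_perp_B_eq' hb' 1
      rw [f₁.mem_perp_span_singleton] at v1
      have := LinearMap.finrank_le_finrank_of_injective
        (f := ((T.t a).coprod (T.t b)).codRestrict Y fun x => (hY _).2 (by simp [e, gu, hb, h1]))
        ((injective_iff_map_eq_zero _).2 fun x hx => by
          have e1 : T.t a x.1 + T.t b x.2 = 0 := congrArg Subtype.val hx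
          have e2 : x.2 = 0 := by simpa [f₁.eq_zero_symm v1, f₁.orth_symm b v, v2] using congrArg (T.cu v) e1
          exact Prod.ext (T.t_inj u0 (by simpa [e2] using e1)) e2)
      simp only [finrank_prod] at this
      omega
  push Not at h1
  obtain ⟨w, hw⟩ := h1
  have w0 := sub_ne_zero.2 hw
  have hw : h (h w - w) = -(h w - w) := by simp [hh]
  generalize h w - w = m at w0 hw
  obtain ⟨w₁, m₁, n₁⟩ := exists_not_mem_of_lt (S := ⊥) (T := LinearMap.ker (h - 1)) (by simp; omega)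
  obtain ⟨w₂, m₂, n₂⟩ := exists_not_mem_of_lt (S := F ∙ w₁) (T := LinearMap.ker (h - 1)) (by
    rw [finrank_span_singleton (by simpa using n₁)]; omega)
  replace m₁ : h w₁ = w₁ := by simpa [sub_eq_zero] using m₁
  replace m₂ : h w₂ = w₂ := by simpa [sub_eq_zero] using m₂
  have := LinearMap.finrank_le_finrank_of_injective
    (f := ((T.t.flip w₁ ∘ₗ (1 + g) + T.t.flip m ∘ₗ (1 - g)).coprod
      (LinearMap.toSpanSingleton F V (T.t a w₂))).codRestrict Y fun x => (hY _).2 (by
        simp [e, gu, gg, hw, m₁, m₂]; abel))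
    ((injective_iff_map_eq_zero _).2 fun x hx => by
      have e1 : T.t (x.1 + g x.1) w₁ + T.t (x.1 - g x.1) m + x.2 • T.t a w₂ = 0 :=
        congrArg Subtype.val hx
      have e2 : ∀ v, f₁.B v (x.1 + g x.1) • w₁ + f₁.B v (x.1 - g x.1) • m +
          x.2 • f₁.B v a • w₂ = 0 := fun v => by
        have := congrArg (T.cu v) e1
        rwa [map_add, map_add, map_smul, T.cu_t, T.cu_t, T.cu_t, map_zero] at this
      have e3 : x.1 - g x.1 = 0 := T.n₁.eq_zero_right fun v => by
        have e4 := congrArg h (e2 v)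
        rw [map_add, map_add, map_smul, map_smul, map_smul, map_smul, m₁, m₂, hw, map_zero] at e4
        have : (2 * f₁.B v (x.1 - g x.1)) • m = 0 := by
          linear_combination (norm := module) e2 v - e4
        simpa [h2, w0] using this
      have e4 : x.2 = 0 := by
        by_contra c0
        have := e2 v₀
        rw [e3, f₁.orth_symm a v₀, h₀, map_zero] at this
        exact n₂ (Submodule.mem_span_singleton.2 ⟨-(x.2⁻¹ * f₁.B v₀ (x.1 + g x.1)), by
          refine smul_right_injective W c0 ?_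
          simp only [smul_smul, mul_neg, mul_inv_cancel_left₀ c0]
          linear_combination (norm := module) -this⟩)
      rw [e3, e4, ← sub_eq_zero.1 e3, ← two_smul F] at e1
      refine Prod.ext (T.t_inj' (w := w₁) (by simpa using n₁) ?_) e4
      simpa [h2] using e1)
  simp only [finrank_prod, finrank_self] at this
  omega

namespace Oo
variable (T : Oo f₁ f₂ f)

/-- the involution fixing `U ⊗ z` and negating its orthogonal complement -/
def τ (z : W) : f.Isom := T.kR (ng f₂ * f₂.refl z)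

theorem τ_t (z : W) (u : U) (w : W) : T.τ z ⊳ T.t u w = -T.t u (f₂.refl z ⊳ w) := by simp [τ]

theorem τ_apply (z : W) (x : V) : T.τ z ⊳ x = (f₂.Q z)⁻¹ • T.t (T.cw z x) z - x := by
  induction x using T.ind with
  | ht u w => simp [τ_t, refl_apply, smul_smul]
  | hadd a b ha hb => simp only [map_add, ha, hb, LinearMap.add_apply, smul_add]; abel

theorem τ_sq (z : W) : T.τ z * T.τ z = 1 := T.ext fun u w => by
  simp only [isom_mul_apply, τ_t, map_neg, neg_neg]
  rw [← isom_mul_apply, refl_mul_self]; rfl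

theorem τ_mem_N (z : W) : T.τ z ∈ T.N := T.kR_mem_N _

theorem mem_L {z : W} {x : V} : x ∈ T.swap.M z ↔ ∃ u, T.t u z = x :=
  ⟨fun ⟨u, e⟩ => ⟨u, T.swap_t u z ▸ e⟩, fun ⟨u, e⟩ => ⟨u, T.swap_t u z ▸ e⟩⟩

theorem τ_fix {z : W} (qz : f₂.Q z ≠ 0) {x : V} : x ∈ T.swap.M z ↔ T.τ z ⊳ x = x := by
  rw [mem_L]
  refine ⟨by rintro ⟨u, rfl⟩; simp [τ_t, refl_apply_self _ qz], fun h => ⟨(2 * f₂.Q z)⁻¹ • T.cw z x, ?_⟩⟩
  rw [τ_apply, sub_eq_iff_eq_add, ← two_smul F] at h
  rw [map_smul, LinearMap.smul_apply, mul_inv, mul_smul, h, inv_smul_smul₀ T.two]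

theorem eq_τ {σ : f.Isom} (hσ : σ * σ = 1) {z : W} (qz : f₂.Q z ≠ 0)
    (h : ∀ x, x ∈ T.swap.M z ↔ σ ⊳ x = x) : σ = T.τ z := f.isom_ext fun x => by
  have fx : ∀ u, σ ⊳ T.t u z = T.t u z := fun u => (h _).1 (T.mem_L.2 ⟨u, rfl⟩)
  obtain ⟨u, hu⟩ := T.mem_L.1 ((h (σ ⊳ x + x)).2 (by
    rw [map_add, ← isom_mul_apply, hσ, add_comm]; rfl))
  have e : T.cw z (σ ⊳ x) = T.cw z x := T.n₁.eq_of_B_eq_right fun v => by
    rw [← T.B_cw, ← T.B_cw, ← fx, B_coe_map, fx]
  have e1 := congrArg (T.cw z) hu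
  rw [map_add, e, cw_t, f₂.orth_B_self, ← two_smul F, mul_smul] at e1
  rw [τ_apply, ← smul_right_injective U T.two e1, map_smul, LinearMap.smul_apply,
    inv_smul_smul₀ qz, hu, add_sub_cancel_right]

theorem kR_refl {n : ℕ} (b : Basis (Fin n) F U) (h0 : ∀ i j, i ≠ j → f₁.B (b i) (b j) = 0)
    (h1 : ∀ i, f₁.Q (b i) ≠ 0) {a : W} (qa : f₂.Q a ≠ 0) :
    T.kR (f₂.refl a) = f.reflProd (List.ofFn fun i => T.t (b i) a) := T.ext fun u w => by
  have e1 : ∀ w, f₂.B a w = 0 →
      f.reflProd (List.ofFn fun i => T.t (b i) a) ⊳ T.t u w = T.t u w := fun w hw =>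
    reflProd_apply_of_B (List.forall_mem_ofFn_iff.2 fun i => by simp [B_t, hw])
  have e2 : ((f.reflProd (List.ofFn fun i => T.t (b i) a)).1 : V →ₗ[F] V) ∘ₗ T.t.flip a =
      -T.t.flip a := b.ext fun i => reflProd_apply_of_pairwise
    (List.forall_mem_ofFn_iff.2 fun i => by simp [Q_t, T.two, h1, qa])
    (List.pairwise_ofFn.2 fun i j h => by simp [B_t, h0 i j h.ne]) (List.mem_ofFn.2 ⟨i, rfl⟩)
  have e3 : f.reflProd (List.ofFn fun i => T.t (b i) a) ⊳ T.t u a = -T.t u a :=
    LinearMap.congr_fun e2 u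
  have e4 := e1 (w - ((2 * f₂.Q a)⁻¹ * f₂.B a w) • a) (by
    simp only [map_sub, map_smul, f₂.orth_B_self, smul_eq_mul]; field_simp [T.two]; ring)
  rw [map_sub, map_sub, map_smul, map_smul, e3, sub_eq_iff_eq_add] at e4
  rw [e4, kR_t, refl_apply, map_sub, map_smul]
  have := T.two
  match_scalars <;> field_simp <;> ring

theorem τ_mem_Eich (h4 : finrank F U = 4) (h3 : finrank F W = 3) {z : W} (qz : f₂.Q z ≠ 0) :
    T.τ z ∈ f.Eich := by
  obtain ⟨b, h0, h1⟩ := T.n₁.exists_orth_basis T.two h4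
  have k : ∀ a c, f₂.Q a ≠ 0 → f₂.Q c ≠ 0 → T.kR (f₂.refl a * f₂.refl c) ∈ f.Eich :=
    fun a c qa qc => by
      rw [← T.n.commutator_eq_Eich (f.good_of_two_ne_zero T.two) (by rw [T.finrank_eq, h4, h3]; omega),
        map_mul, T.kR_refl b h0 h1 qa, T.kR_refl b h0 h1 qc, ← reflProd_append]
      refine T.n.reflProd_mem_commutator (fun v hv => ?_) (by simp; decide)
        ⟨16 * (f₁.Q (b 0) * f₁.Q (b 1) * f₁.Q (b 2) * f₁.Q (b 3)) * f₂.Q a ^ 2 * f₂.Q c ^ 2, ?_⟩
      · rcases List.mem_append.1 hv with hv | hv <;> obtain ⟨i, rfl⟩ := List.mem_ofFn.1 hv <;>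
          simp [Q_t, T.two, h1, qa, qc]
      · simp [List.ofFn_succ, Q_t]; ring
  obtain ⟨l, hl, e, h5, -⟩ := T.n₂.neg_eq_reflProd T.two (g := ng f₂) fun _ => rfl
  rw [h3] at h5
  obtain ⟨a, c, d, rfl⟩ := List.length_eq_three.1 h5
  have := mul_mem (k a c (hl _ (by simp)) (hl _ (by simp))) (k d z (hl _ (by simp)) qz)
  rw [← map_mul] at this
  rw [τ, ← e]
  simpa only [reflProd_cons, reflProd_nil, mul_one, mul_assoc] using this

theorem stepA (h4 : finrank F U = 4) (h3 : finrank F W = 3) {σ : f.Isom} (hN : σ ∈ T.N)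
    (hσ : σ * σ = 1) {Y : Submodule F V} (hY : ∀ x, x ∈ Y ↔ σ ⊳ x = x) (dY : finrank F Y = 4)
    {y : V} (hy : y ∈ Y) (qy : f.Q y ≠ 0) : ∃ z, f₂.Q z ≠ 0 ∧ σ = T.τ z := by
  suffices H : ∃ z, z ≠ 0 ∧ ∀ u, T.t u z ∈ Y by
    obtain ⟨z, z0, hz⟩ := H
    have e : T.swap.M z = Y := Submodule.eq_of_le_of_finrank_eq
      (fun x hx => by obtain ⟨u, rfl⟩ := T.mem_L.1 hx; exact hz u) (by rw [T.swap.finrank_M z0, h4, dY])
    have qz : f₂.Q z ≠ 0 := fun q => by
      obtain ⟨u, rfl⟩ := T.mem_L.1 (e ▸ hy)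
      exact qy (T.Q_t₂ u q)
    exact ⟨z, qz, T.eq_τ hσ qz (e ▸ hY)⟩
  obtain ⟨g, h, e⟩ := hN
  have e1 : ∀ u w, T.t (g (g u)) (h (h w)) = T.t u w := fun u w => by
    rw [← e, ← e, ← isom_mul_apply, hσ]; rfl
  have : Nontrivial U := finrank_pos_iff.1 (by omega : 0 < finrank F U)
  have : Nontrivial W := finrank_pos_iff.1 (by omega : 0 < finrank F W)
  obtain ⟨u₀, hu⟩ := exists_ne (0 : U)
  obtain ⟨w₀, hw⟩ := exists_ne (0 : W)
  obtain ⟨v₀, hv⟩ := T.exists_one hu
  obtain ⟨μ, hμ⟩ : ∃ μ : F, ∀ w, μ • h (h w) = w := ⟨f₁.B v₀ (g (g u₀)), fun w => by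
    simpa [f₁.orth_symm u₀ v₀, hv] using congrArg (T.cu v₀) (e1 u₀ w)⟩
  have μ0 : μ ≠ 0 := by rintro rfl; exact hw (by simpa using (hμ w₀).symm)
  have hg : ∀ u, g (g u) = μ • u := fun u => T.t_inj' (w := h (h w₀)) (by simpa using hw) (by
    simp only [LinearMap.flip_apply, e1, map_smul]
    rw [← map_smul, hμ])
  obtain ⟨c, hc⟩ : ∃ c : F, c ^ 2 = μ := by
    have := congrArg LinearMap.det (show μ • ((h : End F W) * h) = 1 from LinearMap.ext hμ)
    rw [LinearMap.det_smul, map_mul, map_one, h3] at this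
    exact ⟨μ ^ 2 * LinearMap.det (h : End F W), by linear_combination μ * this⟩
  have c0 : c ≠ 0 := by rintro rfl; exact μ0 (by simpa using hc.symm)
  have k : ∀ c : F, c ^ 2 = μ → 2 ≤ finrank F (LinearMap.ker (c • (h : End F W) - 1)) →
      ∃ z, z ≠ 0 ∧ ∀ u, T.t u z ∈ Y := fun c hc d => by
    have c0 : c ≠ 0 := by rintro rfl; exact μ0 (by simpa using hc.symm)
    refine invol_core T h4 h3 (g := c⁻¹ • (g : End F U)) (fun u w => by simp [e, smul_smul, c0])
      (fun u => ?_) (fun w => ?_) hY dY d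
    · simp only [LinearMap.smul_apply, LinearEquiv.coe_coe, map_smul, hg, smul_smul, ← hc]
      rw [show c⁻¹ * (c⁻¹ * c ^ 2) = 1 by field_simp, one_smul]
    · simp only [LinearMap.smul_apply, LinearEquiv.coe_coe, map_smul, smul_smul, ← sq, hc, hμ]
  by_cases d : 2 ≤ finrank F (LinearMap.ker (c • (h : End F W) - 1))
  · exact k c hc d
  refine k (-c) (by rw [neg_sq, hc]) ?_
  have d1 := LinearMap.finrank_range_add_finrank_ker (c • (h : End F W) - 1)
  have d2 : LinearMap.range (c • (h : End F W) - 1) ≤ LinearMap.ker ((-c) • (h : End F W) - 1) := by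
    rintro _ ⟨w, rfl⟩
    simp only [LinearMap.mem_ker, LinearMap.sub_apply, LinearMap.smul_apply, LinearEquiv.coe_coe,
      map_sub, map_smul, End.one_apply, smul_sub, smul_smul]
    linear_combination (norm := module) -hμ w - congrArg (· • h (h w)) hc
  have := Submodule.finrank_mono d2
  omega

theorem prod_τ (h3 : finrank F W = 3) [Nontrivial U] {z z₁ : W} (qz : f₂.Q z ≠ 0)
    (q₁ : f₂.Q z₁ ≠ 0) (h : T.τ z₁ * T.τ z = T.τ z * T.τ z₁) (h1 : T.τ z₁ * T.τ z ≠ 1) :
    ∃ z₂, f₂.Q z₂ ≠ 0 ∧ T.τ z₁ * T.τ z = T.τ z₂ := by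
  obtain ⟨u, hu⟩ := exists_ne (0 : U)
  have h2 := T.two
  have e : f₂.B z₁ z = 0 := by
    by_contra n
    have e1 := congrArg (fun k => k ⊳ T.t u z) h
    simp only [isom_mul_apply, τ_t, map_neg, neg_neg] at e1
    replace e1 := T.t_inj hu e1
    simp only [refl_apply_self _ qz, refl_apply _ z₁, map_neg, map_sub, map_smul, refl_apply _ z z₁,
      f₂.orth_symm z₁ z] at e1
    have e2 : z₁ = ((2 * f₂.Q z)⁻¹ * f₂.B z₁ z) • z := by
      refine smul_right_injective W (mul_ne_zero h2 (mul_ne_zero (inv_ne_zero q₁) n)) ?_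
      have e3 : (2 * ((f₂.Q z₁)⁻¹ * f₂.B z₁ z)) • z₁ =
          ((f₂.Q z₁)⁻¹ * f₂.B z₁ z * ((f₂.Q z)⁻¹ * f₂.B z₁ z)) • z := by
        linear_combination (norm := module) e1
      simp only [e3, smul_smul]
      congr 1; field_simp
    refine h1 ?_
    rw [← T.τ_sq z, τ, τ, e2, refl_smul _ (by simp [h2, qz, n])]
  obtain ⟨z₂, m₂, q₂⟩ := f₂.exists_nonsingular (T.n₂.disjoint_perp_perp (W := Submodule.span F {z₁, z})
    (Submodule.disjoint_def.2 fun x hx hx' => by
      obtain ⟨a, b, rfl⟩ := Submodule.mem_span_pair.1 hx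
      obtain ⟨e1, e2⟩ := f₂.mem_perp_span_pair.1 hx'
      simp [f₂.orth_B_self, e, f₂.eq_zero_symm e, h2, qz, q₁] at e1 e2
      simp [e1, e2])) fun e => by
    have := T.n₂.finrank_perp_pair z₁ z
    rw [e, finrank_bot] at this
    omega
  obtain ⟨e1, e2⟩ := f₂.mem_perp_span_pair.1 m₂
  refine ⟨z₂, q₂, ?_⟩
  rw [τ, τ, τ, ← map_mul]
  congr 1
  refine Subtype.ext (LinearEquiv.toLinearMap_injective
    ((basisOfLinearIndependentOfCardEqFinrank' ![z₁, z, z₂] (f₂.linearIndependent_of_orth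
      (fun i j h => ?_) fun i => ?_) (by simp [h3])).ext fun i => ?_))
  · fin_cases i <;> fin_cases j <;>
      simp_all [f₂.eq_zero_symm e, f₂.eq_zero_symm e1, f₂.eq_zero_symm e2]
  · fin_cases i <;> simp [f₂.orth_B_self, h2, qz, q₁, q₂]
  · fin_cases i <;> simp [refl_apply_self, refl_apply_of_B, qz, q₁, q₂, e, e1, e2,
      f₂.eq_zero_symm e, f₂.eq_zero_symm e1, f₂.eq_zero_symm e2]

end Oo

end CA.OO
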