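import Cfsg.Agent.Lib.Lin.MaxP2
import Cfsg.Agent.Lib.Perm.ON1
import Cfsg.Agent.Lib.Grp.Coprime2

/-!
The tensor product of orthogonal spaces of dimensions four and three: a proper overgroup preserves
the tensor decomposition.
-/

set_option autoImplicit false
set_option linter.unusedSectionVars false

namespace CA.OO

open CA.CForm CA.CForm.Form Module

local notation:75 g:76 " ⊳ " v:75 => (Subtype.val g) v

open Subgroup in
theorem le_of_cent {G : Type*} [Group G] [Finite G] {p : ℕ} [Fact p.Prime] {A K N : Subgroup G}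
    (hc : IsMulCommutative A) (hp : IsPGroup p A) (hy : ¬IsCyclic A)
    (hn : A ≤ normalizer (K : Set G)) (h1 : ∀ a ∈ A, a ≠ 1 → K ⊓ centralizer {a} ≤ N)
    (h2 : ∀ k ∈ K, k ∈ N → ∀ n, k ^ p ^ n = 1 → k = 1) : K ≤ N := by
  refine CA.Coprime2.le_of_forall_centralizer_singleton hc hy hn ?_ h1
  obtain ⟨n, e⟩ := IsPGroup.iff_card.1 hp
  rw [e]
  refine Nat.Coprime.pow_left _ ((Nat.Prime.coprime_iff_not_dvd Fact.out).2 fun hd => ?_)
  obtain ⟨P, hP, hA⟩ := CA.SylIn.exists_isSylowIn_ge hp (le_sup_left : A ≤ A ⊔ K)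
  have hQ := hP.inf_of_normal le_sup_right (sup_le hn le_normalizer)
  obtain ⟨d, hd, d1, cm⟩ := CA.ON.exists_cent hp hQ.isPGroup (by
    by_contra H
    push Not at H
    exact hQ.not_dvd (by rwa [(eq_bot_iff_forall _).2 H, relIndex_bot_left])) fun a ha d hd =>
      ⟨P.mul_mem (P.mul_mem (hA ha) hd.1) (P.inv_mem (hA ha)), (mem_normalizer_iff.1 (hn ha) d).1 hd.2⟩
  obtain ⟨⟨a, ha⟩, a1⟩ := ne_bot_iff_exists_ne_one.1 (show A ≠ ⊥ by
    rintro rfl; exact hy inferInstance)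
  obtain ⟨m, hm⟩ := hQ.isPGroup ⟨d, hd⟩
  exact d1 (h2 d hd.2 (h1 a ha (fun e => a1 (Subtype.ext e)) ⟨hd.2, mem_centralizer_iff.2 (by
    rintro _ rfl; exact cm _ ha)⟩) m (congrArg Subtype.val hm))

variable {F : Type*} [Field F] [Finite F] {U W V : Type*} [AddCommGroup U] [Module F U]
  [AddCommGroup W] [Module F W] [AddCommGroup V] [Module F V] [FiniteDimensional F U]
  [FiniteDimensional F W] [FiniteDimensional F V]
  {f₁ : Form (Kind.orth F) U} {f₂ : Form (Kind.orth F) W} {f : Form (Kind.orth F) V}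

theorem eu_congr {u y y' : U} (qu : f₁.Q u = 0) (h : f₁.B u y = 0) (h' : f₁.B u y' = 0)
    (e : y - y' ∈ F ∙ u) : eu qu h = eu qu h' := by
  obtain ⟨a, ha⟩ := Submodule.mem_span_singleton.1 e
  obtain rfl : y = y' + a • u := by rw [ha]; abel
  refine f₁.isom_ext fun x => ?_
  simp only [eu_apply, B_add_left, B_smul_left, f₁.orth_Q_add, f₁.orth_Q_smul, qu, map_smul,
    f₁.eq_zero_symm h', Kind.orth_σ, smul_eq_mul]
  module

theorem eu_mul {u y y' : U} (qu : f₁.Q u = 0) (h : f₁.B u y = 0) (h' : f₁.B u y' = 0) :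
    eu qu h * eu qu h' = eu qu (y := y + y') (by simp [h, h']) := f₁.isom_ext fun x => by
  simp only [isom_mul_apply, eu_apply, map_add, map_sub, map_smul, h', f₁.B_self_of_Q qu,
    f₁.eq_zero_symm h, B_add_left, f₁.orth_Q_add, smul_eq_mul]
  module

theorem eu_zero {u : U} (qu : f₁.Q u = 0) (h : f₁.B u 0 = 0) : eu qu h = 1 :=
  f₁.isom_ext fun x => by simp [eu_apply]

theorem eu_pow {u y : U} (qu : f₁.Q u = 0) (h : f₁.B u y = 0) (n : ℕ) :
    eu qu h ^ n = eu qu (y := (n : F) • y) (by simp [h]) := by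
  induction n with
  | zero => exact ((eu_congr qu _ (map_zero _) (by simp)).trans (eu_zero qu _)).symm
  | succ n ih => rw [pow_succ, ih, eu_mul]; exact eu_congr qu _ _ (by simp [add_smul])

theorem eu_pow_char {p : ℕ} [CharP F p] {u y : U} (qu : f₁.Q u = 0) (h : f₁.B u y = 0) :
    eu qu h ^ p = 1 :=
  (eu_pow qu h p).trans ((eu_congr qu _ (map_zero _) (by simp)).trans (eu_zero qu _))

namespace Oo
variable (T : Oo f₁ f₂ f)

theorem E_inj [Nontrivial W] {u y y' : U} (u0 : u ≠ 0) (qu : f₁.Q u = 0) (h : f₁.B u y = 0)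
    (h' : f₁.B u y' = 0) (e : T.E qu h = T.E qu h') : y - y' ∈ F ∙ u := by
  obtain ⟨v, hv⟩ := T.exists_one u0
  obtain ⟨w, hw⟩ := exists_ne (0 : W)
  have e1 := congrArg (fun k => k ⊳ T.t v w) e
  simp only [E, kL_t] at e1
  replace e1 := T.t_inj' hw e1
  simp only [eu_apply, hv] at e1
  exact Submodule.mem_span_singleton.2 ⟨f₁.B y v + f₁.Q y - (f₁.B y' v + f₁.Q y'), by
    linear_combination (norm := module) -e1⟩

theorem conj_M {s : f.Isom} {u y u' y' : U} (u0 : u ≠ 0) {qu : f₁.Q u = 0} {h : f₁.B u y = 0}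
    {qu' : f₁.Q u' = 0} {h' : f₁.B u' y' = 0} (qy : f₁.Q y ≠ 0)
    (e : s * T.E qu h = T.E qu' h' * s) (w : W) : s ⊳ T.t u w ∈ T.M u' := by
  obtain ⟨v, hv⟩ := T.exists_one u0
  have e1 : ∀ x, s ⊳ T.E qu h ⊳ x = T.E qu' h' ⊳ s ⊳ x := fun x => congrArg (fun k => k ⊳ x) e
  have := congrArg s.1 (T.E_sq qu h (T.t v w))
  rw [map_sub, e1, map_sub, e1, T.E_sq, map_smul, cu_t, hv, one_smul] at this
  refine ((T.M u').smul_mem_iff (neg_ne_zero.2 (mul_ne_zero T.two qy))).1 ?_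
  rw [← this]
  exact Submodule.smul_mem _ _ (T.t_mem_M ..)

/-- the Eichler maps of the first factor with a given centre -/
def A {u : U} (qu : f₁.Q u = 0) : Subgroup f.Isom where
  carrier := {k | ∃ y, ∃ h : f₁.B u y = 0, T.E qu h = k}
  one_mem' := ⟨0, map_zero _, by rw [E, eu_zero, map_one]⟩
  mul_mem' := by
    rintro _ _ ⟨y, h, rfl⟩ ⟨y', h', rfl⟩
    exact ⟨y + y', by simp [h, h'], by rw [E, E, E, ← map_mul, eu_mul]⟩
  inv_mem' := by
    rintro _ ⟨y, h, rfl⟩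
    exact ⟨-y, B_neg h, by rw [E, E, ← map_inv, eu_inv]⟩

theorem lin_L {k : f.Isom} (hk : k ∈ T.N) {z : W} (qz : f₂.Q z ≠ 0)
    (e : ∀ u, k ⊳ T.t u z = T.t u z) : ∃ h : End F W, ∀ u w, k ⊳ T.t u w = T.t u (h w) := by
  obtain ⟨h, hh⟩ := T.swap.lin_of_fix (T.swap_N ▸ hk) (p := z) (z := (2 * f₂.Q z)⁻¹ • z) fun u => by
    rw [swap_t, e, ← swap_t, cu_smul, cu_t, f₂.orth_B_self, inv_smul_smul₀ (mul_ne_zero T.two qz)]
  exact ⟨h, fun u w => by rw [← swap_t, hh, swap_t]⟩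

theorem triv [Nontrivial U] (h3 : finrank F W = 3) {k : f.Isom} (hk : k ∈ T.N) {z : W}
    (qz : f₂.Q z ≠ 0) (e : ∀ u, k ⊳ T.t u z = T.t u z) {p : ℕ} [Fact p.Prime] [CharP F p] (n : ℕ)
    (hp : k ^ p ^ n = 1) : k = 1 := by
  obtain ⟨h, hh⟩ := T.lin_L hk qz e
  obtain ⟨u, hu⟩ := exists_ne (0 : U)
  obtain ⟨v, hv⟩ := T.exists_one hu
  have e1 : ∀ (m : ℕ) w, (k ^ m) ⊳ T.t u w = T.t u ((h ^ m) w) := fun m => by
    induction m with
    | zero => intro w; rfl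
    | succ m ih => intro w; rw [pow_succ, pow_succ, isom_mul_apply, hh, ih, End.mul_apply]
  have := unip_three T.two T.n₂ h3 (h := h) (fun x y => by
    simpa [hh, B_t, hv] using f.B_coe_map k (T.t u x) (T.t v y)) (T.t_inj hu ((hh u z).symm.trans (e u)))
    qz (p := p) (n := n) (LinearMap.ext fun w => T.t_inj hu (by rw [← e1, hp]; rfl))
  exact T.ext fun u w => by rw [hh, this]; rfl

end Oo

variable {T : Oo f₁ f₂ f} {X : Subgroup f.Isom}

namespace Ow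
variable (O : Ow T X) (h4 : finrank F U = 4) (h3 : finrank F W = 3)
include O h4 h3

theorem fix_le {k : f.Isom} (hk : k ∈ X) {z : W} (qz : f₂.Q z ≠ 0)
    (e : ∀ u, k ⊳ T.t u z = T.t u z) : k ∈ T.N := by
  have := O.ntU
  have := O.ntW
  obtain ⟨p, hp⟩ := CharP.exists F
  have : Fact p.Prime := ⟨CharP.char_is_prime F p⟩
  obtain ⟨u, u0, qu⟩ := exists_sing (f := f₁) O.a3
  let K : Subgroup f.Isom :=
    { carrier := {k | k ∈ X ∧ ∀ u, k ⊳ T.t u z = T.t u z}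
      one_mem' := ⟨X.one_mem, fun _ => rfl⟩
      mul_mem' := fun a b => ⟨X.mul_mem a.1 b.1, fun u => by rw [isom_mul_apply, b.2, a.2]⟩
      inv_mem' := fun a => ⟨X.inv_mem a.1, fun u => by
        conv_lhs => rw [← a.2, isom_inv_apply_apply]⟩ }
  have cj : ∀ a ∈ T.A qu, ∀ k ∈ K, a * k * a⁻¹ ∈ K := by
    rintro _ ⟨y, h, rfl⟩ k hk
    refine ⟨X.mul_mem (X.mul_mem (O.E_mem qu h) hk.1) (X.inv_mem (O.E_mem qu h)), fun u => ?_⟩
    rw [isom_mul_apply, isom_mul_apply, Oo.E, ← map_inv, T.kL_t, hk.2, T.kL_t, isom_apply_inv_apply]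
  refine le_of_cent (p := p) (A := T.A qu) (K := K) ⟨⟨?_⟩⟩ ?_ (fun hc => ?_)
    (fun a ha => Subgroup.mem_normalizer_iff.2 fun k => ⟨cj a ha k, fun h => ?_⟩) ?_
    (fun k hk hN => T.triv h3 hN qz hk.2) ⟨hk, e⟩
  · rintro ⟨_, y, h, rfl⟩ ⟨_, y', h', rfl⟩
    refine Subtype.ext ?_
    simp only [Subgroup.coe_mul, Oo.E, ← map_mul, eu_mul]
    exact congrArg _ (eu_congr qu _ _ (by simp [add_comm]))
  · rintro ⟨_, y, h, rfl⟩
    exact ⟨1, Subtype.ext (by simp [Oo.E, ← map_pow, eu_pow_char])⟩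
  · obtain ⟨⟨_, y₀, h₀, rfl⟩, hg⟩ := IsCyclic.exists_monoid_generator (α := T.A qu)
    have d1 := T.n₁.finrank_perp (F ∙ u)
    have d2 := finrank_span_pair_le (F := F) u y₀
    have d3 : f₁.perp (F ∙ u) ≤ Submodule.span F {u, y₀} := fun y hy => by
      replace hy := f₁.mem_perp_span_singleton.1 hy
      obtain ⟨n, hn⟩ := hg ⟨_, y, hy, rfl⟩
      replace hn : T.E qu h₀ ^ n = T.E qu hy := congrArg Subtype.val hn
      rw [Oo.E, ← map_pow, eu_pow] at hn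
      obtain ⟨a, ha⟩ := Submodule.mem_span_singleton.1 (T.E_inj u0 qu _ _ hn)
      exact Submodule.mem_span_pair.2 ⟨-a, n, by linear_combination (norm := module) -ha⟩
    have := Submodule.finrank_mono d3
    rw [finrank_span_singleton u0] at d1
    omega
  · simpa [mul_assoc] using cj _ ((T.A qu).inv_mem ha) _ h
  · rintro _ ⟨y, h, rfl⟩ h1 k ⟨hk, hc⟩
    refine O.D u0 qu hk.1 (T.conj_M u0 (fun q => h1 ?_)
      (Subgroup.mem_centralizer_iff.1 hc _ rfl).symm)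
    rw [Oo.E, eu_congr qu h (map_zero _) (by simpa using O.hU u y u0 qu q h), eu_zero, map_one]

theorem G2 {c : f.Isom} (hc : c ∈ X) {z z' : W} (qz : f₂.Q z ≠ 0) (qz' : f₂.Q z' ≠ 0)
    (h : ∀ u, c ⊳ T.t u z ∈ T.swap.M z') : c ∈ T.N := by
  have := O.ntU
  have h2 := T.two
  obtain ⟨p, hp⟩ := CharP.exists F
  have : Fact p.Prime := ⟨CharP.char_is_prime F p⟩
  let j : End F U := (2 * f₂.Q z')⁻¹ • T.cw z' ∘ₗ (c.1 : V →ₗ[F] V) ∘ₗ T.t.flip z
  have e : ∀ u, c ⊳ T.t u z = T.t (j u) z' := fun u => by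
    obtain ⟨u', e⟩ := T.mem_L.1 (h u)
    simp only [j, LinearMap.smul_apply, LinearMap.comp_apply, LinearMap.flip_apply,
      LinearEquiv.coe_coe, ← e, T.cw_t, f₂.orth_B_self, inv_smul_smul₀ (mul_ne_zero h2 qz')]
  clear_value j
  have z0 : z ≠ 0 := by rintro rfl; simp at qz
  have ji : Function.Injective j := fun a b hab => T.t_inj' z0 (c.1.injective (by
    simp only [LinearMap.flip_apply, e, hab]))
  have hB : ∀ a b, f₁.B (j a) (j b) = f₂.Q z / f₂.Q z' * f₁.B a b := fun a b => by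
    have := f.B_coe_map c (T.t a z) (T.t b z)
    rw [e, e, T.B_t, T.B_t, f₂.orth_B_self, f₂.orth_B_self] at this
    field_simp
    exact mul_left_cancel₀ h2 (by linear_combination this)
  have hQ : ∀ a, f₁.Q (j a) = f₂.Q z / f₂.Q z' * f₁.Q a := fun a => mul_left_cancel₀ h2 (by
    rw [← f₁.orth_B_self, hB, f₁.orth_B_self]; ring)
  obtain ⟨u, u0, qu⟩ := exists_sing (f := f₁) O.a3
  obtain ⟨y, hy, qy⟩ := exists_ns1 T.n₁ O.a3 u
  have qu' : f₁.Q (j u) = 0 := by rw [hQ, qu, mul_zero]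
  have hy' : f₁.B (j u) ((f₂.Q z' / f₂.Q z) • j y) = 0 := by simp [hB, hy]
  set k := (T.E qu' hy')⁻¹ * (c * T.E qu hy * c⁻¹) with hk
  have fx : ∀ a, k ⊳ T.t a z' = T.t a z' := fun a => by
    obtain ⟨a, rfl⟩ := LinearMap.injective_iff_surjective.1 ji a
    have : eu qu' hy' ⊳ j a = j (eu qu hy ⊳ a) := by
      simp only [eu_apply, map_sub, map_add, map_smul, hB, B_smul_left, f₁.orth_Q_smul, hQ,
        Kind.orth_σ]
      match_scalars <;> field_simp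
    conv_lhs => rw [hk, isom_mul_apply, isom_mul_apply, ← e, isom_inv_apply_apply, isom_mul_apply,
      Oo.E, Oo.E, T.kL_t, e, ← this, ← T.kL_t, isom_inv_apply_apply]
  have kN := O.fix_le h4 h3 (X.mul_mem (X.inv_mem (O.E_mem qu' hy'))
    (X.mul_mem (X.mul_mem hc (O.E_mem qu hy)) (X.inv_mem hc))) qz' fx
  obtain ⟨r, hr⟩ := T.lin_L kN qz' fx
  have cm : Commute (T.E qu' hy') k := T.ext fun a w => by
    change T.kL _ ⊳ k ⊳ _ = k ⊳ T.kL _ ⊳ _
    rw [hr, T.kL_t, T.kL_t, hr]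
  have k1 : k = 1 := T.triv h3 kN qz' fx (p := p) 1 (by
    have := cm.mul_pow p
    rw [show T.E qu' hy' * k = c * T.E qu hy * c⁻¹ from mul_inv_cancel_left .., conj_pow, Oo.E, Oo.E,
      ← map_pow, ← map_pow, eu_pow_char, eu_pow_char] at this
    simpa using this.symm)
  refine O.mem_N_of_act u0 (fun e => u0 (ji (e.trans (map_zero j).symm))) qu' hc
    (T.conj_M u0 (qu := qu) (h := hy) (qu' := qu') (h' := hy') qy ?_)
  rw [hk, inv_mul_eq_one] at k1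
  rw [k1, inv_mul_cancel_right]

theorem G1 {c : f.Isom} (hc : c ∈ X) {z : W} (qz : f₂.Q z ≠ 0) (h : c * T.τ z * c⁻¹ ∈ T.N) :
    c ∈ T.N ∧ ∃ z', f₂.Q z' ≠ 0 ∧ c * T.τ z * c⁻¹ = T.τ z' ∧
      ∀ w, w ≠ 0 → f₂.Q w = 0 → f₂.B z w = 0 → ∃ w, w ≠ 0 ∧ f₂.Q w = 0 ∧ f₂.B z' w = 0 := by
  obtain ⟨y, -, qy⟩ := exists_ns1 T.n₁ O.a3 0
  have z0 : z ≠ 0 := by rintro rfl; simp at qz
  obtain ⟨z', qz', e⟩ := T.stepA h4 h3 h (by
    rw [← pow_two, conj_pow, pow_two, T.τ_sq, mul_one, mul_inv_cancel])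
    (Y := f.act c (T.swap.M z)) (fun x => by
      rw [mem_act, T.τ_fix qz, isom_mul_apply, isom_mul_apply]
      exact ⟨fun e => by rw [e, isom_apply_inv_apply], fun e => c.1.injective (by
        rw [e, isom_apply_inv_apply])⟩) (by rw [finrank_act, T.swap.finrank_M z0, h4])
    (f.apply_mem_act.2 (T.mem_L.2 ⟨y, rfl⟩)) (by simp [T.Q_t, T.two, qy, qz])
  have m : ∀ u, c ⊳ T.t u z ∈ T.swap.M z' := fun u => (T.τ_fix qz').2 (by
    rw [← e, isom_mul_apply, isom_mul_apply, isom_inv_apply_apply,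
      (T.τ_fix qz).1 (T.mem_L.2 ⟨u, rfl⟩)])
  have cN := O.G2 h4 h3 hc qz qz' m
  refine ⟨cN, z', qz', e, fun w w0 qw hw => ?_⟩
  obtain ⟨g, k, e1⟩ := cN
  obtain ⟨y, rfl⟩ := g.surjective y
  have y0 : g y ≠ 0 := fun e => by simp [e] at qy
  obtain ⟨a, ha⟩ := T.swap.smul_of_t_mem (u := z') (v := k z) y0 (by rw [T.swap_t, ← e1]; exact m y)
  have a0 : a ≠ 0 := by rintro rfl; simp [z0] at ha
  refine ⟨k w, by simpa using w0, ?_, ?_⟩
  · simpa [e1, T.Q_t, qw, T.two, qy] using f.Q_coe_map c (T.t y w)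
  · simpa [e1, T.B_t, hw, f₁.orth_B_self, T.two, qy, ha, a0] using f.B_coe_map c (T.t y z) (T.t y w)

/-- A proper overgroup containing the involutions preserves the tensor decomposition. -/
theorem main (hτ : ∀ z, f₂.Q z ≠ 0 → T.τ z ∈ X) : X ≤ T.N := fun s hs => by
  have := O.ntU
  have h2 := T.two
  by_contra sN
  obtain ⟨e, e0, qe⟩ := exists_sing (f := f₂) O.b3
  obtain ⟨e', hh⟩ := T.n₂.exists_isHyp qe e0
  obtain ⟨y, y1, y2, qy⟩ := exists_ns_hyp T.n₂ O.b3 hh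
  obtain ⟨ν, hν⟩ := FiniteField.exists_nonsquare (F := F) fun h => h2 (by
    simpa [h] using ringChar.Nat.cast_ringChar (R := F))
  have ν0 : ν ≠ 0 := by rintro rfl; simp at hν
  have qz : f₂.Q (e + (ν * f₂.Q y) • e') ≠ 0 := by rw [hh.Q_add_smul]; simp [ν0, qy]
  have an : ∀ w, w ≠ 0 → f₂.Q w = 0 → f₂.B (e + (ν * f₂.Q y) • e') w ≠ 0 := fun w w0 qw hw => by
    obtain ⟨r, hr, ew⟩ := hh.exists_decomp w
    have : f₂.perp (Submodule.span F {e, e'}) = F ∙ y := (Submodule.eq_of_le_of_finrank_eq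
      ((Submodule.span_singleton_le_iff_mem _ _).2 (f₂.mem_perp_span_pair.2 ⟨y1, y2⟩)) (by
        have := hh.finrank_perp
        rw [finrank_span_singleton (by rintro rfl; simp at qy)]; omega)).symm
    obtain ⟨c, rfl⟩ := Submodule.mem_span_singleton.1 (this ▸ hr)
    simp only [B_add_left, B_smul_left, Kind.orth_σ] at hw
    simp only [Kind.orth_ε, one_mul] at ew
    generalize f₂.B e' w = a at ew hw
    generalize f₂.B e w = b at ew hw
    rw [ew] at qw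
    simp only [f₂.orth_Q_add, f₂.orth_Q_smul, qe, hh.Q_y, B_add_left, B_smul_left, map_smul, hh.B_xy,
      y1, y2, Kind.orth_σ, smul_eq_mul] at qw
    have k : c ^ 2 = ν * a ^ 2 := mul_left_cancel₀ qy (by linear_combination qw - a * hw)
    by_cases a0 : a = 0
    · simp [a0] at k hw
      simp [ew, a0, k, hw] at w0
    · exact hν ⟨c / a, by field_simp; linear_combination -k⟩
  generalize e + (ν * f₂.Q y) • e' = z at qz an
  have sq : s * T.τ y * s⁻¹ * (s * T.τ y * s⁻¹) = 1 := by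
    rw [← pow_two, conj_pow, pow_two, T.τ_sq, mul_one, mul_inv_cancel]
  have key : ∀ {ζ : f.Isom} {a : W}, ζ ∈ X → ζ ≠ 1 → f₂.Q a ≠ 0 → ζ * T.τ a = T.τ a * ζ →
      ζ ∈ T.N ∧ ∀ r ∈ X, ζ * T.τ a = r * T.τ y * r⁻¹ → ∃ b, f₂.Q b ≠ 0 ∧ ζ = T.τ b :=
    fun {ζ a} hζ ζ1 qa cm => by
      have n := (O.G1 h4 h3 hζ qa (by rw [cm, mul_inv_cancel_right]; exact T.τ_mem_N a)).1
      refine ⟨n, fun r hr er => ?_⟩
      obtain ⟨-, z₁, q₁, e₁, -⟩ := O.G1 h4 h3 hr qy (er ▸ T.N.mul_mem n (T.τ_mem_N a))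
      have e₂ : ζ = T.τ z₁ * T.τ a := by rw [← e₁, ← er, mul_assoc, T.τ_sq, mul_one]
      rw [e₂]
      exact T.prod_τ h3 qa q₁ (by rw [← e₂, ← e₁, ← er, cm, ← mul_assoc, T.τ_sq, one_mul]) (e₂ ▸ ζ1)
  rcases H12Tn.dihedral X (hτ z qz) (X.mul_mem (X.mul_mem hs (hτ y qy)) (X.inv_mem hs)) (T.τ_sq z) sq
    with ⟨r, hr, er⟩ | ⟨ζ, hζ, ζ1, -, c1, c2, H⟩
  · have er' : r * s * T.τ y * (r * s)⁻¹ = T.τ z := by rw [er]; group
    obtain ⟨-, z', qz', e₁, k⟩ := O.G1 h4 h3 (X.mul_mem hr hs) qy (er' ▸ T.τ_mem_N z)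
    obtain ⟨w, w0, qw, hw⟩ := k e e0 qe (f₂.eq_zero_symm y1)
    obtain ⟨u, hu⟩ := exists_ne (0 : U)
    obtain ⟨a, ha⟩ := T.swap.smul_of_t_mem (u := z') (v := z) hu (by
      rw [T.swap_t, T.τ_fix qz', ← e₁, er', ← T.τ_fix qz]; exact T.mem_L.2 ⟨u, rfl⟩)
    exact an w w0 qw (by simp [ha, hw])
  have ζX := X.mul_mem (X.mul_mem (X.inv_mem hs) hζ) hs
  obtain ⟨n1, k1⟩ := key hζ ζ1 qz c1
  obtain ⟨n2, k2⟩ := key ζX (fun e => ζ1 (by simpa [mul_assoc, inv_mul_eq_one] using e)) qy (by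
    calc s⁻¹ * ζ * s * T.τ y = s⁻¹ * (ζ * (s * T.τ y * s⁻¹)) * s := by group
      _ = T.τ y * (s⁻¹ * ζ * s) := by rw [c2]; group)
  rcases H with ⟨r, hr, er⟩ | ⟨r, hr, er⟩
  · obtain ⟨b, qb, rfl⟩ := k1 _ (X.mul_mem hr hs) (by rw [er]; group)
    exact sN (T.N.inv_mem_iff.1 (O.G1 h4 h3 (X.inv_mem hs) qb (by rwa [inv_inv])).1)
  · obtain ⟨b, qb, eb⟩ := k2 _ (X.mul_mem (X.mul_mem (X.inv_mem hs) hr) hs) (by
      calc s⁻¹ * ζ * s * T.τ y = s⁻¹ * (ζ * (s * T.τ y * s⁻¹)) * s := by group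
        _ = _ := by rw [er]; group)
    exact sN (O.G1 h4 h3 hs qb (by rw [← eb]; simpa [mul_assoc] using n1)).1

end Ow

end CA.OO
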