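import Cfsg.Agent.Lib.Lin.MaxR1

/-!
Maximality of the stabiliser of an orthogonal frame in dimension five over a prime field.
-/

set_option autoImplicit false
set_option linter.unusedSectionVars false

namespace CA.CForm

open Module CA.MaxF Pi Equiv Finset

namespace Form
variable {F : Type*} [Field F] [Fintype F] {ι : Type*} [Fintype ι] [DecidableEq ι]

local notation:75 g:76 " ⊳ " v:75 => (g : (ι → F) ≃ₗ[F] (ι → F)) v
local notation "𝐞" i:max => (Pi.single i 1 : ι → F)

variable {f : Form (Kind.orth F) (ι → F)} {Y : Subgroup f.Isom} {c : F} {u v w x y z : ι → F}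

namespace Fr5
variable (h : f.Fr5 Y c)
include h

theorem perm2 (hD : f.DD Y u) {a b : ι} (ab : a ≠ b) (e : u a ^ 2 = u b ^ 2) (σ : Perm ι) :
    f.DD Y (u ∘ σ) := by
  have h1 : f.DD Y (u ∘ swap a b) := by
    rcases sq_eq_sq_iff_eq_or_eq_neg.1 e with e | e
    · convert hD using 1
      ext k
      simp only [Function.comp, swap_apply_def]
      split_ifs with h4 h5 <;> simp [*]
    · obtain ⟨g, hg, e'⟩ := h.flip {a, b}
      convert h.map hD hg using 1
      rw [e']
      ext k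
      simp only [Function.comp, swap_apply_def]
      split_ifs with h4 h5 <;> simp [rs, *] <;> ring
  rcases Int.units_eq_one_or (Perm.sign σ) with e | e
  · obtain ⟨g, hg, H⟩ := h.perm_mem σ e
    exact H u ▸ h.map hD hg
  · obtain ⟨g, hg, H⟩ := h.perm_mem (swap a b * σ) (by simp [e, ab])
    convert h.map h1 hg using 1
    rw [H]
    ext k
    simp

theorem dd (hu : f.FOrb Y u) : f.DD Y u := by
  obtain ⟨g, hg, i, rfl⟩ := hu
  exact h.map (h.unit i) hg

theorem coord {g : f.Isom} {i : ι} (v : ι → F) : ((g⁻¹ : f.Isom) ⊳ v) i = (g ⊳ 𝐞 i) ⬝ᵥ v := by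
  rw [← h.dot_map g⁻¹, isom_inv_apply_apply]; simp

theorem pair (hu : f.FOrb Y u) (hv : f.DD Y v) (h1 : ∀ a : F, v ≠ a • u) : Ok (4 * (u ⬝ᵥ v) ^ 2) := by
  obtain ⟨g, hg, i, rfl⟩ := hu
  obtain ⟨j, hj, h0⟩ := exists_out (u := (g⁻¹ : f.Isom) ⊳ v) (I := {i}) fun e => h1
    (((g⁻¹ : f.Isom) ⊳ v) i) (by
      rw [← map_smul]
      refine (f.isom_apply_inv_apply g v).symm.trans (congrArg _ ?_)
      by_contra c
      obtain ⟨j, hj⟩ := Function.ne_iff.1 c
      have ji : j ≠ i := fun e => by simp [e] at hj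
      refine (h.ok (h.map hv (inv_mem hg)) ji (by simpa [ji] using hj)).1 ?_
      rw [sum_singleton, (h.map hv (inv_mem hg)).1] at e
      rw [e, mul_one])
  exact h.coord v ▸ h.ok (h.map hv (inv_mem hg)) (mem_singleton.not.1 hj) h0

theorem prod (hu : f.DD Y u) {i j : ι} (ij : i ≠ j) (hi : u i ≠ 0) :
    Ok (4 * u i ^ 2 * (4 * u j ^ 2)) ∨ (2 * u i ^ 2 = 1 ∧ ∀ k, k ≠ i → k ≠ j → u k = 0) := by
  have h1 := h.refl hu (h.unit i)
  by_cases H : ∃ k, k ≠ j ∧ (𝐞 i - (2 * (u ⬝ᵥ 𝐞 i)) • u) k ≠ 0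
  · obtain ⟨k, kj, hk⟩ := H
    left
    convert h.ok h1 kj hk using 1
    simp [ij.symm]
    ring
  · push Not at H
    refine .inr ⟨?_, fun k ki kj => by simpa [ki, hi, h.two] using H k kj⟩
    have := H i ij
    simp at this
    linear_combination -this

theorem one (h3 : (3 : F) ≠ 0) (hu : f.FOrb Y u) {i : ι} (hi : 4 * u i ^ 2 = 1) : False := by
  classical
  have hD := h.dd hu
  have h2 := h.two
  have h4 := h.four
  have i0 : u i ≠ 0 := fun e => by simp [e] at hi
  obtain ⟨j, ji, j0⟩ := exists_out (u := u) (I := {i}) fun e => h3 (by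
    rw [sum_singleton, hD.1] at e
    linear_combination hi - 4 * e)
  rw [mem_singleton] at ji
  have hO : ∀ k, Ok (4 * u k ^ 2) := fun k => by
    by_cases e : k = i
    · exact h.ok hD (e ▸ ji) j0
    · exact h.ok hD (Ne.symm e) i0
  set S := univ.filter fun k => u k ≠ 0 with hS
  have h5 : (S.filter fun k => ¬4 * u k ^ 2 = 1).card ≤ 2 := by
    by_contra! H
    obtain ⟨a, ha, b, hb, d, hd, ab, ad, bd⟩ := two_lt_card.1 H
    simp only [hS, mem_filter, mem_univ, true_and] at ha hb hd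
    have key : ∀ a b, a ≠ b → u a ≠ 0 ∧ ¬4 * u a ^ 2 = 1 → u b ≠ 0 ∧ ¬4 * u b ^ 2 = 1 →
        4 * u a ^ 2 * (4 * u b ^ 2) = 1 ∧ (4 * u a ^ 2) ^ 2 - 3 * (4 * u a ^ 2) + 1 = 0 :=
      fun a b ab ha hb => ok_mul h2 h3 (hO a) (hO b) (by simp [h4, ha.1]) (by simp [h4, hb.1]) ha.2
        hb.2 ((h.prod hD ab ha.1).resolve_right fun c => i0 (c.2 i (fun e => ha.2 (e ▸ hi))
          fun e => hb.2 (e ▸ hi)))
    have k1 := key a b ab ha hb
    have k2 := key a d ad ha hd
    have k3 := key b d bd hb hd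
    have := hO a
    generalize 4 * u a ^ 2 = r at *
    generalize 4 * u b ^ 2 = s at *
    generalize 4 * u d ^ 2 = t at *
    have e : r * r = 1 := by linear_combination r * t * k1.1 + k2.1 - r * r * k3.1
    rcases mul_self_eq_one_iff.1 e with e | e
    · exact ha.2 e
    · exact this.1 (by linear_combination (r - 3) * e - k1.2)
  have key : ∀ a b, a ≠ b → u a ≠ 0 ∧ ¬4 * u a ^ 2 = 1 → u b ≠ 0 ∧ ¬4 * u b ^ 2 = 1 →
      4 * u a ^ 2 * (4 * u b ^ 2) = 1 ∧ (4 * u a ^ 2) ^ 2 - 3 * (4 * u a ^ 2) + 1 = 0 :=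
    fun a b ab ha hb => ok_mul h2 h3 (hO a) (hO b) (by simp [h4, ha.1]) (by simp [h4, hb.1]) ha.2
      hb.2 ((h.prod hD ab ha.1).resolve_right fun c => i0 (c.2 i (fun e => ha.2 (e ▸ hi))
        fun e => hb.2 (e ▸ hi)))
  obtain ⟨l, l0⟩ : ∃ l, u l = 0 := by
    by_contra! H
    have e1 : S = univ := by ext k; simp [hS, H]
    rw [e1] at h5
    have e2 := sum_filter_add_sum_filter_not univ (fun k => 4 * u k ^ 2 = 1) fun k => 4 * u k ^ 2
    have e3 := card_filter_add_card_filter_not (s := univ) fun k => 4 * u k ^ 2 = 1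
    have e4 : ∑ k, 4 * u k ^ 2 = 4 := by
      rw [← mul_sum, show ∑ k, u k ^ 2 = 1 by simpa [dotProduct, sq] using hD.1, mul_one]
    rw [sum_congr rfl fun k hk => (mem_filter.1 hk).2, sum_const, nsmul_one, e4] at e2
    rw [card_univ, h.seven] at e3
    have hT' : ∀ k ∈ (univ.filter fun k => ¬4 * u k ^ 2 = 1), u k ≠ 0 ∧ ¬4 * u k ^ 2 = 1 :=
      fun k hk => ⟨H k, (mem_filter.1 hk).2⟩
    generalize (univ.filter fun k => ¬4 * u k ^ 2 = 1) = T at *
    generalize (univ.filter fun k => 4 * u k ^ 2 = 1).card = n at *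
    obtain e | e | e : T.card = 0 ∨ T.card = 1 ∨ T.card = 2 := by omega
    · obtain rfl : n = 5 := by omega
      rw [card_eq_zero.1 e, sum_empty] at e2
      exact one_ne_zero (by push_cast at e2; linear_combination e2 : (1 : F) = 0)
    · obtain rfl : n = 4 := by omega
      obtain ⟨a, rfl⟩ := card_eq_one.1 e
      rw [sum_singleton] at e2
      exact mul_ne_zero h4 (pow_ne_zero 2 (H a)) (by push_cast at e2; linear_combination e2)
    · obtain rfl : n = 3 := by omega
      obtain ⟨a, b, ab, rfl⟩ := card_eq_two.1 e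
      rw [sum_pair ab] at e2
      obtain ⟨k1, k2⟩ := key a b ab (hT' a (by simp)) (hT' b (by simp))
      push_cast at e2
      exact mul_ne_zero h2 (mul_ne_zero h4 (pow_ne_zero 2 (H a))) (by
        linear_combination (4 * u a ^ 2) * e2 - k1 - k2)
  obtain ⟨a, b, ab, hab⟩ : ∃ a b, a ≠ b ∧ u a ^ 2 = u b ^ 2 := by
    obtain ⟨a, ha, b, hb, d, hd, ab, ad, bd⟩ := two_lt_card.1
      (show 2 < (S.filter fun k => ¬4 * u k ^ 2 = 1)ᶜ.card by rw [card_compl, h.seven]; omega)
    have k : ∀ x ∈ (S.filter fun k => ¬4 * u k ^ 2 = 1)ᶜ, u x ^ 2 = 0 ∨ u x ^ 2 = 1 / 4 :=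
      fun x hx => by
        by_cases e : u x = 0
        · simp [e]
        · exact .inr (eq_div_of_mul_eq h4 (by simpa [hS, e, mul_comm] using hx))
    rcases k a ha with e1 | e1 <;> rcases k b hb with e2 | e2 <;> rcases k d hd with e3 | e3 <;>
      first | exact ⟨a, b, ab, e1.trans e2.symm⟩ | exact ⟨a, d, ad, e1.trans e3.symm⟩ |
        exact ⟨b, d, bd, e2.trans e3.symm⟩
  have li : l ≠ i := fun e => i0 (e ▸ l0)
  have lj : l ≠ j := fun e => j0 (e ▸ l0)
  have h7 := h.perm2 hD ab hab (swap i l)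
  have E : u ∘ swap i l = u - u i • 𝐞 i + u i • 𝐞 l := funext fun x => by
    by_cases xi : x = i
    · simp [xi, l0, li.symm]
    by_cases xl : x = l
    · simp [xl, l0, li]
    simp [xi, xl, swap_apply_of_ne_of_ne]
  rw [E] at h7
  refine not_ok h2 h3 (hO j) (by simp [h4, j0]) ?_ ?_
  · convert h.pair hu h7 fun t ht => i0 (by simpa [l0, li] using congrFun ht l) using 3
    simp [hD.1, l0]
    field_simp
    linear_combination hi
  · convert h.pair hu (h.refl (h.unit j) h7) fun t ht =>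
      i0 (by simpa [l0, li, lj] using congrFun ht l) using 3
    simp [hD.1, l0, ji, lj.symm]
    rw [show (4 : F) = 2 * 2 by norm_num] at hi ⊢
    field_simp
    linear_combination hi

theorem mono (hu : f.FOrb Y u) {i j : ι} (ij : i ≠ j) (hi : u i ≠ 0) : u j = 0 := by
  by_contra hj
  have hD := h.dd hu
  have h2 := h.two
  have h4 := h.four
  have hO : ∀ k, Ok (4 * u k ^ 2) := fun k => by
    by_cases e : k = i
    · exact h.ok hD (e ▸ ij.symm) hj
    · exact h.ok hD (Ne.symm e) hi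
  have h3 : (3 : F) ≠ 0 := fun h3 => (hO i).1 (by
    rw [pow_of_char h.prime (n := 3) (by norm_num) h3 hi, mul_one])
  have key : ∀ a b, a ≠ b → u a ≠ 0 → u b ≠ 0 →
      4 * u a ^ 2 * (4 * u b ^ 2) = 1 ∧ (4 * u a ^ 2) ^ 2 - 3 * (4 * u a ^ 2) + 1 = 0 := by
    refine fun a b ab ha hb => ok_mul h2 h3 (hO a) (hO b) (by simp [h4, ha]) (by simp [h4, hb])
      (h.one h3 hu) (h.one h3 hu) ((h.prod hD ab ha).resolve_right fun ⟨c1, c2⟩ => ?_)
    have hs : ∀ k, k ∉ ({a, b} : Finset ι) → u k = 0 := fun k hk => by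
      simp only [mem_insert, mem_singleton, not_or] at hk
      exact c2 k hk.1 hk.2
    obtain ⟨l, -, -, hl, -⟩ := h.exists_two (s := {a, b}) (card_le_two.trans (by omega))
    obtain ⟨g, hg, e⟩ := h.perm (s := {a, b}) (card_le_two.trans (by omega)) hs (swap b l)
    have := Fr.orb_map hu hg
    obtain ⟨g', hg', m, e'⟩ := hu
    refine h.one h3 (Fr.orb_map this (inv_mem hg')) (i := m) ?_
    have l0 := hs l hl
    simp only [mem_insert, mem_singleton, not_or] at hl
    rw [h.coord, e', e, dotProduct, sum_eq_single a]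
    · simp only [Function.comp, swap_apply_of_ne_of_ne ab (Ne.symm hl.1)]
      linear_combination (2 * u a ^ 2 + 1) * c1
    · intro k _ ka
      by_cases kb : k = b
      · simp [kb, l0]
      · simp [c2 k ka kb]
    · simp
  have k1 := key i j ij hi hj
  obtain ⟨l, hl, l0⟩ := exists_out (u := u) (I := {i, j}) fun e => by
    rw [sum_pair ij, hD.1] at e
    exact mul_ne_zero h4 (pow_ne_zero 2 hi) (by
      linear_combination k1.1 + k1.2 - 16 * u i ^ 2 * e)
  simp only [mem_insert, mem_singleton, not_or] at hl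
  have k2 := key i l (Ne.symm hl.1) hi l0
  have k3 := key j l (Ne.symm hl.2) hj l0
  have := hO i
  have h5 : 4 * u i ^ 2 ≠ 1 := h.one h3 hu
  generalize 4 * u i ^ 2 = r at *
  generalize 4 * u j ^ 2 = s at *
  generalize 4 * u l ^ 2 = t at *
  have e : r * r = 1 := by linear_combination r * t * k1.1 + k2.1 - r * r * k3.1
  rcases mul_self_eq_one_iff.1 e with e | e
  · exact h5 e
  · exact this.1 (by linear_combination (r - 3) * e - k1.2)

end Fr5

theorem frame_refl5 {f : Form (Kind.orth F) (ι → F)} {Y : Subgroup f.Isom} {c : F} (hc : c ≠ 0)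
    (h2 : (2 : F) ≠ 0) (hp : (Fintype.card F).Prime) (h7 : Fintype.card ι = 5)
    (hB : ∀ u v, f.B u v = 2 * c * (u ⬝ᵥ v)) (h1 : ∀ i, f.refl (𝐞 i) ∈ Y)
    (h3 : ∀ σ : Perm ι, Perm.sign σ = 1 → ∃ g ∈ Y, ∀ u, g ⊳ u = u ∘ σ) :
    (∀ g ∈ Y, f.PermD (fun i => F ∙ 𝐞 i) g) ∨ f.Eich ≤ Y := by
  refine or_iff_not_imp_right.2 fun H g hg i => ?_
  have h : f.Fr5 Y c := ⟨hc, h2, hp, h7, hB, h1, h3, H⟩
  have hu : f.FOrb Y (g ⊳ 𝐞 i) := ⟨g, hg, i, rfl⟩
  obtain ⟨j, -, hj⟩ := exists_out (u := g ⊳ 𝐞 i) (I := ∅) (by simp [(h.dd hu).1])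
  refine ⟨j, fun v hv => ?_⟩
  obtain ⟨a, rfl⟩ := Submodule.mem_span_singleton.1 hv
  rw [map_smul]
  refine Submodule.smul_mem _ _ (Submodule.mem_span_singleton.2 ⟨(g ⊳ 𝐞 i) j, funext fun k => ?_⟩)
  by_cases e : k = j
  · simp [e]
  · simp [e, h.mono hu (Ne.symm e) hj]

theorem frame_std5 {f : Form (Kind.orth F) (ι → F)} {X : Subgroup f.Isom} {c : F} (hc : c ≠ 0)
    (h2 : (2 : F) ≠ 0) (hp : (Fintype.card F).Prime) (h7 : Fintype.card ι = 5)
    (ho : Odd (Fintype.card ι)) (hB : ∀ u v, f.B u v = 2 * c * (u ⬝ᵥ v))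
    (hX : ∀ g ∈ f.Eich, f.PermD (fun i => F ∙ 𝐞 i) g → g ∈ X) :
    (∀ g ∈ X, f.PermD (fun i => F ∙ 𝐞 i) g) ∨ f.Eich ≤ X := by
  have hQ : ∀ u, f.Q u = c * (u ⬝ᵥ u) := fun u =>
    mul_left_cancel₀ h2 (by rw [← orth_B_self, hB, mul_assoc])
  have hf : f.Nondeg := fun x hx => funext fun i => by simpa [hB, h2, hc] using hx (𝐞 i)
  have hE := hf.commutator_eq_Eich (good_of_two_ne_zero _ h2) (by simp; omega)
  let n : f.Isom := ⟨.neg F, (f.orth_mem_Isom).2 fun x => by simp [hQ]⟩
  have hn : ∀ g, g * n = n * g := fun g => f.isom_ext fun v => map_neg g.1 v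
  have hn' : n * n = 1 := f.isom_ext fun v => neg_neg v
  have e1 : ∀ a b, n * a * b = n * (a * b) := mul_assoc n
  have e2 : ∀ a b, a * (n * b) = n * (a * b) := fun a b => by rw [← mul_assoc, hn, mul_assoc]
  have e3 : ∀ a b, n * a * (n * b) = a * b := fun a b => by rw [e2, e1, ← mul_assoc, hn', one_mul]
  let Y : Subgroup f.Isom :=
    { carrier := {g | g ∈ X ∨ n * g ∈ X}
      one_mem' := .inl (one_mem _)
      mul_mem' := by
        rintro a b (ha | ha) (hb | hb)
        exacts [.inl (mul_mem ha hb), .inr (e2 .. ▸ mul_mem ha hb), .inr (e1 .. ▸ mul_mem ha hb),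
          .inl (e3 a b ▸ mul_mem ha hb)]
      inv_mem' := by
        rintro a (ha | ha)
        · exact .inl (inv_mem ha)
        · exact .inr (by rw [← hn, ← inv_eq_of_mul_eq_one_right hn', ← mul_inv_rev]; exact inv_mem ha) }
  have rf : ∀ i v, f.refl (𝐞 i) ⊳ v = v - (2 * v i) • 𝐞 i := fun i v => by
    rw [refl_apply, hQ, hB]
    congr 2
    simp
    field_simp
  have fl : ∀ I : Finset ι, ∃ l : List (ι → F), (∀ v ∈ l, f.Q v ≠ 0) ∧ l.length = I.card ∧
      (l.map f.Q).prod = c ^ I.card ∧ ∀ u, f.reflProd l ⊳ u = u - (2 : F) • rs I u := fun I => by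
    induction I using Finset.induction_on with
    | empty => exact ⟨[], by simp, rfl, by simp, fun u => by ext i; simp [rs]⟩
    | insert a I ha ih =>
      obtain ⟨l, h1, h3, h4, h5⟩ := ih
      refine ⟨𝐞 a :: l, by simpa [hQ, hc] using h1, by simp [ha, h3],
        by rw [List.map_cons, List.prod_cons, h4, card_insert_of_notMem ha, pow_succ']; simp [hQ],
        fun u => ?_⟩
      rw [reflProd_cons, isom_mul_apply, rf, h5]
      ext i
      by_cases hi : i = a <;> simp [rs, hi, ha]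
  let ψ : Perm ι →* f.Isom :=
    { toFun σ := ⟨LinearEquiv.funCongrLeft F F σ⁻¹, (f.orth_mem_Isom).2 fun x => by
        rw [hQ, hQ]
        exact congrArg _ (comp_equiv_dotProduct_comp_equiv x x σ⁻¹)⟩
      map_one' := rfl
      map_mul' _ _ := rfl }
  refine (frame_refl5 (Y := Y) hc h2 hp h7 hB (fun i => .inr ?_) (fun σ hσ => ⟨ψ σ⁻¹, .inl ?_,
    fun _ => rfl⟩)).imp (fun H g hg => H g (.inl hg)) fun H => f.Eich_le fun x w d h => ?_
  rotate_right
  · have h1 := f.orth_eichlerCond h.Q_p (w := (2 : F)⁻¹ • w) (by simp [h.B_pw])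
    have h3 : f.eichler x w d h = f.eichler _ _ _ h1 * f.eichler _ _ _ h1 := by
      rw [eichler_mul]
      refine f.eichler_congr _ _ rfl (by rw [← two_smul F, smul_inv_smul₀ h2]) ?_
      rw [show d = f.Q w from h.π_c, orth_B_self, orth_Q_smul]
      field_simp
      ring
    rcases H (f.eichler_mem_Eich _ _ _ h1) with H | H
    · exact h3 ▸ mul_mem H H
    · exact h3 ▸ e3 .. ▸ mul_mem H H
  · obtain ⟨l, h1, h3, h4, h5⟩ := fl {i}ᶜ
    have h6 : Even ({i}ᶜ : Finset ι).card := by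
      obtain ⟨m, hm⟩ := ho
      exact ⟨m, by simp [card_compl]; omega⟩
    have : n * f.refl (𝐞 i) = f.reflProd l := f.isom_ext fun v => by
      rw [h5, isom_mul_apply, rf]
      ext k
      by_cases e : k = i <;> simp [n, rs, e] <;> ring
    rw [this]
    refine hX _ (hE ▸ hf.reflProd_mem_commutator h1 (h3 ▸ h6) (h4 ▸ h6.isSquare_pow c))
      fun j => ⟨j, fun v hv => ?_⟩
    obtain ⟨a, rfl⟩ := Submodule.mem_span_singleton.1 hv
    refine Submodule.mem_span_singleton.2 ⟨if j = i then a else -a, ?_⟩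
    rw [h5]
    ext k
    by_cases e : k = j
    · by_cases e' : j = i <;> simp [rs, e, e']
      ring
    · simp [rs, e]
  · refine hX _ (hE ▸ map_comm ψ ?_) fun j => ⟨σ.symm j, fun v hv => ?_⟩
    · rw [alternatingGroup.commutator_perm_eq (by simp; omega)]
      exact inv_mem (Perm.mem_alternatingGroup.2 hσ)
    · obtain ⟨a, rfl⟩ := Submodule.mem_span_singleton.1 hv
      rw [map_smul]
      exact Submodule.smul_mem _ _ (Submodule.mem_span_singleton.2
        ⟨1, (one_smul ..).trans (single_comp j (1 : F) σ).symm⟩)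

theorem ODec.frame_max5 {V : Type*} [AddCommGroup V] [Module F V] [FiniteDimensional F V]
    {f : Form (Kind.orth F) V} {D : ι → Submodule F V} (h : f.ODec D) {X : Subgroup f.Isom}
    (hX : ∀ g ∈ f.Eich, f.PermD D g → g ∈ X) (h1 : ∀ i, finrank F (D i) = 1)
    (h2 : (2 : F) ≠ 0) (hp : (Fintype.card F).Prime) (h7 : Fintype.card ι = 5)
    (ho : Odd (Fintype.card ι)) (hV : Fintype.card ι = finrank F V) :
    (∀ g ∈ X, f.PermD D g) ∨ f.Eich ≤ X := by
  obtain ⟨i₀⟩ : Nonempty ι := Fintype.card_pos_iff.1 (by omega)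
  obtain ⟨v, hv0, hv⟩ := finrank_eq_one_iff'.1 (h1 i₀)
  choose e he using h.equiv i₀
  let b : ι → V := fun i => e i v
  have hb : ∀ i, D i = F ∙ b i := fun i => (Submodule.eq_of_le_of_finrank_eq
    ((Submodule.span_singleton_le_iff_mem _ _).2 (e i v).2) (by
      rw [h1, finrank_span_singleton (by simpa [b] using hv0)])).symm
  have hQ : ∀ i, f.Q (b i) = f.Q v := fun i => (he i).Q_eq v
  have hc : f.Q v ≠ 0 := fun c => hv0 (h.nondeg_restrict i₀ v fun w => by
    obtain ⟨a, rfl⟩ := hv w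
    simp [orth_B_self, c])
  have hO : ∀ i j, f.B (b i) (b j) = if i = j then 2 * f.Q v else 0 := fun i j => by
    split_ifs with c
    · rw [c, orth_B_self, hQ]
    · exact h.orth i j c (e j v).2 _ (e i v).2
  let B := basisOfTopLeSpanOfCardEqFinrank b (by
    rw [← h.top]
    exact iSup_le fun i => hb i ▸ Submodule.span_mono (by simp)) hV
  let J := B.equivFun.symm
  have hJ : ∀ u, J u = ∑ i, u i • b i := fun u => by simp [J, B]
  have J1 : ∀ i, J (single i 1) = b i := fun i => by simp [hJ, single_apply]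
  have hP : (f.comap J.toLinearMap).Pres f J := ⟨fun _ _ => rfl, fun _ => rfl⟩
  have hf : (f.comap J.toLinearMap).Nondeg := h.nondeg.comap_equiv J
  have E := h.nondeg.commutator_eq_Eich (good_of_two_ne_zero _ h2) (by omega)
  have E' := hf.commutator_eq_Eich (good_of_two_ne_zero _ h2) (by simp; omega)
  have key : ∀ g, (f.comap J.toLinearMap).PermD (fun i => F ∙ single i 1) g ↔
      f.PermD D (isomCongr J hP g) := fun g => forall_congr' fun i => exists_congr fun j => by
    have : ∀ i v, v ∈ F ∙ (single i 1 : ι → F) ↔ J v ∈ D i := fun i v => by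
      rw [hb, ← J1, Submodule.mem_span_singleton, Submodule.mem_span_singleton]
      exact exists_congr fun a => by rw [← map_smul, J.injective.eq_iff]
    simp only [this, isomCongr_apply]
    exact ⟨fun H v hv => H _ (by simpa using hv), fun H v hv => by simpa using H _ hv⟩
  rcases frame_std5 (f := f.comap J.toLinearMap) (X := X.comap (isomCongr J hP).toMonoidHom) hc h2 hp
    h7 ho (fun u w => by
      simp [hJ, B_sum_left, hO, dotProduct, mul_sum, mul_comm, mul_left_comm, mul_assoc])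
    (fun g hg H => hX _ (E ▸ map_comm _ (E' ▸ hg)) ((key g).1 H)) with H | H
  · refine .inl fun g hg => ?_
    simpa using (key _).1 (H ((isomCongr J hP).symm g) (by simpa using hg))
  · refine .inr fun g hg => ?_
    exact (isomCongr J hP).apply_symm_apply g ▸
      H (E' ▸ map_comm (isomCongr J hP).symm.toMonoidHom (E ▸ hg))

end Form
end CA.CForm
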