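import Cfsg.Agent.Lib.Lin.H12Sp4

/-!
Overgroups of subfield subgroups of four-dimensional symplectic groups in odd characteristic.
-/

set_option autoImplicit false
set_option linter.unusedSectionVars false

namespace CA.CForm

open Module

namespace Form
variable {F : Type*} [Field F] [Finite F] {V : Type*} [AddCommGroup V] [Module F V]
  {ι : Type*} [Fintype ι] {b : Basis ι F V} {F₀ : Subfield F} {f : Form (Kind.symp F) V}
  {f₀ : Form (Kind.symp F₀) (ι → F₀)} {ζ : F} {X : Subgroup f.Isom}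

local notation:75 g:76 " ⊳ " v:75 => (g : V ≃ₗ[F] V) v
local notation "𝚓" => emb b F₀

theorem Lev.symp_comm {x w w' : V} (h : f.Lev X x w) (h' : f.Lev X x w')
    (hc : f.EichlerCond x 0 (2 * f.B w w')) : f.eichler x 0 _ hc ∈ X := by
  obtain ⟨c, h, m⟩ := h
  obtain ⟨c', h', m'⟩ := h'
  have := X.mul_mem (X.mul_mem m m') (X.inv_mem (X.mul_mem m' m))
  rw [eichler_mul, eichler_mul, eichler_inv, eichler_mul] at this
  refine mem_congr this (by abel) ?_ _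
  simp [symp_B_self, f.symp_symm w w']
  ring

theorem exists_pair (hf₀ : f₀.Nondeg) (h4 : Fintype.card ι = 4) {x : ι → F₀} (x0 : x ≠ 0) :
    ∃ w w', f₀.B x w = 0 ∧ f₀.B x w' = 0 ∧ f₀.B w w' = 1 := by
  have d4 : finrank F₀ (ι → F₀) = 4 := by rw [finrank_fintype_fun_eq_card, h4]
  obtain ⟨x', hx⟩ := hf₀.exists_isHyp (f₀.symp_Q x) x0
  obtain ⟨z, z1, z2, z3⟩ := f₀.iso_symp (f₀.perp (Submodule.span F₀ {x, x'}))
    (by have := hx.finrank_perp; omega)
  obtain ⟨z', z4, hz⟩ := hf₀.exists_isHyp_mem z3 z1 fun hp => z2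
    (Submodule.disjoint_def.1 (hf₀.disjoint_perp_perp hx.isCompl.disjoint) z z1 hp)
  rw [mem_perp_span_pair] at z1 z4
  exact ⟨z, z', z1.1, z4.1, hz.B_xy⟩

namespace Rat
variable (h : f.Rat b f₀ ζ) (hb : f.RBase b f₀ ζ X) (h4 : Fintype.card ι = 4) (h2 : (2 : F) ≠ 0)
include h hb h4 h2

theorem near4 (hM : f.RML b f₀ X) {y : V} (hy : f.TV X y) {z : ι → F₀} (z0 : z ≠ 0)
    (hz : f.B (𝚓 z) y = 0) : RV b F₀ y := by
  obtain ⟨c, c0, hc, hm⟩ := hy
  have K : ∀ z, z ≠ 0 → f.B (𝚓 z) y = 0 → ∀ v v', f₀.B z v = 0 → f₀.B z v' = 0 →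
      ζ * c * (f.B (𝚓 v) y * f.B (𝚓 v') y) ∈ F₀ := fun z z0 hz v v' hv hv' => by
    have := h.principle hb hM hm z0 (f₀.symp_Q z) (by
      rw [eichler_zero_apply, f.eq_zero_symm hz]; simp) hv hv'
    have := F₀.sub_mem (f₀.B v' v).2 this
    rw [← h.B_eq, eichler_zero_apply, f.symp_symm (𝚓 v) y] at this
    convert this using 1
    simp; ring
  have ζc : ζ * c ≠ 0 := mul_ne_zero h.ζ_ne c0
  have R : ∀ v v', f.B (𝚓 v) y ≠ 0 → ζ * c * (f.B (𝚓 v) y * f.B (𝚓 v') y) ∈ F₀ →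
      ζ * c * (f.B (𝚓 v) y * f.B (𝚓 v) y) ∈ F₀ → f.B (𝚓 v') y / f.B (𝚓 v) y ∈ F₀ :=
    fun v v' h0 a a' => by
      have := h.ζ_ne
      convert F₀.div_mem a a' using 1
      field_simp
  obtain ⟨p, q, p1, p2, p3⟩ : ∃ p q, f.B (𝚓 p) y = 0 ∧ f₀.B q z = 0 ∧ f₀.B q p ≠ 0 := by
    obtain ⟨w, w', w1, w2, w3⟩ := exists_pair h.nondeg₀ h4 z0
    by_cases h0 : f.B (𝚓 w) y = 0
    · exact ⟨w, w', h0, f₀.eq_zero_symm w2, fun e => by simp [f₀.eq_zero_symm e] at w3⟩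
    · refine ⟨w' - (⟨_, R w w' h0 (K z z0 hz _ _ w1 w2) (K z z0 hz _ _ w1 w1)⟩ : F₀) • w, w, ?_,
        f₀.eq_zero_symm w1, by simp [w3, symp_B_self]⟩
      rw [map_sub, emb_smul]
      simp [h0]
  have S : ∀ v, ζ * c * (f.B (𝚓 v) y * f.B (𝚓 v) y) ∈ F₀ := fun v => by
    by_cases e : f₀.B z v = 0
    · exact K z z0 hz v v e e
    · have e' : f₀.B (f₀.B p v • z - f₀.B z v • p) v = 0 := by simp [mul_comm]
      refine K _ (fun e0 => ?_) ?_ v v e' e'
      · have := congrArg (f₀.B q) e0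
        simp [p2, p3, e] at this
      · rw [map_sub, emb_smul, emb_smul]
        simp [hz, p1]
  by_cases y0 : ∀ v, f.B (𝚓 v) y = 0
  · obtain ⟨u, hu⟩ := h.mem_range (a := y) fun v => by simp [y0]
    exact ⟨1, u, by simp [hu]⟩
  obtain ⟨v, hv⟩ := not_forall.1 y0
  obtain ⟨u, hu⟩ := h.mem_range (a := (ζ * f.B (𝚓 v) y)⁻¹ • y) fun v' => by
    have a := F₀.sub_mem (F₀.sub_mem (S (v + v')) (S v)) (S v')
    have h2' : (2 : F) ∈ F₀ := by exact_mod_cast natCast_mem F₀ 2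
    have := R v v' hv (by
      convert F₀.div_mem a h2' using 1
      simp only [map_add, B_add_left]
      field_simp
      ring) (S v)
    convert this using 1
    have := h.ζ_ne
    simp only [map_smul, smul_eq_mul]
    field_simp
  exact ⟨ζ * f.B (𝚓 v) y, u, by rw [hu, smul_inv_smul₀ (mul_ne_zero h.ζ_ne hv)]⟩

theorem presR_tv4 (hM : f.RML b f₀ X) {g : f.Isom} (hg : g ∈ X) {x : ι → F₀} (hx0 : x ≠ 0)
    (hr : RV b F₀ (g ⊳ 𝚓 x)) : f.PresR b F₀ g :=
  h.presR_of_point f₀.iso_symp (by omega) (by omega) (fun x y x0 hx hy hB hr => by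
    obtain ⟨s, s0, z, z0, hz, e⟩ := h.exists_of_rv x0 hx hr
    refine h.near4 hb h4 h2 hM ((h.tv hb ⟨1, one_ne_zero, rfl⟩ hy).map hg) z0 ?_
    have := h.B_zero.2 hB
    rw [← f.B_coe_map g, e] at this
    simpa [s0] using this) hx0 (f₀.symp_Q x) hr

theorem presR_all4 (hM : f.RML b f₀ X) {g : f.Isom} (hg : g ∈ X) : f.PresR b F₀ g := by
  have := h.fd
  have : Nontrivial (ι → F₀) := Module.nontrivial_of_finrank_pos (R := F₀) (by
    rw [finrank_fintype_fun_eq_card]; omega)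
  obtain ⟨z, z0⟩ := exists_ne (0 : ι → F₀)
  have tv := fun x => h.tv hb ⟨1, one_ne_zero, rfl⟩ (f₀.symp_Q x)
  refine h.presR_tv4 hb h4 h2 hM hg z0 ?_
  have hu := (tv z).map hg
  have hu0 : g ⊳ 𝚓 z ≠ 0 := by simpa using z0
  generalize g ⊳ 𝚓 z = u at hu hu0
  by_contra hn
  have far : ∀ z, z ≠ 0 → f.B (𝚓 z) u ≠ 0 := fun z z0 e => hn (h.near4 hb h4 h2 hM hu z0 e)
  have key : ∀ z' q, f₀.B z z' = 0 → f₀.B q z = 0 → f₀.B q z' = 1 →
      (f.B (𝚓 z') u / f.B (𝚓 z) u) ^ 2 ∈ F₀ := fun z' q a1 a2 a3 => by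
    have z0' : z' ≠ 0 := by rintro rfl; simp at a3
    let W := Submodule.span F {u, 𝚓 z, 𝚓 z'}
    have hu' := hu.inf (W := W) (Submodule.subset_span (.inl rfl))
    obtain ⟨e, he, l, e1⟩ := hu'.reach ((tv z).inf (Submodule.subset_span (by simp))) (far z z0)
    obtain ⟨e', he', l', e2⟩ := hu'.reach ((tv z').inf (Submodule.subset_span (by simp)))
      (far z' z0')
    have l0 : l ≠ 0 := by rintro rfl; simp [hu0] at e1
    have hm := Subgroup.mul_mem _ he' (Subgroup.inv_mem _ he)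
    have e3 : (e' * e⁻¹ : f.Isom) ⊳ 𝚓 z = (l⁻¹ * l') • 𝚓 z' := by
      rw [isom_mul_apply, ← inv_smul_smul₀ l0 (𝚓 z), ← e1, map_smul, isom_inv_apply_apply,
        map_smul, e2, smul_smul]
    generalize e' * e⁻¹ = m at hm e3
    obtain ⟨μ, μ0, hμ⟩ := h.presR_tv4 hb h4 h2 hM hm.1 z0 ⟨_, _, e3⟩
    have b1 := h.B_zero.2 a1
    have e4 := hm.2 (f.B (𝚓 z') u • 𝚓 z - f.B (𝚓 z) u • 𝚓 z') (f.mem_perp_span.2 (by
      rintro _ (e | e | e) <;> rw [e]
      · simp [f.symp_symm (𝚓 z) u, f.symp_symm (𝚓 z') u, mul_comm]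
      · simp [symp_B_self, b1]
      · simp [symp_B_self, f.eq_zero_symm b1]))
    obtain ⟨q', r, q1, q2, q3⟩ : ∃ q' r, f₀.B q' z = 1 ∧ f₀.B q' z' = 0 ∧ f₀.B r z = 1 := by
      obtain ⟨r, hr⟩ := h.nondeg₀.exists_isHyp (f₀.symp_Q z) z0
      refine ⟨-r + f₀.B r z' • q, -r, ?_, ?_, ?_⟩ <;> simp [hr.B_yx, a2, a3]
    obtain ⟨v, hv⟩ := hμ z'
    obtain ⟨v1, hv1⟩ := hμ z
    obtain ⟨v2, hv2⟩ := hμ r
    have c1 : μ * μ * f₀.B v2 v1 = 1 := by
      have := h.B_eq r z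
      rw [← f.B_coe_map m, hv1, hv2, q3] at this
      rw [← h.B_eq]
      simpa [mul_assoc, mul_left_comm] using this
    have c2 := congrArg (fun x => ζ * f.B (𝚓 q') x) e4
    simp only [map_sub, map_smul, e3, hv, smul_eq_mul, h.B_zero.2 q2, mul_zero] at c2
    have c3 := h.B_eq q' z
    have c4 := h.B_eq q' v
    rw [q1] at c3
    have n1 : (f₀.B v2 v1 : F) ≠ 0 := fun e => by simp [e] at c1
    have n2 := far z z0
    convert F₀.div_mem (F₀.pow_mem (f₀.B q' v).2 2) (f₀.B v2 v1).2 using 1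
    have c5 : f.B (𝚓 z') u = -(f.B (𝚓 z) u * μ * f₀.B q' v) := by
      push_cast at c3
      rw [← c4]
      linear_combination -c2 - f.B (𝚓 z') u * c3
    rw [c5]
    field_simp
    linear_combination (f₀.B q' v : F) ^ 2 * c1
  obtain ⟨w, w', w1, w2, w3⟩ := exists_pair h.nondeg₀ h4 z0
  have k1 := key w' w w2 (f₀.eq_zero_symm w1) w3
  have k2 := key (w' + z) w (by simp [w2, symp_B_self]) (f₀.eq_zero_symm w1)
    (by simp [w3, f₀.eq_zero_symm w1])
  have n2 := far z z0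
  have h2' : (2 : F) ∈ F₀ := by exact_mod_cast natCast_mem F₀ 2
  have k3 : f.B (𝚓 w') u / f.B (𝚓 z) u ∈ F₀ := by
    convert F₀.div_mem (F₀.sub_mem (F₀.sub_mem k2 k1) F₀.one_mem) h2' using 1
    simp only [map_add, B_add_left]
    field_simp
    ring
  refine far (w' - (⟨_, k3⟩ : F₀) • z) (fun e => ?_) ?_
  · have := congrArg (f₀.B w) e
    simp [w3, f₀.eq_zero_symm w1] at this
  · rw [map_sub, emb_smul]
    simp [n2]

theorem odd_four (hmax : ∀ L : Subring F, F₀.toSubring ≤ L → L ≤ F₀.toSubring ∨ L = ⊤) :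
    (∀ g ∈ X, f.PresR b F₀ g) ∨ f.Eich ≤ X := by
  have := h.fd
  have C : ∀ (x : V) c, f.EichlerCond x 0 c := fun x c => symp_eichlerCond (map_zero _) c
  have t0 : ∀ x (c : F₀), f.eichler (𝚓 x) 0 (ζ * c) (C _ _) ∈ X := fun x c =>
    mem_congr (hb x 0 c (symp_eichlerCond (map_zero _) c) (h.cond (symp_eichlerCond (map_zero _) c)))
      (by simp) rfl _
  have lv : ∀ a, (∀ x, f.eichler (𝚓 x) 0 (ζ * a) (C _ _) ∈ X) → ∀ x w, f₀.B x w = 0 →
      f.Lev X (𝚓 x) ((ζ * a) • 𝚓 w) := fun a ha x w e => by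
    have e' := h.B_zero.2 e
    have c1 : f.EichlerCond (𝚓 x) ((ζ * a) • 𝚓 w) (ζ * a) := symp_eichlerCond (by simp [e']) _
    have := ha (w + x)
    rw [f.eichler_congr _ (C (𝚓 w + 𝚓 x) _) (map_add _ _ _) rfl rfl,
      symp_eichler_add e' _ _ c1 (C _ _), X.mul_mem_cancel_right (ha w)] at this
    exact ⟨_, c1, this⟩
  let Λ : Subring F :=
    { carrier := {a | ∀ x, f.eichler (𝚓 x) 0 (ζ * a) (C _ _) ∈ X}
      zero_mem' := fun x => t0 x 0
      one_mem' := fun x => t0 x 1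
      add_mem' := fun {a a'} ha ha' x => by
        have := X.mul_mem (ha x) (ha' x)
        rw [eichler_mul] at this
        exact mem_congr this (add_zero _) (by simp; ring) _
      neg_mem' := fun {a} ha x => by
        have := X.inv_mem (ha x)
        rw [eichler_inv] at this
        exact mem_congr this neg_zero (by simp) _
      mul_mem' := fun {a a'} ha ha' x => by
        by_cases x0 : x = 0
        · rw [f.eichler_congr _ (C 0 _) (by simp [x0]) rfl rfl, eichler_zero_left]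
          exact X.one_mem
        obtain ⟨w, w', w1, w2, w3⟩ := exists_pair h.nondeg₀ h4 x0
        have h2' : (2 : F₀) ≠ 0 := fun e => h2 (congrArg Subtype.val e)
        refine mem_congr ((lv a ha x w w1).symp_comm (lv a' ha' x ((2 : F₀)⁻¹ • w') (by simp [w2]))
          (C _ _)) rfl ?_ _
        have := h.B_eq w w'
        rw [w3] at this
        push_cast at this
        rw [emb_smul, B_smul_left, map_smul, map_smul]
        simp only [Kind.symp_σ, smul_eq_mul]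
        have e2 : (((2 : F₀)⁻¹ : F₀) : F) = 2⁻¹ := by push_cast; rfl
        rw [e2]
        field_simp
        linear_combination (ζ * a * a') * this }
  rcases hmax Λ (fun a ha x => t0 x ⟨a, ha⟩) with e | e
  · refine .inl fun g hg => h.presR_all4 hb h4 h2 (fun x x0 _ a ha v hv => ?_) hg
    have t := (h.lev hb (f₀.symp_Q x) hv).symp_comm ha (C _ _)
    have h2' : (2 : F) ∈ F₀ := by exact_mod_cast natCast_mem F₀ 2
    have : 2 * f.B (𝚓 v) a ∈ F₀ := e (show 2 * f.B (𝚓 v) a ∈ Λ from fun y => by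
      by_cases y0 : y = 0
      · rw [f.eichler_congr _ (C 0 _) (by simp [y0]) rfl rfl, eichler_zero_left]
        exact X.one_mem
      obtain ⟨k, hk, e1⟩ := h.nondeg₀.exists_Eich_eq f₀.iso_symp
        (by rw [finrank_fintype_fun_eq_card]; omega) x0 (f₀.symp_Q _) y0 (f₀.symp_Q _)
      obtain ⟨k', hk', e2⟩ := h.lift hb hk
      have := X.mul_mem (X.mul_mem hk' t) (X.inv_mem hk')
      rw [conj_eichler, f.eichler_congr _ (C (𝚓 y) (ζ * (2 * f.B (𝚓 v) a))) (by rw [e2, e1])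
        (map_zero _) (by simp; ring)] at this
      exact this)
    simpa [h2] using F₀.div_mem this h2'
  · have hΛ : ∀ a x, f.eichler (𝚓 x) 0 (ζ * a) (C _ _) ∈ X := fun a =>
      (e ▸ Subring.mem_top a : a ∈ Λ)
    have q : ∀ x, x ≠ 0 → f.Qgrp (𝚓 x) ≤ X := fun x x0 => Qgrp_le_of_lev
      (f.Tgrp_le fun c hc => mem_congr (hΛ (c / ζ) x) rfl (mul_div_cancel₀ _ h.ζ_ne) _)
      fun w hw => h.perp_induction x0 (f₀.symp_Q x) (P := fun w => f.Lev X (𝚓 x) w)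
        (lev_zero (f.symp_Q _)) (fun _ _ => Lev.add)
        (fun a u hu => mul_div_cancel₀ a h.ζ_ne ▸ lv _ (hΛ (a / ζ)) x u hu) hw
    have : Nontrivial (ι → F₀) := Module.nontrivial_of_finrank_pos (R := F₀) (by
      rw [finrank_fintype_fun_eq_card]; omega)
    obtain ⟨x, x0⟩ := exists_ne (0 : ι → F₀)
    obtain ⟨y, hy⟩ := h.nondeg₀.exists_isHyp (f₀.symp_Q x) x0
    exact .inr (h.nondeg.Eich_le_of_Qgrp (.inr ⟨1, one_ne_zero, rfl⟩) (f.symp_Q _) (f.symp_Q _)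
      (fun e => by simpa [hy.B_xy] using h.B_zero.1 e) (q x x0) (q y hy.y_ne_zero))

end Rat
end Form
end CA.CForm
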