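import Cfsg.Agent.Lib.Lin.MaxF7
import Cfsg.Agent.Lib.Lin.MaxF2

/-!
Stabilisers of non-degenerate three-spaces of five-dimensional quadratic spaces.
-/

set_option autoImplicit false
set_option linter.unusedSectionVars false

namespace CA.CForm

open Module

theorem exists_pow_two_ne_one {F : Type*} [Field F] [Fintype F] (hq : 5 ≤ Fintype.card F) :
    ∃ ν : F, ν ≠ 0 ∧ ν ^ 2 ≠ 1 := by
  simpa only [sq] using exists_sq_ne_one (F := F) (by omega)

theorem exists_par {F : Type*} [Field F] [Fintype F] (h2 : (2 : F) ≠ 0) (hq : 5 ≤ Fintype.card F)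
    {α c d : F} (hα : α ≠ 0) (hc : c ≠ 0) (hd : d ≠ 0) :
    ∃ s, s ≠ 0 ∧ (¬IsSquare (α * (c - s ^ 2 * d)) ∨ (c = s ^ 2 * d ∧ c ≠ s ^ 2 * α)) := by
  classical
  obtain ⟨ν, ν0, ν1⟩ := exists_pow_two_ne_one hq
  have key : ∀ A : Finset F, (∀ t ∈ A, ν ^ 2 * t ∈ A) → (∀ t ∈ A, α * (c - t * d) ∈ A) →
      (A.card : F) = 0 := fun A a1 a2 => by
    have s : ∀ φ : F → F, Function.Injective φ → (∀ t ∈ A, φ t ∈ A) →
        ∑ t ∈ A, φ t = ∑ t ∈ A, t := fun φ hφ h => by
      rw [← Finset.sum_image (f := fun t => t) fun _ _ _ _ e => hφ e]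
      rw [Finset.eq_of_subset_of_card_le (Finset.image_subset_iff.2 h)
        (Finset.card_image_of_injective _ hφ).ge]
    have s1 := s _ (mul_right_injective₀ (pow_ne_zero 2 ν0)) a1
    have s2 := s (fun t => α * (c - t * d)) (fun t t' e => mul_right_cancel₀ hd
      (sub_right_injective (mul_left_cancel₀ hα e))) a2
    rw [← Finset.mul_sum] at s1
    have s3 : ∑ t ∈ A, t = 0 := mul_left_cancel₀ (sub_ne_zero.2 ν1) (by linear_combination s1)
    rw [← Finset.mul_sum, Finset.sum_sub_distrib, ← Finset.sum_mul, s3, Finset.sum_const,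
      nsmul_eq_mul] at s2
    simpa [hα, hc] using s2
  let T := (Finset.univ.erase (0 : F)).image (· ^ 2)
  have hT : ∀ t, t ∈ T ↔ ∃ s, s ≠ 0 ∧ s ^ 2 = t := fun t => by simp [T]
  have T0 : (0 : F) ∉ T := fun h => by
    obtain ⟨s, h1, h3⟩ := (hT _).1 h
    exact pow_ne_zero 2 h1 h3
  have cT : 2 * (T.card : F) + 1 = 0 := by
    have e := Finset.card_eq_sum_card_image (· ^ 2) (Finset.univ.erase (0 : F))
    rw [Finset.sum_congr rfl (g := fun _ => 2) fun t ht => ?_, Finset.sum_const, smul_eq_mul,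
      Finset.card_erase_of_mem (Finset.mem_univ _), Finset.card_univ] at e
    · rw [← FiniteField.cast_card_eq_zero F, show Fintype.card F = 2 * T.card + 1 by
        simp only [T]; omega]
      push_cast; rfl
    · obtain ⟨s, h1, rfl⟩ := (hT _).1 ht
      refine Eq.trans ?_ (Finset.card_pair (a := s) (b := -s)
        fun e => mul_ne_zero h2 h1 (by linear_combination e))
      congr 1
      ext r
      simp only [Finset.mem_filter, Finset.mem_erase, Finset.mem_univ, and_true,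
        sq_eq_sq_iff_eq_or_eq_neg, Finset.mem_insert, Finset.mem_singleton, and_iff_right_iff_imp]
      rintro (rfl | rfl) <;> simpa
  have m1 : ∀ t ∈ T, ν ^ 2 * t ∈ T := fun t ht => by
    obtain ⟨s, h1, rfl⟩ := (hT _).1 ht
    exact (hT _).2 ⟨ν * s, mul_ne_zero ν0 h1, mul_pow _ _ _⟩
  have sq : ∀ t, IsSquare t → t ∈ insert 0 T := fun t ⟨r, hr⟩ => by
    by_cases r0 : r = 0
    · simp [hr, r0]
    · exact Finset.mem_insert_of_mem ((hT _).2 ⟨r, r0, by rw [hr, pow_two]⟩)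
  by_contra! H
  by_cases hs : IsSquare (α * c)
  · have := key (insert 0 T) (fun t ht => by
      rcases Finset.mem_insert.1 ht with rfl | ht
      · simp
      · exact Finset.mem_insert_of_mem (m1 t ht)) fun t ht => by
      rcases Finset.mem_insert.1 ht with rfl | ht
      · exact sq _ (by simpa using hs)
      · obtain ⟨s, h1, rfl⟩ := (hT _).1 ht
        exact sq _ (H s h1).1
    rw [Finset.card_insert_of_notMem T0] at this
    push_cast at this
    exact one_ne_zero (by linear_combination 2 * this - cT : (1 : F) = 0)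
  · have := key T m1 fun t ht => by
      obtain ⟨s, h1, rfl⟩ := (hT _).1 ht
      refine (Finset.mem_insert.1 (sq _ (H s h1).1)).resolve_left fun e => hs ⟨s * α, ?_⟩
      rw [(H s h1).2 (sub_eq_zero.1 ((mul_eq_zero.1 e).resolve_left hα))]
      ring
    exact one_ne_zero (by linear_combination cT - 2 * this : (1 : F) = 0)

namespace Form
variable {F : Type*} [Field F] [Fintype F] {V : Type*} [AddCommGroup V] [Module F V]
  [FiniteDimensional F V] {f : Form (Kind.orth F) V} {X : Subgroup f.Isom} {U : Submodule F V}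

local notation:75 g:76 " ⊳ " v:75 => (g : V ≃ₗ[F] V) v

theorem map_mem_levS' {x w : V} {hx : f.Q x = 0} (h : w ∈ levS X hx) (x0 : x ≠ 0) {g : f.Isom}
    (hg : g ∈ X) (hgx : g ⊳ x ∈ F ∙ x) : g ⊳ w ∈ levS X hx := fun a => by
  obtain ⟨t, ht⟩ := Submodule.mem_span_singleton.1 hgx
  have t0 : t ≠ 0 := by rintro rfl; exact x0 (by simpa using ht.symm)
  have := (h (a / t)).map hg
  rw [← ht] at this
  simpa [smul_smul, mul_div_cancel₀ _ t0] using this.smul_left hx t0

theorem exists_Q_ne {A : Submodule F V} (dA : Disjoint A (f.perp A))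
    (h : 1 ≤ finrank F A) : ∃ w ∈ A, f.Q w ≠ 0 := by
  by_contra! H
  obtain ⟨v, hv, v0⟩ := Submodule.exists_mem_ne_zero_of_ne_bot (p := A) (by
    rintro rfl; simp at h)
  refine v0 (Submodule.disjoint_def.1 dA v hv fun u hu => ?_)
  rw [orth_B_eq, H _ (A.add_mem hu hv), H u hu, H v hv]; ring

theorem Lev.levS_of_torus (hf : f.Nondeg) (h2 : (2 : F) ≠ 0) (h3 : 3 ≤ finrank F V) {a y b : V}
    (h : f.IsHyp a y) (hT : ∀ t, h.torus t ∈ f.Eich → h.torus t ∈ X) (h5 : f.Lev X a b)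
    (hy : f.B y b = 0) : b ∈ levS X h.Q_x := fun l => by
  have h6 : ∀ t : F, f.Lev X a (t ^ 2 • b) := fun t => by
    by_cases ht : t = 0
    · simpa [ht] using lev_zero h.Q_x
    have := h5.map (hT _ (h.torus_mul_self_mem_Eich hf h3 (Units.mk0 t ht)))
    rw [h.torus_apply_x, h.torus_apply_of_B _ h5.B_eq hy] at this
    simpa [sq] using this.smul_left h.Q_x (Units.ne_zero _)
  obtain ⟨s, t, rfl⟩ := exists_two_sq h2 l
  exact add_smul (s ^ 2) _ b ▸ (h6 s).add (h6 t)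

theorem Nondeg.max_three (hf : f.Nondeg) (h5 : finrank F V = 5) (hq : 5 ≤ Fintype.card F)
    (hU : Disjoint U (f.perp U)) (hU3 : finrank F U = 3)
    (hX : f.stab U ⊓ f.Eich ≤ X) : X ≤ f.stab U ∨ f.Eich ≤ X := by
  have ho : Odd (finrank F V) := ⟨2, by omega⟩
  have h2 := hf.two_ne_zero_of_odd ho
  have hg := good_of_two_ne_zero f h2
  have h3 : 3 ≤ finrank F V := by omega
  have hE := hf.commutator_eq_Eich hg h3
  have hb := base_of_le hX
  have hU' := hf.disjoint_perp_perp hU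
  have hU2 := hf.finrank_perp U
  have irr : ∀ W : Submodule F V, Disjoint W (f.perp W) → (f.restrict W).IrrI := fun W hW =>
    ((f.nondeg_restrict_iff _).2 hW).orth_irrI fun h => by
      rw [Nat.card_eq_fintype_card] at h; omega
  have hyp : ∀ W : Submodule F V, Disjoint W (f.perp W) → ∀ x ∈ W, x ≠ 0 → f.Q x = 0 →
      ∃ y ∈ W, f.IsHyp x y := fun W hW x hx h0 hQ =>
    hf.exists_isHyp_mem hQ hx fun h => h0 (Submodule.disjoint_def.1 hW x hx h)
  obtain ⟨η, hη⟩ := FiniteField.exists_nonsquare (F := F) fun e => h2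
    (by rw [← Nat.cast_ofNat, ← e]; exact ringChar.Nat.cast_ringChar)
  have η0 : η ≠ 0 := fun e => hη (e ▸ IsSquare.zero)
  have tor : ∀ {x y : V} (h : f.IsHyp x y) {S : Subgroup f.Isom}, (∀ t, h.torus t ∈ S) →
      (2 : F) ≠ 0 → ∃ s ∈ S, hf.dick hg s = 1 ∧ hf.spin hg s = -1 := fun h S hS _ =>
    ⟨_, hS (Units.mk0 η η0), h.dick_torus hf hg _, by
      rw [h.spin_torus hf hg]; exact sqSign_eq_neg_one.2 hη⟩
  have tst : ∀ {x y : V} (h : f.IsHyp x y) t, h.torus t ∈ f.stab (F ∙ x) := fun h t =>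
    f.mem_stab_of_le fun v hv => by
      obtain ⟨a, rfl⟩ := Submodule.mem_span_singleton.1 hv
      rw [map_smul, h.torus_apply_x]
      exact Submodule.smul_mem _ _ (Submodule.smul_mem _ _ (Submodule.mem_span_singleton_self _))
  have tfx : ∀ {x y : V} (h : f.IsHyp x y) {W : Submodule F V}, x ∈ W → y ∈ W → ∀ t,
      h.torus t ∈ f.fix (f.perp W) := fun h W hx hy t v hv =>
    h.torus_apply_of_B _ (hv _ hx) (hv _ hy)
  have third : ∀ {x y : V}, f.IsHyp x y → x ∈ U → y ∈ U →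
      ∃ w ∈ U, f.Q w ≠ 0 ∧ f.B x w = 0 ∧ f.B y w = 0 := fun h hx hy => by
    obtain ⟨A, hA, dA, rA, oA⟩ := h.perp_part hU hx hy
    obtain ⟨w, hw, hw1⟩ := exists_Q_ne dA (by omega)
    exact ⟨w, hA hw, hw1, oA w hw⟩
  refine or_iff_not_imp_right.2 fun hn => ?_
  have hM : f.ML X U := by
    by_contra hM
    unfold ML at hM
    push Not at hM
    obtain ⟨x, hx, hx0, hQ, hl⟩ := hM
    obtain ⟨y, hy, h⟩ := hyp U hU x hx hx0 hQ
    obtain ⟨w, hw, hw1, o1, o2⟩ := third h hx hy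
    refine hn (hf.Eich_le_of_Qgrp' (.inl h3) hQ (Qgrp_le_of_lev (hb.Tgrp_le hx) fun w' hw' =>
      lev_of_mem_levS (hb.grow hf hU hx hl (fun v hv hv0 hl => hf.eq_of_irrI
        hU' (irr _ hU') (fun g hg' u hu hul => ?_) hv hl hv0) w' hw'))
      (hb y hy w hw _ (f.orth_eichlerCond h.Q_y o2)) ?_)
    · have hu' := ((hf.mem_stab_of_fix_perp le_rfl hg') u).1 hu
      rw [hf.perp_perp] at hg'
      obtain ⟨s, hs, h5⟩ := hf.exists_mul_mem_commutator hg (S := f.fix (f.perp U) ⊓ f.stab (F ∙ x))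
        ⟨f.refl w, ⟨refl_mem_fix (f.le_perp_perp U hw), f.fix_le_stab _
          (refl_mem_fix (f.mem_perp_span_singleton.2 o1))⟩, hf.dick_refl hg hw1⟩
        (tor h fun t => ⟨tfx h hx hy t, tst h t⟩) g
      have := map_mem_levS' hul hx0 (hX ⟨mul_mem (hf.mem_stab_of_fix_perp le_rfl hs.1)
        (f.fix_le_stab U hg'), hE ▸ h5⟩) (by
          rw [isom_mul_apply, hg' x hx]
          exact (hs.2 x).1 (Submodule.mem_span_singleton_self x))
      rwa [isom_mul_apply, hs.1 _ hu'] at this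
    · rw [eichler_apply]
      simp [h.B_xx, h.B_xy, h.B_yx, o1, f.eq_zero_symm o1, hw1]
  let n : f.Isom := ⟨.neg F, (f.orth_mem_Isom).2 fun x => by simp⟩
  have nn : ∀ v, n ⊳ v = -v := fun _ => rfl
  have hn1 : ∀ g, g * n = n * g := fun g => f.isom_ext fun v => map_neg g.1 v
  have hn' : n * n = 1 := f.isom_ext fun v => neg_neg v
  have dn : hf.dick hg n = -1 := by
    rw [dick_apply, show f.commSub n = ⊤ from eq_top_iff.2 fun v _ => f.mem_commSub.2
      ⟨-(2 : F)⁻¹ • v, by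
        change -_ - _ = _
        rw [neg_smul, neg_neg, sub_neg_eq_add, ← two_smul F, smul_inv_smul₀ h2]⟩, finrank_top,
      ho.neg_one_pow]
  obtain ⟨c, hc, sc⟩ : ∃ c : F, c ≠ 0 ∧ sqSign c = hf.spin hg n := by
    rcases Int.units_eq_one_or (hf.spin hg n) with e | e
    · exact ⟨1, one_ne_zero, e ▸ sqSign_one⟩
    · exact ⟨η, η0, e ▸ sqSign_eq_neg_one.2 hη⟩
  have R1 : ∀ v, f.Q v = c → v ∈ U ∨ v ∈ f.perp U → n * f.refl v ∈ X := fun v hv h =>
    hX ⟨mul_mem (f.mem_stab_of_le fun _ => neg_mem) (h.elim refl_mem_stab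
      fun h => f.fix_le_stab U (refl_mem_fix h)), hE ▸ (hf.mem_commutator_iff hg _).2
        ⟨by rw [map_mul, dn, hf.dick_refl hg (hv ▸ hc)]; rfl,
          by rw [map_mul, hf.spin_refl hg (hv ▸ hc), hv, sc, Int.units_mul_self]⟩⟩
  have R2 : ∀ v, n * f.refl v ∈ X → ∀ g ∈ X, n * f.refl (g ⊳ v) ∈ X := fun v h g hg' => by
    have := mul_mem (mul_mem hg' h) (inv_mem hg')
    rwa [← mul_assoc, hn1, mul_assoc n, mul_assoc n, conj_refl] at this
  have R3 : ∀ a b, f.Q a = 0 → f.B a b = 0 → f.Q b = c → n * f.refl b ∈ X →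
      n * f.refl (a + b) ∈ X → f.Lev X a (c⁻¹ • b) := fun a b hQ hab hv r1 r2 => by
    have h1 := f.orth_eichlerCond (f.Q_smul_of_Q hQ c⁻¹) (w := b) (by simp [hab])
    have h5 : f.Lev X (c⁻¹ • a) b := ⟨_, h1, by
      rw [f.eichler_eq_refl_mul h1 (hv ▸ hc), hv, smul_inv_smul₀ hc, add_comm]
      have := mul_mem r1 r2
      rwa [mul_assoc, ← mul_assoc (f.refl b), hn1, ← mul_assoc, ← mul_assoc, hn', one_mul] at this⟩
    exact h5.smul_left hQ (inv_ne_zero hc)
  have A1 : ∀ a ∈ U, ∀ b ∈ f.perp U, f.Q (a + b) = c → n * f.refl (a + b) ∈ X → a ≠ 0 →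
      f.Q a = 0 → b = 0 := fun a ha b hb' hv hr a0 hQ => by
    have hab := hb' a ha
    rw [f.Q_add_of_B hab, hQ, zero_add] at hv
    obtain ⟨y, hy, h⟩ := hyp U hU a ha a0 hQ
    exact Submodule.disjoint_def.1 hU b ((U.smul_mem_iff (inv_ne_zero hc)).1 (hM a ha a0 hQ
      ((R3 a b hQ hab hv (R1 b hv (.inr hb')) hr).levS_of_torus hf h2 h3 h
        (fun t e => hX ⟨hf.mem_stab_of_fix_perp le_rfl (tfx h ha hy t), e⟩)
        (by simp [hb' y hy])))) hb'
  have A2 : ∀ a ∈ U, ∀ b ∈ f.perp U, f.Q (a + b) = c → n * f.refl (a + b) ∈ X → f.Q a ≠ 0 →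
      ∀ x ∈ U, x ≠ 0 → f.Q x = 0 → f.B a x = 0 → b = 0 := fun a ha b hb' hv hr hQ x hx x0 xQ hxa => by
    have h5 : (n * f.refl (a + b) : f.Isom) ⊳ a ∈ U := hM x hx x0 xQ (map_mem_levS'
      (hb.mem_levS hx xQ ha (f.eq_zero_symm hxa)) x0 hr (by
        rw [isom_mul_apply, f.refl_apply_of_B (by simp [hxa, f.eq_zero_symm (hb' x hx)]), nn]
        exact neg_mem (Submodule.mem_span_singleton_self x)))
    rw [isom_mul_apply, refl_apply] at h5
    have := U.add_mem ha h5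
    simp only [nn, neg_sub, add_sub_cancel] at this
    refine Submodule.disjoint_def.1 hU b ((U.add_mem_iff_right ha).1 ((U.smul_mem_iff (by
      simp [hv, hc, f.eq_zero_symm (hb' a ha), orth_B_self, h2, hQ])).1 this)) hb'
  have A3 : ∀ a ∈ U, ∀ b ∈ f.perp U, f.Q (a + b) = c → n * f.refl (a + b) ∈ X →
      f.Q b = 0 → b = 0 := fun a ha b hb' hv hr hQ => by
    by_contra b0
    have hab := f.eq_zero_symm (hb' a ha)
    rw [add_comm] at hv hr
    rw [f.Q_add_of_B hab, hQ, zero_add] at hv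
    obtain ⟨y, hy, h⟩ := hyp _ hU' b hb' b0 hQ
    have tf : ∀ t, h.torus t ∈ f.fix U := fun t => hf.perp_perp U ▸ tfx h hb' hy t
    have l1 := (R3 b a hQ hab hv (R1 a hv (.inl ha)) hr).levS_of_torus hf h2 h3 h
      (fun t e => hX ⟨f.fix_le_stab U (tf t), e⟩) (by simp [f.eq_zero_symm (hy a ha)])
    have l2 : U ≤ levS X hQ := hf.eq_of_irrI hU (irr U hU) (fun g hg' u hu hul => by
      have hu' := ((hf.mem_stab_of_fix_perp le_rfl hg') u).1 hu
      obtain ⟨s, hs, h5⟩ := hf.exists_mul_mem_commutator hg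
        (S := f.stab (F ∙ b) ⊓ ⨅ u : U, f.stab (F ∙ u.1))
        ⟨n, ⟨f.mem_stab_of_le fun _ => neg_mem,
          Subgroup.mem_iInf.2 fun _ => f.mem_stab_of_le fun _ => neg_mem⟩, dn⟩
        (tor h fun t => ⟨tst h t, Subgroup.mem_iInf.2 fun u => f.mem_stab_of_le fun v hv => by
          rwa [tf t v ((Submodule.span_singleton_le_iff_mem _ _).2 u.2 hv)]⟩) g
      have hs' : ∀ u ∈ U, s ⊳ u ∈ F ∙ u := fun u hu =>
        ((Subgroup.mem_iInf.1 hs.2 ⟨u, hu⟩) u).1 (Submodule.mem_span_singleton_self u)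
      have := map_mem_levS' hul b0 (hX ⟨mul_mem (f.mem_stab_of_le fun u hu =>
        (Submodule.span_singleton_le_iff_mem _ _).2 hu (hs' u hu))
        (hf.mem_stab_of_fix_perp le_rfl hg'), hE ▸ h5⟩) (by
          rw [isom_mul_apply, hg' b hb']
          exact (hs.1 b).1 (Submodule.mem_span_singleton_self b))
      rw [isom_mul_apply] at this
      obtain ⟨t, ht⟩ := Submodule.mem_span_singleton.1 (hs' _ hu')
      by_cases t0 : t = 0
      · rw [t0, zero_smul, eq_comm, LinearEquiv.map_eq_zero_iff] at ht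
        rw [ht]; exact zero_mem _
      · rwa [← ht, Submodule.smul_mem_iff _ t0] at this)
      (U.smul_mem _ ha) l1 (smul_ne_zero (inv_ne_zero hc) fun e => hc (by rw [← hv, e, Q_zero]))
    have e : U = f.perp (Submodule.span F {b, y}) := Submodule.eq_of_le_of_finrank_eq
      (fun u hu => f.mem_perp_span_pair.2 ⟨f.eq_zero_symm (hb' u hu), f.eq_zero_symm (hy u hu)⟩)
      (by have := h.finrank_perp; omega)
    refine hn (hf.Eich_le_of_Qgrp' (.inl h3) hQ (Qgrp_le_of_levS (hx := hQ) fun w hw => ?_)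
      (R1 (b + c • y) (h.Q_add_smul c) (.inr (add_mem hb' (Submodule.smul_mem _ _ hy)))) ?_)
    · have := l2 (show w - f.B y w • b ∈ U from e ▸ f.mem_perp_span_pair.2
        ⟨by simp [hw, h.B_xx], by simp [h.B_yx]⟩)
      simpa using add_mem this (Submodule.smul_mem _ (f.B y w) (self_mem_levS hQ))
    · rw [isom_mul_apply, nn, map_neg, B_refl, h.Q_add_smul]
      simp [h.B_xx, h.B_yx, hc]
  obtain ⟨x, hx, x0, xQ⟩ := iso_orth f U (by omega)
  obtain ⟨y, hy, h⟩ := hyp U hU x hx x0 xQ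
  obtain ⟨w, hw, hw1, o1, o2⟩ := third h hx hy
  have sq : ∀ a ∈ U, f.Q a ≠ 0 → IsSquare (f.Q a * f.Q w) →
      ∃ x ∈ U, x ≠ 0 ∧ f.Q x = 0 ∧ f.B a x = 0 := fun a ha a0 ⟨r, hr⟩ => by
    obtain ⟨g, e⟩ := ((f.nondeg_restrict_iff U).2 hU).witt_one
      (v := (r / f.Q w) • ⟨w, hw⟩) (w := ⟨a, ha⟩) (fun e => a0 (by
        have := congrArg (f.restrict U).Q e
        rw [orth_Q_smul, Q_zero, restrict_Q] at this
        field_simp at this
        exact mul_right_cancel₀ hw1 (by linear_combination hr + this)))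
      (fun e => a0 (by rw [show a = 0 from congrArg Subtype.val e, Q_zero])) (by
        rw [orth_Q_smul, restrict_Q, restrict_Q]
        field_simp
        linear_combination -hr)
    refine ⟨g.1 ⟨x, hx⟩, (g.1 _).2, by simpa using x0, ((f.restrict U).Q_coe_map g _).trans xQ, ?_⟩
    have := (f.restrict U).B_coe_map g ((r / f.Q w) • ⟨w, hw⟩) ⟨x, hx⟩
    rw [e] at this
    simpa [f.eq_zero_symm o1] using this
  have A : ∀ v, f.Q v = c → n * f.refl v ∈ X → v ∈ U ∨ v ∈ f.perp U := fun v hv hr => by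
    obtain ⟨a, ha, b, hb', rfl⟩ := Submodule.mem_sup.1
      ((hf.isCompl_perp hU).sup_eq_top ▸ Submodule.mem_top (x := v))
    by_contra! H
    have a0 : a ≠ 0 := fun e => H.2 (by rwa [e, zero_add])
    have b0 : b ≠ 0 := fun e => H.1 (by rwa [e, add_zero])
    have qa : f.Q a ≠ 0 := fun e => b0 (A1 a ha b hb' hv hr a0 e)
    have qb : f.Q b ≠ 0 := fun e => b0 (A3 a ha b hb' hv hr e)
    have ns : ¬IsSquare (f.Q a * f.Q w) := fun e => by
      obtain ⟨x, h1, h3, h4, h6⟩ := sq a ha qa e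
      exact b0 (A2 a ha b hb' hv hr qa x h1 h3 h4 h6)
    have k0 : 2 * f.Q a / c ≠ 0 := div_ne_zero (mul_ne_zero h2 qa) hc
    obtain ⟨s, s0, hs⟩ := exists_par h2 hq qa hc (mul_ne_zero (pow_ne_zero 2 k0) qb)
    have d1 := f.finrank_le_inf_perp U a
    obtain ⟨p, ⟨p1, p2⟩, p3⟩ := f.exists_Q_eq_of_two_le (W := U ⊓ f.perp (F ∙ a))
      (Submodule.disjoint_def.2 fun z hz hz' => Submodule.disjoint_def.1 hU z hz.1 fun u hu => by
        have h7 := f.mem_perp_span_singleton.1 hz.2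
        have := hz' (u - (f.B a u / (2 * f.Q a)) • a) ⟨U.sub_mem hu (U.smul_mem _ ha),
          f.mem_perp_span_singleton.2 (by simp [orth_B_self, h2, qa])⟩
        simpa [h7] using this) (by omega) (c - s ^ 2 * f.Q a)
    replace p2 := f.mem_perp_span_singleton.1 p2
    have p4 := f.eq_zero_symm p2
    have q1 : f.Q (p + s • a) = c := by rw [f.Q_add_of_B (by simp [p4]), p3, orth_Q_smul]; ring
    have r1 := R2 _ (R1 _ q1 (.inl (U.add_mem p1 (U.smul_mem _ ha)))) _ hr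
    have q2 := (f.Q_coe_map (n * f.refl (a + b)) _).trans q1
    have e : (n * f.refl (a + b) : f.Isom) ⊳ (p + s • a) =
        ((s * (2 * f.Q a / c) - s) • a - p) + (s * (2 * f.Q a / c)) • b := by
      rw [isom_mul_apply, nn, refl_apply, hv]
      simp only [B_add_left, map_add, map_smul, p2, orth_B_self, f.eq_zero_symm (hb' p p1),
        f.eq_zero_symm (hb' a ha), smul_eq_mul]
      match_scalars <;> field_simp <;> ring
    rw [e] at r1 q2
    have m1 := U.sub_mem (U.smul_mem (s * (2 * f.Q a / c) - s) ha) p1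
    have m2 := (f.perp U).smul_mem (s * (2 * f.Q a / c)) hb'
    have q3 := q2
    rw [f.Q_add_of_B (m2 _ m1), orth_Q_smul] at q3
    refine smul_ne_zero (mul_ne_zero s0 k0) b0 ?_
    rcases hs with hs | hs
    · generalize (s * (2 * f.Q a / c) - s) • a - p = a' at *
      rw [show c - s ^ 2 * ((2 * f.Q a / c) ^ 2 * f.Q b) = f.Q a' by linear_combination -q3] at hs
      have qa' : f.Q a' ≠ 0 := fun e => hs (by simp [e])
      obtain ⟨x, h1, h3, h4, h6⟩ := sq a' m1 qa' ((isSquare_mul_left_iff (a := f.Q a * f.Q a)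
        ⟨_, rfl⟩ (mul_ne_zero qa qa)).1 (by convert isSquare_mul_of_not hs ns using 1; ring))
      exact A2 _ m1 _ m2 q2 r1 qa' x h1 h3 h4 h6
    · refine A1 _ m1 _ m2 q2 r1 (fun e => hs.2 ?_) (by linear_combination q3 + hs.1)
      have := congrArg (f.B p) e
      simp only [map_sub, map_smul, p4, orth_B_self, p3, map_zero, smul_zero] at this
      exact mul_left_cancel₀ h2 (by linear_combination -this)
  obtain ⟨ν, ν0, ν1⟩ := exists_pow_two_ne_one hq
  have sp : ∀ S : Submodule F V, (∀ v ∈ U, f.Q v = c → v ∈ S) → U ≤ S := fun S hS u hu => by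
    have v1 : ∀ α : F, α ≠ 0 → α • x + (c / α) • y ∈ S := fun α hα =>
      hS _ (add_mem (U.smul_mem _ hx) (U.smul_mem _ hy)) (by rw [h.Q_comb]; simp [hα, mul_div_cancel₀])
    have y1 : y ∈ S := by
      have := S.sub_mem (v1 ν ν0) (S.smul_mem ν (v1 1 one_ne_zero))
      rwa [show ν • x + (c / ν) • y - ν • ((1 : F) • x + (c / 1) • y) = (c / ν * (1 - ν ^ 2)) • y by
        match_scalars <;> field_simp <;> ring, S.smul_mem_iff (mul_ne_zero (div_ne_zero hc ν0)
          (sub_ne_zero.2 ν1.symm))] at this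
    have x1 : x ∈ S := by simpa using S.sub_mem (v1 1 one_ne_zero) (S.smul_mem (c / 1) y1)
    obtain ⟨u', h1, h3⟩ : ∃ u', u' = u - f.B y u • x - f.B x u • y ∧ f.B x u' = 0 ∧ f.B y u' = 0 :=
      ⟨_, rfl, by simp [h.B_xx, h.B_xy], by simp [h.B_yy, h.B_yx]⟩
    have := hS (x + (c - f.Q u') • y + u') (add_mem (add_mem hx (U.smul_mem _ hy))
      (h1 ▸ U.sub_mem (U.sub_mem hu (U.smul_mem _ hx)) (U.smul_mem _ hy))) (by
        rw [f.Q_add_of_B (by simp [h3]), h.Q_add_smul]; ring)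
    rw [S.add_mem_iff_right (add_mem x1 (S.smul_mem _ y1)), h1] at this
    simpa using add_mem (add_mem this (S.smul_mem (f.B x u) y1)) (S.smul_mem (f.B y u) x1)
  have M : ∀ v ∈ U, f.Q v = c → ∃ u ∈ U, f.Q u = c ∧ f.B v u ≠ 0 ∧ LinearIndependent F ![v, u] :=
    fun v hv qv => by
    have v0 : v ≠ 0 := fun e => hc (by rw [← qv, e, Q_zero])
    obtain ⟨z, hz, zQ, zv⟩ : ∃ z ∈ U, f.Q z = 0 ∧ f.B z v ≠ 0 := by
      by_contra! H
      exact v0 (Submodule.disjoint_def.1 hU v hv fun u hu => h.induction_singular hx hy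
        (P := fun u => f.B u v = 0) (fun a b ha hb => by simp [ha, hb]) H hu)
    obtain ⟨z', hz', h'⟩ := hyp U hU z hz (by rintro rfl; simp at zv) zQ
    obtain ⟨w, hw, hw1, o1, -⟩ := third h' hz hz'
    have key : ∀ t : F, t ≠ 0 → 2 * c ≠ t ^ 2 * f.Q w * f.B z v ^ 2 →
        ∃ u ∈ U, f.Q u = c ∧ f.B v u ≠ 0 ∧ LinearIndependent F ![v, u] := fun t t0 ht => by
      have c1 := f.orth_eichlerCond zQ (w := t • w) (by simp [o1])
      have e1 : f.B v (f.eichler _ _ _ c1 ⊳ v) = 2 * c - t ^ 2 * f.Q w * f.B z v ^ 2 := by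
        rw [eichler_apply]
        simp only [map_sub, map_add, map_smul, orth_B_self, qv, orth_Q_smul, B_smul_left,
          f.orth_symm z v, f.orth_symm w v, Kind.orth_ε, Kind.orth_σ, smul_eq_mul]
        ring
      refine ⟨_, (eichler_mem_stab hz (U.smul_mem t hw) _ c1 v).1 hv, by rw [Q_coe_map, qv],
        e1 ▸ sub_ne_zero.2 ht, (LinearIndependent.pair_iff' v0).2 fun r e => ?_⟩
      have e2 := congrArg (f.B z) e
      have e3 := f.B_coe_map (f.eichler _ _ _ c1) z v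
      rw [eichler_apply_self] at e3
      rw [e3, map_smul, smul_eq_mul, mul_left_eq_self₀] at e2
      rw [← e, e2.resolve_right zv, one_smul, orth_B_self, qv] at e1
      exact mul_ne_zero (mul_ne_zero (pow_ne_zero 2 t0) hw1) (pow_ne_zero 2 zv)
        (by linear_combination e1)
    by_cases e : 2 * c = 1 ^ 2 * f.Q w * f.B z v ^ 2
    · exact key ν ν0 fun e' => ν1 (mul_right_cancel₀ (mul_ne_zero hw1 (pow_ne_zero 2 zv))
        (by linear_combination e - e'))
    · exact key 1 one_ne_zero e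
  intro g hg'
  have A' : ∀ v ∈ U, f.Q v = c → g ⊳ v ∈ U ∨ g ⊳ v ∈ f.perp U := fun v hv h =>
    A _ (by rwa [Q_coe_map]) (R2 _ (R1 v h (.inl hv)) g hg')
  have two : ∀ T T' : Submodule F V, (∀ u ∈ T, ∀ v ∈ T', f.B u v = 0) →
      (∀ v ∈ U, f.Q v = c → g ⊳ v ∈ T ∨ g ⊳ v ∈ T') → ∀ v ∈ U, f.Q v = c → g ⊳ v ∈ T →
      2 ≤ finrank F (U ⊓ T.comap (g.1 : V →ₗ[F] V) : Submodule F V) := fun T T' h1 h4 v hv qv h6 => by
    obtain ⟨u, hu, qu, u1, u2⟩ := M v hv qv
    have h7 := (h4 u hu qu).resolve_right fun c => u1 (by simpa using h1 _ h6 _ c)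
    have := finrank_span_eq_card u2
    rw [Fintype.card_fin] at this
    refine this.ge.trans (Submodule.finrank_mono (Submodule.span_le.2 ?_))
    rintro _ ⟨i, rfl⟩
    fin_cases i
    exacts [⟨hv, h6⟩, ⟨hu, h7⟩]
  by_contra hg2
  obtain ⟨v, hv, qv, h6⟩ : ∃ v ∈ U, f.Q v = c ∧ g ⊳ v ∈ f.perp U := by
    by_contra! H
    exact hg2 (f.mem_stab_of_le (sp (U.comap (g.1 : V →ₗ[F] V)) fun v hv qv =>
      (A' v hv qv).resolve_right (H v hv qv)))
  obtain ⟨v', hv', qv', h7⟩ : ∃ v ∈ U, f.Q v = c ∧ g ⊳ v ∈ U := by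
    by_contra! H
    have := Submodule.finrank_mono (show f.act g U ≤ f.perp U from fun v hv => by
      obtain ⟨u, hu, rfl⟩ := hv
      exact sp ((f.perp U).comap (g.1 : V →ₗ[F] V)) (fun v hv qv =>
        (A' v hv qv).resolve_left (H v hv qv)) hu)
    rw [finrank_act] at this
    omega
  have t1 := two U (f.perp U) (fun u hu v hv => hv u hu) A' v' hv' qv' h7
  have t2 := two (f.perp U) U (fun u hu v hv => f.eq_zero_symm (hu v hv))
    (fun v hv h => (A' v hv h).symm) v hv qv h6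
  have t3 := Submodule.finrank_sup_add_finrank_inf_eq (U ⊓ U.comap (g.1 : V →ₗ[F] V))
    (U ⊓ (f.perp U).comap (g.1 : V →ₗ[F] V))
  have t4 := Submodule.finrank_mono (sup_le inf_le_left inf_le_left :
    U ⊓ U.comap (g.1 : V →ₗ[F] V) ⊔ U ⊓ (f.perp U).comap (g.1 : V →ₗ[F] V) ≤ U)
  rw [show U ⊓ U.comap (g.1 : V →ₗ[F] V) ⊓ (U ⊓ (f.perp U).comap (g.1 : V →ₗ[F] V)) = ⊥ from
    (Submodule.eq_bot_iff _).2 fun z hz => by
      simpa using Submodule.disjoint_def.1 hU _ hz.1.2 hz.2.2, finrank_bot] at t3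
  omega

end Form
end CA.CForm
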