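import Cfsg.Agent.Lib.Lin.LowIso
import Cfsg.Agent.Lib.Lin.MaxGL2

/-! The model of `Ω₅` on the trace-zero self-adjoint `4 × 4` matrices. -/

set_option autoImplicit false

namespace CA.MaxR5

open Cfsg CA.CForm CA.CForm.Form Module Matrix

variable {F : Type*} [Field F]

abbrev I4 := Fin 2 ⊕ Fin 2
abbrev W5 (F : Type*) := Unit ⊕ (Fin 2 ⊕ Fin 2) → F
abbrev M4 (F : Type*) := Matrix I4 I4 F

/-- The adjoint for the standard alternating form. -/
def st (A : M4 F) : M4 F := -(J (Fin 2) F * Aᵀ * J (Fin 2) F)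

theorem st_mul (A B : M4 F) : st (A * B) = st B * st A := by
  simp only [st, transpose_mul, neg_mul_neg]
  rw [show J (Fin 2) F * Bᵀ * J (Fin 2) F * (J (Fin 2) F * Aᵀ * J (Fin 2) F) =
    J (Fin 2) F * Bᵀ * (J (Fin 2) F * J (Fin 2) F) * Aᵀ * J (Fin 2) F by simp only [mul_assoc], J_squared]
  simp [mul_assoc]

theorem st_blocks (A B C D : Matrix (Fin 2) (Fin 2) F) :
    st (fromBlocks A B C D) = fromBlocks Dᵀ (-Bᵀ) (-Cᵀ) Aᵀ := by
  simp [st, J, fromBlocks_multiply, fromBlocks_transpose, fromBlocks_neg]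

theorem st_st (A : M4 F) : st (st A) = A := by
  rw [← fromBlocks_toBlocks A, st_blocks, st_blocks]; simp

theorem st_add (A B : M4 F) : st (A + B) = st A + st B := by
  simp [st, mul_add, add_mul, add_comm]

theorem st_smul (c : F) (A : M4 F) : st (c • A) = c • st A := by simp [st]

theorem st_neg (A : M4 F) : st (-A) = -st A := by simp [st]

theorem st_sub (A B : M4 F) : st (A - B) = st A - st B := by
  rw [sub_eq_add_neg, st_add, st_neg, sub_eq_add_neg]

theorem st_one : st (1 : M4 F) = 1 := by simp [st, J_squared]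

theorem tr_st (A : M4 F) : (st A).trace = A.trace := by
  rw [st, trace_neg, trace_mul_comm, ← mul_assoc, J_squared]; simp

theorem J_st (A : M4 F) : J (Fin 2) F * st A = Aᵀ * J (Fin 2) F := by
  simp [st, ← mul_assoc, J_squared]

theorem form_st (A : M4 F) (u v : I4 → F) : sympForm 2 F (A *ᵥ u) v = sympForm 2 F u (st A *ᵥ v) := by
  simp only [sympForm, mulVec_mulVec, J_st]
  rw [← mulVec_mulVec, dotProduct_mulVec u, vecMul_transpose]

theorem form_ext {A B : M4 F} (h : ∀ u v, sympForm 2 F u (A *ᵥ v) = sympForm 2 F u (B *ᵥ v)) : A = B := by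
  have : J (Fin 2) F * A = J (Fin 2) F * B := by
    ext i j
    have := h (Pi.single i 1) (Pi.single j 1)
    rw [sympForm, sympForm, mulVec_mulVec, mulVec_mulVec] at this
    simpa using this
  have := congrArg (J (Fin 2) F * ·) this
  simpa [← mul_assoc, J_squared] using this

theorem mem_sp {g : GL I4 F} : g ∈ spGL 2 F ↔ st g.1 * g.1 = 1 :=
  ⟨fun h => form_ext fun u v => by rw [← mulVec_mulVec, ← form_st, one_mulVec]; exact h u v,
    fun h u v => (form_st g.1 u _).trans (by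
      change sympForm 2 F u (st g.1 *ᵥ (g.1 *ᵥ v)) = _
      rw [mulVec_mulVec, h, one_mulVec])⟩

theorem st_sp {g : GL I4 F} (h : g ∈ spGL 2 F) : st g.1 = (g⁻¹).1 := by
  rw [← mul_one (st g.1), ← g.mul_inv, ← mul_assoc, mem_sp.1 h, one_mul]

def T0 (x a b c d : F) : M4 F :=
  fromBlocks !![x, a; b, -x] !![0, c; -c, 0] !![0, -d; d, 0] !![x, b; a, -x]

def T : W5 F →ₗ[F] M4 F where
  toFun v := T0 (v (.inl ())) (v (.inr (.inl 0))) (v (.inr (.inr 0))) (v (.inr (.inl 1))) (v (.inr (.inr 1)))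
  map_add' u v := by ext (i | i) (j | j) <;> fin_cases i <;> fin_cases j <;> simp [T0] <;> ring
  map_smul' c v := by ext (i | i) (j | j) <;> fin_cases i <;> fin_cases j <;> simp [T0]

theorem T_def (v : W5 F) : T v =
  T0 (v (.inl ())) (v (.inr (.inl 0))) (v (.inr (.inr 0))) (v (.inr (.inl 1))) (v (.inr (.inr 1))) := rfl

local notation "φ" => oddForm F 2

theorem T_sq (v : W5 F) : T v * T v = (φ).Q v • 1 := by
  rw [oddForm_Q, quadFormOdd, T_def]
  ext (i | i) (j | j) <;> fin_cases i <;> fin_cases j <;>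
    simp [T0, mul_apply, Fintype.sum_sum_type, Fin.sum_univ_two] <;> ring

theorem T_pol (u v : W5 F) : T u * T v + T v * T u = (φ).B u v • 1 := by
  have := T_sq (u + v)
  rw [map_add, add_mul, mul_add, mul_add, T_sq, T_sq] at this
  rw [orth_B_eq, sub_smul, sub_smul, ← this]; abel

theorem st_T (v : W5 F) : st (T v) = T v := by
  rw [T_def, T0, st_blocks]
  ext (i | i) (j | j) <;> fin_cases i <;> fin_cases j <;> simp

theorem tr_T (v : W5 F) : (T v).trace = 0 := by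
  simp [T_def, T0, trace, Fintype.sum_sum_type, Fin.sum_univ_two]

theorem T_inj : Function.Injective (T : W5 F → M4 F) := fun u v h => by
  have e := fun i j => congrFun (congrFun h i) j
  have e1 := e (.inl 0) (.inl 0)
  have e2 := e (.inl 0) (.inl 1)
  have e3 := e (.inl 1) (.inl 0)
  have e4 := e (.inl 0) (.inr 1)
  have e5 := e (.inr 1) (.inl 0)
  simp [T_def, T0] at e1 e2 e3 e4 e5
  ext (i | i | i) <;> fin_cases i <;> simp_all

theorem T_surj (h2 : (2 : F) ≠ 0) {A : M4 F} (h : st A = A) (ht : A.trace = 0) : ∃ v, T v = A := by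
  rw [← fromBlocks_toBlocks A, st_blocks, fromBlocks_inj] at h
  obtain ⟨h1, h3, h4, -⟩ := h
  have a1 := congrFun (congrFun h1 0) 0
  have a2 := congrFun (congrFun h1 0) 1
  have a3 := congrFun (congrFun h1 1) 0
  have a4 := congrFun (congrFun h1 1) 1
  have b1 := congrFun (congrFun h3 0) 0
  have b2 := congrFun (congrFun h3 0) 1
  have b4 := congrFun (congrFun h3 1) 1
  have c1 := congrFun (congrFun h4 0) 0
  have c2 := congrFun (congrFun h4 0) 1
  have c4 := congrFun (congrFun h4 1) 1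
  simp [trace, Fintype.sum_sum_type, Fin.sum_univ_two, toBlocks₁₁, toBlocks₁₂, toBlocks₂₁,
    toBlocks₂₂] at a1 a2 a3 a4 b1 b2 b4 c1 c2 c4 ht
  have k : ∀ x : F, -x = x → x = 0 := fun x hx =>
    (mul_eq_zero.1 (by linear_combination -hx : 2 * x = 0)).resolve_left h2
  have k1 : -A (.inl 0) (.inl 0) = A (.inl 1) (.inl 1) :=
    sub_eq_zero.1 (k _ (by linear_combination ht - a1 - a4))
  refine ⟨Sum.elim (fun _ => A (.inl 0) (.inl 0)) (Sum.elim ![A (.inl 0) (.inl 1), A (.inl 0) (.inr 1)]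
    ![A (.inl 1) (.inl 0), A (.inr 1) (.inl 0)]), ?_⟩
  ext (i | i) (j | j) <;> fin_cases i <;> fin_cases j <;>
    simp [T_def, T0, k _ b1, k _ b4, k _ c1, k _ c4, k1, a1, a2, a3, a4, c2, ← b2]

theorem T_comm {M : M4 F} (h : ∀ v, M * T v = T v * M) : ∃ c : F, M = c • 1 := by
  have e := fun x a b c d i j =>
    congrFun (congrFun (h (Sum.elim (fun _ => x) (Sum.elim ![a, c] ![b, d]))) i) j
  have a1 := e 0 1 0 0 0 (.inl 0) (.inl 1)
  have a2 := e 0 1 0 0 0 (.inr 1) (.inr 0)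
  have a3 := e 0 1 0 0 0 (.inl 1) (.inl 1)
  have a4 := e 0 1 0 0 0 (.inr 0) (.inl 1)
  have a5 := e 0 1 0 0 0 (.inl 1) (.inr 0)
  have a6 := e 0 1 0 0 0 (.inr 0) (.inr 0)
  have b1 := e 0 0 1 0 0 (.inl 0) (.inl 0)
  have b2 := e 0 0 1 0 0 (.inr 1) (.inl 0)
  have b3 := e 0 0 1 0 0 (.inl 0) (.inr 1)
  have b4 := e 0 0 1 0 0 (.inr 1) (.inr 1)
  have c1 := e 0 0 0 1 0 (.inl 0) (.inr 1)
  have c2 := e 0 0 0 1 0 (.inr 1) (.inr 1)
  have c3 := e 0 0 0 1 0 (.inr 0) (.inr 0)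
  have d1 := e 0 0 0 0 1 (.inl 0) (.inl 0)
  have d2 := e 0 0 0 0 1 (.inl 1) (.inl 1)
  simp [T_def, T0, mul_apply, Fintype.sum_sum_type,
    Fin.sum_univ_two] at a1 a2 a3 a4 a5 a6 b1 b2 b3 b4 c1 c2 c3 d1 d2
  refine ⟨M (.inl 0) (.inl 0), ?_⟩
  ext (i | i) (j | j) <;> fin_cases i <;> fin_cases j <;>
    simp [a3, a4, a5, a6, b1, b2, b3, b4, c2, c3, d1, d2, ← a1, ← a2, ← c1]

theorem smul_one_inj {a b : F} (h : a • (1 : M4 F) = b • 1) : a = b :=
  smul_left_injective F one_ne_zero h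

theorem exists_rho [Fintype F] (h2 : (2 : F) ≠ 0) : ∃ ρ : spGL 2 F →* (φ).Isom, ρ.range = (φ).Eich ∧
    ∀ g v, T ((ρ g : W5 F ≃ₗ[F] W5 F) v) = g.1.1 * T v * (g.1⁻¹).1 := by
  have h3 : 3 ≤ Fintype.card F := by
    have := Fintype.one_lt_card (α := F)
    obtain ⟨k, hk⟩ := two_ne_zero_iff_odd.1 h2
    omega
  obtain ⟨ρ, hρ⟩ := LowIso.exists_hom_orth (G := spGL 2 F) (φ) T T_inj (fun g => g.1.1)
    (fun g => (g.1⁻¹).1) rfl (by simp) (fun _ _ => rfl) (fun _ _ => by simp) fun g v => by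
      obtain ⟨w, hw⟩ := T_surj h2 (A := g.1.1 * T v * (g.1⁻¹).1) (by
        rw [st_mul, st_mul, st_T, st_sp g.2, st_sp (inv_mem g.2), inv_inv, mul_assoc]) (by
        rw [trace_mul_comm, ← mul_assoc, Units.inv_mul, one_mul, tr_T])
      refine ⟨w, hw, smul_one_inj ?_⟩
      rw [← T_sq, hw]
      simp only [mul_assoc, Units.inv_mul_cancel_left]
      rw [← mul_assoc (T v), T_sq]
      simp
  refine ⟨ρ, ?_, hρ⟩
  rw [← (oddForm_nondeg h2 2).commutator_eq_Eich (good_of_two_ne_zero _ h2) (by simp)]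
  refine LowIso.range_eq (oddForm_nondeg h2 2) (good_of_two_ne_zero _ h2) (by simp)
    (LowIso.no2_of_perfect (commutator_eq_top_congr (spGLEquiv F 2)
      ((sympStd_nondeg F 2).symp_perfect' (finrank_plus 2) (.inr (.inl ⟨rfl, h3⟩)))))
    (by rw [(oddForm_nondeg h2 2).card_isom_odd (finrank_odd 2), Nat.card_congr (spGLEquiv F 2).toEquiv,
      Nondeg.card_isom_symp 2 (sympStd_nondeg F 2) (finrank_plus 2), mul_assoc]) ρ
    (z := ⟨-1, mem_sp.2 (by simp [st_neg, st_one])⟩) (fun h => absurd h h2) fun g hg => ?_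
  obtain ⟨c, hc⟩ := T_comm (M := g.1.1) fun v => by
    have := hρ g v
    rw [hg] at this
    exact ((Units.eq_mul_inv_iff_mul_eq g.1).1 this).symm
  have := mem_sp.1 g.2
  rw [hc, st_smul, st_one, smul_mul_smul_comm, one_mul] at this
  exact (mul_self_eq_one_iff.1 (smul_one_inj (this.trans (one_smul F _).symm))).imp
    (fun e => Subtype.ext (Units.ext (by simp [hc, e]))) fun e => Subtype.ext (Units.ext (by simp [hc, e]))

theorem transfer {G H : Type*} [Group G] [Group H] {K M : Subgroup G} {E : Subgroup H} {ρ : K →* H}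
    (hρ : ρ.range = E) {P : H → Prop} (hM : ∀ g : K, g.1 ∈ M ↔ P (ρ g)) (h1 : ¬∀ e ∈ E, P e)
    (h : ∀ X : Subgroup H, (∀ g ∈ E, P g → g ∈ X) → (∀ g ∈ X, P g) ∨ E ≤ X) :
    Geo.IsMaximalIn K (M ⊓ K) := by
  subst hρ
  refine ⟨lt_of_le_of_ne inf_le_right fun e => h1 ?_, fun X a b => ?_⟩
  · rintro _ ⟨g, rfl⟩
    exact (hM g).1 (e.ge g.2).1
  rcases h ((X.subgroupOf K).map ρ) (by
    rintro _ ⟨g, rfl⟩ hg
    exact ⟨g, a ⟨(hM g).2 hg, g.2⟩, rfl⟩) with e | e
  · exact .inl (le_antisymm (fun x hx => ⟨(hM ⟨x, b hx⟩).2 (e _ ⟨⟨x, b hx⟩, hx, rfl⟩), b hx⟩) a)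
  refine .inr (le_antisymm b fun x hx => ?_)
  obtain ⟨y, hy, e'⟩ := e ⟨⟨x, hx⟩, rfl⟩
  have : (y⁻¹ * ⟨x, hx⟩ : K).1 ∈ M := (hM _).2 (by
    rw [map_mul, map_inv, e', inv_mul_cancel, ← map_one ρ]; exact (hM 1).1 M.one_mem)
  simpa using X.mul_mem hy (a ⟨this, (y⁻¹ * ⟨x, hx⟩ : K).2⟩)

end CA.MaxR5
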