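import Cfsg.Agent.Lib.Lin.MaxR5
import Cfsg.Agent.Lib.Lin.MaxR4

/-! Normalisers of skew elements of square scalar in `Sp₄(q)`. -/

set_option autoImplicit false

namespace CA.MaxR5

open Cfsg CA.CForm CA.CForm.Form Module Matrix CA.AschFG

variable {F : Type*} [Field F]

local notation "φ" => oddForm F 2

/-- The vectors whose matrices commute with `N` up to the scalar `e`. -/
def Ue (N : M4 F) (e : F) : Submodule F (W5 F) where
  carrier := {w | N * T w = e • (T w * N)}
  add_mem' {a b} ha hb := by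
    simp only [Set.mem_setOf_eq, map_add, mul_add, add_mul, smul_add] at *; rw [ha, hb]
  zero_mem' := by simp
  smul_mem' c x hx := by
    simp only [Set.mem_setOf_eq, map_smul, mul_smul_comm, smul_mul_assoc] at *; rw [hx, smul_comm]

theorem mem_p {N : M4 F} {w : W5 F} : w ∈ Ue N 1 ↔ N * T w = T w * N := by
  change _ = _ ↔ _; rw [one_smul]

theorem mem_m {N : M4 F} {w : W5 F} : w ∈ Ue N (-1) ↔ N * T w = -(T w * N) := by
  change _ = _ ↔ _; rw [neg_one_smul]

theorem eq_zero_of_neg (h2 : (2 : F) ≠ 0) {A : M4 F} (h : A = -A) : A = 0 :=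
  (smul_eq_zero.1 (by rw [two_smul]; nth_rw 1 [h]; exact neg_add_cancel A : (2 : F) • A = 0)).resolve_left h2

theorem cancel {N A : M4 F} {c : F} (hc : c ≠ 0) (hs : N * N = c • 1) (h : A * N = 0) : A = 0 := by
  have : A * (N * N) = 0 := by rw [← mul_assoc, h, zero_mul]
  rw [hs, mul_smul_comm, mul_one] at this
  exact (smul_eq_zero.1 this).resolve_left hc

section
variable (h2 : (2 : F) ≠ 0) {N : M4 F} (hN : st N = -N) {c : F} (hc : c ≠ 0) (hs : N * N = c • 1)
include h2 hN hc hs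

theorem split (w : W5 F) : ∃ u ∈ Ue N 1, ∃ u' ∈ Ue N (-1), w = u + u' := by
  obtain ⟨θ, hθ⟩ := T_surj h2 (A := c⁻¹ • (N * T w * N)) (by
    rw [st_smul, st_mul, st_mul, hN, st_T]; simp [mul_assoc]) (by
    rw [trace_smul, trace_mul_comm, ← mul_assoc, hs]; simp [tr_T])
  have e1 : N * T θ = T w * N := by
    rw [hθ, mul_smul_comm, ← mul_assoc, ← mul_assoc, hs]; simp [smul_smul, hc]
  have e2 : T θ * N = N * T w := by
    rw [hθ, smul_mul_assoc, mul_assoc, hs]; simp [smul_smul, hc]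
  refine ⟨(2 : F)⁻¹ • (w + θ), Submodule.smul_mem _ _ (mem_p.2 ?_), (2 : F)⁻¹ • (w - θ),
    Submodule.smul_mem _ _ (mem_m.2 ?_), ?_⟩
  · rw [map_add, mul_add, add_mul, e1, e2, add_comm]
  · rw [map_sub, mul_sub, sub_mul, e1, e2, neg_sub]
  · rw [← smul_add, add_add_sub_cancel, ← two_smul F, inv_smul_smul₀ h2]

theorem perp_eq : (φ).perp (Ue N 1) = Ue N (-1) := by
  have o : ∀ u ∈ Ue N 1, ∀ u' ∈ Ue N (-1), (φ).B u u' = 0 := fun u hu u' hu' => by
    have : N * (T u * T u' + T u' * T u) = -((T u * T u' + T u' * T u) * N) := by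
      rw [mul_add, ← mul_assoc, ← mul_assoc, mem_p.1 hu, mem_m.1 hu', mul_assoc, mem_m.1 hu',
        neg_mul, mul_assoc (T u'), mem_p.1 hu]
      simp [mul_assoc, add_mul, add_comm]
    rw [T_pol, mul_smul_comm, smul_mul_assoc, mul_one, one_mul] at this
    exact smul_one_inj (b := 0) (by
      rw [zero_smul]; exact cancel hc hs (by simpa using eq_zero_of_neg h2 this))
  refine le_antisymm (fun w hw => ?_) fun w hw u hu => o u hu w hw
  obtain ⟨u, hu, u', hu', rfl⟩ := split h2 hN hc hs w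
  have : u = 0 := oddForm_nondeg h2 2 u fun y => by
    obtain ⟨a, ha, b, hb, rfl⟩ := split h2 hN hc hs y
    have := hw a ha
    rw [map_add, o a ha u' hu', add_zero, orth_symm] at this
    rw [map_add, this, o u hu b hb, add_zero]
  simpa [this] using hu'

theorem disj : Disjoint (Ue N 1) ((φ).perp (Ue N 1)) := by
  rw [perp_eq h2 hN hc hs]
  refine Submodule.disjoint_def.2 fun u hu hu' => T_inj ?_
  rw [map_zero]
  exact cancel hc hs (eq_zero_of_neg h2 ((mem_p.1 hu).symm.trans (mem_m.1 hu')))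

theorem rank_three [Fintype F] : finrank F (Ue N 1) = 3 := by
  have hφ := oddForm_nondeg h2 2
  have hp := perp_eq h2 hN hc hs
  have := hφ.finrank_perp (Ue N 1)
  rw [hp, finrank_odd] at this
  suffices h : finrank F (Ue N (-1)) = 2 by
    rw [h] at this; exact Nat.add_right_cancel (m := 2) this
  obtain ⟨A, hA, qA⟩ := exists_Q_ne (hp ▸ hφ.disjoint_perp_perp (disj h2 hN hc hs))
    (Nat.one_le_iff_ne_zero.2 fun h0 => by
      obtain ⟨d, hd⟩ := T_comm (M := N) fun v => by
        obtain ⟨a, ha, b, hb, rfl⟩ := split h2 hN hc hs v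
        rw [Submodule.finrank_eq_zero.1 h0, Submodule.mem_bot] at hb
        simpa [hb] using mem_p.1 ha
      have : N = 0 := eq_zero_of_neg h2 (by rw [← hN, hd, st_smul, st_one])
      rw [this, zero_mul] at hs
      exact hc (smul_one_inj (hs.symm.trans (zero_smul F _).symm)))
  replace hA := mem_m.1 hA
  obtain ⟨B, hB⟩ := T_surj h2 (A := T A * N) (by rw [st_mul, hN, st_T, neg_mul, hA, neg_neg]) (by
    have := trace_mul_comm N (T A)
    rw [hA, trace_neg] at this
    exact mul_left_cancel₀ h2 (by linear_combination -this))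
  have hB' : B ∈ Ue N (-1) := mem_m.2 (by rw [hB, ← mul_assoc, hA, neg_mul])
  have qB : (φ).Q B ≠ 0 := by
    have : (φ).Q B = -((φ).Q A * c) := smul_one_inj (by
      rw [← T_sq, hB, mul_assoc, ← mul_assoc N, hA, neg_mul, mul_neg, mul_assoc, hs, ← mul_assoc, T_sq]
      simp [smul_smul, mul_comm])
    rw [this]; simp [qA, hc]
  have oAB : (φ).B A B = 0 := smul_one_inj (b := 0) (by
    rw [← T_pol, hB, mul_assoc, hA, zero_smul, mul_neg, add_neg_cancel])
  let L : Ue N (-1) →ₗ[F] F × F := (((φ).B A).prod ((φ).B B)).comp (Ue N (-1)).subtype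
  have hL : Function.Bijective L := by
    refine ⟨(injective_iff_map_eq_zero L).2 fun C hC => Subtype.ext (T_inj ?_), fun ⟨s, t⟩ =>
      ⟨⟨(s / (2 * (φ).Q A)) • A + (t / (2 * (φ).Q B)) • B, add_mem (Submodule.smul_mem _ _ (mem_m.2 hA))
        (Submodule.smul_mem _ _ hB')⟩, ?_⟩⟩
    · have e1 := T_pol A C
      have e2 := T_pol B C
      rw [show (φ).B A C = 0 from congrArg Prod.fst hC, zero_smul, add_eq_zero_iff_eq_neg] at e1
      rw [show (φ).B B C = 0 from congrArg Prod.snd hC, zero_smul, hB, mul_assoc, mem_m.1 C.2,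
        mul_neg, ← mul_assoc, e1, neg_mul, neg_neg, ← mul_assoc, add_eq_zero_iff_eq_neg] at e2
      rw [Submodule.coe_zero, map_zero]
      exact cancel qA (T_sq A) (cancel hc hs (eq_zero_of_neg h2 e2))
    · have := orth_symm (φ) A B
      rw [oAB] at this
      simp [L, oAB, this, orth_B_self, h2, qA, qB]
  simpa using (LinearEquiv.ofBijective L hL).finrank_eq

theorem skew_max [Fintype F] (hq : 5 ≤ Fintype.card F) {M : Subgroup (GL I4 F)}
    (hM : ∀ g ∈ spGL 2 F, g ∈ M ↔ g.1 * N = N * g.1 ∨ g.1 * N = -(N * g.1)) :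
    Geo.IsMaximalIn (spGL 2 F) (M ⊓ spGL 2 F) := by
  have hφ := oddForm_nondeg h2 2
  obtain ⟨ρ, hr, hρ⟩ := exists_rho h2
  have h3 := rank_three h2 hN hc hs
  refine transfer hr (P := (· ∈ (φ).stab (Ue N 1))) (fun g => (hM g g.2).trans ⟨fun h => ?_, fun h => ?_⟩)
    (fun h => ?_) fun X hX => hφ.max_three (finrank_odd 2) hq (disj h2 hN hc hs) h3
      fun g hg => hX g hg.2 hg.1
  · refine (φ).mem_stab_of_le fun v hv => mem_p.2 ?_
    obtain ⟨e, he, h⟩ : ∃ e : F, e * e = 1 ∧ N * g.1.1 = e • (g.1.1 * N) :=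
      h.elim (fun h => ⟨1, by simp, by simp [h]⟩) fun h => ⟨-1, by simp, by simp [h]⟩
    have h' : (g.1⁻¹).1 * N = e • (N * (g.1⁻¹).1) := by
      rw [Units.inv_mul_eq_iff_eq_mul, mul_smul_comm, ← mul_assoc, ← smul_mul_assoc, ← h,
        Units.mul_inv_cancel_right]
    rw [hρ, ← mul_assoc, ← mul_assoc, h, mul_assoc _ _ N, h', smul_mul_assoc, smul_mul_assoc,
      mul_smul_comm, mul_assoc g.1.1 N, mem_p.1 hv]
    simp only [mul_assoc]
  · have k : ∀ e : F, ∀ v, (ρ g : W5 F ≃ₗ[F] W5 F) v ∈ Ue N e →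
        (g.1⁻¹).1 * N * g.1.1 * T v = e • (T v * ((g.1⁻¹).1 * N * g.1.1)) := fun e v hv => by
      have hv' : N * T _ = e • (T _ * N) := hv
      rw [hρ] at hv'
      have := congrArg (fun x => (g.1⁻¹).1 * x * g.1.1) hv'
      simpa [mul_assoc] using this
    have h' := (φ).stab_le_stab_perp _ h
    rw [perp_eq h2 hN hc hs] at h'
    obtain ⟨d, hd⟩ := T_comm (M := (g.1⁻¹).1 * N * g.1.1 * N) fun v => by
      obtain ⟨a, ha, b, hb, rfl⟩ := split h2 hN hc hs v
      rw [map_add, mul_add, add_mul, mul_assoc _ N (T a), mul_assoc _ N (T b), mem_p.1 ha, mem_m.1 hb,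
        mul_neg, ← mul_assoc _ (T a) N, ← mul_assoc _ (T b) N, k 1 a ((h a).1 ha), k (-1) b ((h' b).1 hb)]
      simp only [one_smul, neg_one_smul, neg_mul, neg_neg, mul_assoc]
    have e1 : N * g.1.1 = (d / c) • (g.1.1 * N) := by
      have := congrArg (fun x => c⁻¹ • (g.1.1 * x * N)) hd
      simpa [mul_assoc, hs, smul_smul, hc, div_eq_inv_mul] using this
    have e2 : (d / c) * (d / c) = 1 := by
      have : N * (N * g.1.1) = ((d / c) * (d / c)) • (g.1.1 * (N * N)) := by
        rw [e1, mul_smul_comm, ← mul_assoc, e1, smul_mul_assoc, smul_smul, mul_assoc]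
      rw [← mul_assoc, hs, smul_mul_assoc, one_mul, mul_smul_comm, mul_one, smul_smul] at this
      exact mul_right_cancel₀ hc ((smul_left_injective F g.1.ne_zero this).symm.trans (one_mul c).symm)
    exact (mul_self_eq_one_iff.1 e2).imp (fun e => by rw [e1, e, one_smul]) fun e => by
      rw [e1, e, neg_one_smul, neg_neg]
  · obtain ⟨x, hx0, hx⟩ := (φ).exists_singular' (by simp)
    rcases irr_EG hφ (by simp) hx hx0 (Ue N 1) (by
      rintro _ ⟨e, he, rfl⟩ v hv
      rw [toGL_mulVec]; exact (h e he v).1 hv) with e | e <;> rw [e] at h3 <;> simp at h3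

end

end CA.MaxR5
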