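import Cfsg.Agent.Lib.Lin.MaxR6
import Cfsg.Agent.Lib.Lin.MaxR2
import Cfsg.Agent.Lib.Lin.El29

/-! Three classes of maximal subgroups of `Sp₄(q)`, `q` odd, through the model of `Ω₅(q)`. -/

set_option autoImplicit false

namespace CA.MaxR5

open Cfsg Cfsg.Geo CA.CForm CA.CForm.Form Module Matrix CA.AschFG CA.AschFG7 CA.AschBase CA.AschProp
  CA.MaxGL CA.El

variable {F : Type*} [Field F] [Fintype F] (h2 : (2 : F) ≠ 0)
include h2

local notation "φ" => oddForm F 2

theorem pair_max (hq : 5 ≤ Fintype.card F) {D : Fin 2 → Submodule F (I4 → F)}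
    (hD : IsMDecomposition 2 D) (ht : ∀ i, IsTotallySingularFor (sympForm 2 F) (D i)) :
    IsMaximalIn (spGL 2 F) (decompositionStabilizer D ⊓ spGL 2 F) := by
  obtain ⟨N, n0, n1⟩ : ∃ N : M4 F, (∀ v ∈ D 0, N *ᵥ v = v) ∧ ∀ v ∈ D 1, N *ᵥ v = -v :=
    ⟨LinearMap.toMatrix' (LinearMap.ofIsCompl (isCompl_of_pair hD) (D 0).subtype (-(D 1).subtype)),
      fun v hv => by
        rw [LinearMap.toMatrix'_mulVec]; exact LinearMap.ofIsCompl_apply_left _ (⟨v, hv⟩ : D 0),
      fun v hv => by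
        rw [LinearMap.toMatrix'_mulVec]; exact LinearMap.ofIsCompl_apply_right _ (⟨v, hv⟩ : D 1)⟩
  have hx : ∀ A B : M4 F, (∀ v ∈ D 0, A *ᵥ v = B *ᵥ v) → (∀ v ∈ D 1, A *ᵥ v = B *ᵥ v) → A = B :=
    fun A B h0 h1 => Matrix.toLin'.injective (LinearMap.ext fun v => by
      obtain ⟨a, ha, b, hb, rfl⟩ := exists_add_of_pair hD v
      simp only [toLin'_apply, mulVec_add, h0 a ha, h1 b hb])
  have z : ∀ v : I4 → F, v = -v → v = 0 := fun v h => (smul_eq_zero.1 (by
    rw [two_smul]; nth_rw 1 [h]; exact neg_add_cancel v : (2 : F) • v = 0)).resolve_left h2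
  have m0 : ∀ v, N *ᵥ v = v → v ∈ D 0 := fun v h => by
    obtain ⟨a, ha, b, hb, rfl⟩ := exists_add_of_pair hD v
    rw [mulVec_add, n0 a ha, n1 b hb, add_right_inj] at h
    simpa [z b h.symm] using ha
  have m1 : ∀ v, N *ᵥ v = -v → v ∈ D 1 := fun v h => by
    obtain ⟨a, ha, b, hb, rfl⟩ := exists_add_of_pair hD v
    rw [mulVec_add, n0 a ha, n1 b hb, neg_add, add_left_inj] at h
    simpa [z a h] using hb
  refine skew_max h2 (N := N) (form_ext fun u v => ?_) one_ne_zero (hx _ _ (fun v hv => ?_) fun v hv => ?_)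
    hq fun g _ => ⟨fun ⟨s, hs⟩ => ?_, fun h => mem_decomp_of_forall hD ?_⟩
  · obtain ⟨a, ha, b, hb, rfl⟩ := exists_add_of_pair hD u
    obtain ⟨a', ha', b', hb', rfl⟩ := exists_add_of_pair hD v
    have e1 := ht 0 a ha a' ha'
    have e2 := ht 1 b hb b' hb'
    rw [← form_st, neg_mulVec, mulVec_add, mulVec_add, n0 a ha, n0 a' ha', n1 b hb, n1 b' hb']
    simp only [sympForm, mulVec_add, mulVec_neg, add_dotProduct, dotProduct_add, neg_dotProduct,
      dotProduct_neg, neg_add, neg_neg] at e1 e2 ⊢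
    linear_combination 2 * e1 - 2 * e2
  · simp [← mulVec_mulVec, n0 v hv]
  · simp [← mulVec_mulVec, n1 v hv, mulVec_neg]
  · have k : ∀ i, ∀ v ∈ D i, g.1 *ᵥ v ∈ D (s i) := fun i v hv => hs i ▸ ⟨v, hv, rfl⟩
    have hne : s 0 ≠ s 1 := s.injective.ne (by decide)
    have k0 := k 0
    have k1 := k 1
    generalize s 0 = a, s 1 = b at *
    fin_cases a <;> fin_cases b
    · exact absurd rfl hne
    · exact .inl (hx _ _ (fun v hv => by rw [← mulVec_mulVec, ← mulVec_mulVec, n0 v hv, n0 _ (k0 v hv)])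
        fun v hv => by rw [← mulVec_mulVec, ← mulVec_mulVec, n1 v hv, n1 _ (k1 v hv), mulVec_neg])
    · exact .inr (hx _ _ (fun v hv => by
        rw [neg_mulVec, ← mulVec_mulVec, ← mulVec_mulVec, n0 v hv, n1 _ (k0 v hv), neg_neg])
        fun v hv => by
          rw [neg_mulVec, ← mulVec_mulVec, ← mulVec_mulVec, n1 v hv, n0 _ (k1 v hv), mulVec_neg])
    · exact absurd rfl hne
  · rw [Fin.forall_fin_two]
    rcases h with h | h
    · exact ⟨⟨0, fun v hv => m0 _ (by rw [mulVec_mulVec, ← h, ← mulVec_mulVec, n0 v hv])⟩,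
        ⟨1, fun v hv => m1 _ (by rw [mulVec_mulVec, ← h, ← mulVec_mulVec, n1 v hv, mulVec_neg])⟩⟩
    · rw [← neg_eq_iff_eq_neg] at h
      exact ⟨⟨1, fun v hv => m1 _ (by
          rw [mulVec_mulVec, ← h, neg_mulVec, ← mulVec_mulVec, n0 v hv])⟩,
        ⟨0, fun v hv => m0 _ (by
          rw [mulVec_mulVec, ← h, neg_mulVec, ← mulVec_mulVec, n1 v hv, mulVec_neg, neg_neg])⟩⟩

theorem ext_max (hq : 5 ≤ Fintype.card F) {K : Subalgebra F (M4 F)} (hK : IsFieldSubalgebra 2 K)
    (ha : IsAdjointClosedFor (sympForm 2 F) K) (hs : ¬IsSelfAdjointFor (sympForm 2 F) K) :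
    IsMaximalIn (spGL 2 F) (subalgebraNormalizer K ⊓ spGL 2 F) := by
  obtain ⟨N, hN, n0, n1⟩ : ∃ N ∈ K, N ≠ 0 ∧ st N = -N := by
    by_contra! H
    refine hs fun k hk u v => ?_
    obtain ⟨k', hk', e⟩ := ha k hk
    obtain rfl : st k = k' := form_ext fun u v => by rw [← form_st, e]
    by_cases h0 : k - st k = 0
    · rw [form_st, ← sub_eq_zero.1 h0]
    · exact absurd (by rw [st_sub, st_st, neg_sub]) (H _ (sub_mem hk hk') h0)
  have sk : ∀ a b : F, st (a • 1 + b • N) = a • 1 + -(b • N) := fun a b => by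
    rw [st_add, st_smul, st_smul, st_one, n1, smul_neg]
  have hi : LinearIndependent F ![1, N] := LinearIndependent.pair_iff.2 fun a b h => by
    have e := sk a b
    rw [h, show st (0 : M4 F) = 0 by simp [st], ← h, add_right_inj] at e
    have hb := (smul_eq_zero.1 (eq_zero_of_neg h2 e)).resolve_right n0
    simpa [hb] using h
  have hsp : ∀ x ∈ K, ∃ a b : F, x = a • 1 + b • N := fun x hx => by
    have : Submodule.span F (Set.range ![1, N]) = K.toSubmodule :=
      Submodule.eq_of_le_of_finrank_eq (Submodule.span_le.2 (by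
        rintro _ ⟨i, rfl⟩; fin_cases i; exacts [K.one_mem, hN])) (by
          rw [finrank_span_eq_card hi, Subalgebra.finrank_toSubmodule, hK.finrank_eq]; rfl)
    obtain ⟨c, hc⟩ := (Submodule.mem_span_range_iff_exists_fun F).1 (this.ge hx)
    exact ⟨c 0, c 1, by simpa using hc.symm⟩
  obtain ⟨c, b, hc⟩ := hsp _ (mul_mem hN hN)
  have hc' : N * N = c • 1 := by
    have e := sk c b
    rw [← hc, st_mul, n1, neg_mul_neg, hc, add_right_inj] at e
    rw [hc, eq_zero_of_neg h2 e, add_zero]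
  have c0 : c ≠ 0 := fun h => by
    obtain ⟨y, -, hy⟩ := hK.inv N hN n0
    exact n0 (by rw [← mul_one N, ← hy, ← mul_assoc, hc', h, zero_smul, zero_mul])
  have key : ∀ g : GL I4 F, g.1 * N = N * g.1 ∨ g.1 * N = -(N * g.1) →
      ∀ k ∈ K, g.1 * k * (g⁻¹).1 ∈ K := fun g h k hk => by
    obtain ⟨a, b, rfl⟩ := hsp k hk
    rw [mul_add, add_mul, mul_smul_comm, mul_smul_comm, smul_mul_assoc, smul_mul_assoc, mul_one,
      g.mul_inv]
    refine add_mem (K.smul_mem K.one_mem a) (K.smul_mem ?_ b)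
    rcases h with h | h <;> simpa [h] using hN
  refine skew_max h2 n1 c0 hc' hq fun g hg => ⟨fun h => ?_, fun h k => ⟨key g h k, fun hk => ?_⟩⟩
  · obtain ⟨a, b, e⟩ := hsp _ ((h N).1 hN)
    have e1 := sk a b
    rw [← e, st_mul, st_mul, n1, st_sp hg, st_sp (inv_mem hg), inv_inv, neg_mul, mul_neg, ← mul_assoc,
      e, neg_add, add_left_inj] at e1
    rw [eq_zero_of_neg h2 e1.symm, zero_add] at e
    have e2 : b * b * c = 1 * c := smul_one_inj (by
      rw [← smul_smul, ← hc', ← smul_mul_smul_comm, ← e]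
      simp only [mul_assoc, Units.inv_mul_cancel_left]
      rw [← mul_assoc N, hc']; simp)
    rw [Units.mul_inv_eq_iff_eq_mul] at e
    exact (mul_self_eq_one_iff.1 (mul_right_cancel₀ c0 e2)).imp (fun h => by simp [e, h])
      fun h => by simp [e, h]
  · have := key g⁻¹ (h.imp (fun h => ?_) fun h => ?_) _ hk
    · simpa [mul_assoc] using this
    · rw [Units.inv_mul_eq_iff_eq_mul, ← mul_assoc, h, Units.mul_inv_cancel_right]
    · rw [Units.inv_mul_eq_iff_eq_mul, mul_neg, ← mul_assoc, h, neg_mul, neg_neg,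
        Units.mul_inv_cancel_right]

omit h2 [Fintype F] in
theorem sp_scalar {g : GL I4 F} (hg : g ∈ spGL 2 F) {c : F} (hc : g.1 = c • 1) : g = 1 ∨ g = -1 := by
  have := mem_sp.1 hg
  rw [hc, st_smul, st_one, smul_mul_smul_comm, one_mul] at this
  exact (mul_self_eq_one_iff.1 (smul_one_inj (this.trans (one_smul F _).symm))).imp
    (fun e => Units.ext (by simp [hc, e])) fun e => Units.ext (by simp [hc, e])

theorem e2_max (hp : (Fintype.card F).Prime) {R : Subgroup (GL I4 F)} (hE : E2 R) (hA : alg R = ⊤)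
    (hR : R ≤ spGL 2 F) : IsMaximalIn (spGL 2 F) (subgroupNormalizer R ⊓ spGL 2 F) := by
  have hφ := oddForm_nondeg h2 2
  obtain ⟨ρ, hr, hρ⟩ := exists_rho h2
  have tz : ∀ x : M4 F, (∀ a ∈ R, (x * a.1).trace = 0) → x = 0 := fun x hx =>
    ext_iff_trace_mul_right.2 fun y => by
      rw [zero_mul, trace_zero]
      exact alg_induction (L := R) (p := fun y => (x * y).trace = 0) hx (by simp)
        (fun a b ha hb => by simp [mul_add, ha, hb]) (fun c a ha => by simp [ha]) (hA.ge trivial)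
  let S : Set (W5 F) := {w | ∃ a ∈ R, a.1 = T w}
  have q1 : ∀ w ∈ S, (φ).Q w = 1 := fun w ⟨a, ha, e⟩ => smul_one_inj (by
    have := mem_sp.1 (hR ha)
    rw [← T_sq, one_smul, ← this, e, st_T])
  have pm1 : ∀ {w w' : W5 F} {t : F}, (φ).Q w = 1 → (φ).Q w' = 1 → t • w = w' → w' = w ∨ w' = -w :=
    fun {w w' t} h h' e => by
      rw [← e, orth_Q_smul, h, mul_one, sq] at h'
      exact (mul_self_eq_one_iff.1 h').imp (fun h => by rw [← e, h, one_smul]) fun h => by
        rw [← e, h, neg_one_smul]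
  have o : ∀ w ∈ S, ∀ w' ∈ S, (w' = w ∨ w' = -w) ∨ (φ).B w w' = 0 := fun w hw w' hw' => by
    have p := T_pol w w'
    obtain ⟨a, ha, e⟩ := id hw
    obtain ⟨b, hb, e'⟩ := id hw'
    rcases hE.pm a ha b hb with h | h <;> replace h := congrArg Units.val h
    · refine .inl (pm1 (t := (φ).B w w' / 2) (q1 w hw) (q1 w' hw') (T_inj ?_))
      rw [Units.val_mul, Units.val_mul, e, e'] at h
      have := congrArg (T w * ·) p
      simp only [← h, ← two_smul F (T w * T w'), mul_smul_comm, ← mul_assoc, T_sq, q1 w hw, one_smul,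
        one_mul, mul_one] at this
      rw [map_smul, div_eq_inv_mul, mul_smul, ← this, inv_smul_smul₀ h2]
    · rw [Units.val_mul, Units.val_neg, Units.val_mul, e, e'] at h
      exact .inr (smul_one_inj (b := 0) (by rw [← p, h, zero_smul, neg_add_cancel]))
  have hS : Submodule.span F S = ⊤ := by
    rw [← hφ.perp_perp (Submodule.span F S), show (φ).perp (Submodule.span F S) = ⊥ from ?_]
    · exact top_unique fun x _ y hy => by rw [(Submodule.mem_bot F).1 hy]; simp
    refine eq_bot_iff.2 fun w hw => T_inj ((tz _ fun a ha => ?_).trans (map_zero _).symm)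
    have s1 := st_sp (hR ha)
    rcases hE.sq a ha with h | h
    · rw [← eq_inv_of_mul_eq_one_left h] at s1
      by_cases hc : ∀ b ∈ R, a.1 * b.1 = b.1 * a.1
      · obtain ⟨c, hc⟩ := hE.irr _ hc
        simp [hc, tr_T]
      push Not at hc
      obtain ⟨b, hb, hc⟩ := hc
      obtain ⟨s, hs⟩ := T_surj h2 s1 (tr_anti h2 (b := b) (congrArg Units.val
        ((hE.pm a ha b hb).resolve_left fun e => hc (congrArg Units.val e))))
      have := congrArg trace (T_pol s w)
      rw [(φ).mem_perp_span.1 hw s ⟨a, ha, hs.symm⟩, zero_smul, trace_zero, trace_add,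
        trace_mul_comm, hs] at this
      exact mul_left_cancel₀ h2 (by linear_combination this)
    · have := tr_st (T w * a.1)
      rw [st_mul, st_T, s1, show a⁻¹ = -a from inv_eq_of_mul_eq_one_right (by rw [mul_neg, h, neg_neg]),
        Units.val_neg, neg_mul, trace_neg, trace_mul_comm] at this
      exact mul_left_cancel₀ h2 (by linear_combination -this)
  obtain ⟨b, bS, bt, bi⟩ : ∃ b : Fin 5 → W5 F, (∀ i, b i ∈ S) ∧ Submodule.span F (Set.range b) = ⊤ ∧
      LinearIndependent F b := by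
    have := Submodule.exists_fun_fin_finrank_span_eq F S
    rwa [hS, finrank_top, finrank_odd] at this
  have b0 := bi.ne_zero
  have bo : ∀ i j, i ≠ j → (φ).B (b i) (b j) = 0 := fun i j hij =>
    (o _ (bS i) _ (bS j)).resolve_left fun h => bi.notMem_span_image (s := {i}) (x := j)
      (by simpa using hij.symm) (by rcases h with h | h <;> simp [h])
  let D : Fin 5 → Submodule F (W5 F) := fun i => F ∙ b i
  have hD : IsMDecomposition 1 D := ⟨by norm_num, one_pos, fun i => finrank_span_singleton (b0 i),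
    bi.iSupIndep_span_singleton, Submodule.span_range_eq_iSup.symm.trans bt⟩
  have hO : (φ).ODec D := by
    refine ⟨hφ, fun i => Submodule.disjoint_def.2 fun v hv hv' => ?_, fun i j hij =>
      (Submodule.span_singleton_le_iff_mem _ _).2 ((φ).mem_perp_span_singleton.2 (bo i j hij)),
      hD.iSup_eq_top, fun i j => ⟨(LinearEquiv.toSpanNonzeroSingleton F _ _ (b0 i)).symm.trans
        (LinearEquiv.toSpanNonzeroSingleton F _ _ (b0 j)), orth_pres_iff.2 fun x => ?_⟩⟩
    · obtain ⟨t, rfl⟩ := Submodule.mem_span_singleton.1 hv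
      have := (φ).mem_perp_span_singleton.1 hv'
      rw [B_smul_right, orth_B_self, q1 _ (bS i)] at this
      simp [show t = 0 by simpa [h2] using this]
    · obtain ⟨t, rfl⟩ := (LinearEquiv.toSpanNonzeroSingleton F _ _ (b0 i)).surjective x
      rw [LinearEquiv.coe_coe, LinearEquiv.trans_apply, LinearEquiv.symm_apply_apply]
      change (φ).Q (t • b j) = (φ).Q (t • b i)
      rw [orth_Q_smul, orth_Q_smul, q1 _ (bS i), q1 _ (bS j)]
  have sb : ∀ s ∈ S, ∃ j, s = b j ∨ s = -b j := fun s hs => by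
    by_contra! H
    have : s ∈ (φ).perp (Submodule.span F (Set.range b)) := (φ).mem_perp_span.2 (by
      rintro _ ⟨j, rfl⟩
      exact (o _ (bS j) s hs).resolve_left (not_or.2 (H j)))
    rw [bt] at this
    have h0 : s = 0 := hφ.eq_zero_right fun x => this x trivial
    simpa [h0] using q1 s hs
  have ch : ∀ x ∈ spGL 2 F, (∀ i, x.1 * T (b i) = T (b i) * x.1 ∨ x.1 * T (b i) = -(T (b i) * x.1)) →
      x ∈ R := fun x hx h => by
    obtain ⟨a, ha, ht⟩ : ∃ a ∈ R, (x.1 * a.1).trace ≠ 0 := by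
      by_contra! H
      exact x.ne_zero (tz _ H)
    obtain ⟨c, hc⟩ := T_comm (M := x.1 * a.1) fun v => by
      refine Submodule.span_induction (p := fun v _ => x.1 * a.1 * T v = T v * (x.1 * a.1)) ?_ (by simp)
        (fun u v _ _ hu hv => by rw [map_add, mul_add, add_mul, hu, hv])
        (fun c v _ hv => by rw [map_smul, mul_smul_comm, smul_mul_assoc, hv]) (bt.ge trivial : v ∈ _)
      rintro _ ⟨i, rfl⟩
      obtain ⟨r, hr, e⟩ := bS i
      have h' := h i
      rw [← e] at h' ⊢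
      refine Or.resolve_right ?_ fun e' => ht (tr_anti h2 (b := r) e')
      rcases hE.pm a ha r hr with h1 | h1 <;> replace h1 := congrArg Units.val h1 <;>
        simp only [Units.val_mul, Units.val_neg] at h1 <;> rcases h' with h' | h' <;>
        simp [mul_assoc, h1, ← mul_assoc x.1 r.1, h']
    rcases sp_scalar (mul_mem hx (hR ha)) hc with e | e
    · exact eq_inv_of_mul_eq_one_left e ▸ inv_mem ha
    · rw [show x = -1 * a⁻¹ by rw [← e, mul_inv_cancel_right]]
      exact mul_mem hE.neg (inv_mem ha)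
  refine transfer hr (P := (φ).PermD D) (fun g => ⟨fun h i => ?_, fun h => ?_⟩)
    (fun h => not_le_orth hφ (by simp) hD (.inl h2) ?_) fun X hX =>
      hO.frame_max5 hX hD.finrank_eq h2 hp (by simp) (by simp; decide) (by simp)
  · obtain ⟨r, hr, e⟩ := bS i
    obtain ⟨j, hj⟩ := sb ((ρ g : W5 F ≃ₗ[F] W5 F) (b i))
      ⟨_, (Subgroup.mem_normalizer_iff.1 h r).1 hr, by rw [hρ, ← e]; rfl⟩
    refine ⟨j, fun v hv => ?_⟩
    obtain ⟨t, rfl⟩ := Submodule.mem_span_singleton.1 hv
    rw [map_smul]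
    exact Submodule.smul_mem _ _ (by rcases hj with hj | hj <;> simp [hj, D])
  · have h' := (mem_comap_decomp hD).1 (inv_mem ((mem_comap_decomp hD).2 h))
    rw [← map_inv] at h'
    refine Subgroup.mem_normalizer_fintype fun a ha => ch _ (mul_mem (mul_mem g.2 (hR ha)) (inv_mem g.2))
      fun j => ?_
    obtain ⟨i, hi⟩ := h' j
    obtain ⟨t, ht⟩ := Submodule.mem_span_singleton.1 (hi _ (Submodule.mem_span_singleton_self _))
    obtain ⟨r, hr, e⟩ := bS i
    have e1 : T (b j) = g.1.1 * T ((ρ g⁻¹ : W5 F ≃ₗ[F] W5 F) (b j)) * (g.1⁻¹).1 := by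
      rw [hρ]; simp [mul_assoc]
    have e2 : T (b j) = g.1.1 * r.1 * (g.1⁻¹).1 ∨ T (b j) = -(g.1.1 * r.1 * (g.1⁻¹).1) := by
      rcases pm1 (q1 _ (bS i)) ((Q_coe_map _ _ _).trans (q1 _ (bS j))) ht with h | h <;>
        rw [h] at e1 <;> simp [e, e1]
    rcases hE.pm a ha r hr with h1 | h1 <;> replace h1 := congrArg Units.val h1 <;>
      simp only [Units.val_mul, Units.val_neg] at h1 <;> rcases e2 with e2 | e2 <;>
      simp [e2, mul_assoc, ← mul_assoc a.1 r.1, h1]
  · rintro _ ⟨e, he, rfl⟩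
    exact (mem_comap_decomp hD).2 (h e he)

end CA.MaxR5
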