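import Cfsg.Agent.Lib.Lin.MaxH4

/-!
Groups generated by unitary quasi-reflections: counting lemmas and the plane lemma.
-/

set_option autoImplicit false
set_option linter.unusedSectionVars false

namespace CA.CForm

open Module

section
variable {F : Type*} [Field F] [Fintype F] {s : F →+* F}

/-- The numerical facts about a non-trivial involution of a finite field. -/
structure HK (s : F →+* F) : Prop where
  ss : ∀ a, s (s a) = a
  ne : s ≠ RingHom.id F
  skew : Nat.card {c // c + s c = 0} < Nat.card {a // a * s a = 1}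
  sq : Nat.card F < Nat.card {a // a * s a = 1} ^ 2

theorem hk_conj {q : ℕ} (hF : Fintype.card F = q ^ 2) : HK (conj hF) := by
  have h1 : Nat.card {a // a * conj hF a = 1} = q + 1 := by
    rw [← card_norm_eq hF one_ne_zero (one_pow q)]
    simp only [conj_apply, pow_succ']
  have h2 : Nat.card {c // c + conj hF c = 0} = q := card_ker_π_hermKind hF
  refine ⟨conj_conj hF, conj_ne_id hF, by omega, ?_⟩
  rw [h1, Nat.card_eq_fintype_card, hF]
  nlinarith

theorem mem_of_mul {W : AddSubgroup F} {c a : F} (hc : c ≠ 0) (h : ∀ w ∈ W, c * w ∈ W)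
    (ha : c * a ∈ W) : a ∈ W := by
  obtain ⟨w, hw⟩ := (Finite.injective_iff_surjective (f := fun w : W => (⟨c * w, h w w.2⟩ : W))).1
    (fun _ _ e => Subtype.ext (mul_left_cancel₀ hc (congrArg Subtype.val e))) ⟨_, ha⟩
  exact mul_left_cancel₀ hc (congrArg Subtype.val hw) ▸ w.2

namespace HK
variable (h : HK s)
include h

theorem span {W : AddSubgroup F} (H : ∀ z, z * s z = 1 → ∀ w ∈ W, z * w ∈ W) {b : F} (b0 : b ≠ 0)
    (hb : b ∈ W) (a : F) : a ∈ W := by
  obtain ⟨⟨x, y⟩, ⟨x', y'⟩, e, ne⟩ := Function.not_injective_iff.1 fun H => absurd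
    (Nat.card_le_card_of_injective
      (fun p : {a // a * s a = 1} × {a // a * s a = 1} => p.1.1 * a + p.2.1 * b) H)
    (by rw [Nat.card_prod, ← pow_two]; exact h.sq.not_ge)
  refine mem_of_mul (c := x.1 - x'.1) (fun c => ne ?_) (fun w hw => ?_) ?_
  · obtain rfl : x = x' := Subtype.ext (sub_eq_zero.1 c)
    rw [show y = y' from Subtype.ext (mul_right_cancel₀ b0 (add_left_cancel e))]
  · rw [sub_mul]; exact W.sub_mem (H _ x.2 w hw) (H _ x'.2 w hw)
  · rw [show (x.1 - x'.1) * a = y'.1 * b - y.1 * b by linear_combination e]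
    exact W.sub_mem (H _ y'.2 b hb) (H _ y.2 b hb)

theorem exists_ne : ∃ z, z * s z = 1 ∧ z ≠ s z := by
  by_contra! H
  exact h.ne (RingHom.ext fun a => h.span (W := s.toAddMonoidHom.eqLocus (AddMonoidHom.id F))
    (fun z hz w hw => show s (z * w) = z * w by rw [map_mul, ← H z hz, show s w = w from hw])
    one_ne_zero (map_one s) a)

theorem aff {P : F → F → Prop} (h0 : ∀ m t, P m t → m ≠ 0 ∧ s m = m ∧ t + s t = 0)
    (hm : ∀ m t m' t', P m t → P m' t' → P (m * m') (t + m * t'))
    (hi : ∀ m t, P m t → P m⁻¹ (-(t / m))) (φ : {a // a * s a = 1} → F × F)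
    (hφ : Function.Injective φ) (hP : ∀ z, P (φ z).1 (φ z).2) {c : F} (hc : c + s c = 0) :
    P 1 c := by
  have sub : ∀ {m t t'}, P m t → P m t' → P 1 (t - t') := fun {m t t'} a b => by
    have := (h0 _ _ a).1
    convert hm _ _ _ _ a (hi _ _ b) using 1 <;> field_simp
    ring
  let U : AddSubgroup F :=
    { carrier := {t | P 1 t}
      zero_mem' := by simpa using sub (hP ⟨1, by simp⟩) (hP ⟨1, by simp⟩)
      add_mem' := fun a b => by simpa using hm _ _ _ _ a b
      neg_mem' := fun a => by simpa using hi _ _ a }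
  have cj : ∀ {m t}, P m t → ∀ w ∈ U, m * w ∈ U := fun {m t} a w hw => by
    have := sub (mul_one m ▸ hm _ _ _ _ a hw) a
    rwa [add_sub_cancel_left] at this
  choose! τ hτ using fun m (e : ∃ t, P m t) => e
  replace hτ := fun z => hτ _ ⟨_, hP z⟩
  obtain ⟨x, y, e, ne⟩ := Function.not_injective_iff.1 fun H => absurd
    (Nat.card_le_card_of_injective (fun z => (⟨(φ z).1 * c + ((φ z).2 - τ (φ z).1), by
      obtain ⟨-, a1, a2⟩ := h0 _ _ (hP z)
      simp only [map_add, map_mul, map_sub, a1]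
      linear_combination (φ z).1 * hc + a2 - (h0 _ _ (hτ z)).2.2⟩ : {c // c + s c = 0})) H)
    h.skew.not_ge
  replace e := congrArg Subtype.val e
  refine mem_of_mul (W := U) (c := (φ x).1 - (φ y).1) (fun k => ne (hφ (Prod.ext (sub_eq_zero.1 k) ?_)))
    (fun w hw => ?_) ?_
  · simp only [sub_eq_zero.1 k] at e
    linear_combination e
  · rw [sub_mul]; exact U.sub_mem (cj (hP x) w hw) (cj (hP y) w hw)
  · rw [show ((φ x).1 - (φ y).1) * c = ((φ y).2 - τ (φ y).1) - ((φ x).2 - τ (φ x).1) by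
      linear_combination e]
    exact U.sub_mem (sub (hP y) (hτ y)) (sub (hP x) (hτ x))

theorem sl2 {R : F → F → Prop} (h1 : ∀ c a b, c + s c = 0 → R a b → R (a + c * b) b)
    (h2 : ∀ c a b, c + s c = 0 → R a b → R a (b + c * a)) {a b a' b' : F} (hR : R a b)
    (k0 : s a' * b' + a' * s b' ≠ 0) (k : s a' * b' + a' * s b' = s a * b + a * s b) : R a' b' := by
  have ss := h.ss
  have b0 : b' ≠ 0 := by rintro rfl; simp at k0
  have key : ∀ b, R a b → s a' * b' + a' * s b' = s a * b + a * s b → s b * b' - b * s b' ≠ 0 →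
      R a' b' := fun b hR k d0 => by
    obtain ⟨c, hc⟩ : ∃ c, c * (s b * b' - b * s b') = s a * b' + a * s b' - (s a * b + a * s b) :=
      ⟨_, div_mul_cancel₀ _ d0⟩
    have c1 : c + s c = 0 := mul_right_cancel₀ d0 (by
      have := congrArg s hc
      simp only [map_mul, map_sub, map_add, ss] at this
      linear_combination hc - this)
    have c2 : s c = -c := by linear_combination c1
    have a0 : a + c * b ≠ 0 := fun e => k0 (by
      have := congrArg s e
      simp only [map_mul, map_add, c2, map_zero] at this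
      linear_combination k + b * this + s b * e)
    have a1 := h2 ((b' - b) / (a + c * b)) _ _ (by
      rw [map_div₀, div_add_div _ _ a0 ((map_ne_zero s).2 a0), div_eq_zero_iff]
      simp only [map_mul, map_sub, map_add, c2]
      exact .inl (by linear_combination -hc)) (h1 c a b c1 hR)
    rw [div_mul_cancel₀ _ a0, add_sub_cancel] at a1
    have a2 := h1 ((a' - (a + c * b)) / b') _ _ (by
      rw [map_div₀, div_add_div _ _ b0 ((map_ne_zero s).2 b0), div_eq_zero_iff]
      simp only [map_mul, map_sub, map_add, c2]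
      exact .inl (by linear_combination k + hc)) a1
    rwa [div_mul_cancel₀ _ b0, add_sub_cancel] at a2
  by_cases d0 : s b * b' - b * s b' = 0
  · obtain ⟨c, c0, hc⟩ := Form.herm_exists_π_eq_zero ss h.ne
    replace hc : s c = -c := eq_neg_of_add_eq_zero_right hc
    refine key _ (h2 c a b (by simp [hc]) hR) (by simp [hc, k]; ring) fun e => k0 ?_
    simp only [map_mul, map_add, hc] at e
    refine mul_left_cancel₀ (mul_ne_zero c0 b0) ?_
    linear_combination c * b' * k - b * e + (b + c * a) * d0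
  · exact key b hR k d0

end HK
end

namespace Form
variable {F : Type*} [Field F] [Fintype F] {s : F →+* F} {hs : ∀ a, s (s a) = a}
  {V : Type*} [AddCommGroup V] [Module F V] [FiniteDimensional F V]
  {f : Form (Kind.herm s hs) V} {Y : Subgroup f.Isom}

local notation:75 g:76 " ⊳ " v:75 => (g : V ≃ₗ[F] V) v

/-- All quasi-reflections in the unit vector `v` lie in `Y`. -/
def RR (Y : Subgroup f.Isom) (v : V) : Prop :=
  f.B v v = 1 ∧ ∀ z, z * s z = 1 → ∃ g ∈ Y, ∀ u, g ⊳ u = u + ((z - 1) * f.B v u) • v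

theorem RR.map {v : V} (h : RR Y v) {g : f.Isom} (hg : g ∈ Y) : RR Y (g ⊳ v) :=
  ⟨by rw [B_coe_map, h.1], fun z hz => by
    obtain ⟨r, hr, e⟩ := h.2 z hz
    exact ⟨g * r * g⁻¹, mul_mem (mul_mem hg hr) (inv_mem hg), fun u => by
      rw [isom_mul_apply, isom_mul_apply, e, map_add, map_smul, isom_apply_inv_apply, B_isom_left]⟩⟩

theorem RR.refl {u v : V} (h : RR Y u) (h' : RR Y v) {z : F} (hz : z * s z = 1) :
    RR Y (v + ((z - 1) * f.B u v) • u) := by
  obtain ⟨r, hr, e⟩ := h.2 z hz
  exact e v ▸ h'.map hr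

theorem RR.lev {v x : V} (h : RR Y v) (h' : RR Y (v + x)) (hx : f.Q x = 0) (hB : f.B x v = 0)
    {z : F} (hz : z * s z = 1) : f.Lev Y x ((z - 1) • v) := by
  obtain ⟨r, hr, e⟩ := h.2 (s z) (by rw [hs, mul_comm, hz])
  obtain ⟨r', hr', e'⟩ := h'.2 z hz
  have hc : f.EichlerCond x ((z - 1) • v) (1 - z) := ⟨hx, by simp [hB], by
    simp [← herm_B_self, h.1]; linear_combination -hz⟩
  refine ⟨_, hc, (f.isom_ext fun u => ?_ : r' * r = f.eichler _ _ _ hc) ▸ mul_mem hr' hr⟩
  rw [isom_mul_apply, e, e', eichler_apply]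
  simp only [B_add_left, map_add, map_smul, h.1, hB, B_smul_left, Kind.herm_σ, Kind.herm_ε, map_sub,
    map_one, smul_eq_mul]
  match_scalars
  · ring
  · linear_combination f.B v u * hz
  · linear_combination f.B v u * hz

theorem IsHyp.Tgrp_le_of {x y : V} (h : f.IsHyp x y) (hf : f.Nondeg) (hk : HK s)
    (φ : {a // a * s a = 1} → f.Isom) (A : {a // a * s a = 1} → F) (h1 : ∀ z, φ z ∈ Y)
    (h2 : ∀ z, φ z ⊳ x = A z • x) (h3 : ∀ z w, f.B x w = 0 → f.B y w = 0 → φ z ⊳ w = w)
    (h4 : ∀ z z', (∀ a b : F, A z' • φ z ⊳ (a • x + b • y) = A z • φ z' ⊳ (a • x + b • y)) → z = z') :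
    f.Tgrp x ≤ Y := by
  let P : F → F → f.Isom → Prop := fun a t g => g ∈ Y ∧ g ⊳ x = a • x ∧
    g ⊳ y = (s a)⁻¹ • (y + t • x) ∧ ∀ w, f.B x w = 0 → f.B y w = 0 → g ⊳ w = w
  have a0 : ∀ {a : F} {g : f.Isom}, g ⊳ x = a • x → a ≠ 0 := fun {a g} e k => by
    rw [k, zero_smul, LinearEquiv.map_eq_zero_iff] at e
    exact h.x_ne_zero e
  have pm : ∀ {a t g a' t' g'}, P a t g → P a' t' g' → P (a * a') (t + a * s a * t') (g * g') :=
    fun {a t g a' t' g'} ⟨k1, k2, k3, k4⟩ ⟨l1, l2, l3, l4⟩ => ⟨mul_mem k1 l1,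
      by rw [isom_mul_apply, l2, map_smul, k2, smul_smul, mul_comm], by
        have := (map_ne_zero s).2 (a0 k2)
        simp only [isom_mul_apply, l3, map_smul, map_add, k2, k3, map_mul]
        match_scalars <;> field_simp,
      fun w a b => by rw [isom_mul_apply, l4 w a b, k4 w a b]⟩
  have ex : ∀ z, ∃ t, P (A z) t (φ z) := fun z => by
    obtain ⟨w, hw, e⟩ := h.exists_decomp (φ z ⊳ y)
    have k1 : f.B x w = 0 := hw x (Submodule.subset_span (by simp))
    have k2 : f.B y w = 0 := hw y (Submodule.subset_span (by simp))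
    have k3 : w = 0 := hf w fun v => f.eq_zero_symm (by
      obtain ⟨w', hw', e'⟩ := h.exists_decomp v
      have l1 : f.B x w' = 0 := hw' x (Submodule.subset_span (by simp))
      have l2 : f.B y w' = 0 := hw' y (Submodule.subset_span (by simp))
      have := f.B_coe_map (φ z) w' y
      rw [h3 z w' l1 l2, e] at this
      rw [e']
      simpa [k1, k2, f.eq_zero_symm l1, f.eq_zero_symm l2] using this)
    have k4 := f.B_coe_map (φ z) x y
    have k5 := (map_ne_zero s).2 (a0 (h2 z))
    rw [h2, herm_B_smul_left, h.B_xy] at k4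
    refine ⟨s (A z) * f.B y (φ z ⊳ y), h1 z, h2 z, e.trans ?_, h3 z⟩
    rw [k3, eq_inv_of_mul_eq_one_right k4, Kind.herm_ε]
    match_scalars <;> field_simp
  choose t ht using ex
  refine f.Tgrp_le fun c hc => ?_
  refine (hk.aff (P := fun m t => ∃ a g, a * s a = m ∧ P a t g)
    (c := c) ?_ ?_ ?_ (fun z => (A z * s (A z), t z)) (fun z z' e => h4 z z' fun a b => ?_)
    (fun z => ⟨_, _, rfl, ht z⟩) hc.π_eq_zero).elim fun a ⟨g, ha, hg⟩ => ?_
  rotate_right
  · have : ∀ n : ℕ, ∃ g, P (a ^ n) (n * c) g := fun n => by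
      induction n with
      | zero => exact ⟨1, one_mem _, by simp, by simp, fun _ _ _ => rfl⟩
      | succ n ih =>
        obtain ⟨g', hg'⟩ := ih
        exact ⟨_, by simpa [ha, pow_succ', add_mul, add_comm] using pm hg hg'⟩
    obtain ⟨g, k1, k2, k3, k4⟩ := this (Fintype.card F - 1)
    rw [FiniteField.pow_card_sub_one_eq_one a (a0 hg.2.1)] at k2 k3
    rw [Nat.cast_pred Fintype.card_pos, FiniteField.cast_card_eq_zero] at k3
    refine (h.isom_ext ?_ ?_ fun w a b => ?_ : g = f.eichler x 0 c hc) ▸ k1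
    · rw [k2, eichler_apply_self, one_smul]
    · rw [k3, eichler_zero_apply, h.B_xy]; simp [sub_eq_add_neg]
    · rw [k4 w a b, eichler_zero_apply, a]; simp
  · rintro _ t ⟨a, g, rfl, -, k2, k3, -⟩
    have k0 := a0 k2
    refine ⟨by simp [k0], by simp [hs, mul_comm], ?_⟩
    have := f.Q_coe_map g y
    rw [k3, herm_Q_smul] at this
    simpa [k0, herm_Q_smul, herm_Q_add, h.Q_x, h.Q_y, h.B_yx] using this
  · rintro _ t _ t' ⟨a, g, rfl, k⟩ ⟨a', g', rfl, k'⟩
    exact ⟨_, _, by rw [map_mul]; ring, pm k k'⟩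
  · rintro _ t ⟨a, g, rfl, k1, k2, k3, k4⟩
    have k0 := a0 k2
    have k5 := (map_ne_zero s).2 k0
    refine ⟨a⁻¹, g⁻¹, by simp [mul_comm], inv_mem k1, ?_, ?_, fun w a b => ?_⟩
    · rw [eq_inv_smul_iff₀ k0, ← map_smul, ← k2, isom_inv_apply_apply]
    · apply g.1.injective
      simp only [isom_apply_inv_apply, map_smul, map_add, k2, k3, map_inv₀]
      match_scalars <;> field_simp
      ring
    · rw [← k4 w a b, isom_inv_apply_apply, k4 w a b]
  · obtain ⟨e1, e2⟩ := Prod.mk.inj e
    have k1 := (map_ne_zero s).2 (a0 (h2 z))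
    have k2 := (map_ne_zero s).2 (a0 (h2 z'))
    simp only [map_add, map_smul, h2, (ht z).2.2.1, (ht z').2.2.1, e2]
    match_scalars
    · field_simp
      linear_combination -b * t z' * e1
    · field_simp
      linear_combination -b * e1

theorem RR.plane {u v : V} (hu : RR Y u) (hv : RR Y v) (hf : f.Nondeg) (hk : HK s) {β : F}
    (hβ : f.B u v = β) (b0 : β ≠ 0) (b1 : β * s β ≠ 1) {a b : F}
    (hab : a * s a + b * s b * (1 - β * s β) = 1) : RR Y (a • u + b • (v - β • u)) := by
  have uu := hu.1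
  have vv := hv.1
  have vu : f.B v u = s β := by rw [herm_symm, hβ]
  obtain ⟨α, hα⟩ := exists_norm_eq s hs hk.ne (β * s β - 1) (by simp [hs, mul_comm])
  obtain ⟨ζ, z1, z2⟩ := hk.exists_ne
  have z3 : ζ - 1 ≠ 0 := fun e => z2 (by rw [sub_eq_zero.1 e, map_one])
  have d0 := sub_ne_zero.2 b1
  have α0 : α ≠ 0 := fun e => d0 (by rw [← hα, e, zero_mul])
  have A0 : ∀ z, z * s z = 1 → z * α - β ≠ 0 := fun z hz e => by
    have := congrArg s e
    simp only [map_sub, map_mul, map_zero] at this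
    exact one_ne_zero (by linear_combination hα + α * s α * hz - s z * s α * e - β * this :
      (1 : F) = 0)
  have N : ∀ z, z * s z = 1 → ((z * α - β) * s β + 1) * s ((z * α - β) * s β + 1) =
      (z * α - β) * s (z * α - β) * (β * s β - 1) := fun z hz => by
    simp only [map_add, map_sub, map_mul, map_one, hs]
    linear_combination α * s α * hz + hα
  have B0 : ∀ z, z * s z = 1 → (z * α - β) * s β + 1 ≠ 0 := fun z hz e =>
    mul_ne_zero (mul_ne_zero (A0 z hz) ((map_ne_zero s).2 (A0 z hz))) d0 (by rw [← N z hz, e, zero_mul])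
  have A1 := A0 1 (by simp)
  have B1 := B0 1 (by simp)
  have N1 := N 1 (by simp)
  rw [one_mul] at A1 B1 N1
  obtain ⟨x, hx⟩ : ∃ x, x = (α - β) • u + v := ⟨_, rfl⟩
  obtain ⟨y, hy⟩ : ∃ y, y = ((ζ - 1) * (β * s β - 1))⁻¹ • ((ζ * α - β) • u + v) := ⟨_, rfl⟩
  have hxy : f.IsHyp x y := by
    refine ⟨?_, ?_, ?_⟩
    · simp only [← herm_B_self, hx, B_add_left, herm_B_smul_left, map_add, map_smul, uu, vv, vu, hβ,
        map_sub, smul_eq_mul]
      linear_combination hα
    · refine hy ▸ f.Q_smul_of_Q ?_ _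
      simp only [← herm_B_self, B_add_left, herm_B_smul_left, map_add, map_smul, uu, vv, vu, hβ,
        map_sub, map_mul, smul_eq_mul]
      linear_combination α * s α * z1 + hα
    · simp only [hx, hy, B_add_left, herm_B_smul_left, map_add, map_smul, uu, vv, vu, hβ,
        map_sub, smul_eq_mul]
      field_simp
      linear_combination ζ * hα
  have eu : u = (-((ζ - 1) * α)⁻¹) • x + ((β * s β - 1) / α) • y := by
    rw [hx, hy]; match_scalars <;> field_simp <;> ring
  have ev : v = x - (α - β) • u := by rw [hx]; simp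
  have ew : ∀ a b : F, a • u + b • (v - β • u) = (b - (a - b * α) / ((ζ - 1) * α)) • x +
      ((a - b * α) * ((β * s β - 1) / α)) • y := fun a b => by
    rw [hx, hy]; match_scalars <;> field_simp <;> ring
  choose r hr er using fun z : {a // a * s a = 1} => hu.2 z z.2
  have eη : ∀ z : {a // a * s a = 1}, ∃ η, η * s η = 1 ∧
      η * ((α - β) * ((z * α - β) * s β + 1)) = (z * α - β) * ((α - β) * s β + 1) := fun z => by
    have := mul_ne_zero A1 (B0 z z.2)
    refine ⟨_, ?_, div_mul_cancel₀ _ this⟩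
    rw [map_div₀, div_mul_div_comm, div_eq_one_iff_eq (mul_ne_zero this ((map_ne_zero s).2 this)),
      map_mul s (α - β), map_mul s (z * α - β)]
    linear_combination (z * α - β) * s (z * α - β) * N1 - (α - β) * s (α - β) * N z z.2
  choose η η1 η2 using eη
  choose r' hr' er' using fun z => hv.2 _ (η1 z)
  have T : f.Tgrp x ≤ Y := hxy.Tgrp_le_of hf hk (fun z => r' z * r z)
    (fun z => (z * α - β) / (α - β)) (fun z => mul_mem (hr' z) (hr z)) (fun z => by
      simp only [isom_mul_apply, er, er', hx, map_add, map_smul, uu, vv, vu, hβ, smul_eq_mul]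
      match_scalars <;> field_simp
      · ring
      · linear_combination η2 z) (fun z w h1 h2 => by
      have h3 : f.B u w = 0 := by rw [eu]; simp [h1, h2]
      have h4 : f.B v w = 0 := by rw [ev]; simp [h1, h3]
      simp [er, er', h3, h4]) fun z z' e => by
      have := congrArg (f.B (u - s β • v)) (ew 0 1 ▸ e _ _)
      simp only [isom_mul_apply, er, er', B_sub_left, herm_B_smul_left, map_add, map_smul, map_sub,
        uu, vv, vu, hβ, smul_eq_mul, hs] at this
      have k : (z * α - β) / (α - β) = (z' * α - β) / (α - β) :=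
        mul_right_cancel₀ (mul_ne_zero b0 d0) (by linear_combination -this)
      exact Subtype.ext (by simpa [div_left_inj' A1, α0] using k)
  have T' : f.Tgrp y ≤ Y := by
    have := Tgrp_map T (hr ⟨ζ, z1⟩)
    rw [hy, f.Tgrp_smul (inv_ne_zero (mul_ne_zero z3 d0))]
    refine (?_ : _ = (ζ * α - β) • u + v) ▸ this
    rw [er, hx]
    simp only [map_add, map_smul, uu, hβ, smul_eq_mul]
    module
  have k1 := hxy.Q_comb (-((ζ - 1) * α)⁻¹) ((β * s β - 1) / α)
  have k2 := hxy.Q_comb (b - (a - b * α) / ((ζ - 1) * α)) ((a - b * α) * ((β * s β - 1) / α))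
  rw [← eu, ← herm_B_self, uu] at k1
  rw [← ew, ← herm_B_self] at k2
  replace k2 := Eq.trans (b := f.B _ _) (a := 1) (by
    simp only [B_add_left, B_sub_left, herm_B_smul_left, map_add, map_smul, uu, vv, vu, hβ,
        map_sub, smul_eq_mul]
    linear_combination -hab) k2
  rw [Kind.herm_π, map_mul s, Kind.herm_σ, hs] at k1 k2
  refine ew a b ▸ hk.sl2 (R := fun a b => RR Y (a • x + b • y)) (fun c a b hc h => ?_)
    (fun c a b hc h => ?_) (eu ▸ hu) (k2 ▸ one_ne_zero) (k2.symm.trans k1)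
  · convert h.map (T (f.eichler_mem_Tgrp x (-c) (f.eichlerCond_zero hxy.Q_x (by rw [map_neg, neg_eq_zero]; exact hc)))) using 1
    simp [eichler_zero_apply, hxy.B_xx, hxy.B_xy]
    module
  · convert h.map (T' (f.eichler_mem_Tgrp y (-c) (f.eichlerCond_zero hxy.Q_y (by rw [map_neg, neg_eq_zero]; exact hc)))) using 1
    simp [eichler_zero_apply, hxy.B_yy, hxy.B_yx]
    module

end Form
end CA.CForm
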