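import Cfsg.Agent.Lib.Lin.MaxU1

/-!
Overgroups of the full monomial group of an orthonormal frame in a unitary group.
-/

set_option autoImplicit false
set_option linter.unusedSectionVars false

namespace CA.CForm

open Module CA.MaxF Pi Equiv Finset

namespace Form
variable {F : Type*} [Field F] [Fintype F] {ι : Type*} [Fintype ι] [DecidableEq ι]
  {s : F →+* F} {hs : ∀ a, s (s a) = a}

local notation:75 g:76 " ⊳ " v:75 => (Subtype.val g) v
local notation "𝐞" i:max => (Pi.single i 1 : ι → F)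

/-- The standard basis is orthonormal. -/
def St (f : Form (Kind.herm s hs) (ι → F)) : Prop := ∀ i u, f.B (𝐞 i) u = u i

/-- `Y` is a proper overgroup of the monomial group of the standard frame. -/
structure Fg (f : Form (Kind.herm s hs) (ι → F)) (Y : Subgroup f.Isom) : Prop where
  hk : HK s
  big : 5 ≤ Fintype.card ι
  st : f.St
  rr : ∀ i, RR Y (𝐞 i)
  perm : ∀ σ : Perm ι, Perm.sign σ = 1 → ∃ g ∈ Y, ∀ u, g ⊳ u = u ∘ σ
  not_le : ¬f.Eich ≤ Y

variable {f : Form (Kind.herm s hs) (ι → F)} {Y : Subgroup f.Isom} {v w : ι → F} {j k l m : ι}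

theorem St.right (h : f.St) (u : ι → F) (i : ι) : f.B u (𝐞 i) = s (u i) := by rw [herm_symm, h]

theorem St.nondeg (h : f.St) : f.Nondeg := fun x hx => funext fun i => by
  simpa [h.right] using hx (𝐞 i)

namespace Fg
variable (h : f.Fg Y)
include h

theorem out (s : Finset ι) (hs : s.card ≤ 4) : ∃ k, k ∉ s :=
  exists_notMem_of_lt (by have := h.big; omega)

theorem root {a b : F} (kl : k ≠ l) (ha : a ≠ 0) (hab : a * s a + b * s b = 0)
    (hw : f.Lev Y (a • 𝐞 k + b • 𝐞 l) w) (jk : j ≠ k) (jl : j ≠ l) (hj : w j ≠ 0) : False := by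
  have st : ∀ i u, f.B (𝐞 i) u = u i := h.st
  have hB : ∀ u, f.B (a • 𝐞 k + b • 𝐞 l) u = s a * u k + s b * u l := fun u => by simp [st]
  have xk : (a • 𝐞 k + b • 𝐞 l) k = a := by simp [kl]
  have xl : (a • 𝐞 k + b • 𝐞 l) l = b := by simp [kl.symm]
  have xm : ∀ m, m ≠ k → m ≠ l → (a • 𝐞 k + b • 𝐞 l) m = 0 := fun m h1 h2 => by simp [h1, h2]
  have xp : ∀ σ : Perm ι, σ k = k → σ l = l → (a • 𝐞 k + b • 𝐞 l) ∘ σ = a • 𝐞 k + b • 𝐞 l :=
    fun σ h1 h2 => by
      rw [add_comp, smul_comp, smul_comp, single_comp, single_comp, σ.symm_apply_eq.2 h1.symm,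
        σ.symm_apply_eq.2 h2.symm]
  generalize a • 𝐞 k + b • 𝐞 l = x at *
  have xx : f.B x x = 0 := by rw [hB, xk, xl]; linear_combination hab
  have hx : f.Q x = 0 := (f.herm_B_self x).symm.trans xx
  obtain ⟨z, z1, z2⟩ := h.hk.exists_ne
  have z3 : z - 1 ≠ 0 := fun e => z2 (by rw [sub_eq_zero.1 e, map_one])
  let W : AddSubgroup F :=
    { carrier := {c | f.Lev Y x (c • 𝐞 j)}
      zero_mem' := by simpa using lev_zero hx
      add_mem' := fun a b => by simpa [add_smul] using a.add b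
      neg_mem' := fun a => by simpa using a.neg }
  have h1 : 𝐞 j ∈ levS Y hx := fun c => h.hk.span (W := W) (fun z hz c hc => by
      obtain ⟨r, hr, e⟩ := (h.rr j).2 z hz
      have := Lev.fix hc hr (by simp [e, st, xm j jk jl])
      rwa [e, show c • 𝐞 j + _ = (z * c) • 𝐞 j by simp [st]; module] at this)
    (mul_ne_zero z3 hj) (by
      obtain ⟨r, hr, e⟩ := (h.rr j).2 z z1
      have := (hw.fix hr (by simp [e, st, xm j jk jl])).sub hw
      rwa [e, add_sub_cancel_left, st] at this) c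
  have h2 : ∀ m, m ≠ k → m ≠ l → 𝐞 m ∈ levS Y hx := fun m mk ml => by
    by_cases mj : m = j
    · exact mj ▸ h1
    obtain ⟨n, hn⟩ := h.out {j, m, k, l} card_le_four
    simp only [mem_insert, mem_singleton, not_or] at hn
    obtain ⟨g, hg, e⟩ := h.perm (swap j m * swap j n) (by simp [Ne.symm mj, Ne.symm hn.1])
    have := map_mem_levS h1 hg (by
      rw [e, xp] <;> simp [swap_apply_of_ne_of_ne, Ne.symm, *])
    rwa [e, single_comp, (symm_apply_eq _).2 (show j = _ by
      rw [Perm.mul_apply, swap_apply_of_ne_of_ne mj (Ne.symm hn.2.1), swap_apply_right])] at this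
  have h3 : ∀ w, f.B x w = 0 → f.Lev Y x w := fun w hw => lev_of_mem_levS (hx := hx) (by
    rw [← sub_add_cancel w ((w k / a) • x), pi_eq_sum_univ' (w - _)]
    refine add_mem (Submodule.sum_mem _ fun m _ => ?_) (Submodule.smul_mem _ _ (self_mem_levS hx))
    by_cases mk : m = k
    · simp [mk, xk, ha]
    by_cases ml : m = l
    · have b0 : s b ≠ 0 := fun e => by simp [e, ha] at hab
      rw [hB] at hw
      rw [ml, show (w - (w k / a) • x) l = 0 from mul_left_cancel₀ (mul_ne_zero b0 ha) (by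
        simp only [Pi.sub_apply, Pi.smul_apply, xl, smul_eq_mul]
        linear_combination a * hw - w k * hab - b * s b * div_mul_cancel₀ (w k) ha), zero_smul]
      exact zero_mem _
    exact Submodule.smul_mem _ _ (h2 m mk ml))
  have h4 : 3 ≤ finrank F (ι → F) := by have := h.big; simp; omega
  obtain ⟨r, hr, e⟩ := (h.rr k).2 z z1
  refine h.not_le (h.st.nondeg.Eich_le_of_Qgrp' (.inl h4) hx (Qgrp_le_of_lev
    (h.st.nondeg.Tgrp_le_of_lev h4 (herm_exists_sub_eq hs h.hk.ne) h3) h3) hr ?_)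
  rw [e, map_add, xx, map_smul, st, hB, xk]
  simp [kl.symm, z3, ha]

theorem opp (hv : RR Y v) (kl : k ≠ l) (hk : v k ≠ 0) (e : v k * s (v k) + v l * s (v l) = 0) :
    False := by
  have st : ∀ i u, f.B (𝐞 i) u = u i := h.st
  obtain ⟨z, z1, z2⟩ := h.hk.exists_ne
  have z3 : z - 1 ≠ 0 := fun e => z2 (by rw [sub_eq_zero.1 e, map_one])
  have h1 := (h.rr l).refl ((h.rr k).refl hv z1) z1
  simp only [st, Pi.add_apply, Pi.smul_apply, single_eq_of_ne kl.symm, smul_zero, add_zero,
    add_assoc] at h1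
  obtain ⟨j, h2, h3, h4⟩ : ∃ j, j ≠ k ∧ j ≠ l ∧ v j ≠ 0 := by
    by_contra! H
    have k1 : v = v k • 𝐞 k + v l • 𝐞 l := funext fun j => by
      by_cases jk : j = k
      · simp [jk, kl]
      by_cases jl : j = l <;> simp [jk, jl, kl.symm, H]
    have := hv.1
    nth_rw 1 [k1] at this
    simp only [B_add_left, herm_B_smul_left, st] at this
    exact one_ne_zero (by linear_combination e - this : (1 : F) = 0)
  have k1 : (z - 1) * v k * s ((z - 1) * v k) + (z - 1) * v l * s ((z - 1) * v l) = 0 := by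
    simp only [map_mul]
    linear_combination (z - 1) * s (z - 1) * e
  refine h.root kl (mul_ne_zero z3 hk) k1 (hv.lev h1 ?_ ?_ z1) h2 h3 (by simp [z3, h4])
  · simp only [← herm_B_self, B_add_left, herm_B_smul_left, st]
    simp only [Pi.add_apply, Pi.smul_apply, single_eq_same, single_eq_of_ne kl,
      single_eq_of_ne kl.symm, smul_eq_mul]
    linear_combination k1
  · simp only [B_add_left, herm_B_smul_left, st, map_mul]
    linear_combination s (z - 1) * e

theorem sum_one' (hv : RR Y v) (kl : k ≠ l) (hk : v k ≠ 0) (hl : v l ≠ 0) (h1 : v k * s (v k) ≠ 1) :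
    v k * s (v k) + v l * s (v l) = 1 := by
  by_contra e
  have e' : 1 - v k * s (v k) - v l * s (v l) ≠ 0 := fun c => e (by linear_combination -c)
  obtain ⟨b, hb⟩ := exists_norm_eq s hs h.hk.ne (1 - v k * s (v k) - v l * s (v l))⁻¹
    (by simp [hs, mul_comm])
  replace hb : b * s b * (1 - v k * s (v k) - v l * s (v l)) = 1 := by rw [hb, inv_mul_cancel₀ e']
  obtain ⟨a, ha⟩ := exists_norm_eq s hs h.hk.ne (-(b * v l * s (b * v l))) (by simp [hs, mul_comm])
  have := (h.rr k).plane hv h.st.nondeg h.hk (h.st k v) hk h1 (a := a) (b := b) (by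
    rw [ha, map_mul]; linear_combination hb)
  refine h.opp this kl.symm ?_ ?_
  · simpa [kl.symm, hl] using fun c : b = 0 => by simp [c] at hb
  · simp only [Pi.add_apply, Pi.sub_apply, Pi.smul_apply, single_eq_same, single_eq_of_ne kl.symm,
      smul_eq_mul, mul_one, mul_zero, sub_zero, zero_add, sub_self, add_zero]
    linear_combination ha

theorem ne_one (hv : RR Y v) (kl : k ≠ l) (hk : v k ≠ 0) (hl : v l ≠ 0) : v k * s (v k) ≠ 1 :=
    fun e => by
  have e' : v l * s (v l) = 1 := by_contra fun c => mul_ne_zero hl ((map_ne_zero s).2 hl)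
    (by linear_combination h.sum_one' hv kl.symm hl hk c - e)
  have h2 : (2 : F) ≠ 0 := fun c => h.opp hv kl hk (by linear_combination e + e' + c)
  obtain ⟨z, z1, z2, z3⟩ : ∃ z, z * s z = 1 ∧ z - 1 ≠ 0 ∧ (z - 1) * s (z - 1) ≠ 1 := by
    obtain ⟨z, z1, z2⟩ := h.hk.exists_ne
    by_cases c : (z - 1) * s (z - 1) = 1
    · refine ⟨-1, by simp, fun c => h2 (by linear_combination -c), fun c' => z2 ?_⟩
      simp only [map_sub, map_one, map_neg] at c c'
      rw [show z = -1 from eq_neg_of_add_eq_zero_left (pow_eq_zero_iff two_ne_zero |>.1 (by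
        linear_combination z * c' - z * c + (z - 1) * z1)), map_neg, map_one]
    · exact ⟨z, z1, fun e => z2 (by rw [sub_eq_zero.1 e, map_one]), c⟩
  have h1 := hv.refl (h.rr k) z1
  have k1 : (𝐞 k + ((z - 1) * f.B v (𝐞 k)) • v) k = z := by
    simp [h.st.right]; linear_combination (z - 1) * e
  have k2 : (𝐞 k + ((z - 1) * f.B v (𝐞 k)) • v) l = (z - 1) * s (v k) * v l := by
    simp [h.st.right, kl.symm]
  have k3 : (z - 1) * s (v k) * v l * s ((z - 1) * s (v k) * v l) = (z - 1) * s (z - 1) := by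
    simp only [map_mul, hs]
    linear_combination (z - 1) * s (z - 1) * (v l * s (v l) * e + e')
  have := h.sum_one' h1 kl.symm (by simp [k2, z2, hk, hl]) (k1.trans_ne (left_ne_zero_of_mul_eq_one z1))
    (by rwa [k2, k3])
  rw [k1, k2, k3, z1] at this
  exact mul_ne_zero z2 ((map_ne_zero s).2 z2) (by linear_combination this)

theorem sum_one (hv : RR Y v) (kl : k ≠ l) (hk : v k ≠ 0) (hl : v l ≠ 0) :
    v k * s (v k) + v l * s (v l) = 1 := h.sum_one' hv kl hk hl (h.ne_one hv kl hk hl)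

theorem three (hv : RR Y v) (kl : k ≠ l) (km : k ≠ m) (lm : l ≠ m) (hk : v k ≠ 0) (hl : v l ≠ 0)
    (hm : v m ≠ 0) : False := by
  have h1 := h.sum_one hv kl hk hl
  have h2 := h.sum_one hv km hk hm
  have h3 := h.sum_one hv lm hl hm
  have h4 : (-1 - 1 : F) ≠ 0 := fun e => one_ne_zero (by
    linear_combination h3 - h1 - h2 - v k * s (v k) * e : (1 : F) = 0)
  refine h.ne_one (hv.refl (h.rr k) (z := -1) (by simp)) lm ?_ ?_ ?_
  · simp [h.st.right, kl.symm, h4, hk, hl]
  · simp [h.st.right, km.symm, h4, hk, hm]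
  · simp [h.st.right, kl.symm, hs]
    linear_combination (2 * v l * s (v l)) * (h1 + h2 - h3) + (h1 + h3 - h2)

theorem two (hv : RR Y v) (kl : k ≠ l) (hk : v k ≠ 0) (hl : v l ≠ 0) : False := by
  have h0 : ∀ m, m ≠ k → m ≠ l → v m = 0 := fun m h1 h2 =>
    by_contra (h.three hv kl h1.symm h2.symm hk hl)
  obtain ⟨m, hm⟩ := h.out {k, l} (card_le_two.trans (by omega))
  simp only [mem_insert, mem_singleton, not_or] at hm
  obtain ⟨g, hg, e⟩ := h.perm (swap k l * swap k m) (by simp [kl, Ne.symm hm.1])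
  have k1 : g ⊳ v = v k • 𝐞 l + v l • 𝐞 m := funext fun j => by
    simp only [e, Function.comp, Perm.mul_apply, swap_apply_def]
    split_ifs <;> simp_all
  obtain ⟨z, z1, z2, z3⟩ : ∃ z, z * s z = 1 ∧ z - 1 ≠ 0 ∧ 1 + (z - 1) * (v k * s (v k)) ≠ 0 := by
    obtain ⟨z, z1, z2⟩ := h.hk.exists_ne
    have z3 : z - 1 ≠ 0 := fun e => z2 (by rw [sub_eq_zero.1 e, map_one])
    by_cases c : 1 + (z - 1) * (v k * s (v k)) = 0
    · exact ⟨s z, by rw [hs, mul_comm, z1], by simpa using (map_ne_zero s).2 z3, fun c' => z2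
        (mul_right_cancel₀ (mul_ne_zero hk ((map_ne_zero s).2 hk)) (by linear_combination c - c'))⟩
    · exact ⟨z, z1, z3, c⟩
  have := (hv.map hg).refl hv z1
  rw [k1, B_add_left, herm_B_smul_left, herm_B_smul_left, h.st, h.st, h0 m hm.1 hm.2] at this
  refine h.three this kl (Ne.symm hm.1) (Ne.symm hm.2) ?_ (fun c => mul_ne_zero hl z3 ?_) ?_
  · simp [kl, Ne.symm hm.1, hk]
  · simp [Ne.symm hm.2] at c
    linear_combination c
  · simp [h0 m hm.1 hm.2, hm.2, z2, hk, hl]

theorem mon {g : f.Isom} (hg : g ∈ Y) (i : ι) : ∃ (j : ι) (a : F), g ⊳ 𝐞 i = a • 𝐞 j := by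
  have hv := (h.rr i).map hg
  obtain ⟨k, hk⟩ : ∃ k, (g ⊳ 𝐞 i) k ≠ 0 := by
    by_contra! H
    simpa [show g ⊳ 𝐞 i = 0 from funext H] using hv.1
  refine ⟨k, (g ⊳ 𝐞 i) k, funext fun l => ?_⟩
  by_cases e : l = k
  · simp [e]
  · simpa [e] using by_contra (h.two hv (Ne.symm e) hk)

end Fg
end Form
end CA.CForm
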