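import Cfsg.Agent.Lib.Lin.MaxU3

/-!
Overgroups of the special monomial group of a unitary frame in odd characteristic: dihedral
subgroups.
-/

set_option autoImplicit false
set_option linter.unusedSectionVars false

namespace CA.CForm

open Module CA.MaxF Pi Equiv Finset

namespace Form
variable {F : Type*} [Field F] [Fintype F] {ι : Type*} [Fintype ι] [DecidableEq ι]
  {σ : F →+* F} {hσ : ∀ a, σ (σ a) = a}

local notation:75 g:76 " ⊳ " v:75 => (Subtype.val g) v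
local notation "𝐞" i:max => (Pi.single i 1 : ι → F)

variable {f : Form (Kind.herm σ hσ) (ι → F)} {X : Subgroup f.Isom} {g : f.Isom}

theorem MonU.supp (hg : g ∈ f.MonU) {z z' : ι → F} {a : F} (ha : a ≠ 0)
    (h1 : f.B z z ≠ 0) (h2 : f.B z z' = 0)
    (e : ∀ m, ∃ β : F, g ⊳ 𝐞 m = 𝐞 m - (a * σ (z m)) • z - β • z') :
    ∃ T : Finset ι, T.card ≤ 4 ∧ ∀ m, m ∉ T → z m = 0 := by
  obtain ⟨T, h3, h4⟩ := MonU.few hg (S := ∅) (y := z) (y' := z') fun m _ => by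
    obtain ⟨β, e⟩ := e m
    exact ⟨-(a * σ (z m)), -β, fun j _ => by simp [e]; ring⟩
  refine ⟨T, h3, fun m hm => ?_⟩
  obtain ⟨β, e⟩ := e m
  have := congrArg (f.B z) ((h4 m (by simp) hm).symm.trans e)
  simp only [map_sub, map_smul, h2, smul_eq_mul] at this
  exact (map_eq_zero σ).1 ((mul_eq_zero.1 (by linear_combination this :
    a * f.B z z * σ (z m) = 0)).resolve_left (mul_ne_zero ha h1))

/-- elements whose commutator space lies in the span of `y`, `y'` and some frame vectors -/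
def KU (X : Subgroup f.Isom) (y y' : ι → F) (S : Finset ι) : Subgroup f.Isom where
  carrier := {u | u ∈ X ∧ ∀ v, ∃ α β : F, ∀ j, j ∉ S → (u ⊳ v - v) j = α * y j + β * y' j}
  one_mem' := ⟨one_mem _, fun v => ⟨0, 0, fun j _ => by simp⟩⟩
  mul_mem' {a b} ha hb := ⟨mul_mem ha.1 hb.1, fun v => by
    obtain ⟨α, β, e⟩ := hb.2 v
    obtain ⟨α', β', e'⟩ := ha.2 (b ⊳ v)
    refine ⟨α + α', β + β', fun j hj => ?_⟩
    have h1 := e j hj
    have h2 := e' j hj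
    simp only [Pi.sub_apply, isom_mul_apply] at h1 h2 ⊢
    linear_combination h1 + h2⟩
  inv_mem' {a} ha := ⟨inv_mem ha.1, fun v => by
    obtain ⟨α, β, e⟩ := ha.2 (a⁻¹ ⊳ v)
    refine ⟨-α, -β, fun j hj => ?_⟩
    have h1 := e j hj
    simp only [Pi.sub_apply, isom_apply_inv_apply] at h1 ⊢
    linear_combination -h1⟩

theorem KU.mono {y y' : ι → F} {S S' : Finset ι} (h : S ⊆ S') : KU X y y' S ≤ KU X y y' S' :=
  fun _ hu => ⟨hu.1, fun v => let ⟨α, β, e⟩ := hu.2 v; ⟨α, β, fun j hj => e j fun c => hj (h c)⟩⟩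

/-- `s` changes the signs of two coordinates. -/
def FlU (s : f.Isom) (k l : ι) : Prop := ∀ u, s ⊳ u = u - (2 * u k) • 𝐞 k - (2 * u l) • 𝐞 l

theorem FlU.neg {s : f.Isom} {k l : ι} (e : FlU s k l) (kl : k ≠ l) {v : ι → F}
    (hv : ∀ j, j ∉ ({k, l} : Finset ι) → v j = 0) : s ⊳ v = -v := funext fun j => by
  rw [e]
  by_cases h1 : j = k
  · simp [h1, kl]; ring
  by_cases h2 : j = l
  · simp [h2, kl.symm]; ring
  simp [h1, h2, hv]

theorem FlU.mul_self {s : f.Isom} {k l : ι} (e : FlU s k l) (kl : k ≠ l) : s * s = 1 :=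
  f.isom_ext fun v => by
    rw [isom_mul_apply, e, e, isom_one_apply]
    simp [kl, kl.symm]
    module

theorem FlU.supp (h2 : (2 : F) ≠ 0) {s s' z : f.Isom} {k l k' l' : ι} (e : FlU s k l)
    (e' : FlU s' k' l') (kl : k' ≠ l') (hz : z * s' = s * z) {v : ι → F}
    (hv : ∀ j, j ∉ ({k', l'} : Finset ι) → v j = 0) (j : ι) (hj : j ∉ ({k, l} : Finset ι)) :
    (z ⊳ v) j = 0 := by
  have := congrFun (congrArg (fun t : f.Isom => t ⊳ v) hz) j
  simp only [mem_insert, mem_singleton, not_or] at hj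
  simp only [isom_mul_apply, e'.neg kl hv, map_neg, e (z ⊳ v)] at this
  simp only [Pi.neg_apply, Pi.sub_apply, Pi.smul_apply, single_eq_of_ne hj.1, single_eq_of_ne hj.2,
    smul_zero, sub_zero] at this
  exact mul_left_cancel₀ h2 (by linear_combination -this)

namespace Fu
variable (h : f.Fu X)
include h

theorem flip_mem (i j : ι) (ij : i ≠ j) : ∃ g ∈ X, FlU g i j :=
  (h.dg_mem i j ij (-1) (by simp)).imp fun g hg => ⟨hg.1, fun u => by
    rw [hg.2, map_neg, map_one]; module⟩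

theorem flip (n : ℕ) (I : Finset ι) (hI : I.card = 2 * n) :
    ∃ g ∈ X, ∀ u, g ⊳ u = u - (2 : F) • rs I u := by
  induction n generalizing I with
  | zero => exact ⟨1, one_mem _, fun u => by ext i; simp [rs, card_eq_zero.1 hI]⟩
  | succ n ih =>
    obtain ⟨a, ha, b, hb, ab⟩ := one_lt_card.1 (show 1 < I.card by omega)
    obtain ⟨g, hg, e⟩ := ih ((I.erase a).erase b) (by
      rw [card_erase_of_mem (by simp [hb, ab.symm]), card_erase_of_mem ha]; omega)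
    obtain ⟨s, hs, e'⟩ := h.flip_mem a b ab
    refine ⟨_, mul_mem hs hg, fun u => ?_⟩
    rw [isom_mul_apply, e', e]
    ext i
    by_cases hi : i = a
    · simp [rs, hi, ha, ab]
    by_cases hi' : i = b <;> simp [rs, hi, hi', hb, ab.symm]

theorem conj_flip (g : f.Isom) {s : f.Isom} {k l : ι} (e : FlU s k l) (v : ι → F) :
    (g * s * g⁻¹) ⊳ v =
      v - (2 * f.B (g ⊳ 𝐞 k) v) • g ⊳ 𝐞 k - (2 * f.B (g ⊳ 𝐞 l) v) • g ⊳ 𝐞 l := by
  rw [isom_mul_apply, isom_mul_apply, e, map_sub, map_sub, map_smul, map_smul, isom_apply_inv_apply,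
    B_isom_left, B_isom_left, h.st, h.st]

theorem norm_one {z : f.Isom} {i j : ι} {a : F} (e : z ⊳ 𝐞 i = a • 𝐞 j) : σ a * a = 1 := by
  simpa [e, h.st _ _, mul_comm] using h.unit z i

variable (two : (2 : F) ≠ 0)
include two

theorem mon_of_conj (hg : g ∈ X) {s : f.Isom} {k l : ι} (kl : k ≠ l)
    (e : FlU s k l) (H : g * s * g⁻¹ ∈ f.MonU) : g ∈ f.MonU := by
  obtain ⟨T, h1, h2⟩ := MonU.supp H (z := g ⊳ 𝐞 k) (z' := g ⊳ 𝐞 l) two (by simp [h.st _ _])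
    (by simp [h.st _ _, kl]) fun m => ⟨_, by rw [h.conj_flip g e, h.st.right]⟩
  exact h.mon_of_nine hg (by omega) h2

theorem mon_of_comm {s s' z : f.Isom} {k l k' l' : ι} (e : FlU s k l) (e' : FlU s' k' l')
    (kl : k' ≠ l') (hz : z ∈ X) (hc : z * s' = s * z) : z ∈ f.MonU :=
  h.mon_of_nine hz (p := k') (T := {k, l}) (card_le_two.trans (by omega))
    (e.supp two e' kl hc fun j hj => single_eq_of_ne (by rintro rfl; simp at hj) _)

theorem pair {s z : f.Isom} {k l : ι} (e : FlU s k l) (kl : k ≠ l) (hz : z ∈ X)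
    (hc : z * s = s * z) {i : ι} (hi : i ∈ ({k, l} : Finset ι)) :
    ∃ a : F, σ a * a = 1 ∧ (z ⊳ 𝐞 i = a • 𝐞 k ∨ z ⊳ 𝐞 i = a • 𝐞 l) := by
  obtain ⟨r, a, ha⟩ := h.mon_of_comm two e e kl hz hc i
  have h1 := h.norm_one ha
  have : r ∈ ({k, l} : Finset ι) := by_contra fun hr => by
    have := e.supp two e kl hc (v := 𝐞 i)
      (fun j hj => single_eq_of_ne (by rintro rfl; exact hj hi) _) r hr
    simp only [ha, Pi.smul_apply, single_eq_same, smul_eq_mul, mul_one] at this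
    simp [this] at h1
  simp only [mem_insert, mem_singleton] at this
  exact ⟨a, h1, this.imp (fun e : r = k => e ▸ ha) fun e : r = l => e ▸ ha⟩

variable (hg : g ∈ X) (ng : g ∉ f.MonU) {s₀ : f.Isom} (hs₀ : s₀ ∈ X) {a b : ι} (ab : a ≠ b)
  (e₀ : FlU s₀ a b) {m₁ m₂ : ι}
include hg ng hs₀ ab e₀

theorem even_case (hm : (g ⊳ 𝐞 a) m₁ * (g ⊳ 𝐞 b) m₂ - (g ⊳ 𝐞 a) m₂ * (g ⊳ 𝐞 b) m₁ ≠ 0)
    {s z : f.Isom} {k l : ι} (kl : k ≠ l) (e : FlU s k l)
    (h1 : m₁ ∉ ({k, l} : Finset ι)) (h2 : m₂ ∉ ({k, l} : Finset ι))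
    (hz : z ∈ KU X (g ⊳ 𝐞 a) (g ⊳ 𝐞 b) {k, l}) (z1 : z ≠ 1) (zz : z * z = 1)
    (zh : z * (g * s₀ * g⁻¹) = g * s₀ * g⁻¹ * z) (zs : z * s = s * z) :
    ∃ (ε : F) (m r : ι), σ ε * ε = 1 ∧
      ∀ j, j ∉ ({m, r} : Finset ι) → j ∉ ({k, l} : Finset ι) → (g ⊳ 𝐞 a) j + ε * (g ⊳ 𝐞 b) j = 0 := by
  have zm := h.mon_of_comm two e e kl hz.1 zs
  have zz' : ∀ v, z ⊳ z ⊳ v = v := fun v => by rw [← isom_mul_apply, zz, isom_one_apply]
  have flp : ∀ {ε : F} {x y : ι → F}, σ ε * ε = 1 → z ⊳ x = ε • y → z ⊳ y = σ ε • x :=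
    fun {ε x y} hε e1 => by rw [← zz' x, e1, map_smul, smul_smul, hε, one_smul]
  have cj : ∀ {ε : F}, σ ε * ε = 1 → σ (σ ε) * σ ε = 1 := fun hε => by rw [hσ, mul_comm, hε]
  have pm : ∀ {ε : F} {x : ι → F}, f.B x x = 1 → z ⊳ x = ε • x → ε = 1 ∨ ε = -1 :=
    fun {ε x} hx e1 => mul_self_eq_one_iff.1 (by
      have := congrArg (f.B x) (zz' x)
      rwa [e1, map_smul, e1, smul_smul, map_smul, hx, smul_eq_mul, mul_one] at this)
  have hz' : g⁻¹ * z * g ∈ X := mul_mem (mul_mem (inv_mem hg) hz.1) hg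
  have c1 : g⁻¹ * z * g * s₀ = s₀ * (g⁻¹ * z * g) := by
    have := congrArg (fun t => g⁻¹ * t * g) zh
    simpa [mul_assoc] using this
  have tr : ∀ {i j : ι} {α : F}, (g⁻¹ * z * g) ⊳ 𝐞 i = α • 𝐞 j → z ⊳ g ⊳ 𝐞 i = α • g ⊳ 𝐞 j :=
    fun e => by simpa using congrArg g.1 e
  have ng1 : ∀ i, z ⊳ g ⊳ 𝐞 i ≠ (-1 : F) • g ⊳ 𝐞 i := fun i e => by
    obtain ⟨T, h3, h4⟩ := MonU.few zm fun m _ => hz.2 (𝐞 m)
    refine ng (h.mon_of_nine hg (p := i) (T := {k, l} ∪ T) ((card_union_le ..).trans (by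
      have := card_le_two (a := k) (b := l); omega)) fun m hm => ?_)
    rw [mem_union, not_or] at hm
    have := f.B_coe_map z (𝐞 m) (g ⊳ 𝐞 i)
    rw [h4 m hm.1 hm.2, e] at this
    simp only [h.st _ _, Pi.smul_apply, smul_eq_mul] at this
    exact mul_left_cancel₀ two (by linear_combination -this)
  have dec : ∀ v, ∃ α β : F,
      (∀ j, j ∉ ({k, l} : Finset ι) → (z ⊳ v - v) j = α * (g ⊳ 𝐞 a) j + β * (g ⊳ 𝐞 b) j) ∧
      ∀ j, j ∉ ({k, l} : Finset ι) → α * ((g ⊳ 𝐞 a) j + (z ⊳ g ⊳ 𝐞 a) j) +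
        β * ((g ⊳ 𝐞 b) j + (z ⊳ g ⊳ 𝐞 b) j) = 0 := fun v => by
    obtain ⟨α, β, e1⟩ := hz.2 v
    refine ⟨α, β, e1, fun j hj => ?_⟩
    have k1 := e.supp two e kl zs (v := z ⊳ v - v - α • g ⊳ 𝐞 a - β • g ⊳ 𝐞 b)
      (fun j hj => by rw [Pi.sub_apply, Pi.sub_apply, e1 j hj]; simp) j hj
    have k2 := e1 j hj
    simp only [map_sub, map_smul, zz', Pi.sub_apply, Pi.smul_apply, smul_eq_mul] at k1 k2
    linear_combination -k1 - k2
  have sw : ∀ ε : F, σ ε * ε = 1 → z ⊳ g ⊳ 𝐞 a = ε • g ⊳ 𝐞 b → ∃ (ε : F) (m r : ι), σ ε * ε = 1 ∧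
      ∀ j, j ∉ ({m, r} : Finset ι) → j ∉ ({k, l} : Finset ι) →
        (g ⊳ 𝐞 a) j + ε * (g ⊳ 𝐞 b) j = 0 := fun ε hε e1 => by
    have e2 := flp hε e1
    by_cases H : ∃ m, m ∉ ({k, l} : Finset ι) ∧ z ⊳ 𝐞 m ≠ 𝐞 m
    · obtain ⟨m, k1, k2⟩ := H
      obtain ⟨r, d, hd⟩ := zm m
      obtain ⟨α, β, k3, k4⟩ := dec (𝐞 m)
      simp only [e1, e2, Pi.smul_apply, smul_eq_mul] at k4
      have k5 := (minor hm (α := α + β * σ ε) (β := α * ε + β) (by linear_combination k4 _ h1)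
        (by linear_combination k4 _ h2)).2
      have k6 : α ≠ 0 := fun k6 => k2 (MonU.diag hd (by
        rw [k3 m k1, k6, show β = 0 by linear_combination k5 - ε * k6]; simp))
      refine ⟨-ε, m, r, by simpa using hε, fun j k7 k8 => mul_left_cancel₀ k6 ?_⟩
      have := k3 j k8
      simp only [mem_insert, mem_singleton, not_or] at k7
      simp only [hd, Pi.sub_apply, Pi.smul_apply, single_eq_of_ne k7.1, single_eq_of_ne k7.2,
        smul_zero, sub_zero] at this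
      linear_combination -this - (g ⊳ 𝐞 b) j * k5
    · push Not at H
      refine ⟨-ε, k, k, by simpa using hε, fun j _ k8 => ?_⟩
      have k1 := f.B_coe_map z (𝐞 j) (g ⊳ 𝐞 a)
      rw [H j k8, e1] at k1
      simp only [h.st _ _, Pi.smul_apply, smul_eq_mul] at k1
      linear_combination -k1
  obtain ⟨α, a1, a2 | a2⟩ := h.pair two e₀ ab hz' c1 (i := a) (by simp)
  swap
  · exact sw α a1 (tr a2)
  obtain ⟨β, b1, b2 | b2⟩ := h.pair two e₀ ab hz' c1 (i := b) (by simp)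
  · exact sw _ (cj b1) (flp b1 (tr b2))
  replace a2 := tr a2
  replace b2 := tr b2
  obtain rfl := (pm (h.unit g a) a2).resolve_right fun e => ng1 a (e ▸ a2)
  obtain rfl := (pm (h.unit g b) b2).resolve_right fun e => ng1 b (e ▸ b2)
  rw [one_smul] at a2 b2
  exfalso
  have fx : ∀ m, m ∉ ({k, l} : Finset ι) → z ⊳ 𝐞 m = 𝐞 m := fun m hm' => by
    obtain ⟨r, d, hd⟩ := zm m
    obtain ⟨α, β, k3, k4⟩ := dec (𝐞 m)
    simp only [a2, b2] at k4
    obtain ⟨k5, k6⟩ := minor hm (α := 2 * α) (β := 2 * β) (by linear_combination k4 _ h1)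
        (by linear_combination k4 _ h2)
    simp only [mul_eq_zero, two, false_or] at k5 k6
    exact MonU.diag hd (by rw [k3 m hm', k5, k6]; simp)
  have ng2 : ∀ i, z ⊳ 𝐞 i ≠ (-1 : F) • 𝐞 i := fun i e => by
    have k1 := f.B_coe_map z (g ⊳ 𝐞 a) (𝐞 i)
    have k2 := f.B_coe_map z (g ⊳ 𝐞 b) (𝐞 i)
    rw [e, a2] at k1
    rw [e, b2] at k2
    simp only [map_smul, smul_eq_mul] at k1 k2
    refine ng (h.mon_of_conj two hg ab e₀ (h.mon_of_fix (mul_mem (mul_mem hg hs₀) (inv_mem hg))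
      (i := i) (a := 1) ?_))
    rw [h.conj_flip g e₀, show 2 * f.B (g ⊳ 𝐞 a) (𝐞 i) = 0 by linear_combination -k1,
      show 2 * f.B (g ⊳ 𝐞 b) (𝐞 i) = 0 by linear_combination -k2]
    simp
  have ext : ∀ t : f.Isom, (∀ i, z ⊳ 𝐞 i = t ⊳ 𝐞 i) → z = t := fun t H => f.isom_ext fun v => by
    rw [pi_eq_sum_univ' v]
    simp only [map_sum, map_smul, H]
  have sw' : ∀ ε : F, σ ε * ε = 1 → z ⊳ 𝐞 k ≠ ε • 𝐞 l := fun ε hε e1 => by
    have e2 := flp hε e1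
    have q : f.B (𝐞 k - ε • 𝐞 l) (𝐞 k - ε • 𝐞 l) = 2 := by
      simp [h.st _ _, kl, kl.symm]; linear_combination hε
    have hc : f.QreflCond (𝐞 k - ε • 𝐞 l) (-1) := by
      rw [QreflCond, ← herm_B_self, q]; simp; ring
    have : z = f.qrefl _ _ hc := ext _ fun i => by
      rw [qrefl_apply, h.st.right]
      by_cases i1 : i = k
      · rw [i1, e1]; simp [kl]
      by_cases i2 : i = l
      · rw [i2, e2]; simp [kl.symm, smul_sub, smul_smul, hε]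
      rw [fx i (by simp [i1, i2])]; simp [i1, i2]
    have k1 := Units.ext_iff.1 (mem_SIsom.1 (h.det hz.1))
    rw [this, detHom_qrefl, q, Units.val_one] at k1
    exact two (by linear_combination -k1)
  obtain ⟨α, a1, a3 | a3⟩ := h.pair two e kl hz.1 zs (i := k) (by simp)
  swap
  · exact sw' α a1 a3
  obtain ⟨β, b1, b3 | b3⟩ := h.pair two e kl hz.1 zs (i := l) (by simp)
  · exact sw' _ (cj b1) (flp b1 b3)
  obtain rfl := (pm (by simp [h.st _ _]) a3).resolve_right fun e => ng2 k (e ▸ a3)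
  obtain rfl := (pm (by simp [h.st _ _]) b3).resolve_right fun e => ng2 l (e ▸ b3)
  refine z1 (ext 1 fun i => ?_)
  by_cases i1 : i = k
  · rw [i1, a3, one_smul]; rfl
  by_cases i2 : i = l
  · rw [i2, b3, one_smul]; rfl
  exact fx i (by simp [i1, i2])

theorem odd_case (hm : (g ⊳ 𝐞 a) m₁ * (g ⊳ 𝐞 b) m₂ - (g ⊳ 𝐞 a) m₂ * (g ⊳ 𝐞 b) m₁ ≠ 0)
    {s s' u u' : f.Isom} {k l k' l' : ι} (kl : k' ≠ l') (e : FlU s k l)
    (e' : FlU s' k' l') (hd : Disjoint ({k, l} : Finset ι) {k', l'})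
    (h1 : m₁ ∉ ({k, l} ∪ {k', l'} : Finset ι)) (h2 : m₂ ∉ ({k, l} ∪ {k', l'} : Finset ι))
    (hu : u ∈ KU X (g ⊳ 𝐞 a) (g ⊳ 𝐞 b) {k, l}) (hu' : u' ∈ KU X (g ⊳ 𝐞 a) (g ⊳ 𝐞 b) {k', l'})
    (eu : g * s₀ * g⁻¹ = u * s * u⁻¹) (eu' : g * s₀ * g⁻¹ = u' * s' * u'⁻¹) : False := by
  have hν := mul_mem (inv_mem (KU.mono subset_union_left hu)) (KU.mono subset_union_right hu')
  obtain ⟨T, c1, c2⟩ := MonU.few (h.mon_of_comm two e e' kl hν.1 (by
    have := congrArg (fun t => u⁻¹ * t * u') (eu'.symm.trans eu)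
    simpa [mul_assoc] using this)) fun m _ => hν.2 (𝐞 m)
  have key : ∀ m, m ∉ ({k, l} ∪ {k', l'} ∪ T : Finset ι) →
      u ⊳ 𝐞 m = 𝐞 m - σ ((g ⊳ 𝐞 a) m) • g ⊳ 𝐞 a - σ ((g ⊳ 𝐞 b) m) • g ⊳ 𝐞 b := fun m hm' => by
    rw [mem_union, not_or] at hm'
    have k1 : u' ⊳ 𝐞 m = u ⊳ 𝐞 m := by simpa using congrArg u.1 (c2 m hm'.1 hm'.2)
    obtain ⟨α, β, k2⟩ := hu.2 (𝐞 m)
    obtain ⟨α', β', k3⟩ := hu'.2 (𝐞 m)
    rw [k1] at k3
    rw [mem_union, not_or] at h1 h2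
    obtain ⟨k4, k5⟩ := minor hm (α := α - α') (β := β - β')
      (by linear_combination k3 _ h1.2 - k2 _ h1.1) (by linear_combination k3 _ h2.2 - k2 _ h2.1)
    rw [sub_eq_zero] at k4 k5
    subst k4 k5
    have k6 : u ⊳ 𝐞 m = 𝐞 m + α • g ⊳ 𝐞 a + β • g ⊳ 𝐞 b := funext fun j => by
      have : (u ⊳ 𝐞 m - 𝐞 m) j = _ :=
        if hj : j ∈ ({k, l} : Finset ι) then k3 j (disjoint_left.1 hd hj) else k2 j hj
      simp only [Pi.sub_apply, Pi.add_apply, Pi.smul_apply, smul_eq_mul] at this ⊢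
      linear_combination this
    have k7 := h.conj_flip g e₀ (u ⊳ 𝐞 m)
    simp only [mem_union, mem_insert, mem_singleton, not_or] at hm'
    rw [eu, isom_mul_apply, isom_mul_apply, isom_inv_apply_apply, e,
      single_eq_of_ne (Ne.symm hm'.1.1.1), single_eq_of_ne (Ne.symm hm'.1.1.2)] at k7
    have k8 := congrArg (f.B (g ⊳ 𝐞 a)) k7
    have k9 := congrArg (f.B (g ⊳ 𝐞 b)) k7
    simp only [mul_zero, zero_smul, sub_zero, k6, map_add, map_sub, map_smul,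
      B_coe_map, h.st.right, single_eq_same, single_eq_of_ne ab, single_eq_of_ne ab.symm,
      smul_eq_mul, map_one, map_zero] at k8 k9
    rw [k6, show α = -σ ((g ⊳ 𝐞 a) m) from mul_left_cancel₀ two (by linear_combination k8),
      show β = -σ ((g ⊳ 𝐞 b) m) from mul_left_cancel₀ two (by linear_combination k9)]
    module
  have c3 : ({k, l} ∪ {k', l'} ∪ T : Finset ι).card ≤ 8 := by
    have := card_union_le ({k, l} ∪ {k', l'}) T
    have := card_union_le ({k, l} : Finset ι) {k', l'}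
    have := card_le_two (a := k) (b := l)
    have := card_le_two (a := k') (b := l')
    omega
  generalize ({k, l} ∪ {k', l'} ∪ T : Finset ι) = R at key c3
  obtain ⟨m, hm₀⟩ := h.out R (by omega)
  have key' : ∀ j, j ∉ insert m R → ((g * s₀ * g⁻¹) ⊳ 𝐞 m) j = 0 := fun j hj => by
    rw [mem_insert, not_or] at hj
    have := f.B_coe_map u (𝐞 j) (𝐞 m)
    rw [key m hm₀, key j hj.2] at this
    rw [h.conj_flip g e₀]
    simp only [map_sub, B_sub_left, map_smul, herm_B_smul_left, B_coe_map, hσ, map_mul σ,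
      h.st.right, h.st _ _, single_eq_same, single_eq_of_ne ab, map_zero, map_one,
      single_eq_of_ne ab.symm, single_eq_of_ne hj.1, single_eq_of_ne (Ne.symm hj.1), smul_eq_mul,
      Pi.sub_apply, Pi.smul_apply] at this ⊢
    linear_combination 2 * this
  exact ng (h.mon_of_conj two hg ab e₀ (h.mon_of_nine (mul_mem (mul_mem hg hs₀) (inv_mem hg))
    ((card_insert_le ..).trans (by omega)) key'))

end Fu
end Form
end CA.CForm
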