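import Cfsg.Agent.Lib.Lin.MaxU4

/-!
Overgroups of the special monomial group of a unitary frame in odd characteristic.
-/

set_option autoImplicit false
set_option linter.unusedSectionVars false

namespace CA.CForm

open Module CA.MaxF Pi Equiv Finset

namespace Form
variable {F : Type*} [Field F] [Fintype F] {ι : Type*} [Fintype ι] [DecidableEq ι]
  {σ : F →+* F} {hσ : ∀ a, σ (σ a) = a}

local notation:75 g:76 " ⊳ " v:75 => (Subtype.val g) v
local notation "𝐞" i:max => (Pi.single i 1 : ι → F)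

variable {f : Form (Kind.herm σ hσ) (ι → F)} {X : Subgroup f.Isom} {g : f.Isom}

/-- The product of the reflections in the orthogonal long vectors `w`, `v` lies in `X`. -/
def CU (X : Subgroup f.Isom) (w v : ι → F) : Prop :=
  f.B v v = 2 ∧ f.B v w = 0 ∧ ∃ t ∈ X, ∀ u, t ⊳ u = u - f.B v u • v - f.B w u • w

theorem St.B_rs (h : f.St) (I : Finset ι) (u : ι → F) :
    f.B u (rs I u) = ∑ i ∈ I, σ (u i) * u i := by
  simp [h.B_eq, rs]

namespace Fu
variable (h : f.Fu X) (two : (2 : F) ≠ 0)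
include h two

theorem claimA (hg : g ∈ X) (ng : g ∉ f.MonU) {a b : ι} (ab : a ≠ b) : ∃ (ε : F) (m r : ι),
    σ ε * ε = 1 ∧ ∀ j, j ∉ ({m, r} : Finset ι) → (g ⊳ 𝐞 a) j + ε * (g ⊳ 𝐞 b) j = 0 := by
  obtain ⟨s₀, hs₀, e₀⟩ := h.flip_mem a b ab
  obtain ⟨m₁, n₁⟩ : ∃ m, (g ⊳ 𝐞 a) m ≠ 0 := by
    by_contra! H
    simpa [show g ⊳ 𝐞 a = 0 from funext H] using h.unit g a
  obtain ⟨m₂, hm⟩ : ∃ m, (g ⊳ 𝐞 a) m₁ * (g ⊳ 𝐞 b) m - (g ⊳ 𝐞 a) m * (g ⊳ 𝐞 b) m₁ ≠ 0 := by
    by_contra! H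
    have : (g ⊳ 𝐞 a) m₁ • g ⊳ 𝐞 b = (g ⊳ 𝐞 b) m₁ • g ⊳ 𝐞 a := funext fun m => by
      simp only [Pi.smul_apply, smul_eq_mul]; linear_combination H m
    exact n₁ (by simpa [h.st _ _, ab.symm] using congrArg (f.B (g ⊳ 𝐞 b)) this)
  have dih : ∀ k l, k ≠ l → m₁ ∉ ({k, l} : Finset ι) → m₂ ∉ ({k, l} : Finset ι) →
      (∃ s, FlU s k l ∧ ∃ u ∈ KU X (g ⊳ 𝐞 a) (g ⊳ 𝐞 b) {k, l}, g * s₀ * g⁻¹ = u * s * u⁻¹) ∨
      ∃ (ε : F) (m r : ι), σ ε * ε = 1 ∧ ∀ j, j ∉ ({m, r} : Finset ι) → j ∉ ({k, l} : Finset ι) →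
        (g ⊳ 𝐞 a) j + ε * (g ⊳ 𝐞 b) j = 0 := fun k l kl h1 h2 => by
    obtain ⟨s, hs, e⟩ := h.flip_mem k l kl
    refine (CA.H12Tn.dihedral (KU X (g ⊳ 𝐞 a) (g ⊳ 𝐞 b) {k, l}) (x := g * s₀ * g⁻¹) (y := s)
      ⟨mul_mem (mul_mem hg hs₀) (inv_mem hg), fun v => ⟨-(2 * f.B (g ⊳ 𝐞 a) v),
        -(2 * f.B (g ⊳ 𝐞 b) v), fun j _ => ?_⟩⟩ ⟨hs, fun v => ⟨0, 0, fun j hj => ?_⟩⟩ ?_
      (FlU.mul_self e kl)).imp (fun H => ⟨s, e, H⟩) fun ⟨z, hz, z1, zz, zh, zs, _⟩ =>
        h.even_case two hg ng hs₀ ab e₀ hm kl e h1 h2 hz z1 zz zh zs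
    · rw [h.conj_flip g e₀]; simp; ring
    · simp only [mem_insert, mem_singleton, not_or] at hj
      simp [e _, hj.1, hj.2]
    · rw [conj_mul, FlU.mul_self e₀ ab, mul_one, mul_inv_cancel]
  have ev : ∀ T : Finset ι, T.card ≤ 6 → m₁ ∈ T → m₂ ∈ T → ∃ k l, k ∉ T ∧ l ∉ T ∧
      ∃ (ε : F) (m r : ι), σ ε * ε = 1 ∧ ∀ j, j ∉ ({m, r} : Finset ι) → j ∉ ({k, l} : Finset ι) →
        (g ⊳ 𝐞 a) j + ε * (g ⊳ 𝐞 b) j = 0 := fun T hT h1 h2 => by
    obtain ⟨k, hk⟩ := h.out T (by omega)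
    have c1 := card_insert_le k T
    obtain ⟨l, hl⟩ := h.out (insert k T) (by omega)
    have c2 := card_insert_le l (insert k T)
    obtain ⟨k', hk'⟩ := h.out (insert l (insert k T)) (by omega)
    have c3 := card_insert_le k' (insert l (insert k T))
    obtain ⟨l', hl'⟩ := h.out (insert k' (insert l (insert k T))) (by omega)
    simp only [mem_insert, not_or] at hl hk' hl'
    have o : ∀ {m k l}, m ∈ T → k ∉ T → l ∉ T → m ∉ ({k, l} : Finset ι) := fun h1 h2 h3 => by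
      simp only [mem_insert, mem_singleton, not_or]
      exact ⟨fun e => h2 (e ▸ h1), fun e => h3 (e ▸ h1)⟩
    rcases dih k l (Ne.symm hl.1) (o h1 hk hl.2) (o h2 hk hl.2) with ⟨s, e, u, hu, eu⟩ | H
    swap
    · exact ⟨k, l, hk, hl.2, H⟩
    rcases dih k' l' (Ne.symm hl'.1) (o h1 hk'.2.2 hl'.2.2.2) (o h2 hk'.2.2 hl'.2.2.2) with
      ⟨s', e', u', hu', eu'⟩ | H
    swap
    · exact ⟨k', l', hk'.2.2, hl'.2.2.2, H⟩
    exact (h.odd_case two hg ng hs₀ ab e₀ hm (Ne.symm hl'.1) e e'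
      (by simp [hk'.1, hk'.2.1, hl'.2.1, hl'.2.2.1])
      (notMem_union.2 ⟨o h1 hk hl.2, o h1 hk'.2.2 hl'.2.2.2⟩)
      (notMem_union.2 ⟨o h2 hk hl.2, o h2 hk'.2.2 hl'.2.2.2⟩) hu hu' eu eu').elim
  obtain ⟨k, l, -, -, ε, m, r, hε, e⟩ := ev {m₁, m₂} (card_le_two.trans (by omega)) (by simp)
    (by simp)
  have c1 := card_insert_le m₁ (insert m₂ ({m, r, k, l} : Finset ι))
  have c2 := card_insert_le m₂ ({m, r, k, l} : Finset ι)
  have c3 := card_le_four (a := m) (b := r) (c := k) (d := l)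
  obtain ⟨k', l', h1, h2, ε', m', r', hε', e'⟩ := ev (insert m₁ (insert m₂ {m, r, k, l}))
    (by omega) (by simp) (by simp)
  simp only [mem_insert, mem_singleton, not_or] at h1 h2 e e'
  rcases eq_or_ne ε ε' with rfl | ne
  · refine ⟨ε, m', r', hε, fun j hj => ?_⟩
    by_cases j1 : j = k'
    · exact j1 ▸ e k' ⟨h1.2.2.1, h1.2.2.2.1⟩ h1.2.2.2.2
    by_cases j2 : j = l'
    · exact j2 ▸ e l' ⟨h2.2.2.1, h2.2.2.2.1⟩ h2.2.2.2.2
    exact e' j (by simpa using hj) ⟨j1, j2⟩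
  · refine (ng (h.mon_of_nine hg (p := a) (T := {m, r, k, l} ∪ {m', r', k', l'}) ?_
      fun j hj => mul_left_cancel₀ (sub_ne_zero.2 ne) ?_)).elim
    · have := card_union_le ({m, r, k, l} : Finset ι) {m', r', k', l'}
      have := card_le_four (a := m') (b := r') (c := k') (d := l')
      omega
    · simp only [mem_union, mem_insert, mem_singleton, not_or] at hj
      linear_combination ε * e' j ⟨hj.2.1, hj.2.2.1⟩ hj.2.2.2 - ε' * e j ⟨hj.1.1, hj.1.2.1⟩ hj.1.2.2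

omit h two in
theorem cc_map {w v : ι → F} (hv : CU X w v) {s : f.Isom} (hs : s ∈ X) {ε : F} (hε : σ ε * ε = 1)
    (e : s ⊳ w = ε • w) : CU X w (s ⊳ v) := by
  obtain ⟨h1, h2, t, ht, h3⟩ := hv
  have h4 := f.B_coe_map s v w
  rw [e, map_smul, h2, smul_eq_mul] at h4
  refine ⟨by rw [B_coe_map, h1], by linear_combination σ ε * h4 - f.B (s ⊳ v) w * hε, s * t * s⁻¹,
    mul_mem (mul_mem hs ht) (inv_mem hs), fun u => ?_⟩
  rw [isom_mul_apply, isom_mul_apply, h3, map_sub, map_sub, map_smul, map_smul,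
    isom_apply_inv_apply, ← B_isom_left, ← B_isom_left, e, herm_B_smul_left, smul_smul,
    mul_right_comm, hε, one_mul]

theorem cc_or {w v : ι → F} {i j : ι} (hw : ∀ m, m ∉ ({i, j} : Finset ι) → w m = 0)
    (hv : CU X w v) :
    (∃ T : Finset ι, T.card ≤ 4 ∧ ∀ m, m ∉ T → v m = 0) ∨ ∀ m m', σ (v m) * v m = σ (v m') * v m' := by
  obtain ⟨h1, h2, t, ht, h3⟩ := hv
  by_cases hm : t ∈ f.MonU
  · exact .inl (MonU.supp hm (z := v) (z' := w) one_ne_zero (h1 ▸ two) h2 fun m =>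
      ⟨_, by rw [h3, h.st.right, one_mul]⟩)
  refine .inr fun m m' => ?_
  by_cases e : m = m'
  · rw [e]
  obtain ⟨ε, i', j', hε, H⟩ := h.claimA two ht hm e
  obtain ⟨k, hk⟩ := h.out ({m, m'} ∪ {i, j} ∪ {i', j'}) (by
    have := card_union_le ({m, m'} ∪ {i, j}) ({i', j'} : Finset ι)
    have := card_union_le {m, m'} ({i, j} : Finset ι)
    have := card_le_two (a := m) (b := m')
    have := card_le_two (a := i) (b := j)
    have := card_le_two (a := i') (b := j')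
    omega)
  simp only [mem_union, not_or] at hk
  have k1 := H k hk.2
  have k2 := hw k hk.1.2
  have k3 : v k ≠ 0 := fun k3 => hm (h.mon_of_fix ht (i := k) (a := 1) (by simp [h3, k2, k3, h.st.right]))
  have k4 := hk.1.1
  simp only [mem_insert, mem_singleton, not_or] at k4
  simp only [h3, Pi.sub_apply, Pi.smul_apply, k2, single_eq_of_ne k4.1, single_eq_of_ne k4.2,
    h.st.right, smul_eq_mul] at k1
  have k5 : σ (v m) = -ε * σ (v m') := mul_right_cancel₀ k3 (by linear_combination -k1)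
  have k6 := congrArg σ k5
  simp only [hσ, map_mul, map_neg] at k6
  rw [k5, k6]
  linear_combination σ (v m') * v m' * hε

theorem le_mon_odd : X ≤ f.MonU := fun g hg => by
  by_contra ng
  have big := h.big
  obtain ⟨a, b, ab⟩ := Fintype.exists_pair_of_one_lt_card (show 1 < Fintype.card ι by omega)
  obtain ⟨ε, i, j, hε, e⟩ := h.claimA two hg ng ab
  obtain ⟨s₀, hs₀, e₀⟩ := h.flip_mem a b ab
  have d1 := h.unit g a
  have d2 := h.unit g b
  have d3 : f.B (g ⊳ 𝐞 a) (g ⊳ 𝐞 b) = 0 := by simp [h.st _ _, ab]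
  have e1 := h.conj_flip g e₀
  have ny := fun T hT => mt (h.mon_of_nine hg (p := a) (T := T) hT) ng
  generalize g ⊳ 𝐞 a = y at *
  generalize g ⊳ 𝐞 b = y' at *
  have d4 : f.B y' y = 0 := f.eq_zero_symm d3
  have hw : ∀ m, m ∉ ({i, j} : Finset ι) → (y + ε • y') m = 0 := e
  have c0 : f.B (y - ε • y') (y - ε • y') = 2 := by
    simp [d1, d2, d3, d4]; linear_combination hε
  have c1 : f.B (y - ε • y') (y + ε • y') = 0 := by
    simp [d1, d2, d3, d4]; linear_combination -hε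
  have c2 : f.B (y + ε • y') (y + ε • y') = 2 := by
    simp [d1, d2, d3, d4]; linear_combination hε
  have c3 : ∀ u, (g * s₀ * g⁻¹) ⊳ u =
      u - f.B (y - ε • y') u • (y - ε • y') - f.B (y + ε • y') u • (y + ε • y') := fun u => by
    rw [e1]
    simp only [B_sub_left, B_add_left, herm_B_smul_left]
    match_scalars
    · ring
    · ring
    · linear_combination 2 * f.B y' u * hε
  have hh := mul_mem (mul_mem hg hs₀) (inv_mem hg)
  have c4 : CU X (y + ε • y') (y - ε • y') := ⟨c0, c1, _, hh, c3⟩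
  have c5 : ∀ m, (y + ε • y') m + (y - ε • y') m = 2 * y m := fun m => by simp; ring
  generalize y + ε • y' = w at *
  generalize y - ε • y' = v at *
  have cij := card_le_two (a := i) (b := j)
  rcases h.cc_or two hw c4 with ⟨T, h1, h2⟩ | hv
  · refine ny ({i, j} ∪ T) ((card_union_le ..).trans (by omega)) fun m hm => ?_
    rw [mem_union, not_or] at hm
    exact mul_left_cancel₀ two (by rw [← c5, hw m hm.1, h2 m hm.2]; simp)
  have v0 : ∀ m, v m ≠ 0 := fun m hm => two (by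
    have : v = 0 := funext fun m' => by simpa [hm] using hv m' m
    rw [← c0, this]; simp)
  have key : ∀ n : ℕ, 0 < n → n ≤ 3 → n * (4 * (σ (v a) * v a)) = 1 ∨ n * (4 * (σ (v a) * v a)) = 2 :=
    fun n n0 n3 => by
    obtain ⟨A, hA, cA⟩ := exists_subset_card_eq (s := ({i, j} : Finset ι)ᶜ) (n := 2 * n)
      (by rw [card_compl]; omega)
    obtain ⟨s, hs, es⟩ := h.flip n A cA
    have k1 := cc_map c4 hs (ε := 1) (by simp) (by
      rw [es]; ext m
      by_cases hm : m ∈ A <;> simp [rs, hm]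
      exact .inr (hw m (mem_compl.1 (hA hm))))
    have k2 := cc_map k1 hh (ε := -1) (by simp) (by rw [c3, c1, c2]; module)
    have k3 : f.B w (s ⊳ v) = 0 := f.eq_zero_symm k1.2.1
    have k4 : f.B v (s ⊳ v) = 2 - n * (4 * (σ (v a) * v a)) := by
      rw [es, map_sub, map_smul, h.st.B_rs, c0, sum_congr rfl fun m _ => hv m a,
        sum_const, cA]
      simp; ring
    rw [c3, k3, k4, es] at k2
    rcases h.cc_or two hw k2 with ⟨T, h1, h2⟩ | H
    · obtain ⟨m, hm⟩ := h.out (A ∪ T) ((card_union_le ..).trans (by omega))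
      rw [mem_union, not_or] at hm
      have := h2 m hm.2
      simp only [Pi.sub_apply, Pi.smul_apply, rs, hm.1, if_false, smul_eq_mul] at this
      exact .inl (mul_right_cancel₀ (v0 m) (by linear_combination this))
    · obtain ⟨m, hm⟩ := h.out A (by omega)
      obtain ⟨m', hm'⟩ := card_pos.1 (show 0 < A.card by omega)
      have := H m m'
      simp only [Pi.sub_apply, Pi.smul_apply, rs, hm, hm', if_false, if_true, smul_eq_mul, map_sub,
        map_mul, map_ofNat, map_natCast, hσ, map_zero] at this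
      exact .inr (mul_right_cancel₀ (mul_ne_zero two (mul_ne_zero two
        (mul_ne_zero ((map_ne_zero σ).2 (v0 m)) (v0 m))))
        (by linear_combination this - (n * (4 * (σ (v a) * v a)) - 3) ^ 2 * hv m m'))
  have k1 := key 1 (by omega) (by omega)
  have k2 := key 2 (by omega) (by omega)
  have k3 := key 3 (by omega) (by omega)
  generalize 4 * (σ (v a) * v a) = x at k1 k2 k3
  push_cast at k1 k2 k3
  rcases k1 with k1 | k1 <;> rcases k3 with k3 | k3
  · exact two (by linear_combination k3 - 3 * k1)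
  · exact one_ne_zero (by linear_combination k3 - 3 * k1 : (1 : F) = 0)
  · rcases k2 with k2 | k2
    · exact two (by linear_combination k3 - k1 - k2)
    · exact two (by linear_combination k2 - 2 * k1)
  · exact mul_ne_zero two two (by linear_combination k3 - 3 * k1)

end Fu
end Form
end CA.CForm
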