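import Cfsg.Agent.Lib.Lin.AschU
import Cfsg.Agent.Lib.Lin.PSUOrd
import Cfsg.Agent.Lib.Lin.U32

/-! Non-maximality in small special unitary groups: coordinates over a computable field. -/

set_option autoImplicit false

namespace CA.NM

open Matrix Cfsg Cfsg.Geo CA.CForm

section Grp

variable {Γ : Type*} [Group Γ]

theorem not_max_of {G H M : Subgroup Γ} (hH : H ≤ M) {a b : Γ} (ha : a ∈ G) (haM : a ∈ M)
    (haH : a ∉ H) (hb : b ∈ G) (hbM : b ∉ M) : ¬ IsMaximalIn G H := by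
  rintro ⟨h1, h2⟩
  rcases h2 (M ⊓ G) (le_inf hH h1.le) inf_le_right with h | h
  · exact haH (h ▸ ⟨haM, ha⟩)
  · exact hbM (h.ge hb).1

theorem exists_conj_sylow [Finite Γ] {p k : ℕ} (hp : p.Prime) {G R R₀ : Subgroup Γ} (hR : R ≤ G)
    (hR₀ : R₀ ≤ G) (cR : Nat.card R = p ^ k) (cR₀ : Nat.card R₀ = p ^ k)
    (hk : ¬ p ^ (k + 1) ∣ Nat.card G) :
    ∃ g ∈ G, ∀ x, x ∈ R ↔ g * x * g⁻¹ ∈ R₀ := by
  have : Fact p.Prime := ⟨hp⟩
  have h0 : Nat.card G ≠ 0 := Nat.card_pos.ne'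
  have hf : (Nat.card G).factorization p = k := by
    have h1 := (hp.pow_dvd_iff_le_factorization h0).1 (cR ▸ Subgroup.card_dvd_of_le hR)
    have h2 := mt (hp.pow_dvd_iff_le_factorization (k := k + 1) h0).2 hk
    omega
  let P : Sylow p G := Sylow.ofCard (R.subgroupOf G) (by
    rw [hf, Nat.card_congr (Subgroup.subgroupOfEquivOfLe hR).toEquiv, cR])
  let Q : Sylow p G := Sylow.ofCard (R₀.subgroupOf G) (by
    rw [hf, Nat.card_congr (Subgroup.subgroupOfEquivOfLe hR₀).toEquiv, cR₀])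
  obtain ⟨g, hg⟩ := MulAction.exists_smul_eq G P Q
  have key : ∀ x : G, (x : Γ) ∈ R ↔ (g : Γ) * x * (g : Γ)⁻¹ ∈ R₀ := fun x => by
    have e1 : (x : Γ) ∈ R ↔ x ∈ (P : Subgroup G) := Iff.rfl
    have e2 : (g : Γ) * x * (g : Γ)⁻¹ ∈ R₀ ↔ g * x * g⁻¹ ∈ (Q : Subgroup G) := Iff.rfl
    rw [e1, e2, ← hg, Sylow.coe_subgroup_smul, Subgroup.mem_pointwise_smul_iff_inv_smul_mem]
    simp [mul_assoc]
  refine ⟨g, g.2, fun x => ⟨fun hx => (key ⟨x, hR hx⟩).1 hx, fun hx => ?_⟩⟩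
  have hx' : x ∈ G := by
    have := G.mul_mem (G.mul_mem (G.inv_mem g.2) (hR₀ hx)) g.2
    simpa [mul_assoc] using this
  exact (key ⟨x, hx'⟩).2 hx

theorem not_max_sylow [Finite Γ] {p k : ℕ} (hp : p.Prime) {G R R₀ H M : Subgroup Γ} (hR : R ≤ G)
    (hR₀ : R₀ ≤ G) (cR : Nat.card R = p ^ k) (cR₀ : Nat.card R₀ = p ^ k)
    (hk : ¬ p ^ (k + 1) ∣ Nat.card G) (hH : ∀ h ∈ H, ∀ x ∈ R, h * x * h⁻¹ ∈ R)
    (hN : ∀ h ∈ G, (∀ x ∈ R₀, h * x * h⁻¹ ∈ R₀) → h ∈ M) {a b : Γ} (ha : a ∈ G) (haM : a ∈ M)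
    (haN : ¬ ∀ x ∈ R₀, a * x * a⁻¹ ∈ R₀) (hb : b ∈ G) (hbM : b ∉ M) : ¬ IsMaximalIn G H := by
  intro hm
  obtain ⟨g, hg, hc⟩ := exists_conj_sylow hp hR hR₀ cR cR₀ hk
  have key : ∀ h ∈ H, ∀ x ∈ R₀, g * h * g⁻¹ * x * (g * h * g⁻¹)⁻¹ ∈ R₀ := fun h hh x hx => by
    have h1 : g⁻¹ * x * g ∈ R := (hc _).2 (by simpa [mul_assoc] using hx)
    have h2 := (hc _).1 (hH h hh _ h1)
    simpa [mul_assoc] using h2
  refine not_max_of (M := M.comap (MulAut.conj g).toMonoidHom) (a := g⁻¹ * a * g)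
    (b := g⁻¹ * b * g) (fun h hh => ?_) (G.mul_mem (G.mul_mem (G.inv_mem hg) ha) hg) ?_
    (fun hh => haN ?_) (G.mul_mem (G.mul_mem (G.inv_mem hg) hb) hg) ?_ hm
  · exact hN _ (G.mul_mem (G.mul_mem hg (hm.1.le hh)) (G.inv_mem hg)) (key h hh)
  · simpa [mul_assoc] using haM
  · simpa [mul_assoc] using key _ hh
  · simpa [mul_assoc] using hbM

/-- the preimage of a submonoid in a finite group -/
def subOf [Finite Γ] {A : Type*} [Monoid A] (ρ : Γ →* A) (M : Submonoid A) : Subgroup Γ where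
  toSubmonoid := M.comap ρ
  inv_mem' {x} hx := by
    have h : x⁻¹ = x ^ (orderOf x - 1) := by
      rw [inv_eq_iff_mul_eq_one, ← pow_succ', Nat.sub_add_cancel (orderOf_pos x), pow_orderOf_eq_one]
    rw [h]
    exact Submonoid.pow_mem _ hx _

theorem mem_subOf [Finite Γ] {A : Type*} [Monoid A] {ρ : Γ →* A} {M : Submonoid A} {x : Γ} :
    x ∈ subOf ρ M ↔ ρ x ∈ M := Iff.rfl

end Grp

section Sub

variable {n : ℕ} {K : Type*} [Field K]

/-- matrices preserving a set of vectors -/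
def presM (pr : (Fin n → K) → Prop) : Submonoid (Matrix (Fin n) (Fin n) K) where
  carrier := {A | ∀ v, pr v → pr (A *ᵥ v)}
  mul_mem' {a b} ha hb v hv := by rw [← mulVec_mulVec]; exact ha _ (hb _ hv)
  one_mem' v hv := by rwa [one_mulVec]

/-- similarities of a bilinear form -/
def simM (B : Matrix (Fin n) (Fin n) K) : Submonoid (Matrix (Fin n) (Fin n) K) where
  carrier := {A | ∃ c : K, Aᵀ * B * A = c • B}
  mul_mem' := by
    rintro a b ⟨c, hc⟩ ⟨d, hd⟩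
    refine ⟨c * d, ?_⟩
    rw [transpose_mul, show bᵀ * aᵀ * B * (a * b) = bᵀ * (aᵀ * B * a) * b by
      simp only [Matrix.mul_assoc], hc, Matrix.mul_smul, Matrix.smul_mul, hd, smul_smul]
  one_mem' := ⟨1, by simp⟩

/-- the sesquilinear form with Gram matrix `J` -/
def fJ (σ : K →+* K) (J : Matrix (Fin n) (Fin n) K) (x y : Fin n → K) : K := x ⬝ᵥ (J *ᵥ (σ ∘ y))

/-- special unitary matrices -/
def Uni (σ : K →+* K) (J A : Matrix (Fin n) (Fin n) K) : Prop :=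
  Aᵀ * J * A.map σ = J ∧ A.det = 1

theorem comp_mulVec {L : Type*} [Field L] (σ : K →+* L) (A : Matrix (Fin n) (Fin n) K)
    (v : Fin n → K) : σ ∘ (A *ᵥ v) = A.map σ *ᵥ (σ ∘ v) := by
  ext i; exact RingHom.map_mulVec σ A v i

theorem fJ_mulVec (σ : K →+* K) (J A B : Matrix (Fin n) (Fin n) K) (x y : Fin n → K) :
    fJ σ J (A *ᵥ x) (B *ᵥ y) = fJ σ (Aᵀ * J * B.map σ) x y := by
  unfold fJ
  rw [comp_mulVec, mulVec_mulVec, dotProduct_mulVec, ← vecMul_transpose, vecMul_vecMul,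
    ← dotProduct_mulVec, Matrix.mul_assoc]

theorem fJ_single (σ : K →+* K) (J : Matrix (Fin n) (Fin n) K) (i j : Fin n) :
    fJ σ J (Pi.single i 1) (Pi.single j 1) = J i j := by
  have : σ ∘ (Pi.single j 1 : Fin n → K) = Pi.single j 1 := by
    ext k; by_cases h : k = j <;> simp [h, Pi.single_apply]
  simp [fJ, this]

theorem fJ_one (σ : K →+* K) (x y : Fin n → K) : fJ σ 1 x y = ∑ i, x i * σ (y i) := by
  simp [fJ, dotProduct]

theorem Uni.pres {σ : K →+* K} {J A : Matrix (Fin n) (Fin n) K} (h : Uni σ J A)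
    (x y : Fin n → K) : fJ σ J (A *ᵥ x) (A *ᵥ y) = fJ σ J x y := by rw [fJ_mulVec, h.1]

theorem Uni.mul {σ : K →+* K} {J A B : Matrix (Fin n) (Fin n) K} (h : Uni σ J A)
    (h' : Uni σ J B) : Uni σ J (A * B) := by
  refine ⟨?_, by rw [det_mul, h.2, h'.2, one_mul]⟩
  rw [transpose_mul, Matrix.map_mul, show Bᵀ * Aᵀ * J * (A.map σ * B.map σ) =
    Bᵀ * (Aᵀ * J * A.map σ) * B.map σ by simp only [Matrix.mul_assoc], h.1, h'.1]

theorem Uni.pow {σ : K →+* K} {J A : Matrix (Fin n) (Fin n) K} (h : Uni σ J A) (k : ℕ) :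
    Uni σ J (A ^ k) := by
  induction k with
  | zero => exact ⟨by simp, by simp⟩
  | succ k ih => rw [pow_succ]; exact ih.mul h

end Sub

/-- Coordinates over the field `K` in which the hermitian form has Gram matrix `J`. -/
structure Mdl (n q : ℕ) (F K : Type*) [Field F] [Field K] (σ : K →+* K)
    (J : Matrix (Fin n) (Fin n) K) where
  e : F ≃+* K
  ρ : Matrix (Fin n) (Fin n) F ≃+* Matrix (Fin n) (Fin n) K
  c : (Fin n → F) ≃+ (Fin n → K)
  c_smul : ∀ a v, c (a • v) = e a • c v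
  c_mulVec : ∀ A v, c (A *ᵥ v) = ρ A *ᵥ c v
  det : ∀ A, (ρ A).det = e A.det
  form : ∀ u v, e (hermForm n F q u v) = fJ σ J (c u) (c v)

variable {n q : ℕ} {F K : Type*} [Field F] [Field K] {σ : K →+* K} {J : Matrix (Fin n) (Fin n) K}

/-- the special unitary group inside the general linear group -/
abbrev GG (n : ℕ) (F : Type*) [Field F] (q : ℕ) : Subgroup (GL (Fin n) F) :=
  GU n F q ⊓ specialLinear (Fin n) F

theorem herm_eq [Fintype F] (hF : Fintype.card F = q ^ 2) (u v : Fin n → F) :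
    hermForm n F q u v = fJ (conj hF) 1 u v := by
  rw [fJ_one]; rfl

theorem exists_mdl [Fintype F] (hF : Fintype.card F = q ^ 2) (e : F ≃+* K)
    (hσ : ∀ x, σ x = x ^ q) {J' : Matrix (Fin n) (Fin n) K} (hJ : J * J' = 1)
    (b : Fin n → Fin n → F) (hb : ∀ i j, e (hermForm n F q (b i) (b j)) = J i j) :
    ∃ m : Mdl n q F K σ J, m.e = e ∧ ∀ i, m.c (b i) = Pi.single i 1 := by
  let P : Matrix (Fin n) (Fin n) F := (of b)ᵀ
  have hP : ∀ i, P *ᵥ Pi.single i 1 = b i := fun i => by ext j; simp [P]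
  have hG : (Pᵀ * 1 * P.map (conj hF)).map e = J := by
    ext i j
    rw [map_apply, ← fJ_single (conj hF) (Pᵀ * 1 * P.map (conj hF)), ← fJ_mulVec, hP, hP,
      ← herm_eq, hb]
  have hd : IsUnit P.det := by
    have h1 : J.det ≠ 0 := left_ne_zero_of_mul_eq_one (by rw [← det_mul, hJ, det_one] : J.det * J'.det = 1)
    rw [← hG, ← RingEquiv.coe_toRingHom, ← RingHom.mapMatrix_apply, ← RingHom.map_det, det_mul,
      det_mul, det_transpose] at h1
    refine isUnit_iff_ne_zero.2 fun h => h1 ?_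
    simp [h]
  have i1 : P * P⁻¹ = 1 := mul_nonsing_inv _ hd
  have i2 : P⁻¹ * P = 1 := nonsing_inv_mul _ hd
  let ρ₀ : Matrix (Fin n) (Fin n) F ≃+* Matrix (Fin n) (Fin n) F :=
    { toFun := fun A => P⁻¹ * A * P
      invFun := fun A => P * A * P⁻¹
      left_inv := fun A => by
        simp only [← Matrix.mul_assoc, i1, Matrix.one_mul]; rw [Matrix.mul_assoc, i1, Matrix.mul_one]
      right_inv := fun A => by
        simp only [← Matrix.mul_assoc, i2, Matrix.one_mul]; rw [Matrix.mul_assoc, i2, Matrix.mul_one]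
      map_mul' := fun A B => by
        simp only [Matrix.mul_assoc]; rw [← Matrix.mul_assoc P, i1, Matrix.one_mul]
      map_add' := fun A B => by simp only [Matrix.mul_add, Matrix.add_mul] }
  let c : (Fin n → F) ≃+ (Fin n → K) :=
    { toFun := fun v => e ∘ (P⁻¹ *ᵥ v)
      invFun := fun w => P *ᵥ (e.symm ∘ w)
      left_inv := fun v => by
        have : ∀ x : Fin n → F, e.symm ∘ e ∘ x = x := fun x => by ext; simp
        simp only [this, mulVec_mulVec, i1, one_mulVec]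
      right_inv := fun w => by
        simp only [mulVec_mulVec, i2, one_mulVec]
        ext; simp
      map_add' := fun u v => by ext i; simp [mulVec_add] }
  have hc : ∀ v, c v = e ∘ (P⁻¹ *ᵥ v) := fun _ => rfl
  refine ⟨⟨e, ρ₀.trans e.mapMatrix, c, fun a v => ?_, fun A v => ?_, fun A => ?_, fun u v => ?_⟩,
    rfl, fun i => ?_⟩
  · ext i; simp [hc, mulVec_smul]
  · change _ = (P⁻¹ * A * P).map e *ᵥ _
    rw [hc, hc, ← RingEquiv.coe_toRingHom, ← comp_mulVec, mulVec_mulVec, mulVec_mulVec,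
      Matrix.mul_assoc _ P, i1, Matrix.mul_one]
  · change ((P⁻¹ * A * P).map e).det = _
    rw [← RingEquiv.coe_toRingHom, ← RingHom.mapMatrix_apply, ← RingHom.map_det, det_mul, det_mul,
      mul_right_comm, ← det_mul, i2, det_one, one_mul]
  · have h1 : hermForm n F q u v = fJ (conj hF) (Pᵀ * 1 * P.map (conj hF)) (P⁻¹ *ᵥ u) (P⁻¹ *ᵥ v) := by
      rw [← fJ_mulVec, mulVec_mulVec, mulVec_mulVec, i1, one_mulVec, one_mulVec, herm_eq]
    rw [h1, hc, hc, ← hG]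
    generalize Pᵀ * 1 * P.map (conj hF) = Q
    generalize P⁻¹ *ᵥ u = x
    generalize P⁻¹ *ᵥ v = y
    simp [fJ, dotProduct, mulVec, hσ, conj_apply]
  · change e ∘ _ = _
    rw [← hP, mulVec_mulVec, i2, one_mulVec]
    ext k; by_cases h : k = i <;> simp [h, Pi.single_apply]

namespace Mdl

variable (m : Mdl n q F K σ J)

/-- the representation of the general linear group -/
def r : GL (Fin n) F →* Matrix (Fin n) (Fin n) K :=
  m.ρ.toRingHom.toMonoidHom.comp (Units.coeHom _)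

theorem r_apply (g : GL (Fin n) F) : m.r g = m.ρ (g : Matrix (Fin n) (Fin n) F) := rfl

theorem r_inj : Function.Injective m.r := fun _ _ h => Units.ext (m.ρ.injective h)

theorem ρ_smul (a : F) (A : Matrix (Fin n) (Fin n) F) : m.ρ (a • A) = m.e a • m.ρ A := by
  refine Matrix.ext_of_mulVec_single fun i => ?_
  obtain ⟨v, hv⟩ := m.c.surjective (Pi.single i 1)
  rw [← hv, ← m.c_mulVec, smul_mulVec, m.c_smul, smul_mulVec, m.c_mulVec]

theorem mem_GU {g : GL (Fin n) F} : g ∈ GU n F q ↔ (m.r g)ᵀ * J * (m.r g).map σ = J := by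
  constructor
  · intro h
    ext i j
    obtain ⟨u, hu⟩ := m.c.surjective (Pi.single i 1)
    obtain ⟨v, hv⟩ := m.c.surjective (Pi.single j 1)
    rw [← fJ_single σ ((m.r g)ᵀ * J * (m.r g).map σ), ← fJ_mulVec, ← fJ_single σ J, ← hu, ← hv, r_apply, ← m.c_mulVec,
      ← m.c_mulVec, ← m.form, ← m.form]
    exact congrArg _ (h u v)
  · intro h u v
    apply m.e.injective
    rw [m.form, m.form]
    change fJ σ J (m.c ((g : Matrix _ _ F) *ᵥ u)) (m.c ((g : Matrix _ _ F) *ᵥ v)) = _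
    rw [m.c_mulVec, m.c_mulVec, fJ_mulVec, ← r_apply, h]

theorem mem_GG {g : GL (Fin n) F} : g ∈ GG n F q ↔ Uni σ J (m.r g) := by
  rw [Subgroup.mem_inf, m.mem_GU, Uni, r_apply, m.det, specialLinear, MonoidHom.mem_ker,
    Units.ext_iff, map_eq_one_iff _ m.e.injective]
  rfl

theorem lift {A : Matrix (Fin n) (Fin n) K} (h : Uni σ J A) : ∃ g ∈ GG n F q, m.r g = A := by
  have h1 : (m.ρ.symm A).det ≠ 0 := fun h0 => by
    have := m.det (m.ρ.symm A)
    rw [RingEquiv.apply_symm_apply, h.2, h0, map_zero] at this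
    exact one_ne_zero this
  have h2 : m.r (GeneralLinearGroup.mkOfDetNeZero _ h1) = A := m.ρ.apply_symm_apply A
  exact ⟨_, m.mem_GG.2 (by rwa [h2]), h2⟩

theorem not_max [Finite F] {H : Subgroup (GL (Fin n) F)} (M : Submonoid (Matrix (Fin n) (Fin n) K))
    (hH : ∀ h ∈ H, Uni σ J (m.r h) → m.r h ∈ M) {a b : Matrix (Fin n) (Fin n) K}
    (ha : Uni σ J a) (haM : a ∈ M) (haH : ∀ h ∈ H, m.r h ≠ a) (hb : Uni σ J b) (hbM : b ∉ M) :
    ¬ IsMaximalIn (GG n F q) (H ⊓ GG n F q) := by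
  obtain ⟨a, ha', rfl⟩ := m.lift ha
  obtain ⟨b, hb', rfl⟩ := m.lift hb
  exact not_max_of (M := subOf m.r M) (fun h hh => hH h hh.1 (m.mem_GG.1 hh.2)) ha' haM
    (fun hh => haH a hh.1 rfl) hb' hbM

end Mdl

theorem card_GG [Fintype F] : Nat.card (GG n F q) = Nat.card (SU n F q) := by
  refine (Nat.card_congr (Equiv.ofBijective (fun g : SU n F q =>
    (⟨SpecialLinearGroup.toGL g.1, g.2, Units.ext g.1.2⟩ : GG n F q)) ⟨fun a b h => ?_, fun g => ?_⟩)).symm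
  · exact Subtype.ext (SpecialLinearGroup.toGL_injective (congrArg Subtype.val h))
  · exact ⟨⟨⟨g.1, congrArg Units.val g.2.2⟩, g.2.1⟩, Subtype.ext (Units.ext rfl)⟩

end CA.NM
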