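import Cfsg.Agent.Lib.Lin.NM1

/-! Non-maximality in small special unitary groups: frames and pairs of isotropic subspaces. -/

set_option autoImplicit false

namespace CA.NM

open Matrix Cfsg Cfsg.Geo CA.CForm CA.SmallF Module

instance instFact5 : Fact (Nat.Prime 5) := ⟨by norm_num⟩

instance instFact25 : Fact (∀ r : ZMod 5, r ^ 2 ≠ 2 + 0 * r) := ⟨by decide⟩

/-- the field with 25 elements -/
abbrev F25 : Type := QuadraticAlgebra (ZMod 5) 2 0

theorem card_F25 : Fintype.card F25 = 25 := by decide +kernel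

theorem nonempty_F25 {F : Type*} [Field F] [Fintype F] (hF : Fintype.card F = 25) :
    Nonempty (F ≃+* F25) :=
  FieldIso.nonempty_ringEquiv (F := F) (K := F25)
    (by rw [Nat.card_eq_fintype_card, Nat.card_eq_fintype_card, hF, card_F25])

/-- conjugation -/
def s4 : F4 →+* F4 where
  toFun x := ⟨x.re + x.im, x.im⟩
  map_one' := by decide
  map_mul' := by decide +kernel
  map_zero' := by decide
  map_add' := by decide +kernel

/-- conjugation -/
def s9 : F9 →+* F9 where
  toFun x := ⟨x.re, -x.im⟩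
  map_one' := by decide
  map_mul' := by decide +kernel
  map_zero' := by decide
  map_add' := by decide +kernel

/-- conjugation -/
def s25 : F25 →+* F25 where
  toFun x := ⟨x.re, -x.im⟩
  map_one' := by decide
  map_mul' := by decide +kernel
  map_zero' := by decide
  map_add' := by decide +kernel

theorem s4_eq : ∀ x, s4 x = x ^ 2 := by decide +kernel
theorem s9_eq : ∀ x, s9 x = x ^ 3 := by decide +kernel
theorem s25_eq : ∀ x, s25 x = x ^ 5 := by decide +kernel

variable {n q : ℕ} {F K : Type*} [Field F] [Field K] {σ : K →+* K}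

theorem det_of_pow {A : Matrix (Fin n) (Fin n) K} {k : ℕ} (h : A ^ k = 1)
    (hk : ∀ x : K, x ^ k = 1 → x = 1) : A.det = 1 := hk _ (by rw [← det_pow, h, det_one])

theorem mem3 {pr : K → K → K → Prop} {A : Matrix (Fin 3) (Fin 3) K}
    (h : ∀ x y z, pr x y z → pr (A 0 0 * x + A 0 1 * y + A 0 2 * z)
      (A 1 0 * x + A 1 1 * y + A 1 2 * z) (A 2 0 * x + A 2 1 * y + A 2 2 * z)) :
    A ∈ presM (fun v => pr (v 0) (v 1) (v 2)) := fun v hv => by
  simpa only [mulVec, dotProduct, Fin.sum_univ_three] using h _ _ _ hv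

section Herm

variable [Fintype F] (hF : Fintype.card F = q ^ 2)
include hF

theorem herm_add_left (u v w : Fin n → F) :
    hermForm n F q (u + v) w = hermForm n F q u w + hermForm n F q v w := by
  simp [herm_eq hF, fJ]

theorem herm_smul_left (a : F) (u w : Fin n → F) :
    hermForm n F q (a • u) w = a * hermForm n F q u w := by
  simp [herm_eq hF, fJ]

theorem herm_conj (u w : Fin n → F) : conj hF (hermForm n F q u w) = hermForm n F q w u := by
  simp only [herm_eq hF, fJ_one, map_sum, map_mul, conj_conj, mul_comm]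

theorem herm_smul_right (a : F) (u w : Fin n → F) :
    hermForm n F q u (a • w) = conj hF a * hermForm n F q u w := by
  rw [← herm_conj hF, herm_smul_left hF, map_mul, herm_conj]

theorem herm_add_right (u v w : Fin n → F) :
    hermForm n F q w (u + v) = hermForm n F q w u + hermForm n F q w v := by
  rw [← herm_conj hF, herm_add_left hF, map_add, herm_conj, herm_conj]

theorem herm_nondeg {u : Fin n → F} (h : ∀ v, hermForm n F q u v = 0) : u = 0 := by
  ext i
  simpa [herm_eq hF, fJ_one, Pi.single_apply] using h (Pi.single i 1)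

theorem exists_unit {v : Fin n → F} (h : hermForm n F q v v ≠ 0) :
    ∃ a : F, a ≠ 0 ∧ hermForm n F q (a • v) (a • v) = 1 := by
  obtain ⟨a, ha⟩ := exists_norm_eq (conj hF) (conj_conj hF) (conj_ne_id hF)
    (hermForm n F q v v)⁻¹ (by rw [map_inv₀, herm_conj])
  refine ⟨a, ?_, ?_⟩
  · rintro rfl
    exact inv_ne_zero h (by rw [← ha, zero_mul])
  · rw [herm_smul_left hF, herm_smul_right hF, ← mul_assoc, ha, inv_mul_cancel₀ h]

theorem exists_frame {D : Fin n → Submodule F (Fin n → F)}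
    (hD : IsNondegenerateMDecomposition (hermForm n F q) 1 D) :
    ∃ b : Fin n → Fin n → F, (∀ i, b i ∈ D i) ∧ (∀ i, ∀ w ∈ D i, ∃ c : F, w = c • b i) ∧
      ∀ i j, hermForm n F q (b i) (b j) = if i = j then 1 else 0 := by
  have : ∀ i, ∃ b ∈ D i, (∀ w ∈ D i, ∃ c : F, w = c • b) ∧ hermForm n F q b b = 1 := fun i => by
    obtain ⟨v, hv0, hv⟩ := finrank_eq_one_iff'.1 (hD.decomp.finrank_eq i)
    obtain ⟨x, hx, hxv⟩ := (hD.nondegenerate i v v.2 (by simpa using hv0)).1
    obtain ⟨c, hc⟩ := hv ⟨x, hx⟩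
    have hc' : c • (v : Fin n → F) = x := congrArg Subtype.val hc
    rw [← hc', herm_smul_left hF] at hxv
    obtain ⟨a, ha, h1⟩ := exists_unit hF (right_ne_zero_of_mul hxv)
    refine ⟨_, (D i).smul_mem a v.2, fun w hw => ?_, h1⟩
    obtain ⟨d, hd⟩ := hv ⟨w, hw⟩
    have hd' : d • (v : Fin n → F) = w := congrArg Subtype.val hd
    exact ⟨d / a, by rw [smul_smul, div_mul_cancel₀ _ ha, hd']⟩
  choose b h1 h2 h3 using this
  refine ⟨b, h1, h2, fun i j => ?_⟩
  split_ifs with h
  · rw [h, h3]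
  · exact hD.orthogonal i j h _ (h1 i) _ (h1 j)

theorem frame_not_max (e : F ≃+* K) (hσ : ∀ x, σ x = x ^ q) {D : Fin n → Submodule F (Fin n → F)}
    (hD : IsNondegenerateMDecomposition (hermForm n F q) 1 D) (pr : (Fin n → K) → Prop)
    (hpr : ∀ v w : Fin n → K, (∀ (M : Type) [AddCommMonoid M] (μ : K → M),
      (∀ d x, d * σ d = 1 → μ (d * x) = μ x) → ∑ i, μ (w i) = ∑ i, μ (v i)) →
      (∏ i, w i) * (∏ i, w i) = (∏ i, v i) * (∏ i, v i) → pr v → pr w)
    {a b : Matrix (Fin n) (Fin n) K} (ha : Uni σ 1 a) (haM : a ∈ presM pr) {i j k : Fin n}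
    (hjk : j ≠ k) (hj : a j i ≠ 0) (hk : a k i ≠ 0) (hb : Uni σ 1 b) (hbM : b ∉ presM pr) :
    ¬ IsMaximalIn (GG n F q) (decompositionStabilizer D ⊓ GG n F q) := by
  obtain ⟨u, h1, h2, h3⟩ := exists_frame hF hD
  obtain ⟨m, -, hm⟩ := exists_mdl (σ := σ) (J := 1) hF e hσ (mul_one 1) u fun i j => by
    rw [h3, one_apply]; split_ifs <;> simp
  have key : ∀ h ∈ decompositionStabilizer D, ∃ (π : Equiv.Perm (Fin n)) (d : Fin n → K),
      m.r h = (diagonal d).submatrix π.symm id := by
    rintro h ⟨π, hπ⟩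
    have : ∀ i, ∃ c : F, (h : Matrix (Fin n) (Fin n) F) *ᵥ u i = c • u (π i) := fun i => by
      refine h2 _ _ ?_
      rw [← hπ i]
      exact ⟨u i, h1 i, rfl⟩
    choose d hd using this
    refine ⟨π, fun i => m.e (d i), ?_⟩
    ext j i
    have := congrFun (congrArg m.c (hd i)) j
    rw [m.c_mulVec, m.c_smul, hm, hm, mulVec_single_one] at this
    rw [m.r_apply, submatrix_apply, diagonal_apply]
    refine this.trans ?_
    by_cases h : j = π i
    · simp [h]
    · simp [h, Equiv.symm_apply_eq]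
  refine m.not_max (presM pr) (fun h hh hu v hv => ?_) ha haM (fun h hh hA => ?_) hb hbM
  · obtain ⟨π, d, hd⟩ := key h hh
    rw [hd] at hu ⊢
    have e1 : ∀ i, ((diagonal d).submatrix π.symm id *ᵥ v) (π i) = d i * v i := fun i => by
      simp [mulVec, dotProduct, diagonal_apply]
    have e2 : ∀ i, d i * σ (d i) = 1 := fun i => by
      have := congrFun (congrFun hu.1 i) i
      rw [Matrix.mul_one, mul_apply, ← Equiv.sum_comp π, Finset.sum_eq_single i] at this
      · simpa using this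
      · intro j _ hj
        simp [diagonal_apply_ne _ hj]
      · simp
    have e3 : (∏ i, d i) * ∏ i, d i = 1 := by
      have := hu.2
      rw [det_permute, det_diagonal] at this
      rcases Int.units_eq_one_or (Equiv.Perm.sign π.symm) with h | h <;> rw [h] at this
      · simp only [Units.val_one, Int.cast_one, one_mul] at this
        rw [this, one_mul]
      · simp only [Units.val_neg, Units.val_one, Int.cast_neg, Int.cast_one] at this
        linear_combination (-(∏ i, d i) + 1) * this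
    refine hpr v _ (fun M _ μ hμ => ?_) ?_ hv
    · rw [← Equiv.sum_comp π]
      exact Finset.sum_congr rfl fun i _ => by rw [e1, hμ _ _ (e2 i)]
    · rw [← Equiv.prod_comp π]
      simp only [e1, Finset.prod_mul_distrib]
      linear_combination (∏ i, v i) * (∏ i, v i) * e3
  · obtain ⟨π, d, hd⟩ := key h hh
    rw [← hA, hd, submatrix_apply] at hj hk
    have h1 : π.symm j = i := by by_contra h; exact hj (diagonal_apply_ne _ h)
    have h2 : π.symm k = i := by by_contra h; exact hk (diagonal_apply_ne _ h)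
    exact hjk (π.symm.injective (h1.trans h2.symm))

theorem exists_hyp {D : Fin 2 → Submodule F (Fin n → F)} {k : ℕ} (hD : IsMDecomposition k D)
    (hT : ∀ i, IsTotallySingularFor (hermForm n F q) (D i)) :
    ∃ u w : Fin k → Fin n → F, (∀ i, u i ∈ D 0) ∧ (∀ i, w i ∈ D 1) ∧
      ∀ i j, hermForm n F q (u i) (w j) = if i = j then 1 else 0 := by
  let B0 := finBasisOfFinrankEq F (D 0) (hD.finrank_eq 0)
  let B1 := finBasisOfFinrankEq F (D 1) (hD.finrank_eq 1)
  let φ : (Fin n → F) → (Fin n → F) →ₗ[F] F := fun w =>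
    { toFun := fun v => hermForm n F q v w
      map_add' := fun a b => herm_add_left hF a b w
      map_smul' := fun a b => herm_smul_left hF a b w }
  have hφ : ∀ w v, φ w v = hermForm n F q v w := fun _ _ => rfl
  let G : Matrix (Fin k) (Fin k) F := of fun i j => hermForm n F q (B0 i) (B1 j)
  have hG : G.det ≠ 0 := fun h => by
    obtain ⟨x, hx0, hx⟩ := exists_vecMul_eq_zero_iff.2 h
    have hu : ((∑ i, x i • B0 i : D 0) : Fin n → F) = 0 := by
      refine herm_nondeg hF fun v => ?_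
      rw [← herm_conj hF, ← hφ]
      have h1 : ⊤ ≤ LinearMap.ker (φ ((∑ i, x i • B0 i : D 0) : Fin n → F)) := by
        rw [← hD.iSup_eq_top, iSup_le_iff, Fin.forall_fin_two]
        refine ⟨fun y hy => hT 0 _ hy _ (Subtype.property _), fun y hy => ?_⟩
        have h2 : y = ∑ j, B1.repr ⟨y, hy⟩ j • (B1 j : Fin n → F) := by
          have := congrArg Subtype.val (B1.sum_repr ⟨y, hy⟩)
          rw [Submodule.coe_sum] at this
          exact this.symm
        rw [h2]
        refine Submodule.sum_mem _ fun j _ => Submodule.smul_mem _ _ ?_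
        rw [LinearMap.mem_ker, hφ, ← herm_conj hF, ← hφ]
        have := congrFun hx j
        simp only [vecMul, dotProduct, G, of_apply, Pi.zero_apply] at this
        rw [Submodule.coe_sum, map_sum]
        simp only [Submodule.coe_smul, hφ, herm_smul_left hF, this, map_zero]
      rw [h1 Submodule.mem_top, map_zero]
    exact hx0 (funext (Fintype.linearIndependent_iff.1 B0.linearIndependent x
      (Subtype.ext hu)))
  have hi := mul_nonsing_inv G (isUnit_iff_ne_zero.2 hG)
  refine ⟨fun i => B0 i, fun j => ∑ l, conj hF (G⁻¹ l j) • (B1 l : Fin n → F),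
    fun i => (B0 i).2, fun j => Submodule.sum_mem _ fun l _ => Submodule.smul_mem _ _ (B1 l).2,
    fun i j => ?_⟩
  rw [← herm_conj hF, ← hφ, ← one_apply, ← hi, mul_apply, map_sum, map_sum]
  refine Finset.sum_congr rfl fun l _ => ?_
  rw [map_smul, smul_eq_mul, map_mul, conj_conj, hφ, herm_conj, mul_comm]
  rfl

end Herm

/-- Gram matrix of a hyperbolic basis -/
def J4 (K : Type*) [Field K] : Matrix (Fin 4) (Fin 4) K := !![0,0,1,0; 0,0,0,1; 1,0,0,0; 0,1,0,0]

/-- an alternating form -/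
def B4 (K : Type*) [Field K] : Matrix (Fin 4) (Fin 4) K := !![0,1,0,0; -1,0,0,0; 0,0,0,1; 0,0,-1,0]

theorem J4_sq : J4 K * J4 K = 1 := by
  ext i j; fin_cases i <;> fin_cases j <;> simp [J4, mul_apply, Fin.sum_univ_four]

theorem aux_eq (hK : ∀ x : K, σ x = x → x ≠ 0 → x * x = 1) {x y : K} (h1 : x * y = 1)
    (h2 : x * σ y = 1) : x = y := by
  have hx := left_ne_zero_of_mul_eq_one h1
  have h3 := hK y (mul_left_cancel₀ hx (h2.trans h1.symm)) (right_ne_zero_of_mul_eq_one h1)
  linear_combination y * h1 - x * h3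

theorem blk_sim (hK : ∀ x : K, σ x = x → x ≠ 0 → x * x = 1) {a b c d p r s t : K}
    (h : Uni σ (J4 K) !![a,b,0,0; c,d,0,0; 0,0,p,r; 0,0,s,t]) :
    !![a,b,0,0; c,d,0,0; 0,0,p,r; 0,0,s,t] ∈ simM (B4 K) := by
  have h1 := h.2
  have e1 := congrFun (congrFun h.1 0) 2
  have e2 := congrFun (congrFun h.1 0) 3
  have e3 := congrFun (congrFun h.1 1) 2
  have e4 := congrFun (congrFun h.1 1) 3
  simp [J4, mul_apply, Fin.sum_univ_four] at e1 e2 e3 e4
  simp [det_succ_row_zero, Fin.sum_univ_succ, Fin.succAbove] at h1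
  have h2 : a * d - b * c = p * t - r * s := aux_eq hK (by linear_combination h1) (by
    rw [map_sub, map_mul, map_mul]
    linear_combination (b * σ r + d * σ t) * e1 + e4 - (b * σ p + d * σ s) * e2)
  refine ⟨a * d - b * c, ?_⟩
  ext i j
  fin_cases i <;> fin_cases j <;> simp [B4, mul_apply, Fin.sum_univ_four] <;>
    first | ring1 | linear_combination h2 | linear_combination -h2

theorem blk_sim' (hK : ∀ x : K, σ x = x → x ≠ 0 → x * x = 1) {a b c d p r s t : K}
    (h : Uni σ (J4 K) !![0,0,p,r; 0,0,s,t; a,b,0,0; c,d,0,0]) :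
    !![0,0,p,r; 0,0,s,t; a,b,0,0; c,d,0,0] ∈ simM (B4 K) := by
  have h1 := h.2
  have e1 := congrFun (congrFun h.1 0) 2
  have e2 := congrFun (congrFun h.1 0) 3
  have e3 := congrFun (congrFun h.1 1) 2
  have e4 := congrFun (congrFun h.1 1) 3
  simp [J4, mul_apply, Fin.sum_univ_four] at e1 e2 e3 e4
  simp [det_succ_row_zero, Fin.sum_univ_succ, Fin.succAbove] at h1
  have h2 : a * d - b * c = p * t - r * s := aux_eq hK (by linear_combination h1) (by
    rw [map_sub, map_mul, map_mul]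
    linear_combination (b * σ r + d * σ t) * e1 + e4 - (b * σ p + d * σ s) * e2)
  refine ⟨a * d - b * c, ?_⟩
  ext i j
  fin_cases i <;> fin_cases j <;> simp [B4, mul_apply, Fin.sum_univ_four] <;>
    first | ring1 | linear_combination h2 | linear_combination -h2

theorem ti_not_max [Fintype F] (hF : Fintype.card F = q ^ 2) (e : F ≃+* K)
    (hσ : ∀ x, σ x = x ^ q) (hK : ∀ x : K, σ x = x → x ≠ 0 → x * x = 1)
    {D : Fin 2 → Submodule F (Fin 4 → F)} (hD : IsMDecomposition 2 D)
    (hT : ∀ i, IsTotallySingularFor (hermForm 4 F q) (D i)) {a b : Matrix (Fin 4) (Fin 4) K}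
    (ha : Uni σ (J4 K) a) (haM : a ∈ simM (B4 K)) (h0 : a 0 0 ≠ 0) (h1 : a 0 2 ≠ 0)
    (hb : Uni σ (J4 K) b) (hbM : b ∉ simM (B4 K)) :
    ¬ IsMaximalIn (GG 4 F q) (decompositionStabilizer D ⊓ GG 4 F q) := by
  obtain ⟨u, w, hu, hw, huw⟩ := exists_hyp hF hD hT
  have hwu : ∀ i j, hermForm 4 F q (w i) (u j) = if j = i then 1 else 0 := fun i j => by
    rw [← herm_conj hF, huw]; split_ifs <;> simp
  obtain ⟨m, -, hm⟩ := exists_mdl (σ := σ) hF e hσ J4_sq ![u 0, u 1, w 0, w 1] fun i j => by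
    fin_cases i <;> fin_cases j <;>
      simp [J4, huw, hwu, hT 0 _ (hu _) _ (hu _), hT 1 _ (hw _) _ (hw _)]
  have c0 : m.c (u 0) = Pi.single 0 1 := hm 0
  have c1 : m.c (u 1) = Pi.single 1 1 := hm 1
  have c2 : m.c (w 0) = Pi.single 2 1 := hm 2
  have c3 : m.c (w 1) = Pi.single 3 1 := hm 3
  have z0 : ∀ v ∈ D 0, m.c v 2 = 0 ∧ m.c v 3 = 0 := fun v hv => by
    have a1 := m.form v (u 0)
    have a2 := m.form v (u 1)
    rw [hT 0 _ hv _ (hu _), map_zero] at a1 a2
    rw [c0] at a1
    rw [c1] at a2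
    constructor
    · simpa [fJ, J4, dotProduct, mulVec, Fin.sum_univ_four] using a1.symm
    · simpa [fJ, J4, dotProduct, mulVec, Fin.sum_univ_four] using a2.symm
  have z1 : ∀ v ∈ D 1, m.c v 0 = 0 ∧ m.c v 1 = 0 := fun v hv => by
    have a1 := m.form v (w 0)
    have a2 := m.form v (w 1)
    rw [hT 1 _ hv _ (hw _), map_zero] at a1 a2
    rw [c2] at a1
    rw [c3] at a2
    constructor
    · simpa [fJ, J4, dotProduct, mulVec, Fin.sum_univ_four] using a1.symm
    · simpa [fJ, J4, dotProduct, mulVec, Fin.sum_univ_four] using a2.symm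
  have key : ∀ h ∈ decompositionStabilizer D,
      (∃ a b c d p r s t : K, m.r h = !![a,b,0,0; c,d,0,0; 0,0,p,r; 0,0,s,t]) ∨
      ∃ a b c d p r s t : K, m.r h = !![0,0,p,r; 0,0,s,t; a,b,0,0; c,d,0,0] := by
    rintro h ⟨π, hπ⟩
    have hm' : ∀ i, ∀ v ∈ D i, (h : Matrix (Fin 4) (Fin 4) F) *ᵥ v ∈ D (π i) := fun i v hv => by
      rw [← hπ i]
      exact ⟨v, hv, rfl⟩
    have col : ∀ v j, m.c v = Pi.single j 1 → ∀ i,
        m.c ((h : Matrix (Fin 4) (Fin 4) F) *ᵥ v) i = m.r h i j := fun v j hv i => by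
      rw [m.c_mulVec, hv, mulVec_single_one]; rfl
    have a0 := hm' 0 _ (hu 0)
    have a1 := hm' 0 _ (hu 1)
    have a2 := hm' 1 _ (hw 0)
    have a3 := hm' 1 _ (hw 1)
    obtain ⟨p0, p1⟩ | ⟨p0, p1⟩ : (π 0 = 0 ∧ π 1 = 1) ∨ (π 0 = 1 ∧ π 1 = 0) := by
      generalize π = τ
      revert τ; decide
    · rw [p0] at a0 a1
      rw [p1] at a2 a3
      have b0 := z0 _ a0
      have b1 := z0 _ a1
      have b2 := z1 _ a2
      have b3 := z1 _ a3
      simp only [col _ _ c0, col _ _ c1, col _ _ c2, col _ _ c3] at b0 b1 b2 b3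
      refine .inl ⟨m.r h 0 0, m.r h 0 1, m.r h 1 0, m.r h 1 1, m.r h 2 2, m.r h 2 3, m.r h 3 2,
        m.r h 3 3, ?_⟩
      ext i j
      fin_cases i <;> fin_cases j <;> simp [b0, b1, b2, b3]
    · rw [p0] at a0 a1
      rw [p1] at a2 a3
      have b0 := z1 _ a0
      have b1 := z1 _ a1
      have b2 := z0 _ a2
      have b3 := z0 _ a3
      simp only [col _ _ c0, col _ _ c1, col _ _ c2, col _ _ c3] at b0 b1 b2 b3
      refine .inr ⟨m.r h 2 0, m.r h 2 1, m.r h 3 0, m.r h 3 1, m.r h 0 2, m.r h 0 3, m.r h 1 2,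
        m.r h 1 3, ?_⟩
      ext i j
      fin_cases i <;> fin_cases j <;> simp [b0, b1, b2, b3]
  refine m.not_max (simM (B4 K)) (fun h hh hu => ?_) ha haM (fun h hh hA => ?_) hb hbM
  · obtain ⟨a, b, c, d, p, r, s, t, h⟩ | ⟨a, b, c, d, p, r, s, t, h⟩ := key h hh <;>
      rw [h] at hu ⊢
    · exact blk_sim hK hu
    · exact blk_sim' hK hu
  · obtain ⟨a, b, c, d, p, r, s, t, h⟩ | ⟨a, b, c, d, p, r, s, t, h⟩ := key h hh <;>
      rw [← hA, h] at h0 h1
    · exact h1 rfl
    · exact h0 rfl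

end CA.NM
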