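import Cfsg.Agent.Lib.Lin.NM2

/-! Non-maximal geometric subgroups of `SU₄(2)`, `SU₄(3)`. -/

set_option autoImplicit false

namespace CA.NM

open Matrix Cfsg Cfsg.Geo CA.CForm CA.SmallF Module

variable {F : Type*} [Field F] [Fintype F]

instance instDecUni {n : ℕ} {K : Type*} [Field K] [DecidableEq K] (σ : K →+* K)
    (J A : Matrix (Fin n) (Fin n) K) : Decidable (Aᵀ * J * A.map σ = J) := inferInstance

theorem h4_2 : ∀ x : F4, x ^ 2 = 1 → x = 1 := by decide +kernel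
theorem h9_3 : ∀ x : F9, x ^ 3 = 1 → x = 1 := by decide +kernel

theorem ti42 (hF : Fintype.card F = 2 ^ 2) {D : Fin 2 → Submodule F (Fin 4 → F)}
    (hD : IsMDecomposition 2 D) (hT : ∀ i, IsTotallySingularFor (hermForm 4 F 2) (D i)) :
    ¬ IsMaximalIn (GG 4 F 2) (decompositionStabilizer D ⊓ GG 4 F 2) := by
  obtain ⟨e⟩ := nonempty_F4 hF
  refine ti_not_max hF e s4_eq (by decide +kernel) hD hT
    (a := !![1, 1, 1, 0; 0, 1, 0, 0; 0, 0, 1, 0; 0, 1, 1, 1])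
    (b := !![1, 0, 1, 0; 0, 1, 0, 0; 0, 0, 1, 0; 0, 0, 0, 1])
    ⟨by decide +kernel, det_of_pow (by decide +kernel) h4_2⟩ ⟨1, by decide +kernel⟩
    (by decide +kernel) (by decide +kernel)
    ⟨by decide +kernel, det_of_pow (by decide +kernel) h4_2⟩ ?_
  rintro ⟨c, hc⟩
  revert c
  decide +kernel

theorem ti43 (hF : Fintype.card F = 3 ^ 2) {D : Fin 2 → Submodule F (Fin 4 → F)}
    (hD : IsMDecomposition 2 D) (hT : ∀ i, IsTotallySingularFor (hermForm 4 F 3) (D i)) :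
    ¬ IsMaximalIn (GG 4 F 3) (decompositionStabilizer D ⊓ GG 4 F 3) := by
  obtain ⟨e⟩ := nonempty_F9 hF
  refine ti_not_max hF e s9_eq (by decide +kernel) hD hT
    (a := !![1, ⟨1, 1⟩, ⟨0, 1⟩, 0; 0, 1, 0, 0; 0, 0, 1, 0; 0, ⟨0, 2⟩, ⟨2, 1⟩, 1])
    (b := !![1, 0, ⟨0, 1⟩, 0; 0, 1, 0, 0; 0, 0, 1, 0; 0, 0, 0, 1])
    ⟨by decide +kernel, det_of_pow (by decide +kernel) h9_3⟩ ⟨1, by decide +kernel⟩
    (by decide +kernel) (by decide +kernel)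
    ⟨by decide +kernel, det_of_pow (by decide +kernel) h9_3⟩ ?_
  rintro ⟨c, hc⟩
  revert c
  decide +kernel

/-- the norm -/
def nm9 (x : F9) : ZMod 3 := x.re * x.re + x.im * x.im

theorem nm9_mul : ∀ d x : F9, d * s9 d = 1 → nm9 (d * x) = nm9 x := by decide +kernel

/-- sixty points -/
def Ph43 (m m' : ZMod 3) (p : F9) : Prop := m ≠ 0 ∧ ((m' = 1 ∧ p = 0) ∨ m' = 2 ∨ p = 1)

instance instDec43 (m m' : ZMod 3) (p : F9) : Decidable (Ph43 m m' p) := by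
  unfold Ph43; infer_instance

/-- sixty points -/
abbrev pr43 (x y z w : F9) : Prop := Ph43 (nm9 x + nm9 y + nm9 z + nm9 w)
  (nm9 x * nm9 x + nm9 y * nm9 y + nm9 z * nm9 z + nm9 w * nm9 w) (x * y * z * w * (x * y * z * w))

/-- an element of order three -/
def a43 : Matrix (Fin 4) (Fin 4) F9 := !![⟨2, 0⟩, ⟨0, 2⟩, ⟨0, 1⟩, ⟨2, 0⟩; ⟨2, 0⟩, ⟨0, 1⟩, ⟨0, 1⟩, ⟨1, 0⟩;
  ⟨2, 0⟩, ⟨0, 2⟩, ⟨0, 2⟩, ⟨1, 0⟩; ⟨2, 0⟩, ⟨0, 1⟩, ⟨0, 2⟩, ⟨2, 0⟩]

set_option maxRecDepth 100000 in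
theorem a43_pr : ∀ x y z w : F9, pr43 x y z w →
    pr43 (a43 0 0 * x + a43 0 1 * y + a43 0 2 * z + a43 0 3 * w)
      (a43 1 0 * x + a43 1 1 * y + a43 1 2 * z + a43 1 3 * w)
      (a43 2 0 * x + a43 2 1 * y + a43 2 2 * z + a43 2 3 * w)
      (a43 3 0 * x + a43 3 1 * y + a43 3 2 * z + a43 3 3 * w) := by decide +kernel

theorem frame43 (hF : Fintype.card F = 3 ^ 2) {D : Fin 4 → Submodule F (Fin 4 → F)}
    (hD : IsNondegenerateMDecomposition (hermForm 4 F 3) 1 D) :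
    ¬ IsMaximalIn (GG 4 F 3) (decompositionStabilizer D ⊓ GG 4 F 3) := by
  obtain ⟨e⟩ := nonempty_F9 hF
  refine frame_not_max hF e s9_eq hD (fun v => pr43 (v 0) (v 1) (v 2) (v 3)) (fun v w h1 h2 => ?_)
    (a := a43) (b := !![1, 0, 0, 0; 0, 1, 0, 0; 0, 0, ⟨1, 1⟩, ⟨1, 1⟩; 0, 0, ⟨2, 1⟩, ⟨1, 2⟩])
    (i := 0) (j := 0) (k := 1)
    ⟨by decide +kernel, det_of_pow (by decide +kernel) h9_3⟩ (fun v hv => ?_) (by decide)
    (by decide +kernel) (by decide +kernel)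
    ⟨by decide +kernel, det_of_pow (by decide +kernel) h9_3⟩
    (fun h => absurd (h ![0, 1, 0, 1] (by decide +kernel)) (by decide +kernel))
  · have a1 := h1 _ nm9 nm9_mul
    have a2 := h1 _ (fun x => nm9 x * nm9 x) fun d x hd => by rw [nm9_mul d x hd]
    simp only [Fin.sum_univ_four, Fin.prod_univ_four] at a1 a2 h2
    unfold pr43
    rw [a1, a2, h2]
    exact id
  · simpa only [mulVec, dotProduct, Fin.sum_univ_four] using a43_pr _ _ _ _ hv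

end CA.NM
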