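import Cfsg.Agent.Lib.Lin.NM2

/-! Non-maximality in small special unitary groups: field extension subgroups. -/

set_option autoImplicit false

namespace CA.NM

open Matrix Cfsg Cfsg.Geo CA.CForm CA.SmallF Module CA.AschField

variable {n q : ℕ} {F K : Type*} [Field F] [Field K] {σ : K →+* K}

theorem ne_fix {L : Type*} [Fintype F] [Field L] [Algebra F L] [Finite L] {p : ℕ} (hq : q.Prime)
    (hF : Fintype.card F = q ^ 2) (τ : L →+* L)
    (hτ : ∀ c, τ (algebraMap F L c) = algebraMap F L (c ^ q)) {y : L} (hp : p ≠ 0)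
    (hy : IsPrimitiveRoot y p) (hsq : ¬ IsSquare (q : ZMod p)) : τ y ≠ y := by
  intro h
  have : Fact q.Prime := ⟨hq⟩
  have : CharP F q := charP_of_card_eq_prime_pow hF
  have : CharP L q := charP_of_injective_algebraMap (algebraMap F L).injective q
  let ψ : L →ₐ[F] L := ⟨(frobenius L q).comp τ, fun c => by
    change τ (algebraMap F L c) ^ q = _
    rw [hτ, ← map_pow, ← pow_mul, ← sq, ← hF, FiniteField.pow_card]⟩
  obtain ⟨i, hi⟩ := (FiniteField.bijective_frobeniusAlgHom_pow F L).2 ψ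
  have h1 : ∀ (k : ℕ) (x : L), (FiniteField.frobeniusAlgHom F L ^ k) x = x ^ ((q ^ 2) ^ k) := by
    intro k
    induction k with
    | zero => simp
    | succ k ih =>
      intro x
      rw [pow_succ, AlgHom.mul_apply, ih, FiniteField.frobeniusAlgHom_apply, hF, ← pow_mul,
        ← pow_succ']
  have h2 : y ^ ((q ^ 2) ^ (i : ℕ)) = y ^ q := by
    rw [← h1, show FiniteField.frobeniusAlgHom F L ^ (i : ℕ) = ψ from hi]
    change τ y ^ q = _
    rw [h]
  rw [(hy.isOfFinOrder hp).pow_eq_pow_iff_modEq, ← hy.eq_orderOf,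
    ← ZMod.natCast_eq_natCast_iff] at h2
  refine hsq ⟨(q : ZMod p) ^ (i : ℕ), h2.symm.trans ?_⟩
  push_cast; ring

section Fld

variable [Fintype F] [NeZero n] {r : ℕ} {L : Subalgebra F (Matrix (Fin n) (Fin n) F)}

theorem exists_prim (hL : IsFieldSubalgebra r L) {d : ℕ} (hd : d ∣ Fintype.card F ^ r - 1) :
    ∃ y : L, orderOf y = d := by
  let : Field L := (isField_of hL).toField
  have : Finite L := Module.finite_of_finite F
  have h1 : Nat.card L = Fintype.card F ^ r := by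
    rw [Module.natCard_eq_pow_finrank (K := F), hL.finrank_eq, Nat.card_eq_fintype_card]
  obtain ⟨g, hg⟩ := IsCyclic.exists_ofOrder_eq_natCard (α := Lˣ)
  rw [Nat.card_units, h1] at hg
  obtain ⟨k, hk⟩ := hd
  have h2 := IsPrimitiveRoot.orderOf g
  exact ⟨_, (IsPrimitiveRoot.coe_units_iff.2 (h2.pow (orderOf_pos g)
    (by rw [hg, hk, mul_comm]))).eq_orderOf.symm⟩

theorem eq_pow (hL : IsFieldSubalgebra r L) {d : ℕ} (hd : d ≠ 0) {y x : L}
    (hy : orderOf y = d) (hx : x ^ d = 1) : ∃ i < d, y ^ i = x := by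
  let : Field L := (isField_of hL).toField
  have : NeZero d := ⟨hd⟩
  exact (hy ▸ IsPrimitiveRoot.orderOf y : IsPrimitiveRoot y d).eq_pow_of_pow_eq_one hx

variable (hF : Fintype.card F = q ^ 2)
include hF

theorem adj_mem (h : IsAdjointClosedFor (hermForm n F q) L) {k : Matrix (Fin n) (Fin n) F}
    (hk : k ∈ L) : kᵀ.map (conj hF) ∈ L := by
  obtain ⟨k', hk', h1⟩ := h k hk
  convert hk'
  ext i j
  have := h1 (Pi.single i 1) (Pi.single j 1)
  simp only [herm_eq hF, fJ_one, mulVec_single_one, Pi.single_apply, apply_ite (conj hF), map_one,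
    map_zero, mul_ite, ite_mul, mul_one, one_mul, mul_zero, zero_mul, Finset.sum_ite_eq',
    Finset.mem_univ, if_true, col_apply] at this
  rw [map_apply, transpose_apply, this, conj_conj]

/-- the adjoint map on an adjoint closed subfield -/
def adjL (hL : IsFieldSubalgebra r L) (h : IsAdjointClosedFor (hermForm n F q) L) : L →+* L where
  toFun k := ⟨k.1ᵀ.map (conj hF), adj_mem hF h k.2⟩
  map_one' := Subtype.ext (by simp)
  map_mul' a b := Subtype.ext (by
    change (a.1 * b.1)ᵀ.map _ = _ * _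
    rw [hL.comm _ a.2 _ b.2, transpose_mul, Matrix.map_mul])
  map_zero' := Subtype.ext (by simp)
  map_add' a b := Subtype.ext (by ext i j; simp)

theorem adjL_adjL (hL : IsFieldSubalgebra r L) (h : IsAdjointClosedFor (hermForm n F q) L) (x : L) :
    adjL hF hL h (adjL hF hL h x) = x := Subtype.ext (by ext i j; exact conj_conj hF _)

theorem adjL_algebraMap (hL : IsFieldSubalgebra r L) (h : IsAdjointClosedFor (hermForm n F q) L)
    (c : F) : adjL hF hL h (algebraMap F L c) = algebraMap F L (c ^ q) := Subtype.ext (by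
  ext i j
  change conj hF (algebraMap F (Matrix (Fin n) (Fin n) F) c j i) =
    algebraMap F (Matrix (Fin n) (Fin n) F) (c ^ q) i j
  simp only [algebraMap_matrix_apply, eq_comm (a := j)]
  split_ifs
  · rfl
  · exact map_zero _)

omit [NeZero n] in
theorem mem_GU_of {g : GL (Fin n) F}
    (h : (g : Matrix (Fin n) (Fin n) F)ᵀ.map (conj hF) * g = 1) : g ∈ GU n F q := fun u v => by
  have : (g : Matrix (Fin n) (Fin n) F)ᵀ * 1 * (g : Matrix (Fin n) (Fin n) F).map (conj hF) = 1 := by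
    have h2 := congrArg (fun A : Matrix (Fin n) (Fin n) F => A.map (conj hF)) h
    simp only [Matrix.map_mul, Matrix.map_map, Matrix.map_one _ (map_zero _) (map_one _)] at h2
    rw [Matrix.mul_one, ← h2]
    congr 1
    ext i j
    exact (conj_conj hF _).symm
  change hermForm n F q ((g : Matrix _ _ F) *ᵥ u) ((g : Matrix _ _ F) *ᵥ v) = _
  rw [herm_eq hF, herm_eq hF, fJ_mulVec, this]

theorem exists_singer (hq : q.Prime) (hL : IsFieldSubalgebra r L)
    (h : IsAdjointClosedFor (hermForm n F q) L) {p : ℕ} (hp : p.Prime)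
    (hd : p ∣ Fintype.card F ^ r - 1) (hsq : ¬ IsSquare (q : ZMod p)) :
    ∃ u ∈ GU n F q, orderOf u = p ∧
      ∀ h ∈ subalgebraNormalizer L, h * u * h⁻¹ ∈ Subgroup.zpowers u := by
  let : Field L := (isField_of hL).toField
  have : Finite L := Module.finite_of_finite F
  have : Fact p.Prime := ⟨hp⟩
  obtain ⟨y, hy'⟩ := exists_prim hL hd
  have hy : IsPrimitiveRoot y p := hy' ▸ IsPrimitiveRoot.orderOf y
  have h1 := ne_fix hq hF (adjL hF hL h) (adjL_algebraMap hF hL h) hp.ne_zero hy hsq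
  have y0 : y ≠ 0 := hy.ne_zero hp.ne_zero
  have z0 : adjL hF hL h y ≠ 0 := (map_ne_zero _).2 y0
  set u := y / adjL hF hL h y with hu
  have u1 : u ^ p = 1 := by rw [hu, div_pow, ← map_pow, hy.pow_eq_one, map_one, div_one]
  have u2 : u ≠ 1 := fun h => h1 (((div_eq_one_iff_eq z0).1 h).symm)
  have u3 : adjL hF hL h u * u = 1 := by
    rw [hu, map_div₀, adjL_adjL]; field_simp
  have u4 : orderOf u = p := orderOf_eq_prime u1 u2
  have e1 : (adjL hF hL h u).1 * u.1 = 1 := congrArg Subtype.val u3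
  let g : GL (Fin n) F := ⟨u.1, (adjL hF hL h u).1, mul_eq_one_comm.1 e1, e1⟩
  have g1 : g ^ p = 1 := Units.ext (by
    rw [Units.val_pow_eq_pow_val]; exact congrArg Subtype.val u1)
  refine ⟨g, mem_GU_of hF e1, orderOf_eq_prime g1 fun h => u2 (Subtype.ext (congrArg Units.val h)),
    fun k hk => ?_⟩
  obtain ⟨i, -, hi⟩ := eq_pow hL hp.ne_zero (x := ⟨_, (hk u.1).1 u.2⟩) u4 (Subtype.ext (by
    have : (k * g * k⁻¹) ^ p = 1 := by rw [conj_pow, g1]; simp
    exact congrArg Units.val this))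
  exact ⟨i, Units.ext (by
    simp only [zpow_natCast, Units.val_pow_eq_pow_val]; exact congrArg Subtype.val hi)⟩

theorem exists_std (e : F ≃+* K) (hσ : ∀ x, σ x = x ^ q) :
    ∃ m : Mdl n q F K σ 1, m.e = e := by
  obtain ⟨m, h, -⟩ := exists_mdl (n := n) (σ := σ) (J := 1) hF e hσ (mul_one 1)
    (fun i => Pi.single i 1)
    fun i j => by rw [herm_eq hF, fJ_single, one_apply, one_apply]; split_ifs <;> simp
  exact ⟨m, h⟩

theorem singer_not_max (hq : q.Prime) (e : F ≃+* K) (hσ : ∀ x, σ x = x ^ q)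
    (hL : IsFieldSubalgebra r L) (h : IsAdjointClosedFor (hermForm n F q) L) {p : ℕ} (hp : p.Prime)
    (hd : p ∣ Fintype.card F ^ r - 1) (hsq : ¬ IsSquare (q : ZMod p))
    (hK : ∀ x : K, x ^ p = 1 → x = 1) (hG : ¬ p ^ 2 ∣ Nat.card (GG n F q))
    (M : Submonoid (Matrix (Fin n) (Fin n) K)) {a b c : Matrix (Fin n) (Fin n) K}
    (ha : Uni σ 1 a) (hap : a ^ p = 1) (ha1 : a ≠ 1)
    (hN : ∀ A, Uni σ 1 A → ∀ i < p, A * a = a ^ i * A → A ∈ M) (hc : Uni σ 1 c) (hcM : c ∈ M)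
    (hcN : ∀ i < p, c * a ≠ a ^ i * c) (hb : Uni σ 1 b) (hbM : b ∉ M) :
    ¬ IsMaximalIn (GG n F q) (subalgebraNormalizer L ⊓ GG n F q) := by
  classical
  have : Fact p.Prime := ⟨hp⟩
  obtain ⟨m, -⟩ := exists_std (n := n) hF e hσ
  obtain ⟨u, hu, ou, hN'⟩ := exists_singer hF hq hL h hp hd hsq
  have hu' : u ∈ GG n F q := m.mem_GG.2 ⟨m.mem_GU.1 hu,
    det_of_pow (k := p) (by rw [← map_pow, ← ou, pow_orderOf_eq_one, map_one]) hK⟩
  obtain ⟨a, ha', rfl⟩ := m.lift ha
  obtain ⟨b, hb', rfl⟩ := m.lift hb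
  obtain ⟨c, hc', rfl⟩ := m.lift hc
  have oa : orderOf a = p := orderOf_eq_prime (m.r_inj (by rw [map_pow, hap, map_one]))
    (fun h => ha1 (by rw [h, map_one]))
  have key : ∀ g : GL (Fin n) F, (∀ x ∈ Subgroup.zpowers a, g * x * g⁻¹ ∈ Subgroup.zpowers a) →
      ∃ i < p, m.r g * m.r a = m.r a ^ i * m.r g := fun g hg => by
    obtain ⟨i, hi, h⟩ := Finset.mem_image.1
      (mem_zpowers_iff_mem_range_orderOf.1 (hg a (Subgroup.mem_zpowers a)))
    refine ⟨i, by rwa [Finset.mem_range, oa] at hi, ?_⟩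
    rw [← map_pow, h, ← map_mul, ← map_mul, inv_mul_cancel_right]
  refine not_max_sylow (k := 1) hp (R := Subgroup.zpowers u) (R₀ := Subgroup.zpowers a)
    (M := subOf m.r M) (Subgroup.zpowers_le.2 hu') (Subgroup.zpowers_le.2 ha')
    (by rw [Nat.card_zpowers, ou, pow_one]) (by rw [Nat.card_zpowers, oa, pow_one]) hG ?_
    (fun g hg hn => ?_) hc' hcM (fun hn => ?_) hb' hbM
  · rintro g hg x ⟨k, rfl⟩
    rw [← conj_zpow]
    exact Subgroup.zpow_mem _ (hN' g hg.1) _
  · obtain ⟨i, hi, h⟩ := key g hn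
    exact hN _ (m.mem_GG.1 hg) i hi h
  · obtain ⟨i, hi, h⟩ := key c hn
    exact hcN i hi h

end Fld

theorem pow_eq_tab {a : Matrix (Fin n) (Fin n) K} {p : ℕ} {pw : ℕ → Matrix (Fin n) (Fin n) K}
    (h0 : pw 0 = 1) (hs : ∀ i < p, pw (i + 1) = pw i * a) : ∀ i ≤ p, a ^ i = pw i := by
  intro i
  induction i with
  | zero => exact fun _ => h0.symm
  | succ i ih => exact fun h => by rw [pow_succ, ih (by omega), hs i h]

theorem norm_mem {J a b : Matrix (Fin n) (Fin n) K} {M : Submonoid (Matrix (Fin n) (Fin n) K)}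
    (hb : Uni σ J b) (hbM : b ∈ M) {p r : ℕ} (hbr : b ^ r = 1)
    (hI : ∀ i < p, (a ^ i).trace = a.trace → ∃ j ≤ r, b ^ j * a ^ i = a * b ^ j)
    (hC : ∀ x, Uni σ J x → x * a = a * x → x ∈ M) :
    ∀ A, Uni σ J A → ∀ i < p, A * a = a ^ i * A → A ∈ M := by
  intro A hA i hi h
  have hu : A * A⁻¹ = 1 := mul_nonsing_inv _ (by rw [hA.2]; exact isUnit_one)
  obtain ⟨j, hj, h1⟩ := hI i hi (by
    rw [← Matrix.mul_one (a ^ i), ← hu, ← Matrix.mul_assoc, ← h, trace_mul_cycle,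
      mul_eq_one_comm.1 hu, Matrix.one_mul])
  have h2 := hC (b ^ j * A) ((hb.pow j).mul hA) (by
    rw [Matrix.mul_assoc, h, ← Matrix.mul_assoc, h1, Matrix.mul_assoc])
  have h3 : A = b ^ (r - j) * (b ^ j * A) := by
    rw [← Matrix.mul_assoc, ← pow_add, Nat.sub_add_cancel hj, hbr, Matrix.one_mul]
  rw [h3]
  exact M.mul_mem (M.pow_mem hbM _) h2

theorem eq_of_cyc {a x y V V' : Matrix (Fin n) (Fin n) K} {v : Fin n → K}
    (hV : ∀ j : Fin n, V *ᵥ Pi.single j 1 = a ^ (j : ℕ) *ᵥ v) (hV' : V * V' = 1)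
    (hx : x * a = a * x) (hy : y * a = a * y) (h : x *ᵥ v = y *ᵥ v) : x = y := by
  have : x * V = y * V := Matrix.ext_of_mulVec_single fun j => by
    rw [← mulVec_mulVec, ← mulVec_mulVec, hV, mulVec_mulVec, mulVec_mulVec,
      (Commute.pow_right hx j).eq, (Commute.pow_right hy j).eq, ← mulVec_mulVec, ← mulVec_mulVec, h]
  rw [← Matrix.mul_one x, ← Matrix.mul_one y, ← hV', ← Matrix.mul_assoc, this, Matrix.mul_assoc]

end CA.NM
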