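import Cfsg.Agent.Lib.Lin.NM4

/-! The normaliser of a Singer cycle of `SU₅(2)` lies in `L₂(11)`. -/

set_option autoImplicit false
set_option maxRecDepth 100000

namespace CA.NM

open Matrix Cfsg Cfsg.Geo CA.CForm CA.SmallF Module

/-- the square of `om` -/
def o2 : F4 := ⟨1, 1⟩

/-- powers of an element of order 11 -/
def pw11 (i : ℕ) : Matrix (Fin 5) (Fin 5) F4 := [
  !![1, 0, 0, 0, 0; 0, 1, 0, 0, 0; 0, 0, 1, 0, 0; 0, 0, 0, 1, 0; 0, 0, 0, 0, 1],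
  !![0, 1, 0, 0, 0; 0, 0, 1, om, o2; 0, 0, 1, 1, 1; o2, 0, 0, 0, 0; 0, 0, om, 1, o2],
  !![0, 0, 1, om, o2; 1, 0, 0, om, o2; o2, 0, o2, 0, om; 0, o2, 0, 0, 0; o2, 0, o2, 1, 0],
  !![1, 0, 0, om, o2; 1, 1, 1, o2, om; 0, o2, 0, 1, om; 0, 0, o2, 1, om; o2, o2, o2, o2, o2],
  !![1, 1, 1, o2, om; om, 1, o2, 1, o2; o2, 0, 0, o2, o2; o2, 0, 0, 1, om; om, o2, 1, 1, o2],
  !![om, 1, o2, 1, o2; o2, om, o2, om, om; om, o2, 1, o2, om; o2, o2, o2, om, 1; o2, om, o2, o2, 1],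
  !![o2, om, o2, om, om; 1, o2, om, om, o2; om, om, 1, om, om; 1, o2, om, o2, om; om, o2, o2, 1, 1],
  !![1, o2, om, om, o2; 1, 1, 0, 0, om; 1, om, 0, 0, 1; om, 1, om, 1, 1; o2, om, om, o2, om],
  !![1, 1, 0, 0, om; 0, 1, om, 0, om; 0, 1, 0, om, om; o2, om, 1, 1, om; om, o2, o2, o2, om],
  !![0, 1, om, 0, om; 0, 0, 0, om, 0; 1, 0, om, 0, om; o2, o2, 0, 0, 1; om, om, o2, 0, 0],
  !![0, 0, 0, om, 0; 1, 0, 0, 0, 0; 0, 1, 1, 0, o2; 0, o2, 1, 0, 1; 0, om, 1, 0, om],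
  !![1, 0, 0, 0, 0; 0, 1, 0, 0, 0; 0, 0, 1, 0, 0; 0, 0, 0, 1, 0; 0, 0, 0, 0, 1]].getD i 1

/-- powers of an element of order 5 -/
def pb11 (i : ℕ) : Matrix (Fin 5) (Fin 5) F4 := [
  !![1, 0, 0, 0, 0; 0, 1, 0, 0, 0; 0, 0, 1, 0, 0; 0, 0, 0, 1, 0; 0, 0, 0, 0, 1],
  !![o2, 0, om, 0, 1; 0, om, o2, 0, om; 0, 0, 0, o2, 0; o2, 1, om, 0, 0; o2, 1, 0, 0, 1],
  !![1, 1, 1, 1, om; 1, 1, 1, om, 1; om, o2, 1, 0, 0; om, om, om, 1, 1; 1, o2, om, 0, 0],
  !![1, 1, o2, o2, 1; 1, 1, om, o2, om; 1, 1, 1, o2, o2; 1, o2, 0, 1, 0; o2, 1, 0, 1, 0],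
  !![om, 0, 0, om, om; 0, o2, 0, 1, 1; o2, om, 0, o2, 0; 0, 0, om, 0, 0; 1, o2, 0, 0, 1],
  !![1, 0, 0, 0, 0; 0, 1, 0, 0, 0; 0, 0, 1, 0, 0; 0, 0, 0, 1, 0; 0, 0, 0, 0, 1]].getD i 1

/-- an involution -/
def c11 : Matrix (Fin 5) (Fin 5) F4 := !![0, om, 0, 1, 1; o2, 1, 0, 0, o2; 0, 0, 1, 0, 0; 1, 0, 0, 1, 1; 1, om, 0, 1, 0]

/-- a transvection -/
def t11 : Matrix (Fin 5) (Fin 5) F4 := !![1, 0, 0, 0, 0; 0, 1, 0, 0, 0; 0, 0, 1, 0, 0; 0, 0, 0, 0, 1; 0, 0, 0, 1, 0]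

/-- a cyclic basis -/
def V11 : Matrix (Fin 5) (Fin 5) F4 := !![1, 0, 0, 1, 1; 0, 0, 1, 1, om; 0, 0, o2, 0, o2; 0, o2, 0, 0, o2; 0, 0, o2, o2, om]

/-- the inverse matrix -/
def W11 : Matrix (Fin 5) (Fin 5) F4 := !![1, o2, om, 0, o2; 0, 1, 0, om, om; 0, 1, om, 0, om; 0, om, om, 0, 1; 0, 1, 0, 0, om]

/-- a code -/
def cd4 (x : F4) : ℕ := x.re.val + 2 * x.im.val

/-- an orbit of `L₂(11)` -/
abbrev pr11 (x y z u v : F4) : Prop := Nat.testBit
  27430622965240241760591468274356510878564667284010853568024826302713460621876672067039646907908982280810090542694318915747513903463941571756736912466653405641055052638113413889716989205497491735263417336255189878512220428349719813811990408662660867373701850749989565948191970216505000673504971339928201920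
  (cd4 x + 4 * cd4 y + 16 * cd4 z + 64 * cd4 u + 256 * cd4 v) = true

/-- the stabiliser of the orbit -/
def M11 : Submonoid (Matrix (Fin 5) (Fin 5) F4) :=
  presM fun v => pr11 (v 0) (v 1) (v 2) (v 3) (v 4)

/-- one coordinate of the image of a vector -/
def row5 (A : Matrix (Fin 5) (Fin 5) F4) (i : Fin 5) (x y z u v : F4) : F4 :=
  A i 0 * x + A i 1 * y + A i 2 * z + A i 3 * u + A i 4 * v

theorem mem_M11 {A : Matrix (Fin 5) (Fin 5) F4}
    (h : ∀ x y z u v, pr11 x y z u v → pr11 (row5 A 0 x y z u v) (row5 A 1 x y z u v)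
      (row5 A 2 x y z u v) (row5 A 3 x y z u v) (row5 A 4 x y z u v)) :
    A ∈ M11 := fun v hv => by
  simpa only [mulVec, dotProduct, Fin.sum_univ_five, row5] using h _ _ _ _ _ hv

theorem a11_mem : pw11 1 ∈ M11 := mem_M11 (by decide +kernel)
theorem b11_mem : pb11 1 ∈ M11 := mem_M11 (by decide +kernel)
theorem c11_mem : c11 ∈ M11 := mem_M11 (by decide +kernel)
theorem om_mem : om • (1 : Matrix (Fin 5) (Fin 5) F4) ∈ M11 := mem_M11 (by decide +kernel)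

theorem a11_pow : ∀ i ≤ 11, pw11 1 ^ i = pw11 i := pow_eq_tab (by decide +kernel) (by decide +kernel)
theorem b11_pow : ∀ i ≤ 5, pb11 1 ^ i = pb11 i := pow_eq_tab (by decide +kernel) (by decide +kernel)

theorem h4_11 : ∀ x : F4, x ^ 11 = 1 → x = 1 := by decide +kernel
theorem h4_5 : ∀ x : F4, x ^ 5 = 1 → x = 1 := by decide +kernel
theorem h4_2' : ∀ x : F4, x ^ 2 = 1 → x = 1 := by decide +kernel

theorem a11_ord : pw11 1 ^ 11 = 1 := (a11_pow 11 le_rfl).trans (by decide +kernel)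
theorem b11_ord : pb11 1 ^ 5 = 1 := (b11_pow 5 le_rfl).trans (by decide +kernel)

/-- the form on a vector and its image -/
def hh5 (A : Matrix (Fin 5) (Fin 5) F4) (x y z u v : F4) : F4 :=
  row5 A 0 x y z u v * s4 x + row5 A 1 x y z u v * s4 y + row5 A 2 x y z u v * s4 z +
    row5 A 3 x y z u v * s4 u + row5 A 4 x y z u v * s4 v

theorem hh5_eq (A : Matrix (Fin 5) (Fin 5) F4) (w : Fin 5 → F4) :
    fJ s4 1 (A *ᵥ w) w = hh5 A (w 0) (w 1) (w 2) (w 3) (w 4) := by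
  simp only [fJ_one, mulVec, dotProduct, Fin.sum_univ_five, row5, hh5]

theorem cent11_aux : ∀ x y z u v : F4, x * s4 x + y * s4 y + z * s4 z + u * s4 u + v * s4 v = 1 →
    hh5 (pw11 1) x y z u v = 0 → hh5 (pw11 2) x y z u v = 0 →
    ∃ k < 11, ∃ l < 3, ![x, y, z, u, v] = om ^ l • (pw11 k)ᵀ 0 := by decide +kernel

theorem cent11 (x : Matrix (Fin 5) (Fin 5) F4) (hx : Uni s4 1 x) (h : x * pw11 1 = pw11 1 * x) :
    x ∈ M11 := by
  have e : ∀ k ≤ 11, fJ s4 1 (pw11 k *ᵥ (x *ᵥ Pi.single 0 1)) (x *ᵥ Pi.single 0 1) =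
      fJ s4 1 (pw11 k *ᵥ Pi.single 0 1) (Pi.single 0 1) := fun k hk => by
    rw [mulVec_mulVec, ← a11_pow k hk, ← (Commute.pow_right h k).eq, ← mulVec_mulVec, hx.pres]
  have e0 := hx.pres (Pi.single 0 1) (Pi.single 0 1)
  have e1 := e 1 (by norm_num)
  have e2 := e 2 (by norm_num)
  have hw : ∀ w : Fin 5 → F4, w = ![w 0, w 1, w 2, w 3, w 4] := fun w => by
    ext1 i; fin_cases i <;> rfl
  rw [fJ_one, Fin.sum_univ_five] at e0
  rw [hh5_eq] at e1 e2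
  obtain ⟨k, hk, l, -, h1⟩ := cent11_aux _ _ _ _ _ (e0.trans (by decide +kernel))
    (e1.trans (by decide +kernel)) (e2.trans (by decide +kernel))
  rw [← hw, ← a11_pow k hk.le] at h1
  have h2 : x = (om • 1) ^ l * pw11 1 ^ k := by
    refine eq_of_cyc (V := V11) (V' := W11) (v := Pi.single 0 1) (fun j => ?_) (by decide +kernel) h
      ?_ ?_
    · rw [a11_pow j (by omega)]
      revert j
      decide +kernel
    · rw [smul_pow, one_pow, smul_mul_assoc, one_mul, smul_mul_assoc, mul_smul_comm,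
        pow_mul_comm']
    · rw [h1, smul_pow, one_pow, smul_mul_assoc, one_mul, smul_mulVec, mulVec_single_one]
      rfl
  rw [h2]
  exact M11.mul_mem (M11.pow_mem om_mem _) (M11.pow_mem a11_mem _)

theorem singer52 {F : Type*} [Field F] [Fintype F] (hF : Fintype.card F = 2 ^ 2)
    {L : Subalgebra F (Matrix (Fin 5) (Fin 5) F)} (hL : IsFieldSubalgebra 5 L)
    (h : IsAdjointClosedFor (hermForm 5 F 2) L) :
    ¬ IsMaximalIn (GG 5 F 2) (subalgebraNormalizer L ⊓ GG 5 F 2) := by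
  obtain ⟨e⟩ := nonempty_F4 hF
  have hc := PSUOrd.card_SU hF (n := 5) (by norm_num)
  refine singer_not_max hF Nat.prime_two e s4_eq hL h (p := 11) (by norm_num)
    (by rw [hF]; norm_num) (by decide) h4_11 ?_ M11 (a := pw11 1) (b := t11) (c := c11)
    ⟨by decide +kernel, det_of_pow a11_ord h4_11⟩ a11_ord (by decide +kernel)
    (norm_mem (b := pb11 1) ⟨by decide +kernel, det_of_pow b11_ord h4_5⟩ b11_mem b11_ord ?_ cent11)
    ⟨by decide +kernel, det_of_pow (by decide +kernel) h4_2'⟩ c11_mem (fun i hi => ?_)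
    ⟨by decide +kernel, det_of_pow (by decide +kernel) h4_2'⟩
    (fun h => absurd (h ![0, 0, 0, 1, om] (by decide +kernel)) (by decide +kernel))
  · rw [card_GG]
    have : Nat.card (SU 5 F 2) = 13685760 := by
      rw [show 2 ^ (5 * (5 - 1) / 2) * ∏ i ∈ Finset.range 5, PSUOrd.U 2 (i + 1) = 41057280 by
        decide +kernel] at hc
      omega
    rw [this]
    norm_num
  · have : ∀ i < 11, (pw11 i).trace = (pw11 1).trace → ∃ j ≤ 5,
        pb11 j * pw11 i = pw11 1 * pb11 j := by decide +kernel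
    intro i hi ht
    rw [a11_pow i hi.le] at ht ⊢
    obtain ⟨j, hj, h⟩ := this i hi ht
    exact ⟨j, hj, by rwa [b11_pow j hj]⟩
  · rw [a11_pow i hi.le]
    revert i
    decide +kernel

end CA.NM
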