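import Cfsg.Agent.Lib.Lin.NM5

/-! Non-maximal geometric subgroups of `SU₆(2)`. -/

set_option autoImplicit false
set_option maxRecDepth 100000

namespace CA.NM

open Matrix Cfsg Cfsg.Geo CA.CForm CA.SmallF Module CA.AschField

variable {F : Type*} [Field F] [Fintype F]

/-- the weight of a coordinate -/
def wt4 (x : F4) : ℕ := if x = 0 then 0 else 1

theorem wt4_mul : ∀ d x : F4, d * s4 d = 1 → wt4 (d * x) = wt4 x := by decide +kernel

/-- 126 points -/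
abbrev pr62 (x y z u v w : F4) : Prop := wt4 x + wt4 y + wt4 z + wt4 u + wt4 v + wt4 w = 2 ∨
  x * y * z * u * v * w * (x * y * z * u * v * w) = 1

theorem a62_pr : ∀ x y z u v w : F4, pr62 x y z u v w → pr62 (y + z + u + v + w) (x + z + u + v + w)
    (x + y + u + v + w) (x + y + z + v + w) (x + y + z + u + w) (x + y + z + u + v) := by
  decide +kernel

theorem frame62 (hF : Fintype.card F = 2 ^ 2) {D : Fin 6 → Submodule F (Fin 6 → F)}
    (hD : IsNondegenerateMDecomposition (hermForm 6 F 2) 1 D) :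
    ¬ IsMaximalIn (GG 6 F 2) (decompositionStabilizer D ⊓ GG 6 F 2) := by
  obtain ⟨e⟩ := nonempty_F4 hF
  refine frame_not_max hF e s4_eq hD (fun v => pr62 (v 0) (v 1) (v 2) (v 3) (v 4) (v 5))
    (fun v w h1 h2 => ?_)
    (a := !![0, 1, 1, 1, 1, 1; 1, 0, 1, 1, 1, 1; 1, 1, 0, 1, 1, 1; 1, 1, 1, 0, 1, 1;
      1, 1, 1, 1, 0, 1; 1, 1, 1, 1, 1, 0])
    (b := !![0, 1, 1, 1, 0, 0; 1, 0, 1, 1, 0, 0; 1, 1, 0, 1, 0, 0; 1, 1, 1, 0, 0, 0;
      0, 0, 0, 0, 1, 0; 0, 0, 0, 0, 0, 1])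
    (i := 0) (j := 1) (k := 2)
    ⟨by decide +kernel, det_of_pow (by decide +kernel) h4_2'⟩ (fun v hv => ?_) (by decide)
    (by decide +kernel) (by decide +kernel)
    ⟨by decide +kernel, det_of_pow (by decide +kernel) h4_2'⟩
    (fun h => absurd (h ![1, 0, 0, 0, 1, 0] (by decide +kernel)) (by decide +kernel))
  · have a1 := h1 _ wt4 wt4_mul
    simp only [Fin.sum_univ_six, Fin.prod_univ_six] at a1 h2
    unfold pr62
    rw [a1, h2]
    exact id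
  · simpa [mulVec, dotProduct, Fin.sum_univ_six] using a62_pr _ _ _ _ _ _ hv

section Sesq

variable {n : ℕ} {K : Type*} [Field K] {σ : K →+* K}

theorem fJ_add_left (J : Matrix (Fin n) (Fin n) K) (u v w : Fin n → K) :
    fJ σ J (u + v) w = fJ σ J u w + fJ σ J v w := by simp [fJ]

theorem fJ_smul_left (J : Matrix (Fin n) (Fin n) K) (a : K) (v w : Fin n → K) :
    fJ σ J (a • v) w = a * fJ σ J v w := by simp [fJ]

theorem fJ_add_right (J : Matrix (Fin n) (Fin n) K) (u v w : Fin n → K) :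
    fJ σ J w (u + v) = fJ σ J w u + fJ σ J w v := by
  have : σ ∘ (u + v) = σ ∘ u + σ ∘ v := by ext; simp
  simp [fJ, this, mulVec_add]

theorem fJ_smul_right (J : Matrix (Fin n) (Fin n) K) (a : K) (v w : Fin n → K) :
    fJ σ J w (a • v) = σ a * fJ σ J w v := by
  have : σ ∘ (a • v) = σ a • σ ∘ v := by ext; simp
  simp [fJ, this, mulVec_smul]

theorem fJ_conj (hσ : ∀ x, σ (σ x) = x) (v w : Fin n → K) : σ (fJ σ 1 v w) = fJ σ 1 w v := by
  simp only [fJ_one, map_sum, map_mul, hσ, mul_comm]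

end Sesq

theorem s4_s4 : ∀ x, s4 (s4 x) = x := by decide +kernel

theorem step_aux : ∀ s t : F4, s ≠ 0 → s4 s = s → ∃ a b c : F4,
    s4 a * (a * s + b * s4 t + c * (om * t)) + s4 b * (a * t + b * s + c * s4 t) +
      s4 c * (a * (o2 * s4 t) + b * t + c * s) = 1 ∧
    s4 a * (a * t + b * s + c * s4 t) + s4 b * (a * (o2 * s4 t) + b * t + c * s) +
      s4 (c * om) * (a * s + b * s4 t + c * (om * t)) = 0 := by decide +kernel

section Y

variable {Y : Matrix (Fin 6) (Fin 6) F4} (hY : Yᵀ * 1 * Y.map s4 = 1)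
  (h3 : ∀ v, Y *ᵥ (Y *ᵥ (Y *ᵥ v)) = om • v)
include hY h3

omit h3 in
theorem Y_pres (u v : Fin 6 → F4) : fJ s4 1 (Y *ᵥ u) (Y *ᵥ v) = fJ s4 1 u v := by
  rw [fJ_mulVec, hY]

theorem Y_02 (u v : Fin 6 → F4) : fJ s4 1 u (Y *ᵥ (Y *ᵥ v)) = o2 * fJ s4 1 (Y *ᵥ u) v := by
  rw [← Y_pres hY, h3, fJ_smul_right]; rfl

theorem Y_20 (u v : Fin 6 → F4) : fJ s4 1 (Y *ᵥ (Y *ᵥ u)) v = om * fJ s4 1 u (Y *ᵥ v) := by
  rw [← Y_pres hY, h3, fJ_smul_left]

theorem Y_step {v : Fin 6 → F4} (hv : fJ s4 1 v v ≠ 0) : ∃ a b c : F4, ∀ u,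
    u = a • v + b • Y *ᵥ v + c • Y *ᵥ (Y *ᵥ v) → fJ s4 1 u u = 1 ∧ fJ s4 1 u (Y *ᵥ u) = 0 := by
  obtain ⟨a, b, c, h1, h2⟩ := step_aux _ (fJ s4 1 v (Y *ᵥ v)) hv (fJ_conj s4_s4 v v)
  refine ⟨a, b, c, ?_⟩
  rintro u rfl
  rw [fJ_conj s4_s4] at h1 h2
  simp only [mulVec_add, mulVec_smul, h3, smul_smul, fJ_add_left, fJ_add_right, fJ_smul_left,
    fJ_smul_right, Y_pres hY, Y_02 hY h3 v, Y_20 hY h3 v v]
  exact ⟨h1, h2⟩

theorem Y_basis : ∃ u w : Fin 6 → F4, ∀ i j, fJ s4 1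
    (![u, Y *ᵥ u, Y *ᵥ (Y *ᵥ u), w, Y *ᵥ w, Y *ᵥ (Y *ᵥ w)] i)
    (![u, Y *ᵥ u, Y *ᵥ (Y *ᵥ u), w, Y *ᵥ w, Y *ᵥ (Y *ᵥ w)] j) =
      (1 : Matrix (Fin 6) (Fin 6) F4) i j := by
  obtain ⟨a, b, c, h⟩ := Y_step hY h3 (v := Pi.single 0 1) (by rw [fJ_single]; decide)
  obtain ⟨u, u0, u1⟩ : ∃ u, fJ s4 1 u u = 1 ∧ fJ s4 1 u (Y *ᵥ u) = 0 := ⟨_, h _ rfl⟩
  clear h a b c
  have u1' : fJ s4 1 (Y *ᵥ u) u = 0 := by rw [← fJ_conj s4_s4, u1, map_zero]
  let p : (Fin 6 → F4) → Fin 6 → F4 := fun x => x + (fJ s4 1 x u • u +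
    fJ s4 1 x (Y *ᵥ u) • Y *ᵥ u + fJ s4 1 x (Y *ᵥ (Y *ᵥ u)) • Y *ᵥ (Y *ᵥ u))
  have two : ∀ x : F4, x + x = 0 := by decide +kernel
  have p0 : ∀ x, fJ s4 1 (p x) u = 0 := fun x => by
    simp only [p, fJ_add_left, fJ_smul_left, u0, u1, u1', Y_20 hY h3 u u, mul_zero, add_zero,
      mul_one, two]
  have p1 : ∀ x, fJ s4 1 (p x) (Y *ᵥ u) = 0 := fun x => by
    simp only [p, fJ_add_left, fJ_smul_left, u0, u1, u1', Y_pres hY, mul_zero, add_zero, zero_add,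
      mul_one, two]
  have p2 : ∀ x, fJ s4 1 (p x) (Y *ᵥ (Y *ᵥ u)) = 0 := fun x => by
    simp only [p, fJ_add_left, fJ_smul_left, u0, u1, u1', Y_pres hY, Y_02 hY h3 u u, mul_zero,
      add_zero, zero_add, mul_one, two]
  obtain ⟨x, hx⟩ : ∃ x, fJ s4 1 (p x) (p x) ≠ 0 := by
    by_contra hc
    push Not at hc
    have e1 : ∀ (j : Fin 6) (y : Fin 6 → F4), fJ s4 1 (Pi.single j 1) y = s4 (y j) := fun j y => by
      simp [fJ_one, Pi.single_apply]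
    have e2 : ∀ j : Fin 6, 1 + (u j * s4 (u j) + (Y *ᵥ u) j * s4 ((Y *ᵥ u) j) +
        (Y *ᵥ (Y *ᵥ u)) j * s4 ((Y *ᵥ (Y *ᵥ u)) j)) = 0 := fun j => by
      have := hc (Pi.single j 1)
      conv_lhs at this => arg 4; unfold p
      simp only [fJ_add_right, fJ_smul_right, p0, p1, p2, mul_zero, add_zero] at this
      rw [← fJ_conj s4_s4, e1, s4_s4] at this
      simp only [p, e1, Pi.add_apply, Pi.smul_apply, smul_eq_mul, Pi.single_eq_same] at this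
      linear_combination this
    have e3 := Finset.sum_congr (s₁ := Finset.univ) rfl fun j _ => e2 j
    simp only [Finset.sum_add_distrib, ← fJ_one, Y_pres hY, u0] at e3
    revert e3
    decide +kernel
  obtain ⟨a, b, c, h⟩ := Y_step hY h3 hx
  obtain ⟨w0, w1⟩ := h _ rfl
  have q0 := p0 x
  have q1 := p1 x
  have q2 := p2 x
  generalize p x = v at *
  have q3 : fJ s4 1 (Y *ᵥ v) u = 0 := by
    rw [Y_02 hY h3] at q2
    exact (mul_eq_zero.1 q2).resolve_left (by decide)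
  have r0 : fJ s4 1 (a • v + b • Y *ᵥ v + c • Y *ᵥ (Y *ᵥ v)) u = 0 := by
    simp only [fJ_add_left, fJ_smul_left, q0, q1, q3, Y_20 hY h3 v, mul_zero, add_zero]
  have r1 : fJ s4 1 (a • v + b • Y *ᵥ v + c • Y *ᵥ (Y *ᵥ v)) (Y *ᵥ u) = 0 := by
    simp only [fJ_add_left, fJ_smul_left, q0, q1, q3, Y_pres hY, mul_zero, add_zero]
  have r2 : fJ s4 1 (a • v + b • Y *ᵥ v + c • Y *ᵥ (Y *ᵥ v)) (Y *ᵥ (Y *ᵥ u)) = 0 := by
    simp only [fJ_add_left, fJ_smul_left, q0, q1, q2, Y_pres hY, mul_zero, add_zero]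
  generalize a • v + b • Y *ᵥ v + c • Y *ᵥ (Y *ᵥ v) = w at *
  have w1' : fJ s4 1 (Y *ᵥ w) w = 0 := by rw [← fJ_conj s4_s4, w1, map_zero]
  have r3 : fJ s4 1 (Y *ᵥ w) u = 0 := by
    rw [Y_02 hY h3] at r2
    exact (mul_eq_zero.1 r2).resolve_left (by decide)
  have s0 : fJ s4 1 u w = 0 := by rw [← fJ_conj s4_s4, r0, map_zero]
  have s1 : fJ s4 1 (Y *ᵥ u) w = 0 := by rw [← fJ_conj s4_s4, r1, map_zero]
  have s3 : fJ s4 1 u (Y *ᵥ w) = 0 := by rw [← fJ_conj s4_s4, r3, map_zero]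
  refine ⟨u, w, fun i j => ?_⟩
  fin_cases i <;> fin_cases j <;>
    simp [-mulVec_mulVec, Y_pres hY, Y_02 hY h3 u, Y_02 hY h3 w, Y_20 hY h3 u u, Y_20 hY h3 u w,
      Y_20 hY h3 w u, Y_20 hY h3 w w, u0, u1, u1', w0, w1, w1', r0, r1, r3, s0, s1, s3]

end Y

/-- a cube root of a scalar -/
def Y6 : Matrix (Fin 6) (Fin 6) F4 := !![0, 0, om, 0, 0, 0; 1, 0, 0, 0, 0, 0; 0, 1, 0, 0, 0, 0;
  0, 0, 0, 0, 0, om; 0, 0, 0, 1, 0, 0; 0, 0, 0, 0, 1, 0]

/-- an alternating form -/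
def B6 : Matrix (Fin 6) (Fin 6) F4 := !![0, 0, 0, 1, 0, 0; 0, 0, 0, 0, 0, om; 0, 0, 0, 0, om, 0;
  1, 0, 0, 0, 0, 0; 0, 0, om, 0, 0, 0; 0, om, 0, 0, 0, 0]

/-- half of the alternating form -/
def D6 : Matrix (Fin 6) (Fin 6) F4 := !![0, 0, 0, 1, 0, 0; 0, 0, 0, 0, 0, om; 0, 0, 0, 0, om, 0;
  0, 0, 0, 0, 0, 0; 0, 0, 0, 0, 0, 0; 0, 0, 0, 0, 0, 0]

/-- a field automorphism -/
def P6 : Matrix (Fin 6) (Fin 6) F4 := diagonal ![1, om, o2, 1, om, o2]

/-- the compatible alternating forms -/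
def X6 (a b c : F4) : Matrix (Fin 6) (Fin 6) F4 := !![0, 0, 0, a, b, c; 0, 0, 0, b, c, om * a;
  0, 0, 0, c, om * a, om * b; a, b, c, 0, 0, 0; b, c, om * a, 0, 0, 0; c, om * a, om * b, 0, 0, 0]

theorem det_Y6 : Y6.det = o2 := by
  have h : Y6 = (diagonal ![1, 1, om, 1, 1, om]).submatrix
      (⟨![2, 0, 1, 5, 3, 4], ![1, 2, 0, 4, 5, 3], by decide, by decide⟩ : Equiv.Perm (Fin 6)) id := by
    decide +kernel
  rw [h, det_permute, det_diagonal]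
  rcases Int.units_eq_one_or (Equiv.Perm.sign (⟨![2, 0, 1, 5, 3, 4], ![1, 2, 0, 4, 5, 3],
    by decide, by decide⟩ : Equiv.Perm (Fin 6))) with h | h <;> rw [h] <;> decide +kernel

theorem X6_cases : ∀ a b c, (X6 a b c)ᵀ * (1 : Matrix (Fin 6) (Fin 6) F4) * (X6 a b c).map s4 = 1 →
    X6 a b c = a • B6 ∨
    (∃ l : F4, l ^ 6 = 1 ∧ X6 a b c = l • (B6 * Y6)) ∨
    ∃ l : F4, l ^ 6 = 1 ∧ X6 a b c = l • (B6 * Y6 * Y6) := by decide +kernel

theorem rows6 {Z : Matrix (Fin 6) (Fin 6) F4} (h : Z * Y6 = Y6ᵀ * Z) :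
    Z 1 = Z 0 ᵥ* Y6 ∧ Z 2 = Z 1 ᵥ* Y6 ∧ Z 4 = Z 3 ᵥ* Y6 ∧ Z 5 = Z 4 ᵥ* Y6 := by
  have : ∀ i, Z i ᵥ* Y6 = (Y6ᵀ * Z) i := fun i => by rw [← h]; rfl
  simp only [this]
  refine ⟨?_, ?_, ?_, ?_⟩ <;> ext1 j <;> simp [mul_apply, Fin.sum_univ_six, Y6]

theorem uu_mul {n : ℕ} {K : Type*} [Field K] {σ : K →+* K} {A B : Matrix (Fin n) (Fin n) K}
    (h : Aᵀ * 1 * A.map σ = 1) (h' : Bᵀ * 1 * B.map σ = 1) :
    (A * B)ᵀ * 1 * (A * B).map σ = 1 := by
  rw [transpose_mul, Matrix.map_mul, show Bᵀ * Aᵀ * 1 * (A.map σ * B.map σ) =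
    Bᵀ * (Aᵀ * 1 * A.map σ) * B.map σ by simp only [Matrix.mul_assoc, Matrix.one_mul], h, h']

theorem X6_eq {X : Matrix (Fin 6) (Fin 6) F4} (hXY : X * Y6 = Y6ᵀ * X) (hs : Xᵀ = X)
    (alt : ∀ j < 3, ∀ i, (X * Y6 ^ j) i i = 0) : ∃ a b c, X = X6 a b c := by
  obtain ⟨r1, r2, r4, r5⟩ := rows6 hXY
  obtain ⟨t1, t2, t4, t5⟩ := rows6 (Z := X6 (X 0 3) (X 0 4) (X 0 5)) (by
    generalize X 0 3 = a, X 0 4 = b, X 0 5 = c
    revert a b c
    decide +kernel)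
  have a00 := alt 0 (by norm_num) 0
  have a01 := alt 1 (by norm_num) 0
  have a02 := alt 2 (by norm_num) 0
  have a30 := alt 0 (by norm_num) 3
  have a31 := alt 1 (by norm_num) 3
  have a32 := alt 2 (by norm_num) 3
  simp [sq, mul_apply, Fin.sum_univ_six, Y6] at a00 a01 a02 a30 a31 a32
  have sy : ∀ i j, X i j = X j i := fun i j => (congrFun (congrFun hs i) j).symm
  have b1 := congrFun r1 3
  have b2 := congrFun r2 3
  have b3 := congrFun r1 4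
  simp [vecMul, dotProduct, Fin.sum_univ_six, Y6] at b1 b2 b3
  have e0 : X 0 = X6 (X 0 3) (X 0 4) (X 0 5) 0 := by
    ext1 j; fin_cases j <;> simp [X6, a00, a01, a02]
  have e3 : X 3 = X6 (X 0 3) (X 0 4) (X 0 5) 3 := by
    ext1 j; fin_cases j <;> simp [X6, a30, a31, a32, sy 3 0, sy 3 1, sy 3 2, b1, b2, b3]
  refine ⟨X 0 3, X 0 4, X 0 5, ?_⟩
  generalize X6 (X 0 3) (X 0 4) (X 0 5) = Z at *
  have e1 : X 1 = Z 1 := by rw [r1, t1, e0]
  have e2 : X 2 = Z 2 := by rw [r2, t2, e1]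
  have e4 : X 4 = Z 4 := by rw [r4, t4, e3]
  have e5 : X 5 = Z 5 := by rw [r5, t5, e4]
  funext i
  fin_cases i
  exacts [e0, e1, e2, e3, e4, e5]

theorem cent62 {g : Matrix (Fin 6) (Fin 6) F4} (hg : Uni s4 1 g) (h : g * Y6 = Y6 * g) :
    g ∈ simM B6 := by
  have two : ∀ x : F4, x + x = 0 := by decide +kernel
  have hBY : B6 * Y6 = Y6ᵀ * B6 := by decide +kernel
  have hXY : gᵀ * B6 * g * Y6 = Y6ᵀ * (gᵀ * B6 * g) := by
    rw [Matrix.mul_assoc, h, ← Matrix.mul_assoc, Matrix.mul_assoc gᵀ, hBY, ← Matrix.mul_assoc,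
      ← transpose_mul, ← h, transpose_mul]
    simp only [Matrix.mul_assoc]
  have hs : (gᵀ * B6 * g)ᵀ = gᵀ * B6 * g := by
    rw [transpose_mul, transpose_mul, transpose_transpose, show B6ᵀ = B6 by decide +kernel,
      Matrix.mul_assoc]
  have alt : ∀ j < 3, ∀ i, (gᵀ * B6 * g * Y6 ^ j) i i = 0 := fun j hj i => by
    have h1 : ∀ j < 3, B6 * Y6 ^ j = D6 * Y6 ^ j + (D6 * Y6 ^ j)ᵀ := by decide +kernel
    rw [Matrix.mul_assoc, (Commute.pow_right h j).eq, ← Matrix.mul_assoc, Matrix.mul_assoc gᵀ,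
      h1 j hj, Matrix.mul_add, Matrix.add_mul, Matrix.add_apply]
    generalize D6 * Y6 ^ j = E
    rw [show gᵀ * Eᵀ * g = (gᵀ * E * g)ᵀ by
      rw [transpose_mul, transpose_mul, transpose_transpose, Matrix.mul_assoc], transpose_apply, two]
  have hu : (gᵀ * B6 * g)ᵀ * 1 * (gᵀ * B6 * g).map s4 = 1 := by
    refine uu_mul (uu_mul ?_ (by decide +kernel)) hg.1
    have := congrArg transpose (mul_eq_one_comm.1 hg.1)
    rwa [Matrix.mul_one, transpose_mul, transpose_one, ← Matrix.mul_one gᵀᵀ] at this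
  have hd : (gᵀ * B6 * g).det = B6.det := by
    rw [det_mul, det_mul, det_transpose, hg.2, one_mul, mul_one]
  have hB : B6.det ≠ 0 := left_ne_zero_of_mul_eq_one (b := (B6.map s4).det) (by
    rw [← det_mul, show B6 * B6.map s4 = 1 by decide +kernel, det_one])
  obtain ⟨a, b, c, e⟩ := X6_eq hXY hs alt
  change ∃ c : F4, gᵀ * B6 * g = c • B6
  rw [e] at hu hd ⊢
  rcases X6_cases _ _ _ hu with h | ⟨l, hl, h⟩ | ⟨l, hl, h⟩
  · exact ⟨_, h⟩
  · rw [h, det_smul, Fintype.card_fin, hl, one_mul, det_mul, det_Y6, mul_eq_left₀ hB] at hd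
    exact absurd hd (by decide)
  · rw [h, det_smul, Fintype.card_fin, hl, one_mul, Matrix.mul_assoc, det_mul, det_mul, det_Y6,
      mul_eq_left₀ hB] at hd
    exact absurd hd (by decide)

theorem norm62 {g : Matrix (Fin 6) (Fin 6) F4} (hg : Uni s4 1 g) {j : ℕ}
    (h : g * Y6 = om ^ j • (Y6 * g)) : g ∈ simM B6 := by
  have p3 : P6 ^ 3 = 1 := by decide +kernel
  have pu : Uni s4 1 P6 := ⟨by decide +kernel, by rw [P6, det_diagonal]; decide +kernel⟩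
  have pm : P6 ∈ simM B6 := ⟨1, by decide +kernel⟩
  have pY : ∀ k : ℕ, P6 ^ k * Y6 = om ^ k • (Y6 * P6 ^ k) := fun k => by
    induction k with
    | zero => simp
    | succ k ih =>
      rw [pow_succ', Matrix.mul_assoc, ih, Matrix.mul_smul, ← Matrix.mul_assoc,
        show P6 * Y6 = om • (Y6 * P6) by decide +kernel, Matrix.smul_mul, smul_smul, pow_succ,
        Matrix.mul_assoc]
  have h1 := cent62 ((pu.pow (2 * j)).mul hg) (by
    rw [Matrix.mul_assoc, h, Matrix.mul_smul, ← Matrix.mul_assoc, pY, Matrix.smul_mul, smul_smul,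
      ← pow_add, show j + 2 * j = 3 * j by ring, pow_mul, show om ^ 3 = 1 by decide +kernel,
      one_pow, one_smul, Matrix.mul_assoc])
  have h2 : g = P6 ^ j * (P6 ^ (2 * j) * g) := by
    rw [← Matrix.mul_assoc, ← pow_add, show j + 2 * j = 3 * j by ring, pow_mul, p3, one_pow,
      Matrix.one_mul]
  rw [h2]
  exact (simM B6).mul_mem ((simM B6).pow_mem pm _) h1

theorem exists_cube (hF : Fintype.card F = 2 ^ 2) (e : F ≃+* F4)
    {L : Subalgebra F (Matrix (Fin 6) (Fin 6) F)} (hL : IsFieldSubalgebra 3 L)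
    (h : IsAdjointClosedFor (hermForm 6 F 2) L) : ∃ y ∈ GU 6 F 2,
      (y : Matrix (Fin 6) (Fin 6) F) ^ 3 = e.symm om • (1 : Matrix (Fin 6) (Fin 6) F) ∧
      ∀ g ∈ subalgebraNormalizer L, ∃ j : ℕ, (g : Matrix (Fin 6) (Fin 6) F) * y =
        e.symm om ^ j • ((y : Matrix (Fin 6) (Fin 6) F) * g) := by
  let : Field L := (isField_of hL).toField
  set w := algebraMap F L (e.symm om) with hw
  have w1 : w ^ 2 + w + 1 = 0 := by
    rw [hw, ← map_pow, ← map_pow, ← map_add, ← map_add, ← map_one (algebraMap F L), ← map_add,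
      ← map_one e.symm, ← map_add, show om ^ 2 + om + 1 = 0 by decide +kernel, map_zero, map_zero]
  have w3 : w ^ 3 = 1 := by linear_combination (w - 1) * w1
  have cube : ∀ z : L, z ^ 3 = 1 → z = 1 ∨ z = w ∨ z = w ^ 2 := fun z hz => by
    have : (z - 1) * ((z - w) * (z - w ^ 2)) = 0 := by
      linear_combination hz - w3 + (-z ^ 2 + w * z) * w1
    simpa only [mul_eq_zero, sub_eq_zero] using this
  obtain ⟨y, hy⟩ : ∃ y : L, y ^ 3 = w := by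
    obtain ⟨y, hy⟩ := exists_prim hL (d := 9) (by rw [hF]; norm_num)
    rcases cube (y ^ 3) (by rw [← pow_mul, show 3 * 3 = 9 from rfl, ← hy]; exact pow_orderOf_eq_one y) with h | h | h
    · have := orderOf_dvd_of_pow_eq_one h
      rw [hy] at this
      exact absurd this (by norm_num)
    · exact ⟨y, h⟩
    · exact ⟨y ^ 2, by linear_combination (y ^ 3 + w ^ 2) * h + w * w3⟩
  have y0 : y ≠ 0 := by
    rintro rfl
    rw [← hy] at w3
    simp at w3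
  have aw : adjL hF hL h w = w ^ 2 := by rw [hw, adjL_algebraMap, map_pow]
  have hw2 : w ≠ w ^ 2 := fun h => by
    have h1 : w * (w - 1) = 0 := by linear_combination -h
    rcases mul_eq_zero.1 h1 with h2 | h2
    · rw [h2] at w3; simp at w3
    · rw [sub_eq_zero, hw, ← map_one (algebraMap F L), (algebraMap F L).injective.eq_iff,
        ← map_one e.symm, e.symm.injective.eq_iff] at h2
      exact absurd h2 (by decide)
  have u3 : adjL hF hL h y * y = 1 := by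
    have h1 : adjL hF hL h (adjL hF hL h y * y) = adjL hF hL h y * y := by
      rw [map_mul, adjL_adjL, mul_comm]
    rcases cube (adjL hF hL h y * y) (by
      rw [mul_pow, ← map_pow, hy, aw, ← pow_succ, w3]) with h2 | h2 | h2
    · exact h2
    · rw [h2, aw] at h1
      exact absurd h1.symm hw2
    · rw [h2, map_pow, aw] at h1
      exact absurd (by linear_combination h1 - w * w3) hw2
  have e1 : (adjL hF hL h y).1 * y.1 = 1 := congrArg Subtype.val u3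
  have e2 : y.1 ^ 3 = e.symm om • (1 : Matrix (Fin 6) (Fin 6) F) := by
    rw [← Algebra.algebraMap_eq_smul_one]
    exact congrArg Subtype.val hy
  refine ⟨⟨y.1, (adjL hF hL h y).1, mul_eq_one_comm.1 e1, e1⟩, mem_GU_of hF e1, e2, fun g hg => ?_⟩
  let z : L := ⟨_, (hg y.1).1 y.2⟩
  have z3 : z ^ 3 = w := Subtype.ext (by
    change ((g : Matrix _ _ F) * y.1 * ((g⁻¹ : GL (Fin 6) F) : Matrix _ _ F)) ^ 3 =
      algebraMap F _ (e.symm om)
    rw [Units.conj_pow, e2, Algebra.algebraMap_eq_smul_one]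
    simp)
  obtain ⟨j, hj⟩ : ∃ j : ℕ, z = w ^ j * y := by
    have h0 : w ≠ 0 := by rw [← hy]; exact pow_ne_zero _ y0
    rcases cube (z / y) (by rw [div_pow, z3, hy, div_self h0]) with h1 | h1 | h1
    exacts [⟨0, by rw [pow_zero, ← h1, div_mul_cancel₀ _ y0]⟩,
      ⟨1, by rw [pow_one, ← h1, div_mul_cancel₀ _ y0]⟩, ⟨2, by rw [← h1, div_mul_cancel₀ _ y0]⟩]
  refine ⟨j, ?_⟩
  rw [hw, ← map_pow, ← Algebra.smul_def] at hj
  have h2 : (g : Matrix _ _ F) * y.1 * ((g⁻¹ : GL (Fin 6) F) : Matrix _ _ F) =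
    e.symm om ^ j • y.1 := congrArg Subtype.val hj
  rw [← Matrix.smul_mul, ← h2, Units.inv_mul_cancel_right]

theorem ext62 (hF : Fintype.card F = 2 ^ 2) {L : Subalgebra F (Matrix (Fin 6) (Fin 6) F)}
    (hL : IsFieldSubalgebra 3 L) (h : IsAdjointClosedFor (hermForm 6 F 2) L) :
    ¬ IsMaximalIn (GG 6 F 2) (subalgebraNormalizer L ⊓ GG 6 F 2) := by
  obtain ⟨e⟩ := nonempty_F4 hF
  obtain ⟨y, hy, y3, hN⟩ := exists_cube hF e hL h
  obtain ⟨m₀, he⟩ := exists_std (n := 6) hF e s4_eq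
  have y3' : ∀ v, (y : Matrix (Fin 6) (Fin 6) F) *ᵥ ((y : Matrix (Fin 6) (Fin 6) F) *ᵥ
      ((y : Matrix (Fin 6) (Fin 6) F) *ᵥ v)) = e.symm om • v := fun v => by
    rw [mulVec_mulVec, mulVec_mulVec, ← pow_three', y3, smul_mulVec, one_mulVec]
  obtain ⟨u, w, huw⟩ := Y_basis (m₀.mem_GU.1 hy) fun v => by
    obtain ⟨v, rfl⟩ := m₀.c.surjective v
    rw [m₀.r_apply, ← m₀.c_mulVec, ← m₀.c_mulVec, ← m₀.c_mulVec, y3', m₀.c_smul, he,
      RingEquiv.apply_symm_apply]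
  obtain ⟨u, rfl⟩ := m₀.c.surjective u
  obtain ⟨w, rfl⟩ := m₀.c.surjective w
  simp only [m₀.r_apply, ← m₀.c_mulVec] at huw
  set Y := (y : Matrix (Fin 6) (Fin 6) F)
  obtain ⟨m, he', hm⟩ := exists_mdl (σ := s4) (J := 1) hF e s4_eq (mul_one 1)
    ![u, Y *ᵥ u, Y *ᵥ (Y *ᵥ u), w, Y *ᵥ w, Y *ᵥ (Y *ᵥ w)] fun i j => by
      rw [← huw, ← he, m₀.form]
      congr 1
      · fin_cases i <;> rfl
      · fin_cases j <;> rfl
  have hY : m.ρ Y = Y6 := Matrix.ext_of_mulVec_single fun i => by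
    rw [← hm i, ← m.c_mulVec, hm i]
    fin_cases i
    · exact (hm 1).trans (by decide +kernel)
    · exact (hm 2).trans (by decide +kernel)
    · refine (congrArg m.c (y3' u)).trans ?_
      rw [m.c_smul, he', RingEquiv.apply_symm_apply, show m.c u = _ from hm 0]
      decide +kernel
    · exact (hm 4).trans (by decide +kernel)
    · exact (hm 5).trans (by decide +kernel)
    · refine (congrArg m.c (y3' w)).trans ?_
      rw [m.c_smul, he', RingEquiv.apply_symm_apply, show m.c w = _ from hm 3]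
      decide +kernel
  have key : ∀ g ∈ subalgebraNormalizer L, ∃ j : ℕ, m.r g * Y6 = om ^ j • (Y6 * m.r g) := by
    intro g hg
    obtain ⟨j, hj⟩ := hN g hg
    refine ⟨j, ?_⟩
    rw [← hY, m.r_apply, ← map_mul, hj, m.ρ_smul, map_mul, map_pow, he', RingEquiv.apply_symm_apply]
  refine m.not_max (simM B6) (fun g hg hu => ?_)
    (a := !![0, 0, 0, 1, 0, 0; 0, 1, 0, 0, 0, 0; 0, 0, 1, 0, 0, 0; 1, 0, 0, 0, 0, 0;
      0, 0, 0, 0, 1, 0; 0, 0, 0, 0, 0, 1])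
    (b := !![0, 1, 0, 0, 0, 0; 1, 0, 0, 0, 0, 0; 0, 0, 1, 0, 0, 0; 0, 0, 0, 1, 0, 0;
      0, 0, 0, 0, 1, 0; 0, 0, 0, 0, 0, 1])
    ⟨by decide +kernel, det_of_pow (by decide +kernel) h4_2'⟩ ⟨1, by decide +kernel⟩
    (fun g hg hA => ?_) ⟨by decide +kernel, det_of_pow (by decide +kernel) h4_2'⟩ ?_
  · obtain ⟨j, hj⟩ := key g hg
    exact norm62 hu hj
  · obtain ⟨j, hj⟩ := key g hg
    rw [hA] at hj
    generalize om ^ j = c at hj
    revert c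
    decide +kernel
  · rintro ⟨c, hc⟩
    revert c
    decide +kernel

end CA.NM
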