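import Cfsg.Agent.Lib.Lin.NM4
import Cfsg.Agent.Lib.Lin.NM3

/-! Non-maximal geometric subgroups of `SU₃(3)` and `SU₃(5)`: frames and Singer cycles. -/

set_option autoImplicit false
set_option maxRecDepth 100000

namespace CA.NM

open Matrix Cfsg Cfsg.Geo CA.CForm CA.SmallF Module

section Gen

variable {K : Type*} [Field K] {σ : K →+* K}

/-- the determinant -/
def det3 (p q r : Fin 3 → K) : K := p 0 * q 1 * r 2 - p 0 * q 2 * r 1 - p 1 * q 0 * r 2 +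
  p 1 * q 2 * r 0 + p 2 * q 0 * r 1 - p 2 * q 1 * r 0

/-- the form on a vector and its image -/
def hh3 (σ : K →+* K) (A : Matrix (Fin 3) (Fin 3) K) (x y z : K) : K :=
  (A 0 0 * x + A 0 1 * y + A 0 2 * z) * σ x + (A 1 0 * x + A 1 1 * y + A 1 2 * z) * σ y +
    (A 2 0 * x + A 2 1 * y + A 2 2 * z) * σ z

theorem cent3 {pw : ℕ → Matrix (Fin 3) (Fin 3) K} (hpw : ∀ i ≤ 7, pw 1 ^ i = pw i)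
    {M : Submonoid (Matrix (Fin 3) (Fin 3) K)} (ha : pw 1 ∈ M) {w : K}
    (hw : w • (1 : Matrix (Fin 3) (Fin 3) K) ∈ M) {V W : Matrix (Fin 3) (Fin 3) K}
    (hV : ∀ j : Fin 3, V *ᵥ Pi.single j 1 = pw j *ᵥ Pi.single 0 1) (hW : V * W = 1)
    {M' : Type*} {nm : K → M'} [AddCommMonoid M'] [One M']
    (hnm : ∀ x y z, x * σ x + y * σ y + z * σ z = 1 → nm x + nm y + nm z = 1) {t d : K}
    (ht : hh3 σ (pw 1) 1 0 0 = t) (hd : det3 (Vᵀ 0) (Vᵀ 1) (Vᵀ 2) = d)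
    (hc : ∀ x y z, nm x + nm y + nm z = 1 → hh3 σ (pw 1) x y z = t →
      det3 ![x, y, z] (pw 1 *ᵥ ![x, y, z]) (pw 2 *ᵥ ![x, y, z]) = d →
      ∃ k < 7, ∃ l < 3, ![x, y, z] = w ^ l • (pw k)ᵀ 0)
    (x : Matrix (Fin 3) (Fin 3) K) (hx : Uni σ 1 x) (h : x * pw 1 = pw 1 * x) : x ∈ M := by
  have e : ∀ k ≤ 7, pw k *ᵥ (x *ᵥ Pi.single 0 1) = x *ᵥ (pw k *ᵥ Pi.single 0 1) := fun k hk => by
    rw [mulVec_mulVec, ← hpw k hk, ← (Commute.pow_right h k).eq, ← mulVec_mulVec]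
  have hh : ∀ v : Fin 3 → K, fJ σ 1 (pw 1 *ᵥ v) v = hh3 σ (pw 1) (v 0) (v 1) (v 2) := fun v => by
    simp only [fJ_one, mulVec, dotProduct, Fin.sum_univ_three, hh3]
  have dd : ∀ A : Matrix (Fin 3) (Fin 3) K, det3 (Aᵀ 0) (Aᵀ 1) (Aᵀ 2) = A.det := fun A => by
    rw [← det_transpose, det_fin_three]; rfl
  have e0 := hx.pres (Pi.single 0 1) (Pi.single 0 1)
  have e1 := hx.pres (pw 1 *ᵥ Pi.single 0 1) (Pi.single 0 1)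
  rw [fJ_single, fJ_one, Fin.sum_univ_three, one_apply_eq] at e0
  rw [← e 1 (by norm_num), hh, hh] at e1
  have hv : ∀ v : Fin 3 → K, ![v 0, v 1, v 2] = v := fun v => by
    ext1 i; fin_cases i <;> rfl
  have e2 : ∀ j : Fin 3, (x * V)ᵀ j = pw j *ᵥ (x *ᵥ Pi.single 0 1) := fun j => by
    rw [e j (by omega), ← hV, mulVec_mulVec, mulVec_single_one]; rfl
  obtain ⟨k, hk, l, -, h1⟩ := hc _ _ _ (hnm _ _ _ e0) (e1.trans (by simpa using ht)) (by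
    have e3 := e2 0
    rw [Fin.val_zero, ← hpw 0 (by norm_num), pow_zero, one_mulVec] at e3
    have e4 : (x * V).det = V.det := by rw [det_mul, hx.2, one_mul]
    rw [hv, ← hd, dd, ← e4, ← dd, e2 1, e2 2, e3]
    rfl)
  rw [hv, ← hpw k hk.le] at h1
  have h2 : x = (w • 1) ^ l * pw 1 ^ k := by
    refine eq_of_cyc (V := V) (V' := W) (v := Pi.single 0 1) (fun j => ?_) hW h ?_ ?_
    · rw [hpw j (by omega), hV]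
    · rw [smul_pow, one_pow, smul_mul_assoc, one_mul, smul_mul_assoc, mul_smul_comm,
        pow_mul_comm']
    · rw [h1, smul_pow, one_pow, smul_mul_assoc, one_mul, smul_mulVec, mulVec_single_one]
      rfl
  rw [h2]
  exact M.mul_mem (M.pow_mem hw _) (M.pow_mem ha _)

theorem norm3 {pw pb : ℕ → Matrix (Fin 3) (Fin 3) K} (hpw : ∀ i ≤ 7, pw 1 ^ i = pw i)
    (hpb : ∀ i ≤ 3, pb 1 ^ i = pb i) (h3 : pb 3 = 1) {M : Submonoid (Matrix (Fin 3) (Fin 3) K)}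
    (hb : Uni σ 1 (pb 1)) (hbM : pb 1 ∈ M)
    (hI : ∀ i < 7, (pw i).trace = (pw 1).trace → ∃ j ≤ 3, pb j * pw i = pw 1 * pb j)
    (hC : ∀ x, Uni σ 1 x → x * pw 1 = pw 1 * x → x ∈ M) :
    ∀ A, Uni σ 1 A → ∀ i < 7, A * pw 1 = pw 1 ^ i * A → A ∈ M := by
  refine norm_mem hb hbM ((hpb 3 le_rfl).trans h3) (fun i hi ht => ?_) hC
  rw [hpw i hi.le] at ht ⊢
  obtain ⟨j, hj, h⟩ := hI i hi ht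
  exact ⟨j, hj, by rwa [hpb j hj]⟩

theorem uni3 {A : Matrix (Fin 3) (Fin 3) K} (h : Aᵀ * 1 * A.map σ = 1)
    (h' : det3 (A 0) (A 1) (A 2) = 1) : Uni σ 1 A := ⟨h, by rw [det_fin_three]; exact h'⟩

end Gen

variable {F : Type*} [Field F] [Fintype F]

/-- powers of an element of order 7 -/
def pw9 (i : ℕ) : Matrix (Fin 3) (Fin 3) F9 := [
  !![⟨1, 0⟩, ⟨0, 0⟩, ⟨0, 0⟩; ⟨0, 0⟩, ⟨1, 0⟩, ⟨0, 0⟩; ⟨0, 0⟩, ⟨0, 0⟩, ⟨1, 0⟩],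
  !![⟨1, 1⟩, ⟨1, 0⟩, ⟨2, 0⟩; ⟨0, 0⟩, ⟨2, 1⟩, ⟨2, 1⟩; ⟨1, 1⟩, ⟨2, 0⟩, ⟨1, 0⟩],
  !![⟨2, 1⟩, ⟨1, 2⟩, ⟨0, 0⟩; ⟨1, 0⟩, ⟨1, 0⟩, ⟨2, 2⟩; ⟨1, 0⟩, ⟨1, 0⟩, ⟨1, 1⟩],
  !![⟨1, 0⟩, ⟨2, 0⟩, ⟨1, 1⟩; ⟨1, 2⟩, ⟨1, 2⟩, ⟨0, 0⟩; ⟨1, 0⟩, ⟨2, 0⟩, ⟨2, 2⟩],
  !![⟨1, 0⟩, ⟨1, 1⟩, ⟨1, 0⟩; ⟨2, 0⟩, ⟨1, 1⟩, ⟨2, 0⟩; ⟨1, 2⟩, ⟨0, 0⟩, ⟨2, 1⟩],
  !![⟨2, 2⟩, ⟨1, 0⟩, ⟨1, 0⟩; ⟨1, 1⟩, ⟨1, 0⟩, ⟨1, 0⟩; ⟨0, 0⟩, ⟨2, 1⟩, ⟨1, 2⟩],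
  !![⟨1, 2⟩, ⟨0, 0⟩, ⟨1, 2⟩; ⟨1, 0⟩, ⟨2, 2⟩, ⟨2, 0⟩; ⟨2, 0⟩, ⟨2, 2⟩, ⟨1, 0⟩],
  !![⟨1, 0⟩, ⟨0, 0⟩, ⟨0, 0⟩; ⟨0, 0⟩, ⟨1, 0⟩, ⟨0, 0⟩; ⟨0, 0⟩, ⟨0, 0⟩, ⟨1, 0⟩]].getD i 1

/-- powers of an element of order 3 -/
def pb9 (i : ℕ) : Matrix (Fin 3) (Fin 3) F9 := [
  !![⟨1, 0⟩, ⟨0, 0⟩, ⟨0, 0⟩; ⟨0, 0⟩, ⟨1, 0⟩, ⟨0, 0⟩; ⟨0, 0⟩, ⟨0, 0⟩, ⟨1, 0⟩],
  !![⟨0, 0⟩, ⟨2, 0⟩, ⟨0, 0⟩; ⟨0, 0⟩, ⟨0, 0⟩, ⟨1, 0⟩; ⟨2, 0⟩, ⟨0, 0⟩, ⟨0, 0⟩],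
  !![⟨0, 0⟩, ⟨0, 0⟩, ⟨2, 0⟩; ⟨2, 0⟩, ⟨0, 0⟩, ⟨0, 0⟩; ⟨0, 0⟩, ⟨1, 0⟩, ⟨0, 0⟩],
  !![⟨1, 0⟩, ⟨0, 0⟩, ⟨0, 0⟩; ⟨0, 0⟩, ⟨1, 0⟩, ⟨0, 0⟩; ⟨0, 0⟩, ⟨0, 0⟩, ⟨1, 0⟩]].getD i 1

/-- a code -/
def cd9 (x : F9) : ℕ := x.re.val + 3 * x.im.val

/-- an orbit of `L₂(7)` -/
abbrev pr9 (x y z : F9) : Prop := Nat.testBit
  5517167182333183561926069897520658810492814024211603771784138427895852559356442643580228599733404681717015403350270060698752584688970371967806625088130512879358750504139373172916910561199184950783796580724330564158030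
  (cd9 x + 9 * cd9 y + 81 * cd9 z) = true

theorem pw9_eq : ∀ i ≤ 7, pw9 1 ^ i = pw9 i := pow_eq_tab (by decide +kernel) (by decide +kernel)
theorem pb9_eq : ∀ i ≤ 3, pb9 1 ^ i = pb9 i := pow_eq_tab (by decide +kernel) (by decide +kernel)

theorem singer33 (hF : Fintype.card F = 3 ^ 2) {L : Subalgebra F (Matrix (Fin 3) (Fin 3) F)}
    (hL : IsFieldSubalgebra 3 L) (h : IsAdjointClosedFor (hermForm 3 F 3) L) :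
    ¬ IsMaximalIn (GG 3 F 3) (subalgebraNormalizer L ⊓ GG 3 F 3) := by
  obtain ⟨e⟩ := nonempty_F9 hF
  have hc := PSUOrd.card_SU hF (n := 3) (by norm_num)
  refine singer_not_max hF Nat.prime_three e s9_eq hL h (p := 7) (by norm_num)
    (by rw [hF]; norm_num) (by decide) (by decide +kernel) ?_
    (presM fun v => pr9 (v 0) (v 1) (v 2)) (a := pw9 1)
    (b := !![2, 0, 0; 0, 0, ⟨0, 2⟩; 0, ⟨0, 1⟩, 0]) (c := !![0, 1, 0; 0, 0, 1; 1, 0, 0])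
    (uni3 (by decide +kernel) (by decide +kernel)) ((pw9_eq 7 le_rfl).trans (by decide +kernel))
    (by decide +kernel)
    (norm3 pw9_eq pb9_eq (by decide +kernel) (uni3 (by decide +kernel) (by decide +kernel))
      (mem3 (by decide +kernel)) (by decide +kernel)
      (cent3 pw9_eq (mem3 (by decide +kernel)) (w := 1) (by rw [one_smul]; exact one_mem _)
        (V := !![⟨1, 0⟩, ⟨1, 1⟩, ⟨2, 1⟩; ⟨0, 0⟩, ⟨0, 0⟩, ⟨1, 0⟩; ⟨0, 0⟩, ⟨1, 1⟩, ⟨1, 0⟩])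
        (W := !![⟨1, 0⟩, ⟨2, 2⟩, ⟨2, 0⟩; ⟨0, 0⟩, ⟨1, 2⟩, ⟨2, 1⟩; ⟨0, 0⟩, ⟨1, 0⟩, ⟨0, 0⟩])
        (by decide +kernel) (by decide +kernel) (nm := fun x => x * s9 x) (fun _ _ _ h => h)
        (t := ⟨1, 1⟩) (d := ⟨2, 2⟩) (by decide +kernel) (by decide +kernel) (by decide +kernel)))
    (uni3 (by decide +kernel) (by decide +kernel)) (mem3 (by decide +kernel)) (fun i hi => ?_)
    (uni3 (by decide +kernel) (by decide +kernel))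
    (fun h => absurd (h ![1, ⟨2, 1⟩, 1] (by decide +kernel)) (by decide +kernel))
  · rw [card_GG]
    have : Nat.card (SU 3 F 3) = 6048 := by
      rw [show 3 ^ (3 * (3 - 1) / 2) * ∏ i ∈ Finset.range 3, PSUOrd.U 3 (i + 1) = 24192 by
        decide +kernel] at hc
      omega
    rw [this]
    norm_num
  · rw [pw9_eq i hi.le]
    revert i
    decide +kernel

/-- powers of an element of order 7 -/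
def pw25 (i : ℕ) : Matrix (Fin 3) (Fin 3) F25 := [
  !![⟨1, 0⟩, ⟨0, 0⟩, ⟨0, 0⟩; ⟨0, 0⟩, ⟨1, 0⟩, ⟨0, 0⟩; ⟨0, 0⟩, ⟨0, 0⟩, ⟨1, 0⟩],
  !![⟨1, 2⟩, ⟨0, 0⟩, ⟨4, 3⟩; ⟨1, 1⟩, ⟨4, 2⟩, ⟨1, 1⟩; ⟨2, 0⟩, ⟨0, 1⟩, ⟨2, 0⟩],
  !![⟨2, 0⟩, ⟨1, 4⟩, ⟨4, 2⟩; ⟨0, 1⟩, ⟨1, 2⟩, ⟨0, 0⟩; ⟨3, 0⟩, ⟨4, 1⟩, ⟨4, 2⟩],
  !![⟨4, 3⟩, ⟨4, 2⟩, ⟨0, 0⟩; ⟨4, 4⟩, ⟨2, 0⟩, ⟨1, 2⟩; ⟨2, 0⟩, ⟨4, 1⟩, ⟨1, 3⟩],
  !![⟨4, 2⟩, ⟨4, 1⟩, ⟨2, 0⟩; ⟨4, 3⟩, ⟨2, 0⟩, ⟨4, 4⟩; ⟨0, 0⟩, ⟨1, 3⟩, ⟨1, 2⟩],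
  !![⟨2, 0⟩, ⟨0, 4⟩, ⟨3, 0⟩; ⟨1, 1⟩, ⟨1, 3⟩, ⟨4, 4⟩; ⟨4, 3⟩, ⟨0, 0⟩, ⟨4, 3⟩],
  !![⟨1, 3⟩, ⟨1, 4⟩, ⟨2, 0⟩; ⟨0, 0⟩, ⟨4, 3⟩, ⟨0, 4⟩; ⟨4, 2⟩, ⟨1, 4⟩, ⟨2, 0⟩],
  !![⟨1, 0⟩, ⟨0, 0⟩, ⟨0, 0⟩; ⟨0, 0⟩, ⟨1, 0⟩, ⟨0, 0⟩; ⟨0, 0⟩, ⟨0, 0⟩, ⟨1, 0⟩]].getD i 1

/-- powers of an element of order 3 -/
def pb25 (i : ℕ) : Matrix (Fin 3) (Fin 3) F25 := [
  !![⟨1, 0⟩, ⟨0, 0⟩, ⟨0, 0⟩; ⟨0, 0⟩, ⟨1, 0⟩, ⟨0, 0⟩; ⟨0, 0⟩, ⟨0, 0⟩, ⟨1, 0⟩],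
  !![⟨0, 0⟩, ⟨0, 0⟩, ⟨4, 0⟩; ⟨2, 2⟩, ⟨0, 0⟩, ⟨0, 0⟩; ⟨0, 0⟩, ⟨3, 2⟩, ⟨0, 0⟩],
  !![⟨0, 0⟩, ⟨2, 3⟩, ⟨0, 0⟩; ⟨0, 0⟩, ⟨0, 0⟩, ⟨3, 3⟩; ⟨4, 0⟩, ⟨0, 0⟩, ⟨0, 0⟩],
  !![⟨1, 0⟩, ⟨0, 0⟩, ⟨0, 0⟩; ⟨0, 0⟩, ⟨1, 0⟩, ⟨0, 0⟩; ⟨0, 0⟩, ⟨0, 0⟩, ⟨1, 0⟩]].getD i 1

/-- the norm -/
def nm25 (x : F25) : ZMod 5 := x.re * x.re + 3 * x.im * x.im

theorem nm25_mul : ∀ d : F25, d * s25 d = 1 → ∀ x, nm25 (d * x) = nm25 x := by decide +kernel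

theorem nm25_eq : ∀ x : F25, (x * s25 x).re = nm25 x := by decide +kernel

theorem nm25_sum (x y z : F25) (h : x * s25 x + y * s25 y + z * s25 z = 1) :
    nm25 x + nm25 y + nm25 z = 1 := by
  rw [← nm25_eq, ← nm25_eq, ← nm25_eq]
  exact congrArg QuadraticAlgebra.re h

/-- 105 points -/
def Ph35 (m m' : ZMod 5) (p : F25) : Prop := m = 1 ∧ (p = 4 ∨ p = 2 ∨ (p = 0 ∧ m' ≠ 0))

instance instDec35 (m m' : ZMod 5) (p : F25) : Decidable (Ph35 m m' p) := by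
  unfold Ph35; infer_instance

/-- 105 points -/
abbrev pr35 (x y z : F25) : Prop := Ph35 (nm25 x + nm25 y + nm25 z)
  (nm25 x * nm25 x + nm25 y * nm25 y + nm25 z * nm25 z) (x * y * z * (x * y * z))

/-- the stabiliser of the 105 points -/
def M35 : Submonoid (Matrix (Fin 3) (Fin 3) F25) := presM fun v => pr35 (v 0) (v 1) (v 2)

theorem pw25_eq : ∀ i ≤ 7, pw25 1 ^ i = pw25 i :=
  pow_eq_tab (by decide +kernel) (by decide +kernel)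
theorem pb25_eq : ∀ i ≤ 3, pb25 1 ^ i = pb25 i :=
  pow_eq_tab (by decide +kernel) (by decide +kernel)

/-- an involution -/
def r35 : Matrix (Fin 3) (Fin 3) F25 := !![3, 4, 4; 4, 3, 4; 4, 4, 3]

/-- an involution -/
def b35 : Matrix (Fin 3) (Fin 3) F25 := !![4, 0, 0; 0, 2, ⟨3, 1⟩; 0, ⟨3, 4⟩, 3]

theorem r35_uni : Uni s25 1 r35 := uni3 (by decide +kernel) (by decide +kernel)
theorem b35_uni : Uni s25 1 b35 := uni3 (by decide +kernel) (by decide +kernel)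
theorem r35_mem : r35 ∈ M35 := mem3 (by decide +kernel)
theorem a35_mem : pw25 1 ∈ M35 := mem3 (by decide +kernel)
theorem c35_mem : pb25 1 ∈ M35 := mem3 (by decide +kernel)
theorem w35_mem : (⟨2, 2⟩ : F25) • (1 : Matrix (Fin 3) (Fin 3) F25) ∈ M35 := mem3 (by decide +kernel)
theorem b35_not_mem : b35 ∉ M35 :=
  fun h => absurd (h ![0, 1, 0] (by decide +kernel)) (by decide +kernel)

theorem card_GG35 (hF : Fintype.card F = 5 ^ 2) : Nat.card (GG 3 F 5) = 378000 := by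
  have hc := PSUOrd.card_SU hF (n := 3) (by norm_num)
  rw [show 5 ^ (3 * (3 - 1) / 2) * ∏ i ∈ Finset.range 3, PSUOrd.U 5 (i + 1) = 2268000 by
    decide +kernel] at hc
  rw [card_GG]
  omega

theorem frame35 (hF : Fintype.card F = 5 ^ 2) {D : Fin 3 → Submodule F (Fin 3 → F)}
    (hD : IsNondegenerateMDecomposition (hermForm 3 F 5) 1 D) :
    ¬ IsMaximalIn (GG 3 F 5) (decompositionStabilizer D ⊓ GG 3 F 5) := by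
  obtain ⟨e⟩ := nonempty_F25 hF
  refine frame_not_max hF e s25_eq hD (fun v => pr35 (v 0) (v 1) (v 2)) (fun v w h1 h2 => ?_)
    (i := 0) (j := 0) (k := 1) r35_uni r35_mem (by decide) (by decide +kernel) (by decide +kernel)
    b35_uni b35_not_mem
  have a1 := h1 _ nm25 fun d x hd => nm25_mul d hd x
  have a2 := h1 _ (fun x => nm25 x * nm25 x) fun d x hd => by rw [nm25_mul d hd x]
  simp only [Fin.sum_univ_three, Fin.prod_univ_three] at a1 a2 h2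
  unfold pr35
  rw [a1, a2, h2]
  exact id

theorem singer35 (hF : Fintype.card F = 5 ^ 2) {L : Subalgebra F (Matrix (Fin 3) (Fin 3) F)}
    (hL : IsFieldSubalgebra 3 L) (h : IsAdjointClosedFor (hermForm 3 F 5) L) :
    ¬ IsMaximalIn (GG 3 F 5) (subalgebraNormalizer L ⊓ GG 3 F 5) := by
  obtain ⟨e⟩ := nonempty_F25 hF
  refine singer_not_max hF Nat.prime_five e s25_eq hL h (p := 7) (by norm_num)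
    (by rw [hF]; norm_num) (by decide) (by decide +kernel) (by rw [card_GG35 hF]; norm_num)
    M35 (a := pw25 1)
    (uni3 (by decide +kernel) (by decide +kernel)) ((pw25_eq 7 le_rfl).trans (by decide +kernel))
    (by decide +kernel)
    (norm3 pw25_eq pb25_eq (by decide +kernel) (uni3 (by decide +kernel) (by decide +kernel))
      c35_mem (by decide +kernel)
      (cent3 pw25_eq a35_mem w35_mem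
        (V := !![⟨1, 0⟩, ⟨1, 2⟩, ⟨2, 0⟩; ⟨0, 0⟩, ⟨1, 1⟩, ⟨0, 1⟩; ⟨0, 0⟩, ⟨2, 0⟩, ⟨3, 0⟩])
        (W := !![⟨1, 0⟩, ⟨0, 3⟩, ⟨4, 0⟩; ⟨0, 0⟩, ⟨2, 1⟩, ⟨1, 1⟩; ⟨0, 0⟩, ⟨2, 1⟩, ⟨3, 1⟩])
        (by decide +kernel) (by decide +kernel) nm25_sum
        (t := ⟨1, 2⟩) (d := ⟨3, 1⟩) (by decide +kernel) (by decide +kernel) (by decide +kernel)))
    r35_uni r35_mem (fun i hi => ?_) b35_uni b35_not_mem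
  rw [pw25_eq i hi.le]
  revert i
  decide +kernel

end CA.NM
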