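import Cfsg.Agent.Lib.Lin.NM7

/-! Non-maximal geometric subgroups of `SU₃(3)` and `SU₃(5)`: orthogonal groups. -/

set_option autoImplicit false
set_option maxRecDepth 100000

namespace CA.NM

open Matrix Cfsg Cfsg.Geo CA.CForm CA.SmallF Module

theorem bin_univ {k : Type*} [Field k] [Fintype k] (hk : Fintype.card k % 2 = 1) {a b : k}
    (ha : a ≠ 0) (hb : b ≠ 0) (c : k) : ∃ x y : k, a * x ^ 2 + b * y ^ 2 = c := by
  open Polynomial in
  obtain ⟨x, y, h⟩ := FiniteField.exists_root_sum_quadratic (f := C a * X ^ 2)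
    (g := C b * X ^ 2 - C c) (degree_C_mul_X_pow 2 ha)
    (by
      rw [degree_sub_C (by rw [degree_C_mul_X_pow 2 hb]; decide), degree_C_mul_X_pow 2 hb]; rfl) hk
  refine ⟨x, y, ?_⟩
  simp only [Polynomial.eval_mul, Polynomial.eval_C, Polynomial.eval_pow, Polynomial.eval_X,
    Polynomial.eval_sub] at h
  linear_combination h

theorem exists_const {k : Type*} [Field k] [Fintype k] (hk : Fintype.card k % 2 = 1)
    (h2 : (2 : k) ≠ 0) {G : Matrix (Fin 3) (Fin 3) k} (hs : Gᵀ = G) (hG : G.det ≠ 0) :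
    ∃ (t : Fin 3 → Fin 3 → k) (d : k), d ≠ 0 ∧
      ∀ i j, t i ⬝ᵥ G *ᵥ t j = if i = j then d else 0 := by
  have := invertibleOfNonzero h2
  have hsy : ∀ u v, toBilin' G u v = toBilin' G v u := fun u v => by
    rw [toBilin'_apply', toBilin'_apply', dotProduct_mulVec, ← mulVec_transpose, hs,
      dotProduct_comm]
  obtain ⟨v', hv'⟩ := LinearMap.BilinForm.exists_orthogonal_basis (B := toBilin' G) ⟨hsy⟩
  let v := v'.reindex (finCongr (Module.finrank_fin_fun k))
  have hv : ∀ i j, i ≠ j → toBilin' G (v i) (v j) = 0 := fun i j h => by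
    simp only [v, Basis.reindex_apply]
    exact hv' ((finCongr _).symm.injective.ne h)
  have hd : ∀ i, toBilin' G (v i) (v i) ≠ 0 := fun i h => by
    have h1 : toBilin' G (v i) = 0 := v.ext fun j => by
      by_cases hij : i = j
      · rw [← hij, h]; rfl
      · rw [hv i j hij]; rfl
    refine v.ne_zero i (eq_zero_of_vecMul_eq_zero hG (funext fun j => ?_))
    have := LinearMap.congr_fun h1 (Pi.single j 1)
    rwa [toBilin'_apply', dotProduct_mulVec, dotProduct_single_one] at this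
  simp only [← toBilin'_apply']
  generalize toBilin' G = B at *
  set a := B (v 0) (v 0) with ha
  set b := B (v 1) (v 1) with hb
  set c := B (v 2) (v 2) with hc
  have a0 : a ≠ 0 := hd 0
  have b0 : b ≠ 0 := hd 1
  have c0 : c ≠ 0 := hd 2
  have d0 : a * b * c ≠ 0 := mul_ne_zero (mul_ne_zero a0 b0) c0
  obtain ⟨x, y, h1⟩ := bin_univ hk a0 b0 (a * b * c)
  obtain ⟨z, w, h3⟩ := bin_univ hk (mul_ne_zero (mul_ne_zero a0 b0) d0) c0 (a * b * c)
  refine ⟨![x • v 0 + y • v 1, z • ((-b * y) • v 0 + (a * x) • v 1) + w • v 2,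
    (-w / (a * b)) • ((-b * y) • v 0 + (a * x) • v 1) + (a * b * z) • v 2], a * b * c, d0,
    fun i j => ?_⟩
  have e01 := hv 0 1 (by decide)
  have e02 := hv 0 2 (by decide)
  have e10 := hv 1 0 (by decide)
  have e12 := hv 1 2 (by decide)
  have e20 := hv 2 0 (by decide)
  have e21 := hv 2 1 (by decide)
  fin_cases i <;> fin_cases j <;>
    simp [e01, e02, e10, e12, e20, e21, ← ha, ← hb, ← hc, -mul_eq_zero] <;> field_simp
  · linear_combination h1
  · ring
  · ring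
  · ring
  · linear_combination z ^ 2 * a * b * h1 + h3
  · linear_combination -z * w * h1
  · ring
  · linear_combination -z * w * h1
  · linear_combination w ^ 2 * h1 + a * b * h3

variable {q : ℕ} {F K : Type*} [Field F] [Fintype F] [Field K] {σ : K →+* K}

theorem so3_not_max (hF : Fintype.card F = q ^ 2) (hq : Odd q) (e : F ≃+* K)
    (hσ : ∀ x, σ x = x ^ q) {F₀ : Subfield F} (h0 : Fintype.card F = Nat.card F₀ ^ 2)
    {P : GL (Fin 3) F} (hP : IsFormRationalStructure (hermForm 3 F q) F₀ 1 P)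
    (pr : (Fin 3 → K) → Prop) (hpr : ∀ v w : Fin 3 → K, fJ σ 1 w w = fJ σ 1 v v →
      (w ⬝ᵥ w) ^ 3 = (v ⬝ᵥ v) ^ 3 → ((∃ l : K, σ ∘ v = l • v) → ∃ l : K, σ ∘ w = l • w) →
      pr v → pr w)
    {a b : Matrix (Fin 3) (Fin 3) K} (ha : Uni σ 1 a) (haM : a ∈ presM pr)
    (ha' : ∀ c : K, a.map σ ≠ c • a) (hb : Uni σ 1 b) (hbM : b ∉ presM pr) :
    ¬ IsMaximalIn (GG 3 F q) (subfieldSubgroup F₀ P ⊓ GG 3 F q) := by
  have := Fintype.ofFinite F₀
  have hmem := AschU1.mem_iff_conj hF h0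
  simp only [IsFormRationalStructure, one_mul] at hP
  set Q := (P : Matrix (Fin 3) (Fin 3) F) with hQ
  let G : Matrix (Fin 3) (Fin 3) F₀ := of fun i j => ⟨_, hP (Pi.single i 1) (Pi.single j 1)
    (fun k => by rw [Pi.single_apply]; split_ifs <;> simp)
    (fun k => by rw [Pi.single_apply]; split_ifs <;> simp)⟩
  have hG : G.map F₀.subtype = Qᵀ * 1 * Q.map (conj hF) := by
    ext i j
    rw [← fJ_single (conj hF) (Qᵀ * 1 * Q.map (conj hF)), ← fJ_mulVec, ← herm_eq]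
    rfl
  obtain ⟨t, d, hd, ht⟩ := exists_const (G := G)
    (by rw [← Nat.card_eq_fintype_card, AschU1.card_eq_q hF h0]; exact Nat.odd_iff.1 hq)
    (fun h => (AschU1.odd_q hF).2 hq (congrArg Subtype.val h))
    (by
      ext i j
      exact (herm_conj hF _ _).symm.trans ((hmem _).1 (G i j).2))
    (fun h => by
      have h1 := congrArg det hG
      rw [← RingHom.mapMatrix_apply, ← RingHom.map_det, h, map_zero, Matrix.mul_one, det_mul,
        det_transpose, ← RingHom.mapMatrix_apply, ← RingHom.map_det] at h1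
      have h2 : Q.det ≠ 0 := P.det_ne_zero
      exact mul_ne_zero h2 ((map_ne_zero _).2 h2) h1.symm)
  have ht' : ∀ i j, hermForm 3 F q (Q *ᵥ (F₀.subtype ∘ t i)) (Q *ᵥ (F₀.subtype ∘ t j)) =
      if i = j then (d : F) else 0 := fun i j => by
    have h1 : conj hF ∘ F₀.subtype ∘ t j = F₀.subtype ∘ t j := funext fun k => (hmem _).1 (t j k).2
    rw [herm_eq hF, fJ_mulVec, ← hG, fJ, h1, ← comp_mulVec, ← RingHom.map_dotProduct, ht]
    split_ifs <;> rfl
  obtain ⟨l, hl⟩ := exists_norm_eq (conj hF) (conj_conj hF) (conj_ne_id hF) (d : F)⁻¹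
    ((hmem _).1 (F₀.inv_mem d.2))
  have d0 : (d : F) ≠ 0 := fun h => hd (Subtype.ext h)
  obtain ⟨m, he, hm⟩ := exists_mdl (σ := σ) (J := 1) hF e hσ (mul_one 1)
    (fun i => l • Q *ᵥ (F₀.subtype ∘ t i)) fun i j => by
      rw [herm_smul_left hF, herm_smul_right hF, ht', ← mul_assoc, hl, one_apply]
      split_ifs
      · rw [inv_mul_cancel₀ d0, map_one]
      · rw [mul_zero, map_zero]
  have key : ∀ g ∈ subfieldSubgroup F₀ P, ∃ c : K, c ≠ 0 ∧ (m.r g).map σ = c • m.r g := by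
    intro g hg
    obtain ⟨c, c0, hc⟩ := (AschField.mem_subfieldSubgroup_iff F₀ P g).1 hg
    have h1 : ∀ i j, c * e.symm (m.r g i j) ∈ F₀ := fun i j => by
      have h2 := m.form ((g : Matrix (Fin 3) (Fin 3) F) *ᵥ (l • Q *ᵥ (F₀.subtype ∘ t j)))
        (l • Q *ᵥ (F₀.subtype ∘ t i))
      rw [m.c_mulVec, hm, hm, ← Matrix.one_mulVec (Pi.single i 1), fJ_mulVec, fJ_single, he] at h2
      simp only [Matrix.map_one _ (map_zero _) (map_one _), Matrix.mul_one, transpose_apply] at h2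
      rw [m.r_apply, ← h2, RingEquiv.symm_apply_apply, mulVec_smul, herm_smul_left hF,
        herm_smul_right hF, ← mul_assoc l, hl, mul_left_comm, ← herm_smul_left hF]
      refine F₀.mul_mem (F₀.inv_mem d.2) ?_
      have h3 : c • (g : Matrix (Fin 3) (Fin 3) F) *ᵥ (Q *ᵥ (F₀.subtype ∘ t j)) =
          Q *ᵥ ((c • AschBase.cj P⁻¹ (g : Matrix (Fin 3) (Fin 3) F)) *ᵥ (F₀.subtype ∘ t j)) := by
        rw [smul_mulVec, mulVec_smul, mulVec_mulVec, mulVec_mulVec]
        congr 2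
        change _ = P.val * ((P⁻¹).val * g.val * (P⁻¹⁻¹).val)
        rw [inv_inv, Matrix.mul_assoc, Units.mul_inv_cancel_left]
      rw [h3]
      exact hP _ _ (hc.mulVec fun k => (t j k).2) fun k => (t i k).2
    have c1 : σ (e c) ≠ 0 := (map_ne_zero _).2 ((map_ne_zero _).2 c0)
    refine ⟨e c / σ (e c), div_ne_zero ((map_ne_zero _).2 c0) c1, ?_⟩
    ext i j
    have h2 := congrArg e ((hmem _).1 (h1 i j))
    rw [conj_apply, map_pow, ← hσ, map_mul, RingEquiv.apply_symm_apply, map_mul] at h2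
    rw [map_apply, Matrix.smul_apply, smul_eq_mul, div_mul_eq_mul_div, ← h2,
      mul_div_cancel_left₀ _ c1]
  refine m.not_max (presM pr) (fun g hg hu v hv => ?_) ha haM (fun g hg hA => ?_) hb hbM
  · obtain ⟨c, c0, hc⟩ := key g hg
    generalize m.r g = A at *
    have h1 := hu.1
    rw [hc, Matrix.mul_one, Matrix.mul_smul] at h1
    have h2 := congrArg det h1
    rw [det_smul, det_mul, det_transpose, hu.2, det_one, Fintype.card_fin, mul_one, mul_one] at h2
    refine hpr v _ (hu.pres v v) ?_ ?_ hv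
    · have h3 : v ⬝ᵥ v = c * (A *ᵥ v ⬝ᵥ A *ᵥ v) := by
        rw [dotProduct_mulVec, vecMul_mulVec, ← smul_eq_mul, ← smul_dotProduct, ← vecMul_smul, h1,
          vecMul_one]
      rw [h3, mul_pow, h2, one_mul]
    · rintro ⟨l, hl⟩
      exact ⟨c * l, by rw [comp_mulVec, hc, hl, smul_mulVec, mulVec_smul, smul_smul]⟩
  · obtain ⟨c, -, hc⟩ := key g hg
    exact ha' c (hA ▸ hc)

theorem so33 (hF : Fintype.card F = 3 ^ 2) {F₀ : Subfield F}
    (h0 : Fintype.card F = Nat.card F₀ ^ 2) {P : GL (Fin 3) F}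
    (hP : IsFormRationalStructure (hermForm 3 F 3) F₀ 1 P) :
    ¬ IsMaximalIn (GG 3 F 3) (subfieldSubgroup F₀ P ⊓ GG 3 F 3) := by
  obtain ⟨e⟩ := nonempty_F9 hF
  refine so3_not_max hF (by decide) e s9_eq h0 hP
    (fun v => v 0 * s9 (v 0) + v 1 * s9 (v 1) + v 2 * s9 (v 2) = 1 ∧
      ((v 0 * v 0 + v 1 * v 1 + v 2 * v 2) ^ 3) ^ 2 = 1) (fun v w h1 h2 _ => ?_)
    (a := !![⟨0, 1⟩, 0, 0; 0, ⟨0, 2⟩, 0; 0, 0, 1])
    (b := !![⟨1, 0⟩, ⟨2, 0⟩, ⟨2, 1⟩; ⟨2, 0⟩, ⟨1, 0⟩, ⟨2, 1⟩; ⟨2, 2⟩, ⟨2, 2⟩, ⟨0, 0⟩])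
    (uni3 (by decide +kernel) (by decide +kernel))
    (mem3 (pr := fun x y z => x * s9 x + y * s9 y + z * s9 z = 1 ∧
      ((x * x + y * y + z * z) ^ 3) ^ 2 = 1) (by decide +kernel)) (by decide +kernel)
    (uni3 (by decide +kernel) (by decide +kernel))
    (fun h => absurd (h ![1, 0, 0] (by decide +kernel)) (by decide +kernel))
  simp only [fJ_one, dotProduct, Fin.sum_univ_three] at h1 h2
  rw [h1, h2]
  exact id

/-- a condition on the cube of the quadratic form -/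
def T35 (t : F25) : Prop := t = 2 ∨ t = 0 ∨ t = 4

instance instDecT35 (t : F25) : Decidable (T35 t) := by unfold T35; infer_instance

/-- 105 points -/
abbrev so35pr (x y z : F25) : Prop := nm25 x + nm25 y + nm25 z = 1 ∧
  (T35 ((x * x + y * y + z * z) * (x * x + y * y + z * z) * (x * x + y * y + z * z)) ∨
    ∃ l : F25, s25 x = l * x ∧ s25 y = l * y ∧ s25 z = l * z)

theorem so35_aux : ∀ x y z : F25, so35pr x y z → so35pr (⟨3, 2⟩ * x) (⟨3, 3⟩ * y) z := by
  decide +kernel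

theorem so35 (hF : Fintype.card F = 5 ^ 2) {F₀ : Subfield F}
    (h0 : Fintype.card F = Nat.card F₀ ^ 2) {P : GL (Fin 3) F}
    (hP : IsFormRationalStructure (hermForm 3 F 5) F₀ 1 P) :
    ¬ IsMaximalIn (GG 3 F 5) (subfieldSubgroup F₀ P ⊓ GG 3 F 5) := by
  obtain ⟨e⟩ := nonempty_F25 hF
  refine so3_not_max hF (by decide) e s25_eq h0 hP (fun v => so35pr (v 0) (v 1) (v 2))
    (fun v w h1 h2 h3 => ?_) (a := diagonal ![⟨3, 2⟩, ⟨3, 3⟩, 1])
    (uni3 (by decide +kernel) (by decide +kernel)) (fun v hv => ?_) (by decide +kernel) b35_uni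
    (fun h => absurd (h ![0, 1, 0] (by decide +kernel)) (by decide +kernel))
  · simp only [fJ_one, dotProduct, Fin.sum_univ_three, pow_three'] at h1 h2
    have h4 := congrArg QuadraticAlgebra.re h1
    simp only [QuadraticAlgebra.re_add, nm25_eq] at h4
    unfold so35pr
    rw [h4, h2]
    rintro ⟨a1, a2 | ⟨l, a2, a3, a4⟩⟩
    · exact ⟨a1, .inl a2⟩
    · obtain ⟨k, hk⟩ := h3 ⟨l, by ext1 i; fin_cases i; exacts [a2, a3, a4]⟩
      exact ⟨a1, .inr ⟨k, congrFun hk 0, congrFun hk 1, congrFun hk 2⟩⟩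
  · simpa [mulVec_diagonal] using so35_aux _ _ _ hv

end CA.NM
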