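import Cfsg.Agent.Lib.Lin.SLnGen

/-! Root subgroups of `SL_n` and conjugation by monomial matrices. -/

set_option autoImplicit false

namespace CA.SLCyc

open Matrix Matrix.SpecialLinearGroup CA.SLnGen

variable {ι F : Type*} [Fintype ι] [DecidableEq ι] [Field F]

/-- the whole root group `X_{ij}` lies in `H` -/
def Rt (H : Subgroup (SpecialLinearGroup ι F)) (i j : ι) : Prop :=
  ∀ (h : i ≠ j) (c : F), SpecialLinearGroup.transvection h c ∈ H

theorem Rt.trans {H : Subgroup (SpecialLinearGroup ι F)} {i j k : ι} (h1 : Rt H i k) (h2 : Rt H k j)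
    (hik : i ≠ k) (hkj : k ≠ j) : Rt H i j := fun hij c => by
  rw [← mul_one c, ← commutator_transvection hij hik hkj, commutatorElement_def]
  exact H.mul_mem (H.mul_mem (H.mul_mem (h1 _ _) (h2 _ _)) (H.inv_mem (h1 _ _))) (H.inv_mem (h2 _ _))

/-- monomial matrix: `w e_{σ i} = e i • e_i` -/
theorem monomial_mul {w : SpecialLinearGroup ι F} {σ : Equiv.Perm ι} {e : ι → F}
    (hw : ∀ i j, w.1 i j = if j = σ i then e i else 0) {i j : ι} (hij : i ≠ j) (he : e j ≠ 0) (c : F) :
    w * SpecialLinearGroup.transvection (σ.injective.ne hij) c =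
      SpecialLinearGroup.transvection hij (e i * c * (e j)⁻¹) * w := by
  apply Subtype.ext
  simp only [coe_mul, transvection_coe, mul_add, add_mul, one_mul, mul_one]
  congr 1
  ext x y
  by_cases hx : x = i <;> by_cases hy : y = σ j
  · subst hx hy; simp [hw, he]
  · subst hx; simp [hw, hy]
  · subst hy; simp [hw, hx, Ne.symm hx]
  · simp [hx, hy]

theorem monomial_ne {w : SpecialLinearGroup ι F} {σ : Equiv.Perm ι} {e : ι → F}
    (hw : ∀ i j, w.1 i j = if j = σ i then e i else 0) (i : ι) : e i ≠ 0 := fun h => by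
  have := w.2
  rw [det_eq_zero_of_row_eq_zero i fun j => by rw [hw, h, ite_self]] at this
  exact zero_ne_one this

theorem monomial_conj {w : SpecialLinearGroup ι F} {σ : Equiv.Perm ι} {e : ι → F}
    (hw : ∀ i j, w.1 i j = if j = σ i then e i else 0) {i j : ι} (hij : i ≠ j) (c : F) :
    w * SpecialLinearGroup.transvection (σ.injective.ne hij) c * w⁻¹ =
      SpecialLinearGroup.transvection hij (e i * c * (e j)⁻¹) := by
  rw [monomial_mul hw hij (monomial_ne hw j), mul_inv_cancel_right]

theorem Rt.monomial {H : Subgroup (SpecialLinearGroup ι F)} {w : SpecialLinearGroup ι F}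
    {σ : Equiv.Perm ι} {e : ι → F} (hw : ∀ i j, w.1 i j = if j = σ i then e i else 0) (hH : w ∈ H)
    {i j : ι} (h : Rt H i j) : Rt H (σ i) (σ j) := fun hij c => by
  have hij' : i ≠ j := fun e => hij (e ▸ rfl)
  have := h hij' (e i * c * (e j)⁻¹)
  rw [← monomial_conj hw hij'] at this
  exact (H.mul_mem_cancel_left hH).1 ((H.mul_mem_cancel_right (H.inv_mem hH)).1 this)

theorem diag_conj {w : SpecialLinearGroup ι F} {e : ι → F} (hw : w.1 = diagonal e) {i j : ι}
    (hij : i ≠ j) (c : F) : w * SpecialLinearGroup.transvection hij c * w⁻¹ =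
      SpecialLinearGroup.transvection hij (e i * c * (e j)⁻¹) :=
  monomial_conj (σ := 1) (fun i j => by simp [hw, diagonal_apply, eq_comm]) hij c

theorem eq_top_of_cyc {n : ℕ} {H : Subgroup (SpecialLinearGroup (Fin (n + 1)) F)}
    (h : ∀ i, Rt H i (i + 1)) : H = ⊤ := by
  have key : ∀ (d : ℕ) (hd : d < n + 1) i, Rt H i (i + ⟨d, hd⟩) := by
    intro d
    induction d with
    | zero => intro hd i hi; exact absurd (by simp) hi
    | succ d ih =>
      intro hd i
      have e : (⟨d + 1, hd⟩ : Fin (n + 1)) = ⟨d, by omega⟩ + 1 := by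
        ext; rw [Fin.val_add_one_of_lt (by rw [Fin.lt_def]; simp; omega)]
      rw [e, ← add_assoc]
      rcases Nat.eq_zero_or_pos d with rfl | hd0
      · simpa using h i
      refine (ih (by omega) i).trans (h _) ?_ ?_
      · rw [Ne, left_eq_add, Fin.ext_iff]; simp; omega
      · rw [Ne, left_eq_add, Fin.ext_iff]; simp; omega
  refine eq_top_of_transvection fun i j => ?_
  change Rt H i j
  simpa using key (j - i).1 (j - i).2 i

theorem cyc_entry {n : ℕ} (hn : 1 ≤ n) {w : SpecialLinearGroup (Fin (n + 1)) F}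
    (hw : (w : Matrix (Fin (n + 1)) (Fin (n + 1)) F) = Matrix.of (fun i j =>
      if j.val = i.val + 1 then 1 else if i.val = n ∧ j.val = 0 then (-1) ^ n else 0)) (i j) :
    w.1 i j = if j = Equiv.addRight (1 : Fin (n + 1)) i then
      (if i.val = n then (-1) ^ n else 1) else 0 := by
  have hi := i.2
  have hj := j.2
  rw [hw, of_apply]
  simp only [Equiv.coe_addRight, Fin.ext_iff, Fin.val_add_one, Fin.val_last]
  split_ifs <;> first | rfl | omega

theorem eq_top_of_cyc' {n : ℕ} (hn : 1 ≤ n) {H : Subgroup (SpecialLinearGroup (Fin (n + 1)) F)}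
    {w : SpecialLinearGroup (Fin (n + 1)) F}
    (hw : (w : Matrix (Fin (n + 1)) (Fin (n + 1)) F) = Matrix.of (fun i j =>
      if j.val = i.val + 1 then 1 else if i.val = n ∧ j.val = 0 then (-1) ^ n else 0))
    (hH : w ∈ H) (h : Rt H 0 1) : H = ⊤ := by
  refine eq_top_of_cyc fun i => ?_
  induction i using Fin.induction with
  | zero => simpa using h
  | succ i ih => simpa using ih.monomial (cyc_entry hn hw) hH

end CA.SLCyc
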