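import Cfsg.Agent.Lib.Lin.SLDeg
import Cfsg.Agent.Lib.Lin.SLnCard

/-! The minimal index of a proper subgroup of `SL_n(q)`. -/

set_option autoImplicit false
set_option linter.unusedSectionVars false

namespace CA.SLIdx

open Matrix CA.SLTr CA.SLDeg Finset Cfsg CChar.CharKer CChar.CharFun CChar.CharOrth CA.PermChar

theorem reg {G A : Type*} [Group G] [AddCommGroup A] [Finite A] {H : Subgroup G} (hi : H.index = Nat.card A)
    (τ : A → G) (h1 : ∀ a b, τ (a + b) = τ a * τ b) (h2 : ∀ a ≠ 0, ∀ g, g⁻¹ * τ a * g ∉ H) (g : G) :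
    ∃ a, τ a * g ∈ H := by
  have : Finite (G ⧸ H) := Nat.finite_of_card_ne_zero (by
    rw [← Subgroup.index_eq_card, hi]; exact Nat.card_pos.ne')
  have inj : Function.Injective fun a => ((τ a * g : G) : G ⧸ H) := fun a b e => by
    by_contra hne
    have := QuotientGroup.eq.1 e
    refine h2 (b - a) (sub_ne_zero.2 (Ne.symm hne)) g ?_
    rw [show τ b = τ a * τ (b - a) by rw [← h1, add_sub_cancel]] at this
    simpa [mul_assoc] using this
  obtain ⟨a, ha⟩ := ((Nat.bijective_iff_injective_and_card _).2 ⟨inj, by rw [← hi]; rfl⟩).2 ((1 : G) : G ⧸ H)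
  exact ⟨a, by simpa using H.inv_mem (QuotientGroup.eq.1 ha)⟩

variable {F : Type*} [Field F] [DecidableEq F] [Fintype F] {n : ℕ}

section reg
variable {H : Subgroup (SpecialLinearGroup (Fin n) F)} (hi : H.index = Fintype.card F ^ (n - 1))
  (hT : ∀ g ∈ TT F n, g ∉ H)
include hi hT

theorem reg1 {z : Fin n → F} (hz : z ≠ 0) (g : SpecialLinearGroup (Fin n) F) : ∃ φ, φ ⬝ᵥ z = 0 ∧ T z φ * g ∈ H := by
  obtain ⟨a, ha⟩ := reg (A := K z) (H := H) (by rw [hi, card_K hz, Fintype.card_fin]) (fun φ => T z φ.1)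
    (fun a b => T_add a.2 b.2) (fun a ha g => hT _ (by
      simpa using conj_TT ⟨z, hz, a.1, fun e => ha (Subtype.ext e), a.2, rfl⟩ g⁻¹)) g
  exact ⟨a.1, a.2, ha⟩

theorem reg2 {θ : Fin n → F} (hz : θ ≠ 0) (g : SpecialLinearGroup (Fin n) F) : ∃ y, θ ⬝ᵥ y = 0 ∧ T y θ * g ∈ H := by
  have e : ∀ a : K θ, θ ⬝ᵥ a.1 = 0 := fun a => (dotProduct_comm _ _).trans a.2
  obtain ⟨a, ha⟩ := reg (A := K θ) (H := H) (by rw [hi, card_K hz, Fintype.card_fin]) (fun y => T y.1 θ)
    (fun a b => ext_mulVec fun x => by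
      rw [mul_mulVec, T_mulVec (e _), T_mulVec (e _), T_mulVec (e _), dotProduct_add, dotProduct_smul, e]
      simp only [Submodule.coe_add]; module)
    (fun a ha g => hT _ (by simpa using conj_TT ⟨a.1, fun e => ha (Subtype.ext e), θ, hz, e a, rfl⟩ g⁻¹)) g
  exact ⟨a.1, e a, ha⟩

end reg

section R
variable {ι : Type*} [Fintype ι] [DecidableEq ι] {z θ φ y : ι → F} (h1 : θ ⬝ᵥ z = 0) (h2 : φ ⬝ᵥ z = 0) (h3 : θ ⬝ᵥ y = 0)
include h1 h2 h3

theorem comm_R {φ' y' : ι → F} (h4 : φ' ⬝ᵥ z = 0) (h5 : θ ⬝ᵥ y' = 0) :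
    T y θ * T z φ * (T y' θ * T z φ') = T z ((φ ⬝ᵥ y' - φ' ⬝ᵥ y) • θ) * (T y' θ * T z φ' * (T y θ * T z φ)) :=
  ext_mulVec fun x => by
    simp only [mul_mulVec, T_mulVec h2, T_mulVec h3, T_mulVec h4, T_mulVec h5]
    rw [T_mulVec (by simp [h1])]
    simp only [dotProduct_add, dotProduct_smul, smul_dotProduct, h1, h2, h3, h4, h5, smul_eq_mul]
    module

theorem conj_R {u f ψ : ι → F} (h4 : f ⬝ᵥ u = 0) (h5 : f ⬝ᵥ z = 0) (h6 : θ ⬝ᵥ u = 0) (h7 : ψ ⬝ᵥ z = 0) :
    T z ψ * T u f * (T y θ * T z φ) =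
      T (y + (f ⬝ᵥ y) • u + (ψ ⬝ᵥ (y + (f ⬝ᵥ y) • u)) • z) θ * T z (φ - (φ ⬝ᵥ u) • f) * (T z ψ * T u f) :=
  ext_mulVec fun x => by
    simp only [mul_mulVec, T_mulVec h2, T_mulVec h3, T_mulVec h4, T_mulVec h7]
    rw [T_mulVec (by simp [h1, h3, h6]), T_mulVec (by simp [h2, h5])]
    simp only [dotProduct_add, dotProduct_smul, smul_dotProduct, sub_dotProduct, h1, h2, h4, h5, h6, h7, smul_eq_mul]
    module

theorem sq_R : T y θ * T z φ * (T y θ * T z φ) = T ((2 : F) • y) θ * T z ((2 : F) • φ + (φ ⬝ᵥ y) • θ) :=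
  ext_mulVec fun x => by
    simp only [mul_mulVec, T_mulVec h2, T_mulVec h3]
    rw [T_mulVec (by simp [h3]), T_mulVec (by simp [h1, h2])]
    simp only [dotProduct_add, add_dotProduct, dotProduct_smul, smul_dotProduct, h1, h2, h3, smul_eq_mul]
    module

omit h3 in
theorem one_R (a : F) : T (a • z) θ * T z φ = T z (φ + a • θ) := by
  rw [T_smul h1, add_comm, T_add (by simp [h1]) h2]

end R

theorem no3 (h2 : (2 : F) = 0) {H : Subgroup (SpecialLinearGroup (Fin 3) F)} (hi : H.index = Fintype.card F ^ (3 - 1))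
    (hT : ∀ g ∈ TT F 3, g ∉ H) : False := by
  have d : (![0, 1, 0] : Fin 3 → F) ⬝ᵥ ![1, 0, 0] = 0 := by simp
  have d' : (![0, 0, 1] : Fin 3 → F) ⬝ᵥ ![1, 0, 0] = 0 := by simp
  have n1 : (![1, 0, 0] : Fin 3 → F) ≠ 0 := fun e => by simpa using congrFun e 0
  obtain ⟨y, hy, h⟩ := reg2 hi hT (θ := ![0, 0, 1]) (fun e => by simpa using congrFun e 2) (T ![1, 0, 0] ![0, 1, 0])
  have y2 : y 2 = 0 := by simpa [dotProduct, Fin.sum_univ_three] using hy
  by_cases y1 : y 1 = 0
  · rw [show y = y 0 • ![1, 0, 0] from funext fun i => by fin_cases i <;> simp [y1, y2], one_R d' d] at h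
    exact hT _ ⟨_, n1, _, fun e => by simpa using congrFun e 1, by simp, rfl⟩ h
  · have := H.mul_mem h h
    rw [sq_R d' d hy, h2, zero_smul, zero_smul, zero_add, ← zero_smul F (![1, 0, 0] : Fin 3 → F), T_smul d', zero_smul,
      T_zero, one_mul] at this
    exact hT _ ⟨_, n1, _, fun e => y1 (by simpa [dotProduct, Fin.sum_univ_three] using congrFun e 2), by simp, rfl⟩ this

theorem no4 (h2 : (2 : F) ≠ 0) {H : Subgroup (SpecialLinearGroup (Fin 4) F)} (hi : H.index = Fintype.card F ^ (4 - 1))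
    (hT : ∀ g ∈ TT F 4, g ∉ H) : False := by
  have d : (![0, 1, 1, 0] : Fin 4 → F) ⬝ᵥ ![1, 0, 0, 0] = 0 := by simp
  have d' : (![0, 0, 0, 1] : Fin 4 → F) ⬝ᵥ ![1, 0, 0, 0] = 0 := by simp
  have n1 : (![1, 0, 0, 0] : Fin 4 → F) ≠ 0 := fun e => by simpa using congrFun e 0
  have n3 : (![0, 0, 0, 1] : Fin 4 → F) ≠ 0 := fun e => by simpa using congrFun e 3
  obtain ⟨y, hy, h⟩ := reg2 hi hT n3 (T ![1, 0, 0, 0] ![0, 1, 1, 0])
  have y3 : y 3 = 0 := by simpa [dotProduct, Fin.sum_univ_four] using hy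
  have key : ∀ u f : Fin 4 → F, f ⬝ᵥ u = 0 → f ⬝ᵥ ![1, 0, 0, 0] = 0 → ![0, 0, 0, 1] ⬝ᵥ u = 0 →
      ![0, 1, 1, 0] ⬝ᵥ u = 1 → f ⬝ᵥ y = 0 := by
    intro u f hf f0 u3 u1
    by_contra hne
    obtain ⟨ψ, hψ, h'⟩ := reg1 hi hT n1 (T u f)
    have hr := H.mul_mem (H.mul_mem h' h) (H.inv_mem h')
    rw [conj_R d' d hy hf f0 u3 hψ, mul_inv_cancel_right] at hr
    have := H.mul_mem (H.mul_mem h hr) (H.inv_mem (H.mul_mem hr h))
    rw [comm_R d' d hy (by rw [sub_dotProduct, smul_dotProduct, d, f0, smul_zero, sub_zero])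
      (by simp only [dotProduct_add, dotProduct_smul, hy, u3, d', smul_zero, add_zero]), mul_inv_cancel_right] at this
    refine hT _ ⟨_, n1, _, smul_ne_zero (fun e => hne ?_) n3, by rw [smul_dotProduct, d', smul_zero], rfl⟩ this
    simp only [dotProduct_add, dotProduct_smul, sub_dotProduct, smul_dotProduct, u1, d, smul_eq_mul] at e
    exact mul_left_cancel₀ h2 (by linear_combination e)
  have y2 := key ![0, 1, 0, 0] ![0, 0, 1, 0] (by simp) (by simp) (by simp) (by simp)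
  have y1 := key ![0, 0, 1, 0] ![0, 1, 0, 0] (by simp) (by simp) (by simp) (by simp)
  simp [dotProduct, Fin.sum_univ_four] at y1 y2
  rw [show y = y 0 • ![1, 0, 0, 0] from funext fun i => by fin_cases i <;> simp [y1, y2, y3], one_R d' d] at h
  exact hT _ ⟨_, n1, _, fun e => by simpa using congrFun e 1, by simp, rfl⟩ h

theorem nonlin {G : Type*} [Group G] [Fintype G] (hG : commutator G = ⊤) {φ χ : G → ℂ} (hχ : IsIrrCharacter G χ)
    (h : classInner φ χ ≠ 0) (h1 : classInner φ (fun _ => 1) = 0) : χ 1 ≠ 1 := fun e => h (by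
  rw [show χ = fun _ => 1 from funext fun g => by
    rw [← e]; exact (mem_charKer (char_of_irr hχ)).1 ((irr_apply_one_iff hχ).1 e (hG ▸ Subgroup.mem_top g)), h1])

theorem inner_theta {G : Type*} [Group G] [Fintype G] (H : Subgroup G) :
    classInner (pc G (G ⧸ H) - fun _ => 1) (fun _ => 1) = 0 := by
  rw [CChar.CharFun.inner_sub_left, inner_pc_one_of_pretransitive, inner_one_one, sub_self]

theorem theta_one {G : Type*} [Group G] [Fintype G] (H : Subgroup G) :
    (pc G (G ⧸ H) - fun _ => 1 : G → ℂ) 1 = ((H.index - 1 : ℕ) : ℂ) := by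
  rw [Pi.sub_apply, pc_one, Nat.cast_sub (Nat.one_le_iff_ne_zero.2 Subgroup.index_ne_zero_of_finite), Nat.cast_one]
  rfl

theorem index_ge (hn : 3 ≤ n) (hex : ¬ (n = 4 ∧ Fintype.card F = 2)) {H : Subgroup (SpecialLinearGroup (Fin n) F)}
    (hH : H ≠ ⊤) : ∑ k ∈ range n, Fintype.card F ^ k ≤ H.index := by
  have hq : 2 ≤ Fintype.card F := Fintype.one_lt_card
  have hG := CA.SLnGen.commutator_eq_top (F := F) (ι := Fin n) (Or.inl (by simpa using hn))
  have hθ := char_pc_sub_one (G := SpecialLinearGroup (Fin n) F) (X := _ ⧸ H)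
  have h1 := theta_one H
  have h0 := inner_theta H
  have i0 : H.index ≠ 0 := Subgroup.index_ne_zero_of_finite
  have i1 : H.index ≠ 1 := fun e => hH (Subgroup.index_eq_one.1 e)
  obtain ⟨χ, hχ, hc⟩ := char_exists_irr_constituent hθ fun e => by
    rw [e] at h1
    have : H.index - 1 = 0 := Nat.cast_eq_zero.1 (h1.symm.trans (Pi.zero_apply _))
    omega
  obtain ⟨D, -, hD⟩ := irr_apply_one hχ
  have hD1 : D ≠ 1 := fun e => nonlin hG hχ hc h0 (by rw [hD, e, Nat.cast_one])
  have hle := degree_le_of_inner_ne_zero hθ hχ hc hD h1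
  by_cases hx : (n, Fintype.card F) ∈ [(3, 2), (3, 4), (4, 2), (4, 3)]
  swap
  · have := min_degree hn hx hχ hD hD1
    omega
  by_contra! hlt
  have h2 := two_le _ n hq (by omega)
  obtain ⟨m, c, m1, eD, hT, hd, -⟩ := core hn hχ hD hD1
  have l1 := Nat.le_mul_of_pos_right (Fintype.card F ^ (n - 1) - 1) m1
  have e : (pc _ (_ ⧸ H) - fun _ => 1) = χ := by
    by_contra hne
    have hθ' := char_sub_irr hθ hχ hc
    obtain ⟨χ', hχ', hc'⟩ := char_exists_irr_constituent hθ' (sub_ne_zero.2 hne)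
    obtain ⟨D', -, hD'⟩ := irr_apply_one hχ'
    have hD1' : D' ≠ 1 := fun e => nonlin hG hχ' hc' (by
      rw [CChar.CharFun.inner_sub_left, h0, inner_irr_of_ne hχ irr_one fun e' => hD1 (by
        rw [e'] at hD; exact Nat.cast_eq_one.1 hD.symm), sub_zero]) (by rw [hD', e, Nat.cast_one])
    have hle' := degree_le_of_inner_ne_zero hθ' hχ' hc' hD' (b := H.index - 1 - D)
      (by rw [Pi.sub_apply, h1, hD, Nat.cast_sub hle])
    obtain ⟨m', c', m1', eD', -⟩ := core hn hχ' hD' hD1'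
    have := Nat.le_mul_of_pos_right (Fintype.card F ^ (n - 1) - 1) m1'
    omega
  have hi : H.index = D + 1 := by
    rw [e, hD] at h1
    have : D = H.index - 1 := by exact_mod_cast h1
    omega
  obtain rfl : m = 1 := by
    by_contra hne
    have := Nat.mul_le_mul_left (Fintype.card F ^ (n - 1) - 1) (show 2 ≤ m by omega)
    omega
  have hdiv := H.index_dvd_card
  have hc := CA.SLnCard.card_SL (F := F) n (by omega)
  have hT' : c = 0 → ∀ g ∈ TT F n, g ∉ H := fun c0 g hg hgH => by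
    have := hT g hg
    rw [← e, c0, Pi.sub_apply] at this
    have h3 : Nat.card (MulAction.fixedBy (_ ⧸ H) g) = 0 := by
      have : (Nat.card (MulAction.fixedBy (_ ⧸ H) g) : ℂ) = 0 := by
        simp only [pc] at this; linear_combination this
      exact_mod_cast this
    have : Nonempty (MulAction.fixedBy (_ ⧸ H) g) := ⟨⟨((1 : SpecialLinearGroup (Fin n) F) : _ ⧸ H), by
      rw [MulAction.mem_fixedBy, MulAction.Quotient.smul_coe, QuotientGroup.eq]; simpa using hgH⟩⟩
    exact Nat.card_pos.ne' h3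
  rw [Nat.card_eq_fintype_card] at hc
  generalize Nat.card (SpecialLinearGroup (Fin n) F) = N at hc hdiv
  clear e
  simp only [List.mem_cons, Prod.mk.injEq, List.not_mem_nil, or_false] at hx
  rcases hx with ⟨rfl, e⟩ | ⟨rfl, e⟩ | h | ⟨rfl, e⟩
  · have c0 : c = 0 := by
      simp only [e, Fin.prod_univ_three, sum_range_succ] at hc hlt hd eD
      norm_num at hc hlt hd eD
      rw [hc, hi] at hdiv
      have : c ≤ 2 := by omega
      subst eD
      interval_cases c <;> omega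
    refine no3 ?_ (by rw [hi, eD, c0, e]; norm_num) (hT' c0)
    have := FiniteField.cast_card_eq_zero F
    rwa [e] at this
  · have c0 : c = 0 := by
      simp only [e, Fin.prod_univ_three, sum_range_succ] at hc hlt hd eD
      norm_num at hc hlt hd eD
      rw [show N = 60480 by omega, hi] at hdiv
      have : c ≤ 4 := by omega
      subst eD
      interval_cases c <;> omega
    refine no3 ?_ (by rw [hi, eD, c0, e]; norm_num) (hT' c0)
    have := FiniteField.cast_card_eq_zero F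
    rw [e] at this
    exact pow_eq_zero_iff (n := 2) (by omega) |>.1 (by rw [← this]; norm_num)
  · exact hex h
  · have c0 : c = 0 := by
      simp only [e, Fin.prod_univ_four, sum_range_succ] at hc hlt hd eD
      norm_num at hc hlt hd eD
      rw [show N = 12130560 by omega, hi] at hdiv
      have : c ≤ 12 := by omega
      subst eD
      interval_cases c <;> omega
    refine no4 (fun h2 => ?_) (by rw [hi, eD, c0, e]; norm_num) (hT' c0)
    have := FiniteField.cast_card_eq_zero F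
    rw [e] at this
    exact one_ne_zero (α := F) (by push_cast at this; linear_combination this - h2)

end CA.SLIdx
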