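import Mathlib

/-! Elementary identities for abstract Shintani descent. -/

set_option autoImplicit false

namespace CA.Shintani

variable {X : Type*} [Group X]

theorem mem_fix (σ : MulAut X) (x : X) :
    x ∈ (MulEquiv.toMonoidHom σ).eqLocus (MonoidHom.id X) ↔ σ x = x := Iff.rfl

theorem pow_apply_comm (σ : MulAut X) (e d : ℕ) (x : X) :
    (σ ^ e) ((σ ^ d) x) = (σ ^ d) ((σ ^ e) x) := by
  rw [← MulAut.mul_apply, ← MulAut.mul_apply, ← pow_add, ← pow_add, add_comm]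

theorem pow_apply_comm' (σ : MulAut X) (e : ℕ) (x : X) :
    (σ ^ e) (σ x) = σ ((σ ^ e) x) := by
  simpa using pow_apply_comm σ e 1 x

theorem pow_apply_of_fix (σ : MulAut X) (e : ℕ) {x : X} (h : σ x = x) : (σ ^ e) x = x := by
  induction e with
  | zero => rfl
  | succ n ih => rw [pow_succ, MulAut.mul_apply, h, ih]

theorem norm_eq (σ : MulAut X) (d : ℕ) (a : X) :
    ((List.range d).map (fun i => (σ ^ i) (a * (σ a)⁻¹))).prod = a * ((σ ^ d) a)⁻¹ := by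
  induction d with
  | zero => simp
  | succ n ih =>
    rw [List.range_succ, List.map_append, List.prod_append, ih]
    simp only [List.map_cons, List.map_nil, List.prod_cons, List.prod_nil, mul_one, map_mul, map_inv,
      pow_succ, MulAut.mul_apply]
    group

theorem fix_iff (σ : MulAut X) (e : ℕ) (a : X) :
    (σ ^ e) (a * (σ a)⁻¹) = a * (σ a)⁻¹ ↔ σ (((σ ^ e) a)⁻¹ * a) = ((σ ^ e) a)⁻¹ * a := by
  rw [map_mul, map_inv, map_mul, map_inv, pow_apply_comm']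
  constructor
  · intro h
    calc (σ ((σ ^ e) a))⁻¹ * σ a = ((σ ^ e) a)⁻¹ * ((σ ^ e) a * (σ ((σ ^ e) a))⁻¹) * σ a := by group
      _ = _ := by rw [h]; group
  · intro h
    calc (σ ^ e) a * (σ ((σ ^ e) a))⁻¹ = (σ ^ e) a * ((σ ((σ ^ e) a))⁻¹ * σ a) * (σ a)⁻¹ := by group
      _ = _ := by rw [h]; group

theorem twist_iff (σ : MulAut X) (a b k : X) :
    b * (σ b)⁻¹ = k * (a * (σ a)⁻¹) * (σ k)⁻¹ ↔ σ (b⁻¹ * k * a) = b⁻¹ * k * a := by
  rw [map_mul, map_mul, map_inv]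
  constructor
  · intro h
    calc (σ b)⁻¹ * σ k * σ a = b⁻¹ * (b * (σ b)⁻¹) * σ k * σ a := by group
      _ = _ := by rw [h]; group
  · intro h
    calc b * (σ b)⁻¹ = b * ((σ b)⁻¹ * σ k * σ a) * (σ a)⁻¹ * (σ k)⁻¹ := by group
      _ = _ := by rw [h]; group

theorem fix_pow_iff (σ : MulAut X) (e : ℕ) (a b k : X) (h : σ (b⁻¹ * k * a) = b⁻¹ * k * a) :
    (σ ^ e) k = k ↔
      ((σ ^ e) b)⁻¹ * b = (b⁻¹ * k * a) * (((σ ^ e) a)⁻¹ * a) * (b⁻¹ * k * a)⁻¹ := by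
  have h1 := pow_apply_of_fix σ e h
  rw [map_mul, map_mul, map_inv] at h1
  have h2 : (σ ^ e) k = (σ ^ e) b * (b⁻¹ * k * a) * ((σ ^ e) a)⁻¹ := by rw [← h1]; group
  rw [h2]
  constructor
  · intro h3
    calc ((σ ^ e) b)⁻¹ * b = ((σ ^ e) b)⁻¹ * k * (k⁻¹ * b) := by group
      _ = ((σ ^ e) b)⁻¹ * ((σ ^ e) b * (b⁻¹ * k * a) * ((σ ^ e) a)⁻¹) * (k⁻¹ * b) := by rw [h3]
      _ = _ := by group
  · intro h3
    calc (σ ^ e) b * (b⁻¹ * k * a) * ((σ ^ e) a)⁻¹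
        = (σ ^ e) b * ((b⁻¹ * k * a) * (((σ ^ e) a)⁻¹ * a) * (b⁻¹ * k * a)⁻¹) * (b⁻¹ * k) := by group
      _ = _ := by rw [← h3]; group

end CA.Shintani
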